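import Mathlib
import Cfsg.Agent.Helper45.CenterForms
import Cfsg.Agent.Helper45.DicksonRank
import Cfsg.Agent.Helper45.OmegaSimple
import Cfsg.Agent.Helper45.SiegelGen
import Cfsg.Agent.Helper95.SpBNDefs

/-!
# Definitions for the BN-pair of `Ω(Q)` with a hyperbolic frame (Steinberg character rows
S2547, S2549)

`Q` is a quadratic form on `ι → F` with `m` hyperbolic pairs among the standard basis vectors
(`HypPairs Q m L R`): `e_i = single (L i) 1`, `f_i = single (R i) 1`.  The frame is indexed by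
`Fin m ⊕ Fin m` (`ev (inl i) = e_i`, `ev (inr i) = f_i`), `tauP m` swaps `e_i` and `f_i`, and
`V₀` (`InV0`) is the orthogonal complement of the frame (the coordinates outside the frame).
-/

set_option autoImplicit false

universe u

namespace Cfsg.Agent.Helper45.St

open Cfsg Cfsg.Agent.Helper13 Cfsg.Agent.Helper95.SpBN

section defs

variable {ι : Type} [Fintype ι] [DecidableEq ι] {F : Type u} [Field F]
  (Q : QuadraticForm F (ι → F)) {m : ℕ} (L R : Fin m → ι)

/-- coordinate of the frame vector `a` -/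
def idx (a : Fin m ⊕ Fin m) : ι := Sum.elim L R a

/-- frame vectors: `ev (inl i) = e_i`, `ev (inr i) = f_i` -/
def ev (F : Type u) [Field F] (a : Fin m ⊕ Fin m) : ι → F := Pi.single (idx L R a) 1

/-- `x` lies in the orthogonal complement `V₀` of the frame: its frame coordinates vanish -/
def InV0 (x : ι → F) : Prop := ∀ a : Fin m ⊕ Fin m, x (idx L R a) = 0

/-- `V₀` as a submodule -/
def V0 (F : Type u) [Field F] : Submodule F (ι → F) where
  carrier := {x | InV0 L R x}
  add_mem' := by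
    intro x y hx hy a
    rw [Pi.add_apply, hx a, hy a, add_zero]
  zero_mem' := fun _ => rfl
  smul_mem' := by
    intro c x hx a
    rw [Pi.smul_apply, hx a, smul_zero]

/-- `V₀` is anisotropic -/
def Aniso : Prop := ∀ x : ι → F, InV0 L R x → Q x = 0 → x = 0

/-- `x` is supported on the coordinates `L i`, `i < k`: `x ∈ E_k = ⟨e_0, …, e_{k-1}⟩` -/
def FlagP (k : ℕ) (x : ι → F) : Prop := ∀ c : ι, x c ≠ 0 → ∃ i : Fin m, (i : ℕ) < k ∧ c = L i

/-- the Borel subgroup of `O(Q)`: the stabiliser of the flag `E_1 ⊂ E_2 ⊂ … ⊂ E_m` -/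
def borelO : Subgroup ↥(isometryGroup F ⇑Q) where
  carrier := {g | ∀ (k : ℕ) (x : ι → F), FlagP L k x →
    FlagP L k (mv ⇑Q g x) ∧ FlagP L k (mv ⇑Q g⁻¹ x)}
  mul_mem' := by
    intro g h hg hh k x hx
    constructor
    · rw [mv_mul]
      exact (hg k _ (hh k x hx).1).1
    · rw [_root_.mul_inv_rev, mv_mul]
      exact (hh k _ (hg k x hx).2).2
  one_mem' := by
    intro k x hx
    rw [inv_one, mv_one]
    exact ⟨hx, hx⟩
  inv_mem' := by
    intro g hg k x hx
    rw [inv_inv]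
    exact ⟨(hg k x hx).2, (hg k x hx).1⟩

/-- `g` is monomial on the frame with pattern `π`: `g (ev a)` is a multiple of `ev (π a)` -/
def PatO (g : ↥(isometryGroup F ⇑Q)) (π : Equiv.Perm (Fin m ⊕ Fin m)) : Prop :=
  ∀ a : Fin m ⊕ Fin m, ∃ c : F, mv ⇑Q g (ev L R F a) = c • ev L R F (π a)

/-- the monomial subgroup of `O(Q)` -/
def monoO : Subgroup ↥(isometryGroup F ⇑Q) :=
  Subgroup.closure {g | ∃ π : Equiv.Perm (Fin m ⊕ Fin m), PatO Q L R g π}

/-- total version of the Eichler transformation `E(u, b)` (`1` if the hypotheses fail) -/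
noncomputable def eichT (u b : ι → F) : ↥(isometryGroup F ⇑Q) :=
  open Classical in
  if h : Q u = 0 ∧ QuadraticMap.polar ⇑Q u b = 0 then eichO Q u b h.1 h.2 else 1

/-- Siegel root element `E(ev a, t • ev b)` (for `b ≠ τ a`):
`ev (τ b) ↦ ev (τ b) + t • ev a`, `ev (τ a) ↦ ev (τ a) - t • ev b`, the rest is fixed -/
noncomputable def xS (a b : Fin m ⊕ Fin m) (t : F) : ↥(isometryGroup F ⇑Q) :=
  eichT Q (ev L R F a) (t • ev L R F b)

/-- short root element `E(ev a, v)` (for `v ∈ V₀`):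
`ev (τ a) ↦ ev (τ a) - v - Q v • ev a`, `w ↦ w + B(v, w) • ev a` on `V₀`, the rest is fixed -/
noncomputable def xB (a : Fin m ⊕ Fin m) (v : ι → F) : ↥(isometryGroup F ⇑Q) :=
  eichT Q (ev L R F a) v

/-- reflection for a Siegel root -/
noncomputable def sS (a b : Fin m ⊕ Fin m) : ↥(isometryGroup F ⇑Q) :=
  xS Q L R a b 1 * xS Q L R (tauP m b) (tauP m a) (-1) * xS Q L R a b 1

/-- reflection for the short root at `i` -/
noncomputable def sB (i : Fin m) (v₀ : ι → F) : ↥(isometryGroup F ⇑Q) :=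
  xB Q L R (Sum.inl i) v₀ * xB Q L R (Sum.inr i) ((Q v₀)⁻¹ • v₀) * xB Q L R (Sum.inl i) v₀

/-- the positive simple root element `e_{j+1} ↦ e_{j+1} + t e_j` (`j + 1 < m`) -/
noncomputable def xa (j : Fin m) (t : F) : ↥(isometryGroup F ⇑Q) :=
  xS Q L R (ra j) (tauP m (rb j)) t

/-- the negative simple root element `e_j ↦ e_j + t e_{j+1}` (`j + 1 < m`) -/
noncomputable def ya (j : Fin m) (t : F) : ↥(isometryGroup F ⇑Q) :=
  xS Q L R (rb j) (tauP m (ra j)) t

/-- the simple reflections: `j + 1 < m`: `e_j ↦ -e_{j+1}`, `e_{j+1} ↦ e_j`, `f_j ↦ -f_{j+1}`,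
`f_{j+1} ↦ f_j`; `j = m - 1`: `e_j ↦ -(Q v₀)⁻¹ f_j`, `f_j ↦ -(Q v₀) e_j`, reflection in `v₀` on
`V₀`. -/
noncomputable def sigE (v₀ : ι → F) (j : Fin m) : ↥(isometryGroup F ⇑Q) :=
  if (j : ℕ) + 1 < m then xa Q L R j 1 * ya Q L R j (-1) * xa Q L R j 1 else sB Q L R j v₀

/-- the membership criterion for the Borel subgroup: `g e_j ∈ E_{j+1}` for all `j`
(proved in piece BIFF) -/
def BCrit : Prop := ∀ g : ↥(isometryGroup F ⇑Q),
  (∀ j : Fin m, FlagP L ((j : ℕ) + 1) (mv ⇑Q g (ev L R F (Sum.inl j)))) → g ∈ borelO Q L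

end defs

section basic

variable {ι : Type} [Fintype ι] [DecidableEq ι] {F : Type u} [Field F]
  {Q : QuadraticForm F (ι → F)} {m : ℕ} {L R : Fin m → ι}

omit [Fintype ι] [DecidableEq ι] in
theorem idx_inl (i : Fin m) : idx L R (Sum.inl i) = L i := rfl

omit [Fintype ι] [DecidableEq ι] in
theorem idx_inr (i : Fin m) : idx L R (Sum.inr i) = R i := rfl

omit [Fintype ι] in
theorem idx_injective (H : HypPairs Q m L R) : Function.Injective (idx L R) := by
  intro a b h
  rcases a with i | i <;> rcases b with j | j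
  · rw [idx_inl, idx_inl] at h; rw [H.hL h]
  · rw [idx_inl, idx_inr] at h; exact absurd h (H.hLR i j)
  · rw [idx_inl, idx_inr] at h; exact absurd h.symm (H.hLR j i)
  · rw [idx_inr, idx_inr] at h; rw [H.hR h]

omit [Fintype ι] in
theorem ev_apply (a : Fin m ⊕ Fin m) (c : ι) :
    ev L R F a c = if c = idx L R a then 1 else 0 := by
  unfold ev
  rw [Pi.single_apply]

omit [Fintype ι] in
theorem ev_quad (H : HypPairs Q m L R) (a : Fin m ⊕ Fin m) : Q (ev L R F a) = 0 := by
  rcases a with i | i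
  · exact H.hQL i
  · exact H.hQR i

omit [Fintype ι] in
/-- `B(ev a, x)` is the coordinate of `x` at `τ a` -/
theorem polar_ev (H : HypPairs Q m L R) (a : Fin m ⊕ Fin m) (x : ι → F) :
    QuadraticMap.polar ⇑Q (ev L R F a) x = x (idx L R (tauP m a)) := by
  rcases a with i | i
  · exact H.hpL i x
  · exact H.hpR i x

theorem polar_ev_ev (H : HypPairs Q m L R) (a b : Fin m ⊕ Fin m) :
    QuadraticMap.polar ⇑Q (ev L R F a) (ev L R F b) = if b = tauP m a then 1 else 0 := by
  rw [polar_ev H, ev_apply]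
  by_cases h : b = tauP m a
  · rw [if_pos h, if_pos (by rw [h])]
  · rw [if_neg h, if_neg (fun h' => h ((idx_injective H h').symm))]

theorem mv_eichT (u b : ι → F) (hu : Q u = 0) (hub : QuadraticMap.polar ⇑Q u b = 0)
    (x : ι → F) : mv ⇑Q (eichT Q u b) x = Helper44.eich Q u b x := by
  unfold eichT
  rw [dif_pos ⟨hu, hub⟩, mv_eichO]

theorem eichT_eq (u b : ι → F) (hu : Q u = 0) (hub : QuadraticMap.polar ⇑Q u b = 0) :
    eichT Q u b = eichO Q u b hu hub := by
  unfold eichT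
  rw [dif_pos ⟨hu, hub⟩]

theorem polar_ev_smul_ev (H : HypPairs Q m L R) (a b : Fin m ⊕ Fin m) (hab : b ≠ tauP m a)
    (t : F) : QuadraticMap.polar ⇑Q (ev L R F a) (t • ev L R F b) = 0 := by
  rw [QuadraticMap.polar_smul_right, polar_ev_ev H, if_neg hab, smul_zero]

omit [Fintype ι] in
theorem polar_ev_V0 (H : HypPairs Q m L R) (a : Fin m ⊕ Fin m) (v : ι → F) (hv : InV0 L R v) :
    QuadraticMap.polar ⇑Q (ev L R F a) v = 0 := by
  rw [polar_ev H, hv]

theorem xS_eq (H : HypPairs Q m L R) (a b : Fin m ⊕ Fin m) (hab : b ≠ tauP m a) (t : F) :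
    xS Q L R a b t = eichO Q (ev L R F a) (t • ev L R F b) (ev_quad H a)
      (polar_ev_smul_ev H a b hab t) :=
  eichT_eq _ _ _ _

theorem xB_eq (H : HypPairs Q m L R) (a : Fin m ⊕ Fin m) (v : ι → F) (hv : InV0 L R v) :
    xB Q L R a v = eichO Q (ev L R F a) v (ev_quad H a) (polar_ev_V0 H a v hv) :=
  eichT_eq _ _ _ _

/-- the action of a Siegel root element -/
theorem mv_xS (H : HypPairs Q m L R) (a b : Fin m ⊕ Fin m) (hab : b ≠ tauP m a) (t : F)
    (x : ι → F) :
    mv ⇑Q (xS Q L R a b t) x =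
      x + (t * x (idx L R (tauP m b))) • ev L R F a - (t * x (idx L R (tauP m a))) • ev L R F b := by
  unfold xS
  rw [mv_eichT _ _ (ev_quad H a) (polar_ev_smul_ev H a b hab t)]
  unfold Helper44.eich
  rw [QuadraticMap.polar_smul_left, polar_ev H, polar_ev H, QuadraticMap.map_smul, ev_quad H b,
    smul_eq_mul, smul_eq_mul, mul_zero, zero_mul, sub_zero, smul_smul,
    mul_comm (x (idx L R (tauP m a))) t]

/-- the action of a short root element -/
theorem mv_xB (H : HypPairs Q m L R) (a : Fin m ⊕ Fin m) (v : ι → F) (hv : InV0 L R v)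
    (x : ι → F) :
    mv ⇑Q (xB Q L R a v) x =
      x + (QuadraticMap.polar ⇑Q v x - Q v * x (idx L R (tauP m a))) • ev L R F a -
        x (idx L R (tauP m a)) • v := by
  unfold xB
  rw [mv_eichT _ _ (ev_quad H a) (polar_ev_V0 H a v hv)]
  unfold Helper44.eich
  rw [polar_ev H]

omit [Fintype ι] in
theorem flagP_ev (j : Fin m) : FlagP L ((j : ℕ) + 1) (ev L R F (Sum.inl j)) := by
  intro c hc
  rw [ev_apply] at hc
  by_cases h : c = idx L R (Sum.inl j)
  · exact ⟨j, Nat.lt_succ_self _, h⟩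
  · rw [if_neg h] at hc
    exact absurd rfl hc

/-- the easy direction of the Borel criterion -/
theorem flag_of_mem_borelO (g : ↥(isometryGroup F ⇑Q)) (hg : g ∈ borelO Q L) (j : Fin m) :
    FlagP L ((j : ℕ) + 1) (mv ⇑Q g (ev L R F (Sum.inl j))) :=
  (hg _ _ (flagP_ev j)).1

omit [Fintype ι] in
theorem flagP_mono {k k' : ℕ} (h : k ≤ k') (x : ι → F) (hx : FlagP L k x) : FlagP L k' x := by
  intro c hc
  obtain ⟨i, hi, rfl⟩ := hx c hc
  exact ⟨i, lt_of_lt_of_le hi h, rfl⟩

end basic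

end Cfsg.Agent.Helper45.St
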