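import Mathlib
import Cfsg.Agent.Helper45.StDefs

/-!
# Definitions for the type `D` BN-pair of `Ω(Q)`, `Q` hyperbolic (`V₀ = 0`) (row S2548)

Nodes `j` with `j + 1 < m` are as in `StDefs` (`xa`, `ya`); the last node `j = m - 1` is the
root `ε_{m-2} + ε_{m-1}`: `xD j t = E(e_{m-2}, t e_{m-1})`, `yD j t = E(f_{m-1}, t f_{m-2})`.
-/

set_option autoImplicit false

universe u

namespace Cfsg.Agent.Helper45.StD

open Cfsg Cfsg.Agent.Helper13 Cfsg.Agent.Helper95.SpBN Cfsg.Agent.Helper45 Cfsg.Agent.Helper45.St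

section defs

variable {ι : Type} [Fintype ι] [DecidableEq ι] {F : Type u} [Field F]
  (Q : QuadraticForm F (ι → F)) {m : ℕ} (L R : Fin m → ι)

/-- the predecessor index `j - 1` -/
def jp (j : Fin m) : Fin m := ⟨(j : ℕ) - 1, lt_of_le_of_lt (Nat.sub_le _ _) j.2⟩

/-- first frame index of the `j`-th simple root element -/
def aD (j : Fin m) : Fin m ⊕ Fin m := if (j : ℕ) + 1 < m then ra j else Sum.inl (jp j)

/-- second frame index of the `j`-th simple root element -/
def bD (j : Fin m) : Fin m ⊕ Fin m := if (j : ℕ) + 1 < m then tauP m (rb j) else Sum.inl j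

/-- the positive simple root elements of type `D` -/
noncomputable def xD (j : Fin m) (t : F) : ↥(isometryGroup F ⇑Q) :=
  xS Q L R (aD j) (bD j) t

/-- the negative simple root elements of type `D` -/
noncomputable def yD (j : Fin m) (t : F) : ↥(isometryGroup F ⇑Q) :=
  xS Q L R (tauP m (bD j)) (tauP m (aD j)) t

/-- the simple reflections of type `D`; for `j = m - 1`:
`e_{m-2} ↦ -f_{m-1}`, `f_{m-1} ↦ e_{m-2}`, `f_{m-2} ↦ -e_{m-1}`, `e_{m-1} ↦ f_{m-2}` -/
noncomputable def sigD (j : Fin m) : ↥(isometryGroup F ⇑Q) :=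
  xD Q L R j 1 * yD Q L R j (-1) * xD Q L R j 1

/-- the patterns of the simple reflections of type `D` -/
def sigPD (j : Fin m) : Equiv.Perm (Fin m ⊕ Fin m) :=
  if (j : ℕ) + 1 < m then sigP j
  else Equiv.swap (Sum.inl (jp j)) (Sum.inr j) * Equiv.swap (Sum.inl j) (Sum.inr (jp j))

end defs

section basic

variable {ι : Type} [Fintype ι] [DecidableEq ι] {F : Type u} [Field F]
  {Q : QuadraticForm F (ι → F)} {m : ℕ} {L R : Fin m → ι}

theorem jp_val (j : Fin m) : ((jp j : Fin m) : ℕ) = (j : ℕ) - 1 := rfl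

theorem aD_of_lt (j : Fin m) (hj : (j : ℕ) + 1 < m) : aD j = ra j := by
  unfold aD; rw [if_pos hj]

theorem bD_of_lt (j : Fin m) (hj : (j : ℕ) + 1 < m) : bD j = tauP m (rb j) := by
  unfold bD; rw [if_pos hj]

theorem aD_last (j : Fin m) (hj : ¬ (j : ℕ) + 1 < m) : aD j = Sum.inl (jp j) := by
  unfold aD; rw [if_neg hj]

theorem bD_last (j : Fin m) (hj : ¬ (j : ℕ) + 1 < m) : bD j = Sum.inl j := by
  unfold bD; rw [if_neg hj]

theorem ra_ne_rb0 (j : Fin m) : ra j ≠ rb j := by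
  unfold ra rb
  split_ifs with h
  · intro h2
    have := Sum.inl.inj h2
    have := congrArg Fin.val this
    simp at this
  · simp

theorem rk_ra_lt_rb0 (j : Fin m) : rk (ra j) < rk (rb j) := by
  unfold ra rb
  have := j.2
  split_ifs with h
  · rw [rk_inl, rk_inl]; simp
  · rw [rk_inl, rk_inr]; omega

theorem bD_ne (j : Fin m) : bD j ≠ tauP m (aD j) := by
  by_cases hj : (j : ℕ) + 1 < m
  · rw [aD_of_lt j hj, bD_of_lt j hj]
    exact fun h => ra_ne_rb0 j ((tauP m).injective h).symm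
  · rw [aD_last j hj, bD_last j hj, tauP_inl]
    exact Sum.inl_ne_inr

theorem aD_ne (j : Fin m) : aD j ≠ tauP m (bD j) := by
  intro h
  apply bD_ne j
  rw [h, tauP_tauP]

theorem rk_aD_lt (j : Fin m) : rk (aD j) < rk (tauP m (bD j)) := by
  by_cases hj : (j : ℕ) + 1 < m
  · rw [aD_of_lt j hj, bD_of_lt j hj, tauP_tauP]
    exact rk_ra_lt_rb0 j
  · rw [aD_last j hj, bD_last j hj, tauP_inl, rk_inl, rk_inr, jp_val]
    have := j.2
    omega

theorem xD_of_lt (j : Fin m) (hj : (j : ℕ) + 1 < m) (t : F) :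
    xD Q L R j t = xa Q L R j t := by
  unfold xD xa
  rw [aD_of_lt j hj, bD_of_lt j hj]

theorem yD_of_lt (j : Fin m) (hj : (j : ℕ) + 1 < m) (t : F) :
    yD Q L R j t = ya Q L R j t := by
  unfold yD ya
  rw [aD_of_lt j hj, bD_of_lt j hj, tauP_tauP]

theorem sigD_of_lt (j : Fin m) (hj : (j : ℕ) + 1 < m) (v₀ : ι → F) :
    sigD Q L R j = sigE Q L R v₀ j := by
  unfold sigD sigE
  rw [if_pos hj, xD_of_lt j hj, yD_of_lt j hj]

/-- the last positive root element: `f_j ↦ f_j + t e_{j-1}`, `f_{j-1} ↦ f_{j-1} - t e_j` -/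
theorem mv_xD_last (H : HypPairs Q m L R) (j : Fin m) (hj : ¬ (j : ℕ) + 1 < m) (t : F)
    (x : ι → F) :
    mv ⇑Q (xD Q L R j t) x =
      x + (t * x (R j)) • ev L R F (Sum.inl (jp j)) - (t * x (R (jp j))) • ev L R F (Sum.inl j) := by
  unfold xD
  rw [aD_last j hj, bD_last j hj, mv_xS H _ _ (by rw [tauP_inl]; exact Sum.inl_ne_inr)]
  rfl

/-- the last negative root element: `e_{j-1} ↦ e_{j-1} + t f_j`, `e_j ↦ e_j - t f_{j-1}` -/
theorem mv_yD_last (H : HypPairs Q m L R) (j : Fin m) (hj : ¬ (j : ℕ) + 1 < m) (t : F)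
    (x : ι → F) :
    mv ⇑Q (yD Q L R j t) x =
      x + (t * x (L (jp j))) • ev L R F (Sum.inr j) - (t * x (L j)) • ev L R F (Sum.inr (jp j)) := by
  unfold yD
  rw [aD_last j hj, bD_last j hj, tauP_inl, tauP_inl,
    mv_xS H _ _ (by rw [tauP_inr]; exact Sum.inr_ne_inl)]
  rfl

end basic

end Cfsg.Agent.Helper45.StD
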