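import Mathlib
import Cfsg.Agent.Helper21.SPDefs

/-!
# Auxiliary matrix facts for the S2401 pieces QINJ, QSURJ, GENP (helper45)
-/

set_option autoImplicit false

namespace Cfsg.Agent.Helper45.SPAux

open Cfsg.Agent.Helper83 Cfsg.Agent.Helper21.SP

variable {K : Type*} [Field K]

theorem tv_coe {n : ℕ} (i j : Fin n) (hij : i ≠ j) (t : K) :
    ((tv i j t : Matrix.SpecialLinearGroup (Fin n) K) : Matrix (Fin n) (Fin n) K) =
      1 + Matrix.single i j t := by
  unfold tv
  rw [dif_pos hij]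
  rfl

theorem tv_eq {n : ℕ} (i j : Fin n) (hij : i ≠ j) (t : K) :
    (tv i j t : Matrix.SpecialLinearGroup (Fin n) K) =
      Matrix.SpecialLinearGroup.transvection hij t := by
  unfold tv
  rw [dif_pos hij]

/-- Right multiplication by `tv i j t` adds `t` times column `i` to column `j`. -/
theorem mul_tv_apply {n : ℕ} (M : Matrix.SpecialLinearGroup (Fin n) K) (i j : Fin n)
    (hij : i ≠ j) (t : K) (a b : Fin n) :
    ((M * tv i j t : Matrix.SpecialLinearGroup (Fin n) K) : Matrix (Fin n) (Fin n) K) a b =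
      (M : Matrix (Fin n) (Fin n) K) a b +
        if b = j then (M : Matrix (Fin n) (Fin n) K) a i * t else 0 := by
  rw [Matrix.SpecialLinearGroup.coe_mul, tv_coe i j hij, Matrix.mul_add, Matrix.mul_one,
    Matrix.add_apply]
  congr 1
  by_cases hb : b = j
  · subst hb
    rw [if_pos rfl, Matrix.mul_single_apply_same]
  · rw [if_neg hb]
    exact Matrix.mul_single_apply_of_ne t i j a b hb _

theorem tv_add {n : ℕ} (i j : Fin n) (hij : i ≠ j) (t u : K) :
    (tv i j t * tv i j u : Matrix.SpecialLinearGroup (Fin n) K) = tv i j (t + u) := by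
  apply Subtype.ext
  ext a b
  rw [mul_tv_apply _ i j hij, tv_coe i j hij, tv_coe i j hij]
  simp only [Matrix.add_apply, Matrix.one_apply, Matrix.single_apply]
  by_cases hb : b = j
  · subst hb
    by_cases ha : a = i
    · subst ha
      simp [hij, Ne.symm hij]
    · simp [ha, Ne.symm ha]
  · simp [hb, Ne.symm hb]

theorem tv_zero {n : ℕ} (i j : Fin n) (hij : i ≠ j) :
    (tv i j (0 : K) : Matrix.SpecialLinearGroup (Fin n) K) = 1 := by
  apply Subtype.ext
  rw [tv_coe i j hij]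
  simp

/-- The block matrix `[[1, 0], [0, M]]` in general size. -/
def embN {n : ℕ} (M : Matrix (Fin n) (Fin n) K) : Matrix (Fin (n + 1)) (Fin (n + 1)) K :=
  fun a b => Fin.cases (Fin.cases 1 (fun _ => 0) b) (fun a' => Fin.cases 0 (fun b' => M a' b') b) a

@[simp] theorem embN_zero_zero {n : ℕ} (M : Matrix (Fin n) (Fin n) K) : embN M 0 0 = 1 := rfl
@[simp] theorem embN_zero_succ {n : ℕ} (M : Matrix (Fin n) (Fin n) K) (b : Fin n) :
    embN M 0 b.succ = 0 := rfl
@[simp] theorem embN_succ_zero {n : ℕ} (M : Matrix (Fin n) (Fin n) K) (a : Fin n) :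
    embN M a.succ 0 = 0 := rfl
@[simp] theorem embN_succ_succ {n : ℕ} (M : Matrix (Fin n) (Fin n) K) (a b : Fin n) :
    embN M a.succ b.succ = M a b := rfl

theorem emb_eq_embN {k : ℕ} (M : Matrix (Fin (k + 2)) (Fin (k + 2)) K) : emb M = embN M := rfl

theorem embN_mul {n : ℕ} (A B : Matrix (Fin n) (Fin n) K) : embN (A * B) = embN A * embN B := by
  ext a b
  refine Fin.cases ?_ (fun a' => ?_) a <;> refine Fin.cases ?_ (fun b' => ?_) b <;>
    simp [Matrix.mul_apply, Fin.sum_univ_succ]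

theorem embN_one {n : ℕ} : embN (1 : Matrix (Fin n) (Fin n) K) = 1 := by
  ext a b
  refine Fin.cases ?_ (fun a' => ?_) a <;> refine Fin.cases ?_ (fun b' => ?_) b <;>
    simp [Matrix.one_apply, Fin.succ_ne_zero, (Fin.succ_ne_zero _).symm]

/-- A matrix whose column `0` is `e₀` has the determinant of its lower right block. -/
theorem det_of_col_zero {n : ℕ} (A : Matrix (Fin (n + 1)) (Fin (n + 1)) K)
    (h : ∀ a, A a 0 = if a = 0 then 1 else 0) :
    A.det = (A.submatrix Fin.succ Fin.succ).det := by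
  rw [Matrix.det_succ_column_zero, Fin.sum_univ_succ]
  have h0 : A 0 0 = 1 := by rw [h]; simp
  have hs : ∀ i : Fin n, A i.succ 0 = 0 := by
    intro i; rw [h]; simp [Fin.succ_ne_zero]
  simp [h0, hs]

theorem det_embN {n : ℕ} (M : Matrix (Fin n) (Fin n) K) : (embN M).det = M.det := by
  rw [det_of_col_zero (embN M)]
  · rfl
  · intro a
    refine Fin.cases ?_ (fun a' => ?_) a
    · simp
    · simp [Fin.succ_ne_zero]

/-- The block embedding `SL_n → SL_{n+1}`. -/
def embSL {n : ℕ} (g : Matrix.SpecialLinearGroup (Fin n) K) :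
    Matrix.SpecialLinearGroup (Fin (n + 1)) K :=
  ⟨embN (g : Matrix (Fin n) (Fin n) K), by rw [det_embN]; exact g.2⟩

@[simp] theorem embSL_coe {n : ℕ} (g : Matrix.SpecialLinearGroup (Fin n) K) :
    ((embSL g : Matrix.SpecialLinearGroup (Fin (n + 1)) K) :
      Matrix (Fin (n + 1)) (Fin (n + 1)) K) = embN (g : Matrix (Fin n) (Fin n) K) := rfl

theorem embSL_mul {n : ℕ} (g h : Matrix.SpecialLinearGroup (Fin n) K) :
    embSL (g * h) = embSL g * embSL h := by
  apply Subtype.ext
  simp only [embSL_coe, Matrix.SpecialLinearGroup.coe_mul, embN_mul]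

theorem embSL_one {n : ℕ} : embSL (1 : Matrix.SpecialLinearGroup (Fin n) K) = 1 := by
  apply Subtype.ext
  simp only [embSL_coe, Matrix.SpecialLinearGroup.coe_one, embN_one]

theorem embSL_inv {n : ℕ} (g : Matrix.SpecialLinearGroup (Fin n) K) :
    embSL g⁻¹ = (embSL g)⁻¹ := by
  rw [eq_inv_iff_mul_eq_one, ← embSL_mul, inv_mul_cancel, embSL_one]

theorem embSL_tv {n : ℕ} (i j : Fin n) (hij : i ≠ j) (t : K) :
    embSL (tv i j t) = tv i.succ j.succ t := by
  have hij' : i.succ ≠ j.succ := fun h => hij (Fin.succ_injective _ h)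
  apply Subtype.ext
  rw [embSL_coe, tv_coe i j hij, tv_coe _ _ hij']
  ext a b
  refine Fin.cases ?_ (fun a' => ?_) a <;> refine Fin.cases ?_ (fun b' => ?_) b <;>
    simp [Matrix.one_apply, Matrix.single_apply, Fin.succ_ne_zero, (Fin.succ_ne_zero _).symm]

/-- The lower right block of a matrix with first column `e₀`, as an element of `SL`. -/
def lowerSL {n : ℕ} (M : Matrix.SpecialLinearGroup (Fin (n + 1)) K) (h : ColE M 0) :
    Matrix.SpecialLinearGroup (Fin n) K :=
  ⟨(M : Matrix (Fin (n + 1)) (Fin (n + 1)) K).submatrix Fin.succ Fin.succ, by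
    rw [← det_of_col_zero _ h]; exact M.2⟩

@[simp] theorem lowerSL_coe {n : ℕ} (M : Matrix.SpecialLinearGroup (Fin (n + 1)) K)
    (h : ColE M 0) (a b : Fin n) :
    ((lowerSL M h : Matrix.SpecialLinearGroup (Fin n) K) : Matrix (Fin n) (Fin n) K) a b =
      (M : Matrix (Fin (n + 1)) (Fin (n + 1)) K) a.succ b.succ := rfl

@[simp] theorem amat_zero_zero {k : ℕ} (r : Fin (k + 2) → K) : amat r 0 0 = 1 := rfl
@[simp] theorem amat_zero_succ {k : ℕ} (r : Fin (k + 2) → K) (b : Fin (k + 2)) :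
    amat r 0 b.succ = r b := rfl
@[simp] theorem amat_succ {k : ℕ} (r : Fin (k + 2) → K) (a : Fin (k + 2)) (b : Fin (k + 3)) :
    amat r a.succ b = if a.succ = b then 1 else 0 := rfl

theorem amat_mul_emb_zero_zero {k : ℕ} (r : Fin (k + 2) → K)
    (G : Matrix (Fin (k + 2)) (Fin (k + 2)) K) : (amat r * emb G) 0 0 = 1 := by
  rw [emb_eq_embN, Matrix.mul_apply, Fin.sum_univ_succ]
  simp

theorem amat_mul_emb_zero_succ {k : ℕ} (r : Fin (k + 2) → K)
    (G : Matrix (Fin (k + 2)) (Fin (k + 2)) K) (b : Fin (k + 2)) :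
    (amat r * emb G) 0 b.succ = Matrix.vecMul r G b := by
  rw [emb_eq_embN, Matrix.mul_apply, Fin.sum_univ_succ]
  simp [Matrix.vecMul, dotProduct]

theorem amat_mul_emb_succ_zero {k : ℕ} (r : Fin (k + 2) → K)
    (G : Matrix (Fin (k + 2)) (Fin (k + 2)) K) (a : Fin (k + 2)) :
    (amat r * emb G) a.succ 0 = 0 := by
  rw [emb_eq_embN, Matrix.mul_apply, Fin.sum_univ_succ]
  simp [Fin.succ_ne_zero]

theorem amat_mul_emb_succ_succ {k : ℕ} (r : Fin (k + 2) → K)
    (G : Matrix (Fin (k + 2)) (Fin (k + 2)) K) (a b : Fin (k + 2)) :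
    (amat r * emb G) a.succ b.succ = G a b := by
  rw [emb_eq_embN, Matrix.mul_apply, Fin.sum_univ_succ]
  simp [Fin.succ_ne_zero]

end Cfsg.Agent.Helper45.SPAux
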