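import Mathlib
import Cfsg.Agent.Helper21.SPDefs
import Cfsg.Agent.Helper45.SPAux

/-!
# S2401 piece GENP (helper45)
-/

set_option autoImplicit false

namespace Cfsg.Agent.Helper45.SPGENP

open Cfsg.Agent.Helper83 Cfsg.Agent.Helper21.SP Cfsg.Agent.Helper45.SPAux

/-- Matrices `[[1, s], [0, 1]]` are products of the transvections `tv 0 j.succ t`. -/
theorem row_zero_mem {K : Type*} [Field K] {n : ℕ}
    (S : Subgroup (Matrix.SpecialLinearGroup (Fin (n + 1)) K))
    (hS : ∀ (j : Fin n) (t : K), tv 0 j.succ t ∈ S) (T : Finset (Fin n)) :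
    ∀ V : Matrix.SpecialLinearGroup (Fin (n + 1)) K, ColE V 0 →
      (∀ a b : Fin n, (V : Matrix (Fin (n + 1)) (Fin (n + 1)) K) a.succ b.succ =
        if a = b then 1 else 0) →
      (∀ j, j ∉ T → (V : Matrix (Fin (n + 1)) (Fin (n + 1)) K) 0 j.succ = 0) → V ∈ S := by
  classical
  induction T using Finset.induction_on with
  | empty =>
    intro V hV hlow hrow
    have : V = 1 := by
      apply Subtype.ext
      ext a b
      rw [Matrix.SpecialLinearGroup.coe_one]
      refine Fin.cases ?_ (fun a' => ?_) a <;> refine Fin.cases ?_ (fun b' => ?_) b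
      · rw [hV 0]; simp
      · rw [hrow b' (Finset.notMem_empty _)]
        simp [(Fin.succ_ne_zero _).symm]
      · rw [hV a'.succ]; simp [Fin.succ_ne_zero]
      · rw [hlow a' b']; simp [Matrix.one_apply]
    rw [this]; exact S.one_mem
  | insert j T hj ih =>
    intro V hV hlow hrow
    have h0j : (0 : Fin (n + 1)) ≠ j.succ := (Fin.succ_ne_zero j).symm
    set t : K := (V : Matrix (Fin (n + 1)) (Fin (n + 1)) K) 0 j.succ with ht
    set V' : Matrix.SpecialLinearGroup (Fin (n + 1)) K := V * tv 0 j.succ (-t) with hV'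
    have hV'S : V' ∈ S := by
      apply ih V'
      · intro a
        rw [hV', mul_tv_apply V 0 j.succ h0j, if_neg h0j, add_zero]
        exact hV a
      · intro a b
        rw [hV', mul_tv_apply V 0 j.succ h0j, hlow a b]
        have : (V : Matrix (Fin (n + 1)) (Fin (n + 1)) K) a.succ 0 = 0 := by
          rw [hV a.succ]; simp [Fin.succ_ne_zero]
        rw [this]; simp
      · intro i hi
        rw [hV', mul_tv_apply V 0 j.succ h0j]
        by_cases hij : i = j
        · subst hij
          have : (V : Matrix (Fin (n + 1)) (Fin (n + 1)) K) 0 0 = 1 := by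
            rw [hV 0]; simp
          rw [if_pos rfl, this, ← ht]; ring
        · have hne : i.succ ≠ j.succ := fun h => hij (Fin.succ_injective _ h)
          rw [if_neg hne, add_zero]
          exact hrow i (by simp [hij, hi])
    have hV : V = V' * tv 0 j.succ t := by
      rw [hV', mul_assoc, tv_add 0 j.succ h0j, neg_add_cancel, tv_zero 0 j.succ h0j, mul_one]
    rw [hV]
    exact S.mul_mem hV'S (hS j t)

theorem sl_fin_one_eq {K : Type*} [Field K] (h : Matrix.SpecialLinearGroup (Fin 1) K) :
    h = 1 := by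
  apply Subtype.ext
  ext a b
  have ha : a = 0 := Subsingleton.elim _ _
  have hb : b = 0 := Subsingleton.elim _ _
  subst ha; subst hb
  have hdet := h.2
  rw [Matrix.det_fin_one] at hdet
  rw [Matrix.SpecialLinearGroup.coe_one, Matrix.one_apply_eq]
  exact hdet

theorem gen_p {K : Type*} [Field K] (k : ℕ) :
    ∀ g : Matrix.SpecialLinearGroup (Fin (k + 2)) K, ColE g 0 →
      g ∈ Subgroup.closure {h : Matrix.SpecialLinearGroup (Fin (k + 2)) K |
        ∃ (i j : Fin (k + 2)) (t : K), i ≠ j ∧ j ≠ 0 ∧ h = tv i j t} := by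
  classical
  intro g hg
  set S : Subgroup (Matrix.SpecialLinearGroup (Fin (k + 2)) K) :=
    Subgroup.closure {h : Matrix.SpecialLinearGroup (Fin (k + 2)) K |
        ∃ (i j : Fin (k + 2)) (t : K), i ≠ j ∧ j ≠ 0 ∧ h = tv i j t} with hSdef
  have hgen : ∀ (i j : Fin (k + 2)) (t : K), i ≠ j → j ≠ 0 → tv i j t ∈ S := by
    intro i j t hij hj
    exact Subgroup.subset_closure ⟨i, j, t, hij, hj, rfl⟩
  -- the block embedding of `SL_{k+1}` lies in `S`
  have h1 : ∀ h : Matrix.SpecialLinearGroup (Fin (k + 1)) K, embSL h ∈ S := by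
    intro h
    rcases Nat.eq_zero_or_pos k with hk | hk
    · subst hk
      have : h = 1 := sl_fin_one_eq h
      rw [this, embSL_one]; exact S.one_mem
    · have : Nontrivial (Fin (k + 1)) := Fin.nontrivial_iff_two_le.mpr (by omega)
      refine Cfsg.Agent.Helper5.SL_transvection_induction (fun h => embSL h ∈ S) ?_ ?_ h
      · intro i j hij a
        show embSL (Matrix.SpecialLinearGroup.transvection hij a) ∈ S
        rw [← tv_eq i j hij, embSL_tv i j hij]
        exact hgen _ _ _ (fun h => hij (Fin.succ_injective _ h)) (Fin.succ_ne_zero _)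
      · intro A B hA hB
        show embSL (A * B) ∈ S
        rw [embSL_mul]; exact S.mul_mem hA hB
  set h := lowerSL g hg with hh
  set U : Matrix.SpecialLinearGroup (Fin (k + 2)) K := g * embSL h⁻¹ with hU
  have hUent : ∀ a b, (U : Matrix (Fin (k + 2)) (Fin (k + 2)) K) a b =
      (g : Matrix (Fin (k + 2)) (Fin (k + 2)) K) a 0 *
        embN ((h⁻¹ : Matrix.SpecialLinearGroup (Fin (k + 1)) K) :
          Matrix (Fin (k + 1)) (Fin (k + 1)) K) 0 b +
      ∑ c : Fin (k + 1), (g : Matrix (Fin (k + 2)) (Fin (k + 2)) K) a c.succ *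
        embN ((h⁻¹ : Matrix.SpecialLinearGroup (Fin (k + 1)) K) :
          Matrix (Fin (k + 1)) (Fin (k + 1)) K) c.succ b := by
    intro a b
    rw [hU, Matrix.SpecialLinearGroup.coe_mul, embSL_coe, Matrix.mul_apply, Fin.sum_univ_succ]
  have hUS : U ∈ S := by
    apply row_zero_mem S (fun j t => hgen _ _ _ (Fin.succ_ne_zero j).symm (Fin.succ_ne_zero j))
      Finset.univ U
    · intro a
      rw [hUent]
      simp only [embN_zero_zero, embN_succ_zero, mul_one, mul_zero, Finset.sum_const_zero,
        add_zero]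
      exact hg a
    · intro a b
      rw [hUent]
      simp only [embN_zero_succ, embN_succ_succ, mul_zero, zero_add]
      have hmul : (h * h⁻¹ : Matrix.SpecialLinearGroup (Fin (k + 1)) K) = 1 := mul_inv_cancel h
      have := congrArg (fun M : Matrix.SpecialLinearGroup (Fin (k + 1)) K =>
        (M : Matrix (Fin (k + 1)) (Fin (k + 1)) K) a b) hmul
      simp only [Matrix.SpecialLinearGroup.coe_mul, Matrix.SpecialLinearGroup.coe_one,
        Matrix.mul_apply, Matrix.one_apply] at this
      rw [← this]
      rfl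
    · intro j hj
      exact absurd (Finset.mem_univ j) hj
  have hgU : g = U * embSL h := by
    rw [hU, mul_assoc, ← embSL_mul, inv_mul_cancel, embSL_one, mul_one]
  rw [hgU]
  exact S.mul_mem hUS (h1 h)

end Cfsg.Agent.Helper45.SPGENP
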