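import Mathlib
import Cfsg.Agent.Helper21.SPDefs
import Cfsg.Agent.Helper45.SPAux

/-!
# S2401 piece QINJ (helper45)
-/

set_option autoImplicit false

namespace Cfsg.Agent.Helper45.SPQINJ

open Cfsg.Agent.Helper83 Cfsg.Agent.Helper21.SP Cfsg.Agent.Helper45.SPAux

theorem q_inj {K : Type*} [Field K] {k : ℕ} {Γ : Type*} [Group Γ]
    {x : Fin (k + 3) → Fin (k + 3) → K → Γ}
    {π : Γ →* Matrix.SpecialLinearGroup (Fin (k + 3)) K}
    {ψ : Matrix.SpecialLinearGroup (Fin (k + 2)) K →* Γ}
    (hc : Ctx x π ψ) (hl : Lay3 x π ψ)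
    (hform : ∀ q ∈ Qg x, ∃ (r : Fin (k + 2) → K)
      (g : Matrix.SpecialLinearGroup (Fin (k + 2)) K), q = alpha x r * ψ g) :
    ∀ q ∈ Qg x, π q = 1 → q = 1 := by
  intro q hq hπq
  obtain ⟨r, g, rfl⟩ := hform q hq
  have hmat : amat r * emb (g : Matrix (Fin (k + 2)) (Fin (k + 2)) K) = 1 := by
    have := congrArg (fun M : Matrix.SpecialLinearGroup (Fin (k + 3)) K =>
      (M : Matrix (Fin (k + 3)) (Fin (k + 3)) K)) hπq
    simp only [map_mul, Matrix.SpecialLinearGroup.coe_mul, Matrix.SpecialLinearGroup.coe_one,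
      hl.pi_al, hl.beta] at this
    exact this
  have hg : g = 1 := by
    apply Subtype.ext
    ext a b
    have := congrFun (congrFun hmat a.succ) b.succ
    rw [amat_mul_emb_succ_succ] at this
    rw [this, Matrix.SpecialLinearGroup.coe_one, Matrix.one_apply, Matrix.one_apply]
    simp [Fin.succ_inj]
  have hr : r = 0 := by
    funext b
    have := congrFun (congrFun hmat 0) b.succ
    rw [amat_mul_emb_zero_succ, hg, Matrix.SpecialLinearGroup.coe_one, Matrix.vecMul_one] at this
    rw [this, Matrix.one_apply]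
    simp [(Fin.succ_ne_zero b).symm]
  have h0 : alpha x (0 : Fin (k + 2) → K) = 1 := by
    have := hl.al_add 0 0
    rw [add_zero] at this
    have h2 : alpha x (0 : Fin (k + 2) → K) * alpha x 0 = alpha x 0 * 1 := by
      rw [mul_one]; exact this.symm
    exact mul_left_cancel h2
  rw [hg, hr, map_one, mul_one, h0]

end Cfsg.Agent.Helper45.SPQINJ
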