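import Mathlib
import Cfsg.Agent.Helper21.SPDefs
import Cfsg.Agent.Helper45.SPAux

/-!
# S2401 piece QSURJ (helper45)
-/

set_option autoImplicit false

namespace Cfsg.Agent.Helper45.SPQSURJ

open Cfsg.Agent.Helper83 Cfsg.Agent.Helper21.SP Cfsg.Agent.Helper45.SPAux

theorem q_surj {K : Type*} [Field K] {k : ℕ} {Γ : Type*} [Group Γ]
    {x : Fin (k + 3) → Fin (k + 3) → K → Γ}
    {π : Γ →* Matrix.SpecialLinearGroup (Fin (k + 3)) K}
    {ψ : Matrix.SpecialLinearGroup (Fin (k + 2)) K →* Γ}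
    (hc : Ctx x π ψ) (hl : Lay3 x π ψ)
    (hmem : ∀ (r : Fin (k + 2) → K) (g : Matrix.SpecialLinearGroup (Fin (k + 2)) K),
      alpha x r * ψ g ∈ Qg x) :
    ∀ M : Matrix.SpecialLinearGroup (Fin (k + 3)) K, ColE M 0 → ∃ q ∈ Qg x, π q = M := by
  intro M hM
  set g : Matrix.SpecialLinearGroup (Fin (k + 2)) K := lowerSL M hM with hg
  set r' : Fin (k + 2) → K := fun b => (M : Matrix (Fin (k + 3)) (Fin (k + 3)) K) 0 b.succ
    with hr'
  set s : Fin (k + 2) → K := Matrix.vecMul r'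
    ((g⁻¹ : Matrix.SpecialLinearGroup (Fin (k + 2)) K) : Matrix (Fin (k + 2)) (Fin (k + 2)) K)
    with hs
  refine ⟨alpha x s * ψ g, hmem s g, ?_⟩
  apply Subtype.ext
  rw [map_mul, Matrix.SpecialLinearGroup.coe_mul, hl.pi_al, hl.beta]
  have hsg : Matrix.vecMul s (g : Matrix (Fin (k + 2)) (Fin (k + 2)) K) = r' := by
    rw [hs, Matrix.vecMul_vecMul, ← Matrix.SpecialLinearGroup.coe_mul, inv_mul_cancel,
      Matrix.SpecialLinearGroup.coe_one, Matrix.vecMul_one]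
  ext a b
  refine Fin.cases ?_ (fun a' => ?_) a <;> refine Fin.cases ?_ (fun b' => ?_) b
  · rw [amat_mul_emb_zero_zero, hM 0]; simp
  · rw [amat_mul_emb_zero_succ, hsg]
  · rw [amat_mul_emb_succ_zero, hM a'.succ]; simp [Fin.succ_ne_zero]
  · rw [amat_mul_emb_succ_succ]; rfl

end Cfsg.Agent.Helper45.SPQSURJ
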