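import Mathlib
import Cfsg.Agent.Helper15.B42Defs
import Cfsg.Agent.Helper77.D1Final
import Cfsg.Agent.Helper29.D1IL
import Cfsg.Agent.Helper79.S4441Setup
import Cfsg.Agent.Helper79.Basic
import Cfsg.Agent.Helper81.CharBasic
import Cfsg.Agent.Helper3.Induced
import Cfsg.Agent.Helper3.Frobenius
import Cfsg.Agent.Helper15.BergerTools
import Cfsg.Agent.Helper15.BergerB1
import Cfsg.Agent.Helper80.CharEigen

/-!
# S4503 piece CENT (helper45)
-/

universe u
set_option autoImplicit false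
open Cfsg Cfsg.Agent.Helper77 Cfsg.Agent.Helper15
open scoped ComplexConjugate

namespace Cfsg.Agent.Helper45

/-- If `χ(g) = χ(1) ω` with `‖ω‖ = 1` then `g` acts as the scalar `ω`. -/
theorem b42_rep_scalar_of_char {H : Type*} [Group H] [Finite H] {V : Type*} [AddCommGroup V]
    [Module ℂ V] [FiniteDimensional ℂ V] (ρ : Representation ℂ H V) (g : H) (ω : ℂ)
    (hω : ‖ω‖ = 1) (h : ρ.character g = (Module.finrank ℂ V : ℂ) * ω) (v : V) :
    ρ g v = ω • v := by
  obtain ⟨ι, hι, b, μ, h1, -, h3, -, h5⟩ := Cfsg.Agent.Helper80.rep_exists_eigenbasis ρ g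
  rw [Representation.character, Cfsg.Agent.Helper80.trace_eq_sum_of_eigenbasis b (ρ g) _ h1,
    ← h5] at h
  have hcc : ω * conj ω = 1 := by
    rw [Complex.mul_conj, Complex.normSq_eq_norm_sq, hω]; simp
  have hsum : ∑ i, (μ i * conj ω) = (Fintype.card ι : ℂ) := by
    rw [← Finset.sum_mul, h, mul_assoc, hcc, mul_one]
  have hre : ∑ i, (μ i * conj ω).re = (Fintype.card ι : ℝ) := by
    have := congrArg Complex.re hsum
    simpa using this
  have hn : ∀ i, ‖μ i * conj ω‖ = 1 := fun i => by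
    rw [norm_mul, h3 i, RCLike.norm_conj, hω, one_mul]
  have hle : ∀ i, (μ i * conj ω).re ≤ 1 := fun i => by
    have := Complex.re_le_norm (μ i * conj ω)
    rwa [hn i] at this
  have heq : ∀ i, (μ i * conj ω).re = 1 := by
    by_contra hcon
    push Not at hcon
    obtain ⟨j, hj⟩ := hcon
    have hlt : (μ j * conj ω).re < 1 := lt_of_le_of_ne (hle j) hj
    have h' : ∑ i, (μ i * conj ω).re < (Fintype.card ι : ℝ) := by
      calc ∑ i, (μ i * conj ω).re < ∑ i : ι, (1 : ℝ) :=
            Finset.sum_lt_sum (fun i _ => hle i) ⟨j, Finset.mem_univ j, hlt⟩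
        _ = (Fintype.card ι : ℝ) := by simp
    linarith
  have hμ : ∀ i, μ i = ω := by
    intro i
    have hsq : (μ i * conj ω).re ^ 2 + (μ i * conj ω).im ^ 2 = 1 := by
      have := Complex.sq_norm (μ i * conj ω)
      rw [hn i, Complex.normSq_apply] at this
      nlinarith
    have him : (μ i * conj ω).im = 0 := by
      rw [heq i] at hsq
      nlinarith
    have hν : μ i * conj ω = 1 := by
      apply Complex.ext
      · simpa using heq i
      · simpa using him
    calc μ i = (μ i * conj ω) * ω := by rw [mul_assoc, mul_comm (conj ω) ω, hcc, mul_one]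
      _ = ω := by rw [hν, one_mul]
  have hend : ρ g = ω • (1 : Module.End ℂ V) := by
    apply b.ext
    intro i
    rw [h1, hμ]
    simp
  rw [hend]
  simp

variable {G : Type u} [Group G] [Finite G]

/-- CENT -/
theorem b42_central_of_scalar (p : ℕ) [Fact p.Prime] (x : G)
    (χ : G → ℂ) (hχ : Cfsg.IsCharacter G χ) (hfaith : ∀ g : G, χ g = χ 1 → g = 1)
    (hsc : ∀ χ₁ : Cfsg.IrrCharacter G, Cfsg.charDegree (χ₁ : G → ℂ) ≤ Cfsg.charDegree χ →
      (χ₁ : G → ℂ) x ≠ (χ₁ : G → ℂ) 1 →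
      ∃ (t : ℕ) (l₀ : ZMod p), (χ₁ : G → ℂ) x = (t : ℂ) * d1zeta p ^ l₀.val ∧
        (χ₁ : G → ℂ) 1 = (t : ℂ)) :
    ∀ g : G, g * x = x * g := by
  classical
  haveI : Fintype G := Fintype.ofFinite G
  haveI : Fintype (Cfsg.IrrCharacter G) := Fintype.ofFinite _
  obtain ⟨m, hm, hdec⟩ := char_decomp χ hχ
  have hval : ∀ g, χ g = ∑ φ : Cfsg.IrrCharacter G, (m φ : ℂ) * (φ : G → ℂ) g := by
    intro g
    conv_lhs => rw [hdec]
    simp [Finset.sum_apply]
  have hζn : ‖d1zeta p‖ = 1 :=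
    Complex.norm_eq_one_of_pow_eq_one (d1zeta_prim p).pow_eq_one (Fact.out : p.Prime).ne_zero
  intro g
  have hcomm : g * x * g⁻¹ * x⁻¹ = 1 := by
    apply hfaith
    rw [hval (g * x * g⁻¹ * x⁻¹), hval 1]
    apply Finset.sum_congr rfl
    intro φ _
    by_cases hm0 : m φ = 0
    · simp [hm0]
    · congr 1
      have hle := charDegree_le_of_constituent χ hχ (φ : G → ℂ) φ.2
        (by rw [hm]; exact_mod_cast hm0)
      obtain ⟨n, ρ, hirr, hρ⟩ := φ.2
      have h1 : (φ : G → ℂ) 1 = (Module.finrank ℂ (Fin n → ℂ) : ℂ) := by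
        rw [← hρ, Representation.char_one]
      -- `ρ x` is a scalar `ω` with `ω ≠ 0`
      have hscal : ∃ ω : ℂ, ω ≠ 0 ∧ ∀ v, ρ x v = ω • v := by
        by_cases hx : (φ : G → ℂ) x = (φ : G → ℂ) 1
        · refine ⟨1, one_ne_zero, fun v => ?_⟩
          have := b42_rep_scalar_of_char ρ x 1 (by simp) (by rw [hρ, hx, h1, mul_one]) v
          exact this
        · obtain ⟨t, l₀, ht, ht1⟩ := hsc φ hle hx
          have hω : ‖d1zeta p ^ l₀.val‖ = 1 := by rw [norm_pow, hζn, one_pow]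
          refine ⟨d1zeta p ^ l₀.val, ?_, fun v => ?_⟩
          · intro h0; rw [h0] at hω; simp at hω
          · exact b42_rep_scalar_of_char ρ x _ hω (by rw [hρ, ht, ← h1, ht1]) v
      obtain ⟨ω, hω0, hω⟩ := hscal
      have hinv : ∀ v, ρ x⁻¹ v = ω⁻¹ • v := by
        intro v
        have h2 : ρ x⁻¹ (ρ x v) = v := by
          rw [← Module.End.mul_apply, ← map_mul, inv_mul_cancel, map_one, Module.End.one_apply]
        rw [hω, map_smul] at h2
        calc ρ x⁻¹ v = ω⁻¹ • (ω • ρ x⁻¹ v) := by rw [smul_smul, inv_mul_cancel₀ hω0, one_smul]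
          _ = ω⁻¹ • v := by rw [h2]
      have hone : ρ (g * x * g⁻¹ * x⁻¹) = 1 := by
        apply LinearMap.ext
        intro v
        rw [map_mul, map_mul, map_mul, Module.End.mul_apply, Module.End.mul_apply,
          Module.End.mul_apply, hinv, map_smul, hω, map_smul, map_smul, smul_smul,
          mul_inv_cancel₀ hω0, one_smul, ← Module.End.mul_apply, ← map_mul, mul_inv_cancel,
          map_one]
      rw [← hρ]
      show LinearMap.trace ℂ _ (ρ (g * x * g⁻¹ * x⁻¹)) = LinearMap.trace ℂ _ (ρ 1)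
      rw [hone, map_one ρ]
  calc g * x = (g * x * g⁻¹ * x⁻¹) * (x * g) := by group
    _ = x * g := by rw [hcomm, one_mul]

end Cfsg.Agent.Helper45
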