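import Mathlib
import Cfsg.Agent.Helper15.B42Defs
import Cfsg.Agent.Helper77.D1Final
import Cfsg.Agent.Helper29.D1IL
import Cfsg.Agent.Helper79.S4441Setup
import Cfsg.Agent.Helper79.Basic
import Cfsg.Agent.Helper81.CharBasic
import Cfsg.Agent.Helper3.Induced
import Cfsg.Agent.Helper3.Frobenius
import Cfsg.Agent.Helper15.BergerTools
import Cfsg.Agent.Helper15.BergerB1

/-!
# S4503 piece CONST (helper45)
-/

universe u
set_option autoImplicit false
open Cfsg Cfsg.Agent.Helper77 Cfsg.Agent.Helper15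
open scoped ComplexConjugate

namespace Cfsg.Agent.Helper45

variable {G : Type u} [Group G] [Finite G]

/-- CONST -/
theorem b42_constituent (χ : G → ℂ) (hχ : Cfsg.IsCharacter G χ)
    (hfaith : ∀ g : G, χ g = χ 1 → g = 1) (x : G) (hx1 : x ≠ 1) :
    ∃ χ₁ : Cfsg.IrrCharacter G, (χ₁ : G → ℂ) x ≠ (χ₁ : G → ℂ) 1 ∧
      Cfsg.charDegree (χ₁ : G → ℂ) ≤ Cfsg.charDegree χ := by
  classical
  haveI : Fintype G := Fintype.ofFinite G
  haveI : Fintype (Cfsg.IrrCharacter G) := Fintype.ofFinite _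
  obtain ⟨m, hm, hdec⟩ := char_decomp χ hχ
  by_contra hcon
  push Not at hcon
  apply hx1
  apply hfaith
  have hval : ∀ g, χ g = ∑ φ : Cfsg.IrrCharacter G, (m φ : ℂ) * (φ : G → ℂ) g := by
    intro g
    conv_lhs => rw [hdec]
    simp [Finset.sum_apply]
  rw [hval x, hval 1]
  apply Finset.sum_congr rfl
  intro φ _
  by_cases hm0 : m φ = 0
  · simp [hm0]
  · congr 1
    by_contra hne
    have hlt := hcon φ hne
    have hle := charDegree_le_of_constituent χ hχ (φ : G → ℂ) φ.2
      (by rw [hm]; exact_mod_cast hm0)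
    omega

end Cfsg.Agent.Helper45
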