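import Mathlib
import Cfsg.Agent.Helper15.B42Defs
import Cfsg.Agent.Helper77.D1Final
import Cfsg.Agent.Helper29.D1IL
import Cfsg.Agent.Helper79.S4441Setup
import Cfsg.Agent.Helper79.Basic
import Cfsg.Agent.Helper81.CharBasic
import Cfsg.Agent.Helper3.Induced
import Cfsg.Agent.Helper3.Frobenius
import Cfsg.Agent.Helper77.D1Fourier
import Cfsg.Agent.Helper77.D1MainA
import Cfsg.Agent.Helper29.D1IG

/-!
# S4503 piece SHNF (helper45)
-/

universe u
set_option autoImplicit false
open Cfsg Cfsg.Agent.Helper77 Cfsg.Agent.Helper15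
open scoped ComplexConjugate

namespace Cfsg.Agent.Helper45

variable {G : Type u} [Group G] [Finite G]

/-- SHNF -/
theorem b42_shape_of_nofix (p : ℕ) [Fact p.Prime] (x : G) (hx : orderOf x = p)
    (F : Subgroup (ZMod p)ˣ) (hF : (F : Set (ZMod p)ˣ) = normUnits p x)
    (ψ : G → ℂ) (l : ZMod p) (hl : l ≠ 0) (h0 : b42Fix p x ψ = 0)
    (hval : ∀ b : ℕ, ¬ p ∣ b → ψ (x ^ b)
      = ∑ᶠ s ∈ normUnits p x, d1zeta p ^ ((b : ZMod p) * ((s : (ZMod p)ˣ) : ZMod p) * l).val) :
    B42Shape p x ψ 1 l := by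
  classical
  have hp : p.Prime := Fact.out
  have hζ := d1zeta_prim p
  intro b
  rw [Nat.cast_one, one_mul]
  by_cases hb : p ∣ b
  · have hxb : x ^ b = 1 := by
      rw [← orderOf_dvd_iff_pow_eq_one, hx]; exact hb
    have hb0 : (b : ZMod p) = 0 := (ZMod.natCast_eq_zero_iff b p).mpr hb
    rw [hxb]
    simp only [hb0, zero_mul, ZMod.val_zero, pow_zero]
    have hfin : (normUnits p x).Finite := Set.toFinite _
    rw [finsum_mem_eq_finite_toFinset_sum _ hfin]
    have hsum : ∑ c ∈ Finset.range p, ψ (x ^ c) = 0 := by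
      have h0' := h0
      unfold b42Fix at h0'
      rcases mul_eq_zero.mp h0' with h | h
      · exfalso; exact (inv_ne_zero (Nat.cast_ne_zero.mpr hp.ne_zero)) h
      · exact h
    have hsplit : ∑ c ∈ Finset.range p, ψ (x ^ c)
        = ψ 1 + ∑ c ∈ (Finset.range p).erase 0, ψ (x ^ c) := by
      rw [← Finset.add_sum_erase _ _ (Finset.mem_range.mpr hp.pos)]; simp
    have hrest : ∑ c ∈ (Finset.range p).erase 0, ψ (x ^ c)
        = ∑ c ∈ (Finset.range p).erase 0, ∑ s ∈ hfin.toFinset,
            d1zeta p ^ ((c : ZMod p) * ((s : (ZMod p)ˣ) : ZMod p) * l).val := by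
      apply Finset.sum_congr rfl
      intro c hc
      rw [Finset.mem_erase, Finset.mem_range] at hc
      have hpc : ¬ p ∣ c := fun h => hc.1 (Nat.eq_zero_of_dvd_of_lt h hc.2)
      rw [hval c hpc, finsum_mem_eq_finite_toFinset_sum _ hfin]
    have hinner : ∀ s : (ZMod p)ˣ, ∑ c ∈ (Finset.range p).erase 0,
        d1zeta p ^ ((c : ZMod p) * ((s : (ZMod p)ˣ) : ZMod p) * l).val = -1 := by
      intro s
      have hsl : ((s : (ZMod p)ˣ) : ZMod p) * l ≠ 0 := mul_ne_zero s.ne_zero hl
      have hall : ∑ c ∈ Finset.range p,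
          d1zeta p ^ ((c : ZMod p) * ((s : (ZMod p)ˣ) : ZMod p) * l).val = 0 := by
        have h1 := d1f_sum p (d1zeta p) hζ (((s : (ZMod p)ˣ) : ZMod p) * l)
        rw [if_neg hsl] at h1
        rw [← h1]
        have h2 := Cfsg.Agent.Helper29.d1_zmod_sum_val p
          (fun m => d1zeta p ^ ((m : ZMod p) * (((s : (ZMod p)ˣ) : ZMod p) * l)).val)
        simp only [ZMod.natCast_zmod_val] at h2
        rw [h2]
        apply Finset.sum_congr rfl
        intro c _
        rw [mul_assoc]
      rw [← Finset.add_sum_erase _ _ (Finset.mem_range.mpr hp.pos)] at hall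
      simp only [Nat.cast_zero, zero_mul, ZMod.val_zero, pow_zero] at hall
      linear_combination hall
    rw [hsplit, hrest, Finset.sum_comm, Finset.sum_congr rfl (fun s _ => hinner s)] at hsum
    rw [Finset.sum_neg_distrib] at hsum
    linear_combination hsum
  · rw [hval b hb]

end Cfsg.Agent.Helper45
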