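import Cfsg.Agent.Helper45.OutG
import Cfsg.Agent.Helper45.PGO
import Cfsg.Agent.Helper45.CenterForms
import Cfsg.Agent.Helper45.TSing
import Cfsg.Agent.Helper44.PSL2E

set_option autoImplicit false
set_option linter.unusedSectionVars false
set_option linter.unusedSimpArgs false
set_option linter.unusedVariables false
set_option linter.style.haveILetI false

/-!
Helper library (helper45), outer automorphisms of `PΩ(Q)`, part H: the minus-type form over a
field of odd order.  Similarities inducing inner automorphisms, the commutator of a field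
automorphism with a similarity, and the two shapes of the outer automorphism group.
-/

universe u

namespace Cfsg.Agent.Helper45.OO

open Cfsg Matrix Module Cfsg.Agent.Helper45.AO

section General

variable {ι : Type} [Fintype ι] [DecidableEq ι] {F : Type u} [Field F]
  (Q : QuadraticForm F (ι → F))

/-- a similarity inducing an inner automorphism is a scalar multiple of an element of `Ω` -/
theorem inn_form
    (hsc : ∀ g : GL ι F, g ∈ Geo.quadSimilarityGroup (F := F) ⇑Q → Ind ⇑Q g 1 →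
      ∃ c : F, (g : Matrix ι ι F) = c • (1 : Matrix ι ι F))
    (g : GL ι F) (hg : g ∈ Geo.quadSimilarityGroup (F := F) ⇑Q)
    (β : MulAut (POmega F ⇑Q)) (hβ : Ind ⇑Q g β) (hinn : β ∈ Inn (POmega F ⇑Q)) :
    ∃ (s : ↥(Omega F ⇑Q)) (e : F), (g : Matrix ι ι F) =
      e • (((s : ↥(isometryGroup F ⇑Q)) : GL ι F) : Matrix ι ι F) := by
  obtain ⟨x, rfl⟩ := hinn
  obtain ⟨s, rfl⟩ := QuotientGroup.mk_surjective x
  have h1 := ind_conj Q s
  have h3 := ind_mul ⇑Q hg (ind_inv ⇑Q (iso_le_sim _ s.1.2) h1) hβ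
  rw [inv_mul_cancel] at h3
  obtain ⟨c, hc⟩ := hsc _ (mul_mem (inv_mem (iso_le_sim _ s.1.2)) hg) h3
  refine ⟨s, c, ?_⟩
  have h4 : g = ((s : ↥(isometryGroup F ⇑Q)) : GL ι F) *
      ((((s : ↥(isometryGroup F ⇑Q)) : GL ι F))⁻¹ * g) := by
    rw [mul_inv_cancel_left]
  have h5 : (g : Matrix ι ι F) = ((((s : ↥(isometryGroup F ⇑Q)) : GL ι F) *
      ((((s : ↥(isometryGroup F ⇑Q)) : GL ι F))⁻¹ * g) : GL ι F) : Matrix ι ι F) :=
    congrArg Units.val h4
  rw [Units.val_mul, hc, Matrix.mul_smul, Matrix.mul_one] at h5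
  exact h5

/-- the multiplier and the determinant of a similarity inducing an inner automorphism -/
theorem inn_mult
    (hsc : ∀ g : GL ι F, g ∈ Geo.quadSimilarityGroup (F := F) ⇑Q → Ind ⇑Q g 1 →
      ∃ c : F, (g : Matrix ι ι F) = c • (1 : Matrix ι ι F))
    (hne : ∃ v, Q v ≠ 0)
    (g : GL ι F) (c : F) (hc : ∀ v, Q ((g : Matrix ι ι F) *ᵥ v) = c * Q v) (hc0 : c ≠ 0)
    (β : MulAut (POmega F ⇑Q)) (hβ : Ind ⇑Q g β) (hinn : β ∈ Inn (POmega F ⇑Q)) :
    ∃ e : F, c = e * e ∧ (g : Matrix ι ι F).det = e ^ Fintype.card ι := by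
  have hg : g ∈ Geo.quadSimilarityGroup (F := F) ⇑Q := ⟨Units.mk0 c hc0, hc⟩
  obtain ⟨s, e, hse⟩ := inn_form Q hsc g hg β hβ hinn
  refine ⟨e, ?_, ?_⟩
  · obtain ⟨v, hv⟩ := hne
    have h1 := hc v
    rw [hse, Matrix.smul_mulVec, QuadraticMap.map_smul, smul_eq_mul] at h1
    have h2 : Q ((((s : ↥(isometryGroup F ⇑Q)) : GL ι F) : Matrix ι ι F) *ᵥ v) = Q v :=
      (mem_iso_iff ⇑Q _).mp s.1.2 v
    rw [h2] at h1
    exact (mul_right_cancel₀ hv h1).symm
  · rw [hse, Matrix.det_smul]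
    have hsdet : detO Q (s : ↥(isometryGroup F ⇑Q)) = 1 :=
      MonoidHom.mem_ker.mp (Abelianization.commutator_subset_ker (detO Q) s.2)
    have h6 := congrArg Units.val hsdet
    rw [detO_val] at h6
    rw [h6]
    simp

/-- an isometry of determinant `-1` does not induce an inner automorphism (even dimension) -/
theorem not_inn_of_det (h2 : (2 : F) ≠ 0)
    (hsc : ∀ g : GL ι F, g ∈ Geo.quadSimilarityGroup (F := F) ⇑Q → Ind ⇑Q g 1 →
      ∃ c : F, (g : Matrix ι ι F) = c • (1 : Matrix ι ι F))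
    (hne : ∃ v, Q v ≠ 0) (heven : Even (Fintype.card ι))
    (g : GL ι F) (hg : g ∈ isometryGroup F ⇑Q) (hdet : (g : Matrix ι ι F).det = -1)
    (β : MulAut (POmega F ⇑Q)) (hβ : Ind ⇑Q g β) : β ∉ Inn (POmega F ⇑Q) := by
  intro hinn
  have hc : ∀ v, Q ((g : Matrix ι ι F) *ᵥ v) = 1 * Q v := by
    intro v
    rw [one_mul]
    exact (mem_iso_iff ⇑Q g).mp hg v
  obtain ⟨e, he, hd⟩ := inn_mult Q hsc hne g 1 hc one_ne_zero β hβ hinn
  obtain ⟨n, hn⟩ := heven
  rw [hdet, hn, ← two_mul, pow_mul, pow_two, ← he, one_pow] at hd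
  apply h2
  linear_combination (-1 : F) * hd

/-- a similarity with non-square multiplier does not induce an inner automorphism -/
theorem not_inn_of_nonsquare
    (hsc : ∀ g : GL ι F, g ∈ Geo.quadSimilarityGroup (F := F) ⇑Q → Ind ⇑Q g 1 →
      ∃ c : F, (g : Matrix ι ι F) = c • (1 : Matrix ι ι F))
    (hne : ∃ v, Q v ≠ 0)
    (g : GL ι F) (c : F) (hc : ∀ v, Q ((g : Matrix ι ι F) *ᵥ v) = c * Q v) (hcs : ¬ IsSquare c)
    (β : MulAut (POmega F ⇑Q)) (hβ : Ind ⇑Q g β) : β ∉ Inn (POmega F ⇑Q) := by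
  intro hinn
  have hc0 : c ≠ 0 := by
    rintro rfl
    exact hcs ⟨0, by simp⟩
  obtain ⟨e, he, -⟩ := inn_mult Q hsc hne g c hc hc0 β hβ hinn
  exact hcs ⟨e, he⟩

/-- conjugating a similarity by a semisimilarity: the multiplier -/
theorem semi_conj_mult {g : GL ι F} {σ : F ≃+* F} (hg : IsSemisimilarityPair ⇑Q g σ)
    (h : GL ι F) (c : F) (hc : ∀ v, Q ((h : Matrix ι ι F) *ᵥ v) = c * Q v) (v : ι → F) :
    Q (((g * glMap σ h * g⁻¹ : GL ι F) : Matrix ι ι F) *ᵥ v) = σ c * Q v := by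
  obtain ⟨d, hd⟩ := hg
  have hd' : ∀ x, Q (semiMap g σ x) = (d : F) * σ (Q x) := hd
  obtain ⟨y, hy⟩ : ∃ y, y = semiInv g σ v := ⟨_, rfl⟩
  have hv : v = semiMap g σ y := by rw [hy, semiMap_semiInv]
  rw [hv, ← semiMap_mulVec, hd', hd', hc, map_mul]
  ring

/-- conjugating by a semisimilarity: the determinant -/
theorem semi_conj_det (g : GL ι F) (σ : F ≃+* F) (h : GL ι F) :
    ((g * glMap σ h * g⁻¹ : GL ι F) : Matrix ι ι F).det = σ (h : Matrix ι ι F).det := by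
  rw [Units.val_mul, Units.val_mul, Matrix.det_mul, Matrix.det_mul, glMap_coe]
  have h1 : ((h : Matrix ι ι F).map σ).det = σ (h : Matrix ι ι F).det := by
    have h2 := RingHom.map_det (σ : F →+* F) (h : Matrix ι ι F)
    rw [RingHom.mapMatrix_apply] at h2
    exact h2.symm
  have h3 : (g : Matrix ι ι F).det * ((g⁻¹ : GL ι F) : Matrix ι ι F).det = 1 := by
    rw [← Matrix.det_mul, ← Units.val_mul, mul_inv_cancel, Units.val_one, Matrix.det_one]
  rw [h1]
  linear_combination (σ (h : Matrix ι ι F).det) * h3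

/-- the multiplier of the inverse of a similarity -/
theorem sim_inv_mult (h : GL ι F) (c : F) (hc0 : c ≠ 0)
    (hc : ∀ v, Q ((h : Matrix ι ι F) *ᵥ v) = c * Q v) (v : ι → F) :
    Q (((h⁻¹ : GL ι F) : Matrix ι ι F) *ᵥ v) = c⁻¹ * Q v := by
  have h1 := hc (((h⁻¹ : GL ι F) : Matrix ι ι F) *ᵥ v)
  rw [Matrix.mulVec_mulVec, ← Units.val_mul, mul_inv_cancel, Units.val_one, Matrix.one_mulVec] at h1
  rw [h1]
  field_simp

/-- the commutator of the automorphism of a semisimilarity with that of a similarity of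
determinant `cⁿ` is induced by a special isometry, if `σ c / c` is a square -/
theorem comm_mem_pso {n : ℕ} (hcard : Fintype.card ι = 2 * n)
    (g : GL ι F) (σ : F ≃+* F) (hg : IsSemisimilarityPair ⇑Q g σ)
    (g₁ : GL ι F) (c₁ : F) (hc₁0 : c₁ ≠ 0)
    (hg₁ : ∀ v, Q ((g₁ : Matrix ι ι F) *ᵥ v) = c₁ * Q v)
    (hdet₁ : (g₁ : Matrix ι ι F).det = c₁ ^ n) (e : F) (he : σ c₁ = e * e * c₁)
    (hg₁' : IsSemisimilarityPair ⇑Q g₁ (RingEquiv.refl F)) :
    semiAut ⇑Q g σ hg * semiAut ⇑Q g₁ (RingEquiv.refl F) hg₁' * (semiAut ⇑Q g σ hg)⁻¹ *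
      (semiAut ⇑Q g₁ (RingEquiv.refl F) hg₁')⁻¹ ∈ psoAut F ⇑Q := by
  have hσc0 : σ c₁ ≠ 0 := by
    intro h
    apply hc₁0
    have h1 : σ c₁ = σ 0 := by rw [h, map_zero]
    exact σ.injective h1
  have he0 : e ≠ 0 := by
    rintro rfl
    apply hσc0
    rw [he]
    ring
  obtain ⟨g', hg'def⟩ : ∃ g' : GL ι F, g' = g * glMap σ g₁ * g⁻¹ := ⟨_, rfl⟩
  have hg'm : ∀ v, Q ((g' : Matrix ι ι F) *ᵥ v) = σ c₁ * Q v := by
    intro v
    rw [hg'def]
    exact semi_conj_mult Q hg g₁ c₁ hg₁ v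
  have hg'det : (g' : Matrix ι ι F).det = σ c₁ ^ n := by
    rw [hg'def, semi_conj_det, hdet₁, map_pow]
  have hg'sim : g' ∈ Geo.quadSimilarityGroup (F := F) ⇑Q := ⟨Units.mk0 (σ c₁) hσc0, hg'm⟩
  have hg'semi : IsSemisimilarityPair ⇑Q g' (RingEquiv.refl F) := hg'sim
  have hg₁sim : g₁ ∈ Geo.quadSimilarityGroup (F := F) ⇑Q := hg₁'
  have hkey : semiAut ⇑Q g σ hg * semiAut ⇑Q g₁ (RingEquiv.refl F) hg₁' =
      semiAut ⇑Q g' (RingEquiv.refl F) hg'semi * semiAut ⇑Q g σ hg := by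
    rw [semiAut_mul, semiAut_mul]
    apply semiAut_congr
    · rw [glMap_refl, hg'def, inv_mul_cancel_right]
    · show σ * (1 : RingAut F) = (1 : RingAut F) * σ
      rw [mul_one, one_mul]
  have hcomm : semiAut ⇑Q g σ hg * semiAut ⇑Q g₁ (RingEquiv.refl F) hg₁' *
      (semiAut ⇑Q g σ hg)⁻¹ * (semiAut ⇑Q g₁ (RingEquiv.refl F) hg₁')⁻¹ =
      semiAut ⇑Q g' (RingEquiv.refl F) hg'semi * (semiAut ⇑Q g₁ (RingEquiv.refl F) hg₁')⁻¹ := by
    rw [hkey, mul_inv_cancel_right]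
  rw [hcomm]
  have hI1 : Ind ⇑Q g' (semiAut ⇑Q g' (RingEquiv.refl F) hg'semi) := by
    rw [semiAut_refl]
    exact ind_indAut _ _ _
  have hI2 : Ind ⇑Q g₁ (semiAut ⇑Q g₁ (RingEquiv.refl F) hg₁') := by
    rw [semiAut_refl]
    exact ind_indAut _ _ _
  have hI3 := ind_mul ⇑Q (inv_mem hg₁sim) hI1 (ind_inv ⇑Q hg₁sim hI2)
  obtain ⟨sc, hsc⟩ := exists_scGL (ι := ι) e⁻¹ (inv_ne_zero he0)
  have hI4 := ind_mul ⇑Q (mul_mem hg'sim (inv_mem hg₁sim)) (ind_scalar ⇑Q sc e⁻¹ hsc) hI3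
  rw [one_mul] at hI4
  rw [mem_psoAut_iff]
  refine ⟨sc * (g' * g₁⁻¹), (mem_special_iff Q _).mpr ⟨?_, ?_⟩, hI4⟩
  · rw [mem_iso_iff]
    intro v
    rw [Units.val_mul, hsc, Matrix.smul_mul, Matrix.one_mul, Matrix.smul_mulVec,
      QuadraticMap.map_smul, Units.val_mul, ← Matrix.mulVec_mulVec, hg'm,
      sim_inv_mult Q g₁ c₁ hc₁0 hg₁, he, smul_eq_mul]
    field_simp
  · rw [Units.val_mul, hsc, Matrix.smul_mul, Matrix.one_mul, Matrix.det_smul, hcard,
      Units.val_mul, Matrix.det_mul, hg'det]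
    have h1 : ((g₁⁻¹ : GL ι F) : Matrix ι ι F).det = (c₁ ^ n)⁻¹ := by
      have h3 : (g₁ : Matrix ι ι F).det * ((g₁⁻¹ : GL ι F) : Matrix ι ι F).det = 1 := by
        rw [← Matrix.det_mul, ← Units.val_mul, mul_inv_cancel, Units.val_one, Matrix.det_one]
      rw [hdet₁] at h3
      exact eq_inv_of_mul_eq_one_right h3
    rw [h1, he]
    have hcn : c₁ ^ n ≠ 0 := pow_ne_zero _ hc₁0
    have h5 : e⁻¹ ^ (2 * n) * (e * e) ^ n = 1 := by
      rw [pow_mul, ← mul_pow]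
      have h6 : e⁻¹ ^ 2 * (e * e) = 1 := by
        field_simp
      rw [h6, one_pow]
    calc e⁻¹ ^ (2 * n) * ((e * e * c₁) ^ n * (c₁ ^ n)⁻¹)
        = (e⁻¹ ^ (2 * n) * (e * e) ^ n) * (c₁ ^ n * (c₁ ^ n)⁻¹) := by
          rw [mul_pow]
          ring
      _ = 1 := by rw [h5, mul_inv_cancel₀ hcn, one_mul]

end General

section MinusOdd

variable {F : Type u} [Field F] [Fintype F]

/-- the Frobenius-semilinear automorphism of `PΩ⁻`: its `f`-th power is induced by a reflection -/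
theorem minus_frobP (p : ℕ) [Fact p.Prime] [CharP F p] (h2 : (2 : F) ≠ 0) (k : ℕ) (a b : F)
    (hab : ∀ z₁ z₂ : F, z₁ ^ 2 + a * z₁ * z₂ + b * z₂ ^ 2 = 0 → z₁ = 0 ∧ z₂ = 0) (f : ℕ)
    (hF : Fintype.card F = p ^ f) :
    ∃ (g : GL ((Fin k ⊕ Fin k) ⊕ Fin 2) F)
      (hg : IsSemisimilarityPair ⇑(Helper43.minusQF k F a b) g (frobeniusEquiv F p))
      (N : GL ((Fin k ⊕ Fin k) ⊕ Fin 2) F),
      N ∈ isometryGroup F ⇑(Helper43.minusQF k F a b) ∧
      (N : Matrix ((Fin k ⊕ Fin k) ⊕ Fin 2) ((Fin k ⊕ Fin k) ⊕ Fin 2) F).det = -1 ∧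
      Ind ⇑(Helper43.minusQF k F a b) N (semiAut ⇑(Helper43.minusQF k F a b) g (frobeniusEquiv F p) hg ^ f) := by
  have hQ := minusQF_nondeg' (F := F) k a b hab
  obtain ⟨g, hg, hmap⟩ := exists_pair_of_SS (Helper43.minusQF k F a b) hQ (frobP_SS p k a b)
  refine ⟨g, hg, ?_⟩
  obtain ⟨g', τ, hτ, hg', hpow, hiter⟩ :=
    semiAut_pow ⇑(Helper43.minusQF k F a b) g (frobeniusEquiv F p) hg f
  have hτ1 : τ = RingEquiv.refl F := by
    rw [hτ]
    exact frobP_pow_card p f hF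
  subst hτ1
  have hΦ : semiMap g (frobeniusEquiv F p) = frobP p k a b := funext hmap
  have hN : ∀ x, (g' : Matrix ((Fin k ⊕ Fin k) ⊕ Fin 2) ((Fin k ⊕ Fin k) ⊕ Fin 2) F) *ᵥ x =
      (frobP p k a b)^[f] x := by
    intro x
    rw [← hΦ, ← hiter x]
    rfl
  have hu : Helper43.minusQF k F a b (reflVec k a) ≠ 0 := by
    rw [reflVec_quad]
    intro h0
    have h3 := hab (-a) 2 (by linear_combination h0)
    exact h2 h3.2
  have hgN : g' = ((reflO (Helper43.minusQF k F a b) (reflVec k a) hu : ↥(isometryGroup F ⇑(Helper43.minusQF k F a b))) :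
      GL ((Fin k ⊕ Fin k) ⊕ Fin 2) F) := by
    apply Units.ext
    apply Helper13.mulVec_ext
    intro x
    rw [hN]
    exact (frobP_iter_refl p k a b hab f hF hu x).symm
  refine ⟨g', ?_, ?_, ?_⟩
  · rw [hgN]
    exact (reflO (Helper43.minusQF k F a b) (reflVec k a) hu).2
  · rw [hgN, reflO_coe]
    exact Helper13.reflection_det (Helper43.minusQF k F a b) (reflVec k a) hu
  · rw [hpow]
    exact (semi_ind_iff _ g' (RingEquiv.refl F) hg' _).mpr rfl

set_option maxHeartbeats 4000000 in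
/-- **the outer automorphism group of `PΩ⁻_{2k+2}(q)`, `q` odd** -/
theorem minus_out_odd (p f k : ℕ) [Fact p.Prime] (hf : 1 ≤ f) (hF : Fintype.card F = p ^ f)
    (hp : p ≠ 2) (hk : 3 ≤ k) (a b : F)
    (hab : ∀ z₁ z₂ : F, z₁ ^ 2 + a * z₁ * z₂ + b * z₂ ^ 2 = 0 → z₁ = 0 ∧ z₂ = 0) :
    ((Even k ∧ Fintype.card F % 4 = 3) →
      Nonempty (Out (POmega F (quadFormMinus k F a b)) ≃*
        DihedralGroup 4 × Multiplicative (ZMod f))) ∧
    (¬ (Even k ∧ Fintype.card F % 4 = 3) →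
      Nonempty (Out (POmega F (quadFormMinus k F a b)) ≃*
        Multiplicative (ZMod 2 × ZMod (2 * f)))) := by
  rw [← Helper43.minusQF_coe k F a b]
  have hpp : p.Prime := Fact.out
  have hpodd : Odd p := hpp.odd_of_ne_two hp
  have hodd : Odd (Fintype.card F) := by
    rw [hF]
    exact Odd.pow hpodd
  have h2 := two_ne_zero_of_odd_card hodd
  have hchar2 : ringChar F ≠ 2 := ringChar_ne_two h2
  haveI hchar : CharP F p := Helper44.charP_of_card p f hF
  have hQ := minusQF_nondeg' (F := F) k a b hab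
  have hcard : Fintype.card ((Fin k ⊕ Fin k) ⊕ Fin 2) = 2 * (k + 1) := by
    rw [Fintype.card_sum, Fintype.card_sum, Fintype.card_fin, Fintype.card_fin]
    omega
  have hn7 : 7 ≤ Fintype.card ((Fin k ⊕ Fin k) ⊕ Fin 2) := by omega
  have hn5 : 5 ≤ Fintype.card ((Fin k ⊕ Fin k) ⊕ Fin 2) := by omega
  have hn2 : 2 ≤ Fintype.card ((Fin k ⊕ Fin k) ⊕ Fin 2) := by omega
  have heven : Even (Fintype.card ((Fin k ⊕ Fin k) ⊕ Fin 2)) := by
    rw [hcard]
    exact even_two_mul _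
  have hcase : 9 ≤ Fintype.card ((Fin k ⊕ Fin k) ⊕ Fin 2) ∨
      Helper45.AO.TS4free (Helper43.minusQF k F a b) := by
    by_cases h4 : 4 ≤ k
    · left
      omega
    · right
      have hm3 : k = 3 := by omega
      subst hm3
      intro W hW
      by_contra hcon
      obtain ⟨v, hvW, hv⟩ := Helper45.minus_exists_nonsingular 3 a b hab W (by omega)
      exact hv (hW v hvW)
  obtain ⟨Θ, hΘ1, hΘ2⟩ := exists_theta (Helper43.minusQF k F a b) hQ hn7 hcase
  obtain ⟨hcyc, hcardC⟩ := Helper44.ringAut_cyclic_card (F := F) p f hF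
  have hker := theta_ker_iff (Helper43.minusQF k F a b) Θ hΘ1 hΘ2
  have hI : Inn (POmega F (⇑(Helper43.minusQF k F a b))) ≤ Θ.ker := by
    intro α hα
    exact (hker α).mpr (inn_sim (Helper43.minusQF k F a b) α hα)
  have hpgo : pgoAut F (⇑(Helper43.minusQF k F a b)) = Θ.ker := by
    ext α
    rw [mem_pgoAut_iff]
    exact (hker α).symm
  obtain ⟨g, hg, N, hNiso, hNdet, hNind⟩ := minus_frobP p h2 k a b hab f hF
  obtain ⟨Ψ, hΨ⟩ : ∃ Ψ, Ψ = semiAut ⇑(Helper43.minusQF k F a b) g (frobeniusEquiv F p) hg := ⟨_, rfl⟩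
  rw [← hΨ] at hNind
  have hΘΨ : Θ Ψ = frobeniusEquiv F p := by rw [hΨ, hΘ1]
  have hgen : ∀ c : RingAut F, ∃ j : ℕ, c = Θ Ψ ^ j := by
    intro c
    rw [hΘΨ]
    exact ringAut_eq_frobP_pow p c
  have hsurj : Function.Surjective Θ := by
    intro c
    obtain ⟨j, hj⟩ := hgen c
    exact ⟨Ψ ^ j, by rw [map_pow, hj]⟩
  have hpgo' := pgo_minus_mod_inn hodd hk a b hab
  constructor
  · intro hc
    obtain ⟨φ, hφs, hφk⟩ : ∃ φ : ↥(Θ.ker) →* DihedralGroup 4, Function.Surjective φ ∧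
        φ.ker = (Inn (POmega F (⇑(Helper43.minusQF k F a b)))).subgroupOf Θ.ker := by
      rw [← hpgo, Helper43.minusQF_coe]
      exact hpgo'.1 hc
    have hfodd : Odd f := by
      have h3 := hc.2
      rw [hF] at h3
      exact ((pow_mod_four p f hpodd).2.mp h3).1
    exact out_d8 (Inn (POmega F (⇑(Helper43.minusQF k F a b)))) hcyc f hcardC hfodd Θ hsurj hI φ hφs hφk
  · intro hc
    obtain ⟨φ, hφs, hφk⟩ : ∃ φ : ↥(Θ.ker) →* Multiplicative (ZMod 2 × ZMod 2),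
        Function.Surjective φ ∧
        φ.ker = (Inn (POmega F (⇑(Helper43.minusQF k F a b)))).subgroupOf Θ.ker := by
      rw [← hpgo]
      rw [Helper43.minusQF_coe]
      exact hpgo'.2 hc
    have hidx : (Inn (POmega F (⇑(Helper43.minusQF k F a b)))).relIndex Θ.ker = 4 := by
      unfold Subgroup.relIndex
      rw [← hφk, Subgroup.index_ker, MonoidHom.range_eq_top.mpr hφs, Subgroup.card_top,
        Nat.card_eq_fintype_card]
      rfl
    have hexp : ∀ α ∈ Θ.ker, α * α ∈ Inn (POmega F (⇑(Helper43.minusQF k F a b))) := by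
      intro α hα
      have h1 : ∀ z : Multiplicative (ZMod 2 × ZMod 2), z * z = 1 := by decide
      have h3 : (⟨α, hα⟩ * ⟨α, hα⟩ : ↥Θ.ker) ∈ φ.ker := by
        rw [MonoidHom.mem_ker, map_mul]
        exact h1 _
      rw [hφk, Subgroup.mem_subgroupOf] at h3
      exact h3
    have hR : Fintype.card F % 2 = 1 := by
      rcases hodd with ⟨t, ht⟩
      omega
    obtain ⟨c₁, hc₁⟩ := FiniteField.exists_nonsquare hchar2
    have hc₁0 : c₁ ≠ 0 := by
      rintro rfl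
      exact hc₁ ⟨0, by simp⟩
    obtain ⟨z₁, z₂, hz⟩ := S2726.exists_norm a b hR h2 (S2726.disc_ne a b h2 hab) c₁
    obtain ⟨g₁, hg₁, hdet₁⟩ := S2726.exists_g1M (m := k) a b h2 c₁ hc₁0 z₁ z₂ hz
    have hg₁' : ∀ v, Helper43.minusQF k F a b ((g₁ : Matrix ((Fin k ⊕ Fin k) ⊕ Fin 2) ((Fin k ⊕ Fin k) ⊕ Fin 2) F) *ᵥ v) =
        c₁ * Helper43.minusQF k F a b v := hg₁
    have hg₁semi : IsSemisimilarityPair ⇑(Helper43.minusQF k F a b) g₁ (RingEquiv.refl F) :=
      ⟨Units.mk0 c₁ hc₁0, hg₁'⟩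
    obtain ⟨δ, hδdef⟩ : ∃ δ, δ = semiAut ⇑(Helper43.minusQF k F a b) g₁ (RingEquiv.refl F) hg₁semi := ⟨_, rfl⟩
    have hδind : Ind ⇑(Helper43.minusQF k F a b) g₁ δ := by
      rw [hδdef, semiAut_refl]
      exact ind_indAut _ _ _
    have hδker : δ ∈ Θ.ker := by
      rw [MonoidHom.mem_ker, hδdef, hΘ1]
      rfl
    have hsc := scalar_of_ind (Helper43.minusQF k F a b) hQ hn5
    haveI : Nonempty ((Fin k ⊕ Fin k) ⊕ Fin 2) := ⟨Sum.inr 0⟩
    have hne : ∃ v, Helper43.minusQF k F a b v ≠ 0 := exists_nonsingular (Helper43.minusQF k F a b) hQ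
    have hψ : Ψ ^ f ∉ Inn (POmega F (⇑(Helper43.minusQF k F a b))) :=
      not_inn_of_det (Helper43.minusQF k F a b) h2 hsc hne heven N hNiso hNdet _ hNind
    have hδ1 : δ ∉ Inn (POmega F (⇑(Helper43.minusQF k F a b))) :=
      not_inn_of_nonsquare (Helper43.minusQF k F a b) hsc hne g₁ c₁ hg₁' hc₁ δ hδind
    have hδ2 : δ * (Ψ ^ f)⁻¹ ∉ Inn (POmega F (⇑(Helper43.minusQF k F a b))) := by
      have hNsim := iso_le_sim _ hNiso
      have h5 : Ind ⇑(Helper43.minusQF k F a b) (g₁ * N⁻¹) (δ * (Ψ ^ f)⁻¹) :=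
        ind_mul ⇑(Helper43.minusQF k F a b) (inv_mem hNsim) hδind (ind_inv ⇑(Helper43.minusQF k F a b) hNsim hNind)
      refine not_inn_of_nonsquare (Helper43.minusQF k F a b) hsc hne (g₁ * N⁻¹) c₁ ?_ hc₁ _ h5
      intro v
      rw [Units.val_mul, ← Matrix.mulVec_mulVec, hg₁']
      congr 1
      exact (mem_iso_iff _ _).mp (inv_mem hNiso) v
    have hcomm : Ψ * δ * Ψ⁻¹ * δ⁻¹ ∈ Inn (POmega F (⇑(Helper43.minusQF k F a b))) := by
      have hσns : ¬ IsSquare (frobeniusEquiv F p c₁) := by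
        rintro ⟨d, hd⟩
        apply hc₁
        refine ⟨(frobeniusEquiv F p).symm d, ?_⟩
        rw [← map_mul, ← hd]
        simp
      obtain ⟨d, hd⟩ := Helper44.isSquare_mul_of_not_isSquare hchar2 hσns hc₁
      have he : frobeniusEquiv F p c₁ = (d / c₁) * (d / c₁) * c₁ := by
        field_simp
        linear_combination hd
      have h6 := comm_mem_pso (Helper43.minusQF k F a b) hcard g (frobeniusEquiv F p) hg g₁ c₁ hc₁0 hg₁' hdet₁
        (d / c₁) he hg₁semi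
      have hpar : Odd (k + 1) ↔ Even k := by
        constructor
        · intro h
          rcases Nat.even_or_odd k with he | ho
          · exact he
          · exfalso
            obtain ⟨t, ht⟩ := h
            obtain ⟨l, hl⟩ := ho
            omega
        · intro h
          exact h.add_one
      have hiff := negO_minus_mem_iff (m := k) hodd h2 a b hab
      have hneg : negO (qMinus k F a b h2) ∉ Omega F ⇑(qMinus k F a b h2) := by
        intro h
        have h7 := (pow_mod_four _ (k + 1) hodd).2.mp (hiff.mp h)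
        exact hc ⟨hpar.mp h7.1, h7.2⟩
      have hpso : psoAut F ⇑(Helper43.minusQF k F a b) ≤ Inn (POmega F (⇑(Helper43.minusQF k F a b))) :=
        Subgroup.relIndex_eq_one.mp
          (pso_relIndex_one (qMinus k F a b h2) h2 (qMinus_nondeg a b h2 hab) hn2 heven hneg)
      rw [hΨ, hδdef]
      exact hpso h6
    exact out_two_cyclic (Inn (POmega F (⇑(Helper43.minusQF k F a b)))) f hcardC (by omega) Θ hI hidx hexp Ψ hgen hψ
      δ hδker hδ1 hδ2 hcomm

end MinusOdd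

end Cfsg.Agent.Helper45.OO
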