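import Cfsg.Agent.Helper45.OutF

set_option autoImplicit false
set_option linter.unusedSectionVars false
set_option linter.unusedSimpArgs false
set_option linter.unusedVariables false
set_option linter.style.haveILetI false

/-!
Helper library (helper45), outer automorphisms of `PΩ(Q)`, part G: abstract group lemmas.
A split extension with commuting kernel and section; an automorphism of odd order of the dihedral
group of order eight is trivial; the two shapes `D₈ × f` and `2 × 2f` of a quotient `A / I`.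
-/

universe u

namespace Cfsg.Agent.Helper45.OO

section Abstract

/-- a split extension whose kernel commutes with the section is a direct product -/
theorem split_prod {G C : Type*} [Group G] [Group C] (Θ : G →* C) (s : C →* G)
    (hs : ∀ c, Θ (s c) = c) (hcomm : ∀ k ∈ Θ.ker, ∀ c, s c * k = k * s c) :
    Nonempty (G ≃* ↥Θ.ker × C) := by
  have hp1 : ∀ g : G, g * (s (Θ g))⁻¹ ∈ Θ.ker := by
    intro g
    rw [MonoidHom.mem_ker, map_mul, map_inv, hs, mul_inv_cancel]
  let p1 : G →* ↥Θ.ker :=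
    { toFun := fun g => ⟨g * (s (Θ g))⁻¹, hp1 g⟩
      map_one' := by
        apply Subtype.ext
        simp
      map_mul' := by
        intro g h
        apply Subtype.ext
        show g * h * (s (Θ (g * h)))⁻¹ = (g * (s (Θ g))⁻¹) * (h * (s (Θ h))⁻¹)
        rw [map_mul, map_mul, _root_.mul_inv_rev]
        have hc := hcomm _ (hp1 h) (Θ g)⁻¹
        rw [map_inv] at hc
        calc g * h * ((s (Θ h))⁻¹ * (s (Θ g))⁻¹)
            = g * ((h * (s (Θ h))⁻¹) * (s (Θ g))⁻¹) := by group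
          _ = g * ((s (Θ g))⁻¹ * (h * (s (Θ h))⁻¹)) := by rw [hc]
          _ = (g * (s (Θ g))⁻¹) * (h * (s (Θ h))⁻¹) := by group }
  have hp1v : ∀ g : G, ((p1 g : ↥Θ.ker) : G) = g * (s (Θ g))⁻¹ := fun g => rfl
  have hbij : Function.Bijective (p1.prod Θ) := by
    constructor
    · intro g h hgh
      have h1 : Θ g = Θ h := congrArg Prod.snd hgh
      have h2 : ((p1 g : ↥Θ.ker) : G) = ((p1 h : ↥Θ.ker) : G) :=
        congrArg (fun z : ↥Θ.ker × C => (z.1 : G)) hgh
      rw [hp1v, hp1v, h1] at h2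
      exact mul_right_cancel h2
    · rintro ⟨k, c⟩
      refine ⟨(k : G) * s c, ?_⟩
      have hk : Θ (k : G) = 1 := k.2
      have h1 : Θ ((k : G) * s c) = c := by
        rw [map_mul, hk, hs, one_mul]
      apply Prod.ext
      · apply Subtype.ext
        show ((p1 ((k : G) * s c) : ↥Θ.ker) : G) = k
        rw [hp1v, h1]
        group
      · exact h1
  exact ⟨MulEquiv.ofBijective (p1.prod Θ) hbij⟩

open DihedralGroup in
/-- an automorphism of odd order of the dihedral group of order eight is trivial -/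
theorem d8_aut_odd (γ : MulAut (DihedralGroup 4)) (f : ℕ) (hf : Odd f) (h : γ ^ f = 1) :
    γ = 1 := by
  have hpow : ∀ x : DihedralGroup 4, (γ ^ f) x = x := by
    intro x
    rw [h]
    rfl
  have hinj := γ.injective
  have hS : ∀ y : DihedralGroup 4, y * y ≠ 1 → y = r 1 ∨ y = r 3 := by
    intro y hy
    rcases y with j | j
    · fin_cases j
      · exact absurd (by decide) hy
      · left
        rfl
      · exact absurd (by decide) hy
      · right
        rfl
    · exact absurd (by simp) hy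
  have ha : γ (r 1) = r 1 := by
    have h2 : γ (r 1) * γ (r 1) ≠ 1 := by
      rw [← map_mul]
      intro h0
      have h1 := hinj (h0.trans (map_one γ).symm)
      exact absurd h1 (by decide)
    rcases hS _ h2 with h3 | h3
    · exact h3
    · exfalso
      have h4 : γ (r 3) = r 1 := by
        have h5 : (r 3 : DihedralGroup 4) = r 1 * r 1 * r 1 := by decide
        rw [h5, map_mul, map_mul, h3]
        decide
      have h6 : (γ ^ 2) (r 1) = r 1 := by
        rw [pow_two, MulAut.mul_apply, h3, h4]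
      have h5 : ∀ k : ℕ, (γ ^ (2 * k + 1)) (r 1) = r 3 := by
        intro k
        induction k with
        | zero => simpa using h3
        | succ k ih =>
          have h7 : 2 * (k + 1) + 1 = (2 * k + 1) + 2 := by ring
          rw [h7, pow_add, MulAut.mul_apply, h6, ih]
      obtain ⟨k, hk⟩ := hf
      have h7 := hpow (r 1)
      rw [hk, h5 k] at h7
      exact absurd h7 (by decide)
  have hr : ∀ j : ZMod 4, γ (r j) = r j := by
    intro j
    fin_cases j
    · show γ (r 0) = r 0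
      have h5 : (r 0 : DihedralGroup 4) = 1 := rfl
      rw [h5, map_one]
    · exact ha
    · show γ (r 2) = r 2
      have h5 : (r 2 : DihedralGroup 4) = r 1 * r 1 := by decide
      rw [h5, map_mul, ha]
    · show γ (r 3) = r 3
      have h5 : (r 3 : DihedralGroup 4) = r 1 * r 1 * r 1 := by decide
      rw [h5, map_mul, map_mul, ha]
  have hb : ∃ i : ZMod 4, γ (sr 0) = sr i := by
    have h8 : γ (sr 0) * r 1 ≠ r 1 * γ (sr 0) := by
      intro h0
      have h9 : γ (sr 0 * r 1) = γ (r 1 * sr 0) := by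
        rw [map_mul, map_mul, ha]
        exact h0
      have h10 := hinj h9
      exact absurd h10 (by decide)
    generalize γ (sr 0) = y at h8
    rcases y with j | j
    · exact absurd (by rw [r_mul_r, r_mul_r, add_comm]) h8
    · exact ⟨j, rfl⟩
  obtain ⟨i, hi⟩ := hb
  have hsr : ∀ j : ZMod 4, γ (sr j) = sr (i + j) := by
    intro j
    have h5 : (sr j : DihedralGroup 4) = sr 0 * r j := by rw [sr_mul_r, zero_add]
    rw [h5, map_mul, hi, hr, sr_mul_r]
  have hk : ∀ k : ℕ, (γ ^ k) (sr 0) = sr ((k : ZMod 4) * i) := by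
    intro k
    induction k with
    | zero => simp
    | succ k ih =>
      rw [pow_succ', MulAut.mul_apply, ih, hsr]
      congr 1
      push_cast
      ring
  have key : ∀ u i : ZMod 4, (2 * u + 1) * i = 0 → i = 0 := by decide
  have hi0 : i = 0 := by
    have h5 := hpow (sr 0)
    rw [hk f] at h5
    have h6 : (f : ZMod 4) * i = 0 := by
      injection h5
    obtain ⟨k, rfl⟩ := hf
    push_cast at h6
    exact key _ _ h6
  ext x
  rcases x with j | j
  · rw [hr j]
    rfl
  · rw [hsr j, hi0, zero_add]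
    rfl

/-- the shape `D₈ × f`: a normal subgroup `I`, a surjection onto a cyclic group of odd order `f`
whose kernel modulo `I` is dihedral of order eight -/
theorem out_d8 {A : Type*} [Group A] (I : Subgroup A) [I.Normal] {C : Type*} [Group C]
    (hcyc : IsCyclic C) (f : ℕ) (hC : Nat.card C = f) (hfodd : Odd f) (Θ : A →* C)
    (hsurj : Function.Surjective Θ) (hI : I ≤ Θ.ker)
    (φ : ↥(Θ.ker) →* DihedralGroup 4) (hφs : Function.Surjective φ)
    (hφk : φ.ker = I.subgroupOf Θ.ker) :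
    Nonempty (A ⧸ I ≃* DihedralGroup 4 × Multiplicative (ZMod f)) := by
  classical
  obtain ⟨Θb, hΘb⟩ : ∃ Θb : A ⧸ I →* C, ∀ a : A, Θb (QuotientGroup.mk a) = Θ a :=
    ⟨QuotientGroup.lift I Θ hI, fun a => rfl⟩
  have hρ : ∀ a : ↥Θ.ker, (QuotientGroup.mk (a : A) : A ⧸ I) ∈ Θb.ker := by
    intro a
    rw [MonoidHom.mem_ker, hΘb]
    exact a.2
  let ρ : ↥Θ.ker →* ↥Θb.ker :=
    { toFun := fun a => ⟨QuotientGroup.mk (a : A), hρ a⟩
      map_one' := rfl
      map_mul' := fun a b => rfl }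
  have hρs : Function.Surjective ρ := by
    rintro ⟨x, hx⟩
    obtain ⟨a, rfl⟩ := QuotientGroup.mk_surjective x
    rw [MonoidHom.mem_ker, hΘb] at hx
    exact ⟨⟨a, hx⟩, rfl⟩
  have hρk : ρ.ker = I.subgroupOf Θ.ker := by
    ext a
    rw [MonoidHom.mem_ker, Subgroup.mem_subgroupOf]
    constructor
    · intro h
      have h1 : (QuotientGroup.mk (a : A) : A ⧸ I) = 1 := congrArg Subtype.val h
      exact (QuotientGroup.eq_one_iff _).mp h1
    · intro h
      apply Subtype.ext
      exact (QuotientGroup.eq_one_iff _).mpr h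
  have e : ↥Θb.ker ≃* DihedralGroup 4 :=
    (QuotientGroup.quotientKerEquivOfSurjective ρ hρs).symm.trans
      ((QuotientGroup.quotientMulEquivOfEq (hρk.trans hφk.symm)).trans
        (QuotientGroup.quotientKerEquivOfSurjective φ hφs))
  have hexp : ∀ k : ↥Θb.ker, k ^ 4 = 1 := by
    intro k
    apply e.injective
    rw [map_pow, map_one]
    have h1 : Monoid.exponent (DihedralGroup 4) = 4 := by
      rw [DihedralGroup.exponent]
      rfl
    have h2 := Monoid.pow_exponent_eq_one (e k)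
    rw [h1] at h2
    exact h2
  have hfpos : 0 < f := hfodd.pos
  haveI : Finite C := Nat.finite_of_card_ne_zero (by omega)
  obtain ⟨c₀, hc₀⟩ := hcyc.exists_generator
  have hord : orderOf c₀ = f := by
    rw [orderOf_eq_card_of_forall_mem_zpowers hc₀, hC]
  obtain ⟨c₁, hc₁def⟩ : ∃ c₁, c₁ = c₀ ^ 4 := ⟨_, rfl⟩
  have hcop : Nat.gcd f 4 = 1 := by
    have h1 : Nat.Coprime f 2 := (Nat.coprime_two_right).mpr hfodd
    have h2 : Nat.Coprime f (2 ^ 2) := Nat.Coprime.pow_right 2 h1
    exact h2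
  have hord1 : orderOf c₁ = f := by
    rw [hc₁def, orderOf_pow, hord, hcop, Nat.div_one]
  have hc₁ : ∀ x : C, x ∈ Subgroup.zpowers c₁ := by
    have h1 : Subgroup.zpowers c₁ = ⊤ := by
      apply Subgroup.eq_top_of_card_eq
      rw [Nat.card_zpowers, hord1, hC]
    intro x
    rw [h1]
    exact Subgroup.mem_top x
  obtain ⟨ψ₀, hψ₀⟩ := hsurj c₀
  obtain ⟨y₀, hy₀⟩ : ∃ y₀ : A ⧸ I, y₀ = (QuotientGroup.mk ψ₀) ^ 4 := ⟨_, rfl⟩
  have hΘy : Θb y₀ = c₁ := by
    rw [hy₀, map_pow, hΘb, hψ₀, hc₁def]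
  have hyf : y₀ ^ f = 1 := by
    have h1 : (QuotientGroup.mk ψ₀ : A ⧸ I) ^ f ∈ Θb.ker := by
      rw [MonoidHom.mem_ker, map_pow, hΘb, hψ₀, ← hord]
      exact pow_orderOf_eq_one c₀
    have h2 := hexp ⟨_, h1⟩
    have h3 : ((QuotientGroup.mk ψ₀ : A ⧸ I) ^ f) ^ 4 = 1 := congrArg Subtype.val h2
    rw [hy₀, ← pow_mul, mul_comm, pow_mul]
    exact h3
  have hdvd : orderOf y₀ ∣ orderOf c₁ := by
    rw [hord1]
    exact orderOf_dvd_of_pow_eq_one hyf
  obtain ⟨s, hs⟩ : ∃ s : C →* A ⧸ I, s c₁ = y₀ :=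
    ⟨monoidHomOfForallMemZpowers hc₁ hdvd, monoidHomOfForallMemZpowers_apply_gen hc₁ hdvd⟩
  have hsΘ : ∀ c, Θb (s c) = c := by
    intro c
    obtain ⟨j, rfl⟩ := Subgroup.mem_zpowers_iff.mp (hc₁ c)
    rw [map_zpow, map_zpow, hs, hΘy]
  have hγ : ∀ k ∈ Θb.ker, y₀ * k = k * y₀ := by
    intro k hk
    have hγf : (MulAut.conjNormal y₀ : MulAut ↥Θb.ker) ^ f = 1 := by
      rw [← map_pow, hyf, map_one]
    have h1 : MulAut.congr e (MulAut.conjNormal y₀ : MulAut ↥Θb.ker) = 1 := by
      apply d8_aut_odd _ f hfodd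
      rw [← map_pow, hγf, map_one]
    have h2 : (MulAut.conjNormal y₀ : MulAut ↥Θb.ker) = 1 := by
      apply (MulAut.congr e).injective
      rw [h1, map_one]
    have h3 : (((MulAut.conjNormal y₀ : MulAut ↥Θb.ker) ⟨k, hk⟩ : ↥Θb.ker) : A ⧸ I) = k := by
      rw [h2]
      rfl
    rw [MulAut.conjNormal_apply] at h3
    calc y₀ * k = y₀ * k * y₀⁻¹ * y₀ := by group
      _ = k * y₀ := by rw [h3]
  have hcomm : ∀ k ∈ Θb.ker, ∀ c, s c * k = k * s c := by
    intro k hk c
    obtain ⟨j, rfl⟩ := Subgroup.mem_zpowers_iff.mp (hc₁ c)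
    rw [map_zpow, hs]
    have h1 : Commute y₀ k := hγ k hk
    exact (h1.zpow_left j).eq
  obtain ⟨e1⟩ := split_prod Θb s hsΘ hcomm
  have e3 : Multiplicative (ZMod f) ≃* C := by
    have h3 := zmodCyclicMulEquiv hcyc
    rw [hC] at h3
    exact h3
  exact ⟨e1.trans (MulEquiv.prodCongr e e3.symm)⟩

theorem zpow_two_cases {G : Type*} [Group G] (g : G) (hg : g * g = 1) (t : ℤ) :
    g ^ t = 1 ∨ g ^ t = g := by
  have h2 : g ^ (2 : ℤ) = 1 := by
    rw [zpow_two]
    exact hg
  rcases Int.even_or_odd t with ⟨s, hs⟩ | ⟨s, hs⟩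
  · left
    have h1 : t = 2 * s := by omega
    rw [h1, zpow_mul, h2, one_zpow]
  · right
    rw [hs, zpow_add, zpow_mul, h2, one_zpow, one_mul, zpow_one]

/-- the shape `2 × 2f` -/
theorem out_two_cyclic {A : Type*} [Group A] (I : Subgroup A) [I.Normal] {C : Type*} [Group C]
    (f : ℕ) (hC : Nat.card C = f) (hf : 0 < f) (Θ : A →* C) (hI : I ≤ Θ.ker)
    (hidx : I.relIndex Θ.ker = 4) (hexp : ∀ a ∈ Θ.ker, a * a ∈ I)
    (ψ : A) (hgen : ∀ c : C, ∃ j : ℕ, c = Θ ψ ^ j) (hψ : ψ ^ f ∉ I)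
    (δ : A) (hδ : δ ∈ Θ.ker) (hδ1 : δ ∉ I) (hδ2 : δ * (ψ ^ f)⁻¹ ∉ I)
    (hcomm : ψ * δ * ψ⁻¹ * δ⁻¹ ∈ I) :
    Nonempty (A ⧸ I ≃* Multiplicative (ZMod 2 × ZMod (2 * f))) := by
  classical
  obtain ⟨Θb, hΘb⟩ : ∃ Θb : A ⧸ I →* C, ∀ a : A, Θb (QuotientGroup.mk a) = Θ a :=
    ⟨QuotientGroup.lift I Θ hI, fun a => rfl⟩
  have hKmap : Θb.ker = Θ.ker.map (QuotientGroup.mk' I) := by
    ext x
    obtain ⟨a, rfl⟩ := QuotientGroup.mk_surjective x
    rw [MonoidHom.mem_ker, hΘb, Subgroup.mem_map]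
    constructor
    · intro h
      exact ⟨a, h, rfl⟩
    · rintro ⟨b, hb, hba⟩
      have h1 : b⁻¹ * a ∈ I := QuotientGroup.eq.mp hba
      have h2 := hI h1
      rw [MonoidHom.mem_ker, map_mul, map_inv, MonoidHom.mem_ker.mp hb] at h2
      simpa using h2
  have hKcard : Nat.card ↥Θb.ker = 4 := by
    rw [hKmap, ← Subgroup.relIndex_ker, QuotientGroup.ker_mk']
    exact hidx
  obtain ⟨x, hx⟩ : ∃ x : A ⧸ I, x = QuotientGroup.mk ψ := ⟨_, rfl⟩
  obtain ⟨d, hd⟩ : ∃ d : A ⧸ I, d = QuotientGroup.mk δ := ⟨_, rfl⟩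
  have hΘx : Θb x = Θ ψ := by rw [hx, hΘb]
  haveI : Finite C := Nat.finite_of_card_ne_zero (by omega)
  have hΘd : Θb d = 1 := by
    rw [hd, hΘb]
    exact hδ
  have hd1 : d ≠ 1 := by
    rw [hd]
    intro h
    exact hδ1 ((QuotientGroup.eq_one_iff _).mp h)
  have hdd : d * d = 1 := by
    rw [hd, ← QuotientGroup.mk_mul]
    exact (QuotientGroup.eq_one_iff _).mpr (hexp δ hδ)
  have hψf : ψ ^ f ∈ Θ.ker := by
    rw [MonoidHom.mem_ker, map_pow, ← hC]
    exact pow_card_eq_one'
  have hxf1 : x ^ f ≠ 1 := by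
    intro h
    apply hψ
    rw [hx, ← QuotientGroup.mk_pow] at h
    exact (QuotientGroup.eq_one_iff _).mp h
  have hxff : x ^ f * x ^ f = 1 := by
    rw [hx, ← QuotientGroup.mk_pow, ← QuotientGroup.mk_mul]
    exact (QuotientGroup.eq_one_iff _).mpr (hexp _ hψf)
  have hdxf : d ≠ x ^ f := by
    intro h
    apply hδ2
    apply (QuotientGroup.eq_one_iff _).mp
    rw [QuotientGroup.mk_mul, QuotientGroup.mk_inv, QuotientGroup.mk_pow, ← hx, ← hd, h,
      mul_inv_cancel]
  have hxd : x * d = d * x := by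
    have h1 : x * d * x⁻¹ * d⁻¹ = 1 := by
      rw [hx, hd, ← QuotientGroup.mk_inv, ← QuotientGroup.mk_inv, ← QuotientGroup.mk_mul,
        ← QuotientGroup.mk_mul, ← QuotientGroup.mk_mul]
      exact (QuotientGroup.eq_one_iff _).mpr hcomm
    calc x * d = x * d * x⁻¹ * d⁻¹ * (d * x) := by group
      _ = d * x := by rw [h1, one_mul]
  have hgenC : ∀ c : C, c ∈ Subgroup.zpowers (Θ ψ) := by
    intro c
    obtain ⟨j, hj⟩ := hgen c
    exact ⟨(j : ℤ), by rw [hj]; simp⟩
  have hordc : orderOf (Θ ψ) = f := by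
    rw [orderOf_eq_card_of_forall_mem_zpowers hgenC, hC]
  have hordd : orderOf d = 2 := orderOf_eq_prime (by rw [pow_two]; exact hdd) hd1
  have hordx : orderOf x = 2 * f := by
    have h1 : orderOf x ∣ 2 * f := orderOf_dvd_of_pow_eq_one (by
      rw [mul_comm, pow_mul, pow_two]
      exact hxff)
    have h2 : f ∣ orderOf x := by
      rw [← hordc, ← hΘx]
      exact orderOf_map_dvd Θb x
    obtain ⟨t, ht⟩ := h2
    have ht2 : t ∣ 2 := by
      rw [ht] at h1
      have h3 : f * t ∣ f * 2 := by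
        rw [mul_comm f 2]
        exact h1
      exact (Nat.mul_dvd_mul_iff_left hf).mp h3
    have ht' : t = 1 ∨ t = 2 := by
      have h3 := Nat.le_of_dvd (by norm_num) ht2
      interval_cases t
      · simp at ht2
      · left
        rfl
      · right
        rfl
    rcases ht' with rfl | rfl
    · exfalso
      rw [mul_one] at ht
      apply hxf1
      rw [← ht]
      exact pow_orderOf_eq_one x
    · rw [ht, mul_comm]
  have hint : ∀ z : A ⧸ I, z ∈ Subgroup.zpowers d → z ∈ Subgroup.zpowers x → z = 1 := by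
    intro z hz1 hz2
    obtain ⟨i, rfl⟩ := Subgroup.mem_zpowers_iff.mp hz1
    obtain ⟨j, hj⟩ := Subgroup.mem_zpowers_iff.mp hz2
    rcases zpow_two_cases d hdd i with h | h
    · exact h
    · exfalso
      rw [h] at hj
      have h3 : (Θ ψ) ^ j = 1 := by
        rw [← hΘx, ← map_zpow, hj, hΘd]
      have h4 : (f : ℤ) ∣ j := by
        rw [← hordc]
        exact orderOf_dvd_iff_zpow_eq_one.mpr h3
      obtain ⟨t, rfl⟩ := h4
      rw [zpow_mul, zpow_natCast] at hj
      rcases zpow_two_cases (x ^ f) hxff t with h5 | h5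
      · rw [h5] at hj
        exact hd1 hj.symm
      · rw [h5] at hj
        exact hdxf hj.symm
  have hcommute : ∀ (m : ↥(Subgroup.zpowers d)) (n : ↥(Subgroup.zpowers x)),
      Commute ((Subgroup.zpowers d).subtype m) ((Subgroup.zpowers x).subtype n) := by
    rintro ⟨m, hm⟩ ⟨n, hn⟩
    obtain ⟨i, rfl⟩ := Subgroup.mem_zpowers_iff.mp hm
    obtain ⟨j, rfl⟩ := Subgroup.mem_zpowers_iff.mp hn
    have h1 : Commute d x := hxd.symm
    exact h1.zpow_zpow i j
  obtain ⟨Φ, hΦ⟩ : ∃ Φ : ↥(Subgroup.zpowers d) × ↥(Subgroup.zpowers x) →* A ⧸ I,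
      ∀ mn, Φ mn = (mn.1 : A ⧸ I) * (mn.2 : A ⧸ I) :=
    ⟨MonoidHom.noncommCoprod (Subgroup.zpowers d).subtype (Subgroup.zpowers x).subtype hcommute,
      fun mn => rfl⟩
  have hinj : Function.Injective Φ := by
    rw [injective_iff_map_eq_one]
    rintro ⟨⟨m, hm⟩, ⟨n, hn⟩⟩ h
    rw [hΦ] at h
    have h' : m * n = 1 := h
    have hmn : m = n⁻¹ := eq_inv_of_mul_eq_one_left h'
    have hm1 : m = 1 := hint m hm (by rw [hmn]; exact inv_mem hn)
    have hn1 : n = 1 := by
      rw [hm1, one_mul] at h'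
      exact h'
    apply Prod.ext
    · apply Subtype.ext
      exact hm1
    · apply Subtype.ext
      exact hn1
  have hsurj : Function.Surjective Θb := by
    intro c
    obtain ⟨j, hj⟩ := hgen c
    exact ⟨x ^ j, by rw [map_pow, hΘx, hj]⟩
  have hcardG : Nat.card (A ⧸ I) = 4 * f := by
    have h1 := Subgroup.card_eq_card_quotient_mul_card_subgroup Θb.ker
    have e : (A ⧸ I) ⧸ Θb.ker ≃ C := (QuotientGroup.quotientKerEquivOfSurjective Θb hsurj).toEquiv
    rw [h1, Nat.card_congr e, hC, hKcard]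
    ring
  haveI : Finite (A ⧸ I) := Nat.finite_of_card_ne_zero (by omega)
  have hbij : Function.Bijective Φ := hinj.bijective_of_nat_card_le (by
    rw [Nat.card_prod, Nat.card_zpowers, Nat.card_zpowers, hordd, hordx, hcardG]
    omega)
  have e1 : ↥(Subgroup.zpowers d) × ↥(Subgroup.zpowers x) ≃* A ⧸ I := MulEquiv.ofBijective Φ hbij
  have e2 : Multiplicative (ZMod 2) ≃* ↥(Subgroup.zpowers d) := by
    have h3 := zmodCyclicMulEquiv (inferInstance : IsCyclic ↥(Subgroup.zpowers d))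
    rw [Nat.card_zpowers, hordd] at h3
    exact h3
  have e3 : Multiplicative (ZMod (2 * f)) ≃* ↥(Subgroup.zpowers x) := by
    have h3 := zmodCyclicMulEquiv (inferInstance : IsCyclic ↥(Subgroup.zpowers x))
    rw [Nat.card_zpowers, hordx] at h3
    exact h3
  exact ⟨e1.symm.trans ((MulEquiv.prodCongr e2.symm e3.symm).trans
    (MulEquiv.symm (MulEquiv.prodMultiplicative (ZMod 2) (ZMod (2 * f)))))⟩

end Abstract

end Cfsg.Agent.Helper45.OO
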