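import Cfsg.Agent.Helper45.IDPlus

set_option autoImplicit false

/-!
Helper library (helper45): `Inndiag(PΩ⁻_{2m+2}(q)) / Inn` for odd `q`. Over a quadratic extension
the minus-type form becomes hyperbolic; a similarity preserves the two classes of maximal totally
singular subspaces there exactly when its determinant is the `(m+1)`-st power of its multiplier.
-/

universe u

namespace Cfsg.Agent.Helper45.ID

open Cfsg Matrix Cfsg.Agent.Helper45
open Cfsg.Agent.S2726 (gramM G2 binN)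

section MinusGeom

variable {K : Type u} [Field K] {m : ℕ}

theorem gramM_det_of_disc (a b : K) (hdisc : 4 * b - a ^ 2 ≠ 0) :
    (gramM a b m).det ≠ 0 := by
  unfold gramM
  rw [det_fromBlocks_zero₂₁]
  apply mul_ne_zero S2722.gramJ_det
  unfold G2
  rw [det_fin_two_of]
  intro h
  apply hdisc
  linear_combination h

/-- the linear map cutting out the standard maximal totally singular subspace over a field in
which the binary form has the root `θ` -/
def Lmin (m : ℕ) (θ : K) : ((Fin m ⊕ Fin m) ⊕ Fin 2 → K) →ₗ[K] (Fin m → K) × K :=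
  LinearMap.prod
    (LinearMap.funLeft K K (fun i : Fin m => (Sum.inl (Sum.inr i) : (Fin m ⊕ Fin m) ⊕ Fin 2)))
    (LinearMap.proj (Sum.inr 0) - θ • LinearMap.proj (Sum.inr 1))

/-- the standard maximal totally singular subspace -/
def Eminus (m : ℕ) (θ : K) : Submodule K ((Fin m ⊕ Fin m) ⊕ Fin 2 → K) := LinearMap.ker (Lmin m θ)

theorem mem_Eminus (θ : K) (x : (Fin m ⊕ Fin m) ⊕ Fin 2 → K) :
    x ∈ Eminus m θ ↔ (∀ i : Fin m, x (Sum.inl (Sum.inr i)) = 0) ∧ x (Sum.inr 0) = θ * x (Sum.inr 1) := by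
  unfold Eminus
  rw [LinearMap.mem_ker]
  have hval : Lmin m θ x =
      ((fun i : Fin m => x (Sum.inl (Sum.inr i))), x (Sum.inr 0) - θ * x (Sum.inr 1)) := rfl
  rw [hval, Prod.mk_eq_zero]
  constructor
  · rintro ⟨h1, h3⟩
    refine ⟨fun i => congrFun h1 i, ?_⟩
    have : x (Sum.inr 0) - θ * x (Sum.inr 1) = 0 := h3
    exact sub_eq_zero.mp this
  · rintro ⟨h1, h3⟩
    refine ⟨funext h1, ?_⟩
    show x (Sum.inr 0) - θ * x (Sum.inr 1) = 0
    rw [h3, sub_self]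

theorem Eminus_ts (a b θ : K) (hθ : θ ^ 2 + a * θ + b = 0) (x : (Fin m ⊕ Fin m) ⊕ Fin 2 → K)
    (hx : x ∈ Eminus m θ) : quadFormMinus m K a b x = 0 := by
  rw [mem_Eminus] at hx
  rw [S2726.qm_eq]
  have h1 : quadFormPlus m K (x ∘ Sum.inl) = 0 := by
    unfold quadFormPlus
    apply Finset.sum_eq_zero
    intro i _
    show x (Sum.inl (Sum.inl i)) * x (Sum.inl (Sum.inr i)) = 0
    rw [hx.1 i, mul_zero]
  rw [h1, zero_add]
  show x (Sum.inr 0) ^ 2 + a * x (Sum.inr 0) * x (Sum.inr 1) + b * x (Sum.inr 1) ^ 2 = 0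
  rw [hx.2]
  linear_combination (x (Sum.inr 1)) ^ 2 * hθ

theorem finrank_Eminus (θ : K) :
    2 * Module.finrank K (Eminus m θ) = Fintype.card ((Fin m ⊕ Fin m) ⊕ Fin 2) := by
  have hsurj : Function.Surjective (Lmin m θ) := by
    rintro ⟨y, t⟩
    refine ⟨Sum.elim (Sum.elim 0 y) ![t, 0], ?_⟩
    unfold Lmin
    rw [LinearMap.prod_apply]
    refine Prod.ext ?_ ?_
    · funext i; rfl
    · show (![t, 0] : Fin 2 → K) 0 - θ * (![t, 0] : Fin 2 → K) 1 = t
      simp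
  have h1 := LinearMap.finrank_range_add_finrank_ker (Lmin m θ)
  rw [LinearMap.range_eq_top.mpr hsurj, finrank_top, Module.finrank_prod,
    Module.finrank_fintype_fun_eq_card, Module.finrank_self, Module.finrank_fintype_fun_eq_card,
    Fintype.card_sum, Fintype.card_sum, Fintype.card_fin, Fintype.card_fin] at h1
  rw [Fintype.card_sum, Fintype.card_sum, Fintype.card_fin, Fintype.card_fin]
  unfold Eminus
  omega

theorem map_scalar_eq {ι : Type} [Fintype ι] [DecidableEq ι] (E : Submodule K (ι → K)) (ν : K)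
    (hν : ν ≠ 0) : E.map (Matrix.toLin' (ν • (1 : Matrix ι ι K))) = E := by
  rw [map_smul, Matrix.toLin'_one, Submodule.map_smul _ _ ν hν, Submodule.map_id]

theorem gramM_map {F : Type u} [Field F] (f : F →+* K) (a b : F) :
    (gramM a b m).map f = gramM (f a) (f b) m := by
  unfold gramM
  rw [Matrix.fromBlocks_map]
  congr 1
  · unfold S2722.gramJ
    rw [Matrix.fromBlocks_map]
    simp
  · simp
  · simp
  · unfold G2
    have h2f : f 2 = 2 := map_ofNat f 2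
    ext i j
    fin_cases i <;> fin_cases j <;> simp [h2f]

end MinusGeom

section Ext

variable {F : Type u} [Field F] [Fintype F] {m : ℕ}

theorem exists_quadratic_ext (hodd : Odd (Fintype.card F)) :
    ∃ (K : Type u) (_ : Field K) (_ : Algebra F K), Module.finrank F K = 2 := by
  have h2 := two_ne_zero_of_odd_card hodd
  obtain ⟨ε, hε⟩ := FiniteField.exists_nonsquare (ringChar_ne_two h2)
  have hirr : Irreducible (Polynomial.X ^ 2 - Polynomial.C ε : Polynomial F) := by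
    apply X_pow_sub_C_irreducible_of_prime Nat.prime_two
    intro b hb
    exact hε ⟨b, by rw [← hb, pow_two]⟩
  have : Fact (Irreducible (Polynomial.X ^ 2 - Polynomial.C ε : Polynomial F)) := ⟨hirr⟩
  refine ⟨AdjoinRoot (Polynomial.X ^ 2 - Polynomial.C ε : Polynomial F), inferInstance, inferInstance, ?_⟩
  rw [(AdjoinRoot.powerBasis hirr.ne_zero).finrank, AdjoinRoot.powerBasis_dim,
    Polynomial.natDegree_X_pow_sub_C]

theorem two_ne_zero_ext (hodd : Odd (Fintype.card F)) (K : Type u) [Field K] [Algebra F K] :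
    (2 : K) ≠ 0 := by
  have h2 := two_ne_zero_of_odd_card hodd
  have : (2 : K) = algebraMap F K 2 := (map_ofNat (algebraMap F K) 2).symm
  rw [this]
  exact (map_ne_zero (algebraMap F K)).mpr h2

/-- every element of `F` is a square in a quadratic extension -/
theorem isSquare_algebraMap (hodd : Odd (Fintype.card F)) (K : Type u) [Field K] [Algebra F K]
    [Fintype K] (hfin : Module.finrank F K = 2) (x : F) : IsSquare (algebraMap F K x) := by
  by_cases hx : x = 0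
  · rw [hx, map_zero]; exact ⟨0, by simp⟩
  have h2K := two_ne_zero_ext hodd K
  have hcardK : Fintype.card K = Fintype.card F ^ 2 := by
    rw [Module.card_eq_pow_finrank (K := F) (V := K), hfin]
  rw [FiniteField.isSquare_iff (ringChar_ne_two h2K) ((map_ne_zero (algebraMap F K)).mpr hx), hcardK]
  have hpow := FiniteField.pow_card_sub_one_eq_one x hx
  obtain ⟨j, hj⟩ := hodd
  have hdiv : Fintype.card F ^ 2 / 2 = (Fintype.card F - 1) * (j + 1) := by
    rw [hj]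
    have e1 : 2 * j + 1 - 1 = 2 * j := by omega
    have e2 : (2 * j + 1) ^ 2 = 2 * (2 * j * (j + 1)) + 1 := by ring
    rw [e1, e2]
    omega
  rw [hdiv, pow_mul, ← map_pow, hpow, map_one, one_pow]

/-- the criterion over a fixed quadratic extension -/
theorem pres_minus_ext (hodd : Odd (Fintype.card F)) (a b : F)
    (hab : ∀ z₁ z₂ : F, z₁ ^ 2 + a * z₁ * z₂ + b * z₂ ^ 2 = 0 → z₁ = 0 ∧ z₂ = 0)
    (g : GL ((Fin m ⊕ Fin m) ⊕ Fin 2) F) (μ : F) (hμ : μ ≠ 0)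
    (hg : ∀ v, quadFormMinus m F a b
      ((g : Matrix ((Fin m ⊕ Fin m) ⊕ Fin 2) ((Fin m ⊕ Fin m) ⊕ Fin 2) F) *ᵥ v) =
        μ * quadFormMinus m F a b v)
    (K : Type u) [Field K] [Algebra F K] (hfin : Module.finrank F K = 2) :
    PreservesSingularClasses (quadFormMinus m K (algebraMap F K a) (algebraMap F K b))
      ((g : Matrix ((Fin m ⊕ Fin m) ⊕ Fin 2) ((Fin m ⊕ Fin m) ⊕ Fin 2) F).map (algebraMap F K)) ↔
      (g : Matrix ((Fin m ⊕ Fin m) ⊕ Fin 2) ((Fin m ⊕ Fin m) ⊕ Fin 2) F).det = μ ^ (m + 1) := by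
  classical
  have h2 := two_ne_zero_of_odd_card hodd
  have hMF : Module.Finite F K := Module.finite_of_finrank_pos (by rw [hfin]; norm_num)
  have hKfin : Finite K := Module.finite_of_finite F
  have : Fintype K := Fintype.ofFinite K
  obtain ⟨f, hf⟩ : ∃ f : F →+* K, f = algebraMap F K := ⟨_, rfl⟩
  have hinj : Function.Injective f := by rw [hf]; exact (algebraMap F K).injective
  have h2K := two_ne_zero_ext hodd K
  have h4K : (4 : K) ≠ 0 := S2726.four_ne h2K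
  rw [← hf]
  -- a root of the binary form
  obtain ⟨ρ, hρ⟩ := isSquare_algebraMap hodd K hfin (a ^ 2 - 4 * b)
  rw [← hf] at hρ
  have hρ' : ρ * ρ = f a ^ 2 - 4 * f b := by
    rw [← hρ, map_sub, map_pow, map_mul, map_ofNat]
  obtain ⟨θ, hθdef⟩ : ∃ θ : K, θ = (ρ - f a) * (2 : K)⁻¹ := ⟨_, rfl⟩
  have h2θ : 2 * θ = ρ - f a := by
    rw [hθdef, mul_comm, mul_assoc, inv_mul_cancel₀ h2K, mul_one]
  have hθ : θ ^ 2 + f a * θ + f b = 0 := by
    have h4θ : 4 * (θ ^ 2 + f a * θ + f b) = 0 := by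
      linear_combination (2 * θ + ρ + f a) * h2θ + hρ'
    rcases mul_eq_zero.mp h4θ with h | h
    · exact absurd h h4K
    · exact h
  -- the form over `K`
  have hdisc : 4 * f b - f a ^ 2 ≠ 0 := by
    have h1 := S2726.disc_ne a b h2 hab
    have h3 : 4 * f b - f a ^ 2 = f (4 * b - a ^ 2) := by rw [map_sub, map_mul, map_pow, map_ofNat]
    rw [h3]
    exact (map_ne_zero f).mpr h1
  have hQK : (QuadraticMap.polarBilin (qMinus m K (f a) (f b) h2K)).Nondegenerate :=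
    qfOfGram_nondeg _ _ h2K _ _ (gramM_det_of_disc (f a) (f b) hdisc)
  -- the similarity over `K`
  obtain ⟨gK, hgKdef⟩ : ∃ gK : GL ((Fin m ⊕ Fin m) ⊕ Fin 2) K, gK = Matrix.GeneralLinearGroup.map f g :=
    ⟨_, rfl⟩
  have hgKc : (gK : Matrix ((Fin m ⊕ Fin m) ⊕ Fin 2) ((Fin m ⊕ Fin m) ⊕ Fin 2) K) =
      (g : Matrix ((Fin m ⊕ Fin m) ⊕ Fin 2) ((Fin m ⊕ Fin m) ⊕ Fin 2) F).map f := by
    rw [hgKdef]; rfl
  have hG := gram_of_sim (quadFormMinus m F a b) (gramM a b m) h2 (S2726.quadM_eq a b)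
    (S2726.gramM_transpose a b) (g : Matrix ((Fin m ⊕ Fin m) ⊕ Fin 2) ((Fin m ⊕ Fin m) ⊕ Fin 2) F) μ hg
  have hGK : (gK : Matrix ((Fin m ⊕ Fin m) ⊕ Fin 2) ((Fin m ⊕ Fin m) ⊕ Fin 2) K)ᵀ * gramM (f a) (f b) m *
      (gK : Matrix ((Fin m ⊕ Fin m) ⊕ Fin 2) ((Fin m ⊕ Fin m) ⊕ Fin 2) K) = f μ • gramM (f a) (f b) m := by
    have h1 := congrArg (fun M : Matrix ((Fin m ⊕ Fin m) ⊕ Fin 2) ((Fin m ⊕ Fin m) ⊕ Fin 2) F => M.map f) hG
    simp only [Matrix.map_mul, Matrix.transpose_map] at h1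
    rw [Matrix.map_smul' f μ _ (fun x y => map_mul f x y), gramM_map] at h1
    rw [hgKc]
    exact h1
  have hgK : ∀ v, quadFormMinus m K (f a) (f b)
      ((gK : Matrix ((Fin m ⊕ Fin m) ⊕ Fin 2) ((Fin m ⊕ Fin m) ⊕ Fin 2) K) *ᵥ v) =
        f μ * quadFormMinus m K (f a) (f b) v :=
    sim_of_gram (quadFormMinus m K (f a) (f b)) (gramM (f a) (f b) m) h2K (S2726.quadM_eq (f a) (f b))
      _ (f μ) hGK
  -- the reference similarity: a scalar
  obtain ⟨ν, hν⟩ := isSquare_algebraMap hodd K hfin μ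
  rw [← hf] at hν
  have hfμ : f μ ≠ 0 := (map_ne_zero f).mpr hμ
  have hν0 : ν ≠ 0 := by
    rintro rfl
    rw [mul_zero] at hν
    exact hfμ hν
  obtain ⟨dK, hdKdef⟩ : ∃ dK : GL ((Fin m ⊕ Fin m) ⊕ Fin 2) K,
      dK = Matrix.GeneralLinearGroup.scalar ((Fin m ⊕ Fin m) ⊕ Fin 2) (Units.mk0 ν hν0) := ⟨_, rfl⟩
  have hdc : (dK : Matrix ((Fin m ⊕ Fin m) ⊕ Fin 2) ((Fin m ⊕ Fin m) ⊕ Fin 2) K) =
      ν • (1 : Matrix ((Fin m ⊕ Fin m) ⊕ Fin 2) ((Fin m ⊕ Fin m) ⊕ Fin 2) K) := by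
    rw [hdKdef]
    show Matrix.scalar ((Fin m ⊕ Fin m) ⊕ Fin 2) ν = _
    ext i j
    simp [Matrix.scalar_apply, Matrix.diagonal_apply, Matrix.one_apply]
  have hd : ∀ v, quadFormMinus m K (f a) (f b)
      ((dK : Matrix ((Fin m ⊕ Fin m) ⊕ Fin 2) ((Fin m ⊕ Fin m) ⊕ Fin 2) K) *ᵥ v) =
        f μ * quadFormMinus m K (f a) (f b) v := by
    intro v
    rw [hdc, Matrix.smul_mulVec, Matrix.one_mulVec,
      quad_smul (quadFormMinus m K (f a) (f b)) (gramM (f a) (f b) m) h2K (S2726.quadM_eq (f a) (f b)), hν]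
  have hdE : (Eminus m θ).map (Matrix.toLin'
      (dK : Matrix ((Fin m ⊕ Fin m) ⊕ Fin 2) ((Fin m ⊕ Fin m) ⊕ Fin 2) K)) = Eminus m θ := by
    rw [hdc]
    exact map_scalar_eq _ ν hν0
  have hddet : (dK : Matrix ((Fin m ⊕ Fin m) ⊕ Fin 2) ((Fin m ⊕ Fin m) ⊕ Fin 2) K).det = f (μ ^ (m + 1)) := by
    rw [hdc, Matrix.det_smul, Matrix.det_one, mul_one, Fintype.card_sum, Fintype.card_sum, Fintype.card_fin,
      Fintype.card_fin, map_pow, hν]
    ring
  have hgdet : (gK : Matrix ((Fin m ⊕ Fin m) ⊕ Fin 2) ((Fin m ⊕ Fin m) ⊕ Fin 2) K).det =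
      f (g : Matrix ((Fin m ⊕ Fin m) ⊕ Fin 2) ((Fin m ⊕ Fin m) ⊕ Fin 2) F).det := by
    rw [hgKc, RingHom.map_det]
    rfl
  have key := pres_iff (qMinus m K (f a) (f b) h2K) h2K hQK (Eminus m θ)
    (Eminus_ts (f a) (f b) θ hθ) (finrank_Eminus θ) gK dK (f μ) hfμ hgK hd hdE
  rw [hgdet, hddet, hgKc] at key
  exact key.trans ⟨fun h => hinj h, fun h => congrArg f h⟩

/-- a similarity of the minus-type form with multiplier `μ` is class-preserving (over a quadratic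
extension) exactly when its determinant is `μ ^ (m + 1)` -/
theorem pres_minus_iff (hodd : Odd (Fintype.card F)) (a b : F)
    (hab : ∀ z₁ z₂ : F, z₁ ^ 2 + a * z₁ * z₂ + b * z₂ ^ 2 = 0 → z₁ = 0 ∧ z₂ = 0)
    (g : GL ((Fin m ⊕ Fin m) ⊕ Fin 2) F) (μ : F) (hμ : μ ≠ 0)
    (hg : ∀ v, quadFormMinus m F a b
      ((g : Matrix ((Fin m ⊕ Fin m) ⊕ Fin 2) ((Fin m ⊕ Fin m) ⊕ Fin 2) F) *ᵥ v) =
        μ * quadFormMinus m F a b v) :
    PreservesSingularClassesMinus m a b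
      (g : Matrix ((Fin m ⊕ Fin m) ⊕ Fin 2) ((Fin m ⊕ Fin m) ⊕ Fin 2) F) ↔
      (g : Matrix ((Fin m ⊕ Fin m) ⊕ Fin 2) ((Fin m ⊕ Fin m) ⊕ Fin 2) F).det = μ ^ (m + 1) := by
  unfold PreservesSingularClassesMinus
  constructor
  · rintro ⟨K, instF, instA, hfin, hP⟩
    exact (pres_minus_ext hodd a b hab g μ hμ hg K hfin).mp hP
  · intro hdet
    obtain ⟨K, instF, instA, hfin⟩ := exists_quadratic_ext hodd
    exact ⟨K, instF, instA, hfin, (pres_minus_ext hodd a b hab g μ hμ hg K hfin).mpr hdet⟩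

omit [Fintype F] in
/-- a similarity of the minus-type form with multiplier `c` and square `c` -/
theorem exists_swap_sim_minus (a b : F) (h2 : (2 : F) ≠ 0) (c : F) (hc : c ≠ 0) (p t : F)
    (hz : p ^ 2 + a * p * t + b * t ^ 2 = c) :
    ∃ s : GL ((Fin m ⊕ Fin m) ⊕ Fin 2) F,
      (∀ v, quadFormMinus m F a b
        ((s : Matrix ((Fin m ⊕ Fin m) ⊕ Fin 2) ((Fin m ⊕ Fin m) ⊕ Fin 2) F) *ᵥ v) =
          c * quadFormMinus m F a b v) ∧
      (s : Matrix ((Fin m ⊕ Fin m) ⊕ Fin 2) ((Fin m ⊕ Fin m) ⊕ Fin 2) F).det = (-c) ^ (m + 1) ∧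
      (s : Matrix ((Fin m ⊕ Fin m) ⊕ Fin 2) ((Fin m ⊕ Fin m) ⊕ Fin 2) F) *
        (s : Matrix ((Fin m ⊕ Fin m) ⊕ Fin 2) ((Fin m ⊕ Fin m) ⊕ Fin 2) F) =
        c • (1 : Matrix ((Fin m ⊕ Fin m) ⊕ Fin 2) ((Fin m ⊕ Fin m) ⊕ Fin 2) F) := by
  obtain ⟨s₀, hs₀, hdet₀, hss₀⟩ := exists_swap_sim (m := m) h2 c hc
  obtain ⟨L, hLdef⟩ : ∃ L : Matrix (Fin 2) (Fin 2) F, L = !![p, a * p + b * t; t, -p] := ⟨_, rfl⟩
  have hL : L.det = -c := by
    rw [hLdef, det_fin_two_of, ← hz]; ring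
  have hLL : L * L = c • (1 : Matrix (Fin 2) (Fin 2) F) := by
    rw [hLdef, ← hz]
    ext i j
    fin_cases i <;> fin_cases j <;> simp [Matrix.mul_apply, Fin.sum_univ_two] <;> ring
  have hdet : (fromBlocks (s₀ : Matrix (Fin m ⊕ Fin m) (Fin m ⊕ Fin m) F) 0 0 L).det = (-c) ^ (m + 1) := by
    rw [det_fromBlocks_zero₂₁, hdet₀, hL, pow_succ]
  obtain ⟨s, hs⟩ : ∃ s : GL ((Fin m ⊕ Fin m) ⊕ Fin 2) F, s = Matrix.GeneralLinearGroup.mkOfDetNeZero
    (fromBlocks (s₀ : Matrix (Fin m ⊕ Fin m) (Fin m ⊕ Fin m) F) 0 0 L)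
    (by rw [hdet]; exact pow_ne_zero _ (neg_ne_zero.mpr hc)) := ⟨_, rfl⟩
  have hsc : (s : Matrix ((Fin m ⊕ Fin m) ⊕ Fin 2) ((Fin m ⊕ Fin m) ⊕ Fin 2) F) =
      fromBlocks (s₀ : Matrix (Fin m ⊕ Fin m) (Fin m ⊕ Fin m) F) 0 0 L := by
    rw [hs]; rfl
  refine ⟨s, ?_, by rw [hsc, hdet], ?_⟩
  · intro v
    rw [hsc, S2726.quad_blockdiag, hs₀, S2726.qm_eq, mul_add]
    congr 1
    rw [hLdef, ← hz]
    simp [binN, mulVec, dotProduct, Fin.sum_univ_two]
    ring
  · have e : (c • (1 : Matrix ((Fin m ⊕ Fin m) ⊕ Fin 2) ((Fin m ⊕ Fin m) ⊕ Fin 2) F)) =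
        fromBlocks (c • (1 : Matrix (Fin m ⊕ Fin m) (Fin m ⊕ Fin m) F)) 0 0
          (c • (1 : Matrix (Fin 2) (Fin 2) F)) := by
      rw [← fromBlocks_one, fromBlocks_smul, smul_zero, smul_zero]
    rw [hsc, fromBlocks_multiply, e]
    simp only [Matrix.mul_zero, Matrix.zero_mul, add_zero, zero_add]
    rw [hss₀, hLL]

/-- the inner-diagonal group of `PΩ⁻` is the group induced by the similarities with
`det = multiplier ^ (m + 1)` -/
theorem inndiag_minus_eq (hodd : Odd (Fintype.card F)) (a b : F)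
    (hab : ∀ z₁ z₂ : F, z₁ ^ 2 + a * z₁ * z₂ + b * z₂ ^ 2 = 0 → z₁ = 0 ∧ z₂ = 0) (i₀ : Fin m)
    (D : KData (quadFormMinus m F a b) (m + 1) (gramM a b m) (S2726.v0M F i₀)) :
    inndiagPOmegaMinus m F a b = autKf (quadFormMinus m F a b) (m + 1) (S2726.v0M F i₀) := by
  unfold inndiagPOmegaMinus autKf
  congr 1
  funext β
  apply propext
  unfold IsInnerDiagonalAutPOmegaMinus
  constructor
  · rintro ⟨g, hg, hP, hind⟩
    have hspec := D.mult_spec hg
    exact ⟨g, ⟨hg, (pres_minus_iff hodd a b hab g _ hspec.2 hspec.1).mp hP⟩, hind⟩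
  · rintro ⟨g, ⟨hg, hdet⟩, hind⟩
    have hspec := D.mult_spec hg
    exact ⟨g, hg, (pres_minus_iff hodd a b hab g _ hspec.2 hspec.1).mpr hdet, hind⟩

set_option maxHeartbeats 1000000 in
/-- `Inndiag(PΩ⁻_{2m+2}(q)) / Inn` for odd `q` and `m ≥ 3`: cyclic of order four or of order two -/
theorem inndiag_minus_mod_inn (hodd : Odd (Fintype.card F)) (hm : 3 ≤ m) (a b : F)
    (hab : ∀ z₁ z₂ : F, z₁ ^ 2 + a * z₁ * z₂ + b * z₂ ^ 2 = 0 → z₁ = 0 ∧ z₂ = 0) :
    ((Even m ∧ Fintype.card F % 4 = 3) →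
      (∃ φ : ↥(inndiagPOmegaMinus m F a b) →* Multiplicative (ZMod 4), Function.Surjective φ ∧
        φ.ker = (Inn (POmega F (quadFormMinus m F a b))).subgroupOf (inndiagPOmegaMinus m F a b))) ∧
    (¬ (Even m ∧ Fintype.card F % 4 = 3) →
      (∃ φ : ↥(inndiagPOmegaMinus m F a b) →* Multiplicative (ZMod 2), Function.Surjective φ ∧
        φ.ker = (Inn (POmega F (quadFormMinus m F a b))).subgroupOf (inndiagPOmegaMinus m F a b))) := by
  have h2 := two_ne_zero_of_odd_card hodd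
  have hchar : ringChar F ≠ 2 := ringChar_ne_two h2
  obtain ⟨i₀⟩ : Nonempty (Fin m) := ⟨⟨0, by omega⟩⟩
  have hR : Fintype.card F % 2 = 1 := by
    rcases hodd with ⟨k, hk⟩
    omega
  have D : KData (quadFormMinus m F a b) (m + 1) (gramM a b m) (S2726.v0M F i₀) := by
    constructor
    · simp only [Fintype.card_sum, Fintype.card_fin]
      omega
    · exact S2726.quadM_eq a b
    · exact S2726.gramM_transpose a b
    · exact S2726.gramM_det a b h2 hab
    · exact S2726.quad_v0M a b _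
    · exact h2
  have hpar : Odd (m + 1) ↔ Even m := by
    constructor
    · intro h
      rcases Nat.even_or_odd m with he | ho
      · exact he
      · exfalso
        obtain ⟨k, hk⟩ := h
        obtain ⟨l, hl⟩ := ho
        omega
    · intro h
      exact h.add_one
  have hcard : 2 ≤ Fintype.card ((Fin m ⊕ Fin m) ⊕ Fin 2) := by
    rw [Fintype.card_sum, Fintype.card_sum, Fintype.card_fin, Fintype.card_fin]; omega
  have heven : Even (Fintype.card ((Fin m ⊕ Fin m) ⊕ Fin 2)) := by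
    rw [Fintype.card_sum, Fintype.card_sum, Fintype.card_fin, Fintype.card_fin]; exact ⟨m + 1, by ring⟩
  have hex := FiniteField.exists_nonsquare hchar
  obtain ⟨c₁, hc₁⟩ := hex
  have hc₁0 : c₁ ≠ 0 := by
    rintro rfl
    exact hc₁ ⟨0, by simp⟩
  have hex2 := S2726.exists_norm a b hR h2 (S2726.disc_ne a b h2 hab) c₁
  obtain ⟨z₁, z₂, hz⟩ := hex2
  have hex3 := S2726.exists_g1M (m := m) a b h2 c₁ hc₁0 z₁ z₂ hz
  obtain ⟨g₁, hg₁, hdet₁⟩ := hex3
  have hex4 := exists_swap_sim_minus (m := m) a b h2 c₁ hc₁0 z₁ z₂ hz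
  obtain ⟨s, hs, hsdet, hss⟩ := hex4
  have hiff := negO_minus_mem_iff (m := m) hodd h2 a b hab
  rw [(pow_mod_four _ (m + 1) hodd).2] at hiff
  rw [hpar] at hiff
  rw [inndiag_minus_eq hodd a b hab i₀ D]
  constructor
  · intro hc
    exact autKf_mod_inn_cyclic (qMinus m F a b h2) (quadFormMinus m F a b) rfl hodd
      (qMinus_nondeg a b h2 hab) hcard D
      (fun g hg h1 => scalar_of_ind_one_minus h2 hm a b hab g hg h1) g₁ c₁ hg₁ hc₁ hdet₁
      s hs (by rw [hsdet, Odd.neg_pow (hpar.mpr hc.1)]) hss (hiff.mpr hc)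
  · intro hc
    exact autKf_mod_inn_two (qMinus m F a b h2) (quadFormMinus m F a b) rfl hodd
      (qMinus_nondeg a b h2 hab) hcard heven D
      (fun g hg h1 => scalar_of_ind_one_minus h2 hm a b hab g hg h1) g₁ c₁ hg₁ hc₁ hdet₁
      (fun h => hc (hiff.mp h))

end Ext

end Cfsg.Agent.Helper45.ID
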