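import Mathlib
import Cfsg.Agent.Helper43.OTDefs
import Cfsg.Agent.Helper43.OrthStd
import Cfsg.Agent.Helper45.Spinor

/-!
# CALL OT (helper43, S5972), piece BAD2A

When `-1` is a nonsquare, the product of the reflections in `e₀` and `e₁ + f₁` lies in `Ω`, is an
involution, and its `(-1)`-eigenspace is an anisotropic plane.
-/

set_option autoImplicit false

namespace Cfsg.Agent.Helper45.OT5972

open Module Polynomial Cfsg.Agent.Helper90.HT Cfsg.Agent.Helper43.OT
open Cfsg.Agent.Helper43.C3O (gm)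

universe u

variable {F : Type u} [Field F] [Fintype F] {ι : Type} [Fintype ι] [DecidableEq ι]

/-- abstract form of BAD2A -/
theorem bad2a_abs (Q : QuadraticForm F (ι → F)) (h2 : (2 : F) ≠ 0)
    (hQ : (QuadraticMap.polarBilin Q).Nondegenerate) (hcard : 2 ≤ Fintype.card ι)
    (hm1 : ¬ IsSquare (-1 : F)) (v₁ v₂ : ι → F) (h1 : Q v₁ = 1) (h2' : Q v₂ = 1)
    (h12 : QuadraticMap.polar ⇑Q v₁ v₂ = 0) :
    ∃ g : ↥(Cfsg.isometryGroup F ⇑Q),
      g ∈ Cfsg.Omega F ⇑Q ∧ gm g * gm g = 1 ∧
      finrank F (LinearMap.ker (Matrix.toLin' (gm g) + 1)) = 2 ∧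
      ∀ w ∈ LinearMap.ker (Matrix.toLin' (gm g) + 1), Q w = 0 → w = 0 := by
  have hv1 : Q v₁ ≠ 0 := by rw [h1]; exact one_ne_zero
  have hv2 : Q v₂ ≠ 0 := by rw [h2']; exact one_ne_zero
  have h21 : QuadraticMap.polar ⇑Q v₂ v₁ = 0 := by rw [QuadraticMap.polar_comm]; exact h12
  have h11 : QuadraticMap.polar ⇑Q v₁ v₁ = 2 := by
    rw [QuadraticMap.polar_self, h1]; simp [two_smul]; norm_num
  have h22 : QuadraticMap.polar ⇑Q v₂ v₂ = 2 := by
    rw [QuadraticMap.polar_self, h2']; simp [two_smul]; norm_num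
  set g : ↥(Cfsg.isometryGroup F ⇑Q) :=
    Cfsg.Agent.Helper45.reflO Q v₁ hv1 * Cfsg.Agent.Helper45.reflO Q v₂ hv2 with hg
  -- the key formula
  have key : ∀ x : ι → F, Cfsg.Agent.Helper45.mv ⇑Q g x
      = x - QuadraticMap.polar ⇑Q v₁ x • v₁ - QuadraticMap.polar ⇑Q v₂ x • v₂ := by
    intro x
    rw [hg, Cfsg.Agent.Helper45.mv_mul, Cfsg.Agent.Helper45.mv_reflO,
      Cfsg.Agent.Helper45.mv_reflO, h1, h2', inv_one, one_mul, one_mul,
      QuadraticMap.polar_sub_right, QuadraticMap.polar_smul_right, h12]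
    simp only [smul_eq_mul, mul_zero, sub_zero]
    abel
  have keyv1 : Cfsg.Agent.Helper45.mv ⇑Q g v₁ = -v₁ := by
    rw [key, h11, h21, zero_smul, sub_zero, two_smul]; abel
  have keyv2 : Cfsg.Agent.Helper45.mv ⇑Q g v₂ = -v₂ := by
    rw [key, h22, h12, zero_smul, sub_zero, two_smul]; abel
  have hgm : ∀ x : ι → F, Matrix.toLin' (gm g) x = Cfsg.Agent.Helper45.mv ⇑Q g x := by
    intro x
    rw [Matrix.toLin'_apply]
  have hker : LinearMap.ker (Matrix.toLin' (gm g) + 1) = Submodule.span F {v₁, v₂} := by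
    apply le_antisymm
    · intro x hx
      rw [LinearMap.mem_ker, LinearMap.add_apply, hgm, key, Module.End.one_apply] at hx
      rw [Submodule.mem_span_pair]
      refine ⟨QuadraticMap.polar ⇑Q v₁ x / 2, QuadraticMap.polar ⇑Q v₂ x / 2, ?_⟩
      have h3 : (2 : F) • x = QuadraticMap.polar ⇑Q v₁ x • v₁ + QuadraticMap.polar ⇑Q v₂ x • v₂ := by
        rw [two_smul]
        have := hx
        rw [sub_add_eq_add_sub, sub_add_eq_add_sub, sub_sub, sub_eq_zero] at this
        exact this
      calc (QuadraticMap.polar ⇑Q v₁ x / 2) • v₁ + (QuadraticMap.polar ⇑Q v₂ x / 2) • v₂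
          = (2 : F)⁻¹ • (QuadraticMap.polar ⇑Q v₁ x • v₁ + QuadraticMap.polar ⇑Q v₂ x • v₂) := by
            rw [smul_add, smul_smul, smul_smul, div_eq_inv_mul, div_eq_inv_mul]
        _ = (2 : F)⁻¹ • ((2 : F) • x) := by rw [h3]
        _ = x := by rw [smul_smul, inv_mul_cancel₀ h2, one_smul]
    · rw [Submodule.span_le]
      intro x hx
      rw [Set.mem_insert_iff, Set.mem_singleton_iff] at hx
      rcases hx with rfl | rfl
      · show _ ∈ LinearMap.ker _
        rw [LinearMap.mem_ker, LinearMap.add_apply, hgm, keyv1, Module.End.one_apply]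
        simp
      · show _ ∈ LinearMap.ker _
        rw [LinearMap.mem_ker, LinearMap.add_apply, hgm, keyv2, Module.End.one_apply]
        simp
  have hli : LinearIndependent F ![v₁, v₂] := by
    rw [LinearIndependent.pair_iff]
    intro a b hab
    have ha : QuadraticMap.polar ⇑Q v₁ (a • v₁ + b • v₂) = 0 := by
      rw [hab]; simp
    have hb : QuadraticMap.polar ⇑Q v₂ (a • v₁ + b • v₂) = 0 := by
      rw [hab]; simp
    rw [QuadraticMap.polar_add_right, QuadraticMap.polar_smul_right,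
      QuadraticMap.polar_smul_right, h11, h12] at ha
    rw [QuadraticMap.polar_add_right, QuadraticMap.polar_smul_right,
      QuadraticMap.polar_smul_right, h22, h21] at hb
    simp only [smul_eq_mul, mul_zero, add_zero, zero_add] at ha hb
    exact ⟨(mul_eq_zero.mp ha).resolve_right h2, (mul_eq_zero.mp hb).resolve_right h2⟩
  refine ⟨g, ?_, ?_, ?_, ?_⟩
  · rw [Cfsg.Agent.Helper45.mem_omega_prod_refl Q h2 hQ hcard [v₁, v₂] (by
      intro v hv
      rw [List.mem_cons, List.mem_singleton] at hv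
      rcases hv with rfl | rfl
      · exact hv1
      · exact hv2) g (by
      rw [hg]
      simp only [List.map_cons, List.map_nil, List.prod_cons, List.prod_nil, mul_one]
      rfl)]
    refine ⟨⟨1, rfl⟩, ?_⟩
    simp only [List.map_cons, List.map_nil, List.prod_cons, List.prod_nil, mul_one, h1, h2']
    exact ⟨1, by ring⟩
  · have hgg : g * g = 1 := by
      apply Cfsg.Agent.Helper45.ext_mv
      intro x
      have e1 : QuadraticMap.polar ⇑Q v₁ (Cfsg.Agent.Helper45.mv ⇑Q g x)
          = -QuadraticMap.polar ⇑Q v₁ x := by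
        rw [key x, QuadraticMap.polar_sub_right, QuadraticMap.polar_sub_right,
          QuadraticMap.polar_smul_right, QuadraticMap.polar_smul_right, h11, h12]
        simp only [smul_eq_mul]
        ring
      have e2 : QuadraticMap.polar ⇑Q v₂ (Cfsg.Agent.Helper45.mv ⇑Q g x)
          = -QuadraticMap.polar ⇑Q v₂ x := by
        rw [key x, QuadraticMap.polar_sub_right, QuadraticMap.polar_sub_right,
          QuadraticMap.polar_smul_right, QuadraticMap.polar_smul_right, h22, h21]
        simp only [smul_eq_mul]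
        ring
      rw [Cfsg.Agent.Helper45.mv_mul, Cfsg.Agent.Helper45.mv_one,
        key (Cfsg.Agent.Helper45.mv ⇑Q g x), e1, e2, key x, neg_smul, neg_smul]
      abel
    have h := congrArg (fun x : ↥(Cfsg.isometryGroup F ⇑Q) =>
      ((x : Matrix.GeneralLinearGroup ι F) : Matrix ι ι F)) hgg
    exact h
  · rw [hker]
    have h3 : Submodule.span F {v₁, v₂} = Submodule.span F (Set.range ![v₁, v₂]) := by
      congr 1
      ext x
      simp only [Set.mem_insert_iff, Set.mem_singleton_iff, Matrix.range_cons, Matrix.range_empty,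
        Set.union_empty, Set.union_singleton]
      tauto
    rw [h3, finrank_span_eq_card hli]
    simp
  · intro w hw hQw
    rw [hker, Submodule.mem_span_pair] at hw
    obtain ⟨a, b, rfl⟩ := hw
    have h3 : Q (a • v₁ + b • v₂) = a ^ 2 + b ^ 2 := by
      have h4 := QuadraticMap.polar ⇑Q (a • v₁) (b • v₂)
      have h5 : Q (a • v₁ + b • v₂) = Q (a • v₁) + Q (b • v₂)
          + QuadraticMap.polar ⇑Q (a • v₁) (b • v₂) := by
        rw [QuadraticMap.polar]; ring
      rw [h5, QuadraticMap.polar_smul_left, QuadraticMap.polar_smul_right, h12,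
        QuadraticMap.map_smul, QuadraticMap.map_smul, h1, h2']
      simp only [smul_eq_mul, mul_zero, add_zero, mul_one]
      ring
    rw [h3] at hQw
    have hb : b = 0 := by
      by_contra hb
      apply hm1
      refine ⟨a / b, ?_⟩
      field_simp
      linear_combination -hQw
    rw [hb] at hQw
    have ha : a = 0 := by
      have : a ^ 2 = 0 := by linear_combination hQw
      exact pow_eq_zero_iff (two_ne_zero) |>.mp this
    rw [ha, hb]
    simp

/-- BAD2A: when `-1` is a nonsquare, the product of the reflections in `e₀` and `e₁ + f₁`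
(`Q = 1` on both, orthogonal) lies in `Ω`, and its `(-1)`-eigenspace is an anisotropic plane. -/
theorem ot_bad_two_a (h2 : (2 : F) ≠ 0) (hm1 : ¬ IsSquare (-1 : F)) (d : ℕ) (hd : 1 ≤ d) :
    ∃ g : ↥(Cfsg.isometryGroup F (Cfsg.quadFormOdd d F)),
      g ∈ Cfsg.Omega F (Cfsg.quadFormOdd d F) ∧ gm g * gm g = 1 ∧
      finrank F (LinearMap.ker (Matrix.toLin' (gm g) + 1)) = 2 ∧
      ∀ w ∈ LinearMap.ker (Matrix.toLin' (gm g) + 1), Cfsg.quadFormOdd d F w = 0 → w = 0 := by
  classical
  let i₀ : Fin d := ⟨0, hd⟩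
  let v₁ : Unit ⊕ (Fin d ⊕ Fin d) → F := Pi.single (Sum.inl ()) 1
  let v₂ : Unit ⊕ (Fin d ⊕ Fin d) → F :=
    Pi.single (Sum.inr (Sum.inl i₀)) 1 + Pi.single (Sum.inr (Sum.inr i₀)) 1
  have hq1 : Cfsg.quadFormOdd d F v₁ = 1 := by
    simp [Cfsg.quadFormOdd, v₁]
  have hq2 : Cfsg.quadFormOdd d F v₂ = 1 := by
    simp only [Cfsg.quadFormOdd, v₂, Pi.add_apply]
    rw [Finset.sum_eq_single i₀]
    · simp
    · intro j _ hj
      simp [hj]
    · intro h; exact absurd (Finset.mem_univ _) h
  have hpol : QuadraticMap.polar (Cfsg.quadFormOdd d F) v₁ v₂ = 0 := by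
    rw [Cfsg.Agent.Helper43.OrthStd.polar_odd]
    simp [v₁, v₂]
  exact bad2a_abs (Cfsg.Agent.Helper43.oddQF d F) h2
    (Cfsg.Agent.Helper43.PrimeOrdO.oddQF_nondeg h2 d) (by
      simp only [Fintype.card_sum, Fintype.card_unit, Fintype.card_fin]; omega) hm1 v₁ v₂ hq1 hq2 hpol

end Cfsg.Agent.Helper45.OT5972
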