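import Mathlib
import Cfsg.Agent.Helper44.OmGB
import Cfsg.Agent.Helper3.QFPerp

/-!
# CALL S2719, piece CENT (helper45): generic version of `Helper44.POm.plus_cent_graph_pso`
-/

set_option autoImplicit false
set_option linter.unusedSectionVars false
set_option linter.unusedVariables false

namespace Cfsg.Agent.Helper45.GmCENT

open Matrix Cfsg

universe u

variable {ι : Type} [Fintype ι] [DecidableEq ι] {F : Type u} [Field F] [Fintype F]
  (Q : QuadraticForm F (ι → F))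

set_option maxHeartbeats 1600000 in
/-- **CENT**: if `-1 ∈ Ω`, an element of `autK` (induced by a similarity `d` with
`det d = mult d ^ n`) commuting with the automorphism of an improper similarity `h` lies in
`PSO`.  (Generic version of `Helper44.POm.plus_cent_graph_pso`.) -/
theorem cent_graph_pso (hodd : Odd (Fintype.card F))
    (hQ : (QuadraticMap.polarBilin Q).Nondegenerate) (hn5 : 5 ≤ Fintype.card ι)
    {n : ℕ} {J : Matrix ι ι F} {v₀ : ι → F} (D : Helper45.KData ⇑Q n J v₀)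
    (g₁ : GL ι F) (c₁ : F) (hg₁ : ∀ v, Q ((g₁ : Matrix ι ι F) *ᵥ v) = c₁ * Q v)
    (hc₁ : ¬ IsSquare c₁) (hdet₁ : (g₁ : Matrix ι ι F).det = c₁ ^ n)
    (hneg : Helper45.negO Q ∈ Omega F ⇑Q)
    (h : GL ι F) (hh : h ∈ Geo.quadSimilarityGroup (F := F) ⇑Q)
    (hnp : (h : Matrix ι ι F).det ≠ Helper45.mult ⇑Q v₀ h ^ n)
    (d : GL ι F) (hd : d ∈ Helper45.ID.simDet Q D)
    (hcomm : Helper44.POm.simHom ⇑Q ⟨d, hd.1⟩ * Helper44.POm.simHom ⇑Q ⟨h, hh⟩
      = Helper44.POm.simHom ⇑Q ⟨h, hh⟩ * Helper44.POm.simHom ⇑Q ⟨d, hd.1⟩) :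
    Helper44.POm.simHom ⇑Q ⟨d, hd.1⟩ ∈ psoAut F ⇑Q := by
  classical
  have h2F : (2 : F) ≠ 0 := D.h2
  have hchar : ringChar F ≠ 2 := Helper45.ringChar_ne_two h2F
  have hcard2 : 2 ≤ Fintype.card ι := by omega
  have hscal : ∀ g : GL ι F,
      g ∈ Geo.quadSimilarityGroup (F := F) ⇑Q →
      Helper45.Ind ⇑Q g 1 →
      ∃ c : F, (g : Matrix ι ι F) = c • (1 : Matrix ι ι F) :=
    fun g hg h1 => Helper45.OO.scalar_of_ind Q hQ hn5 g hg h1
  have hidx4 : (Inn (POmega F ⇑Q)).relIndex (Helper45.ID.autK Q D) = 4 :=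
    Helper45.ID.relIndex_inn_autK Q hodd hQ hcard2 D hscal g₁ c₁ hg₁ hc₁ hdet₁ hneg
  have hnormT : ∀ g ∈ Helper45.ID.autK Q D,
      ∀ t ∈ Inn (POmega F ⇑Q),
      g * t * g⁻¹ ∈ Inn (POmega F ⇑Q) :=
    fun g _ t ht => (innNormal (POmega F ⇑Q)).conj_mem t ht g
  have hind : ∀ (g : GL ι F) (hg : g ∈ Geo.quadSimilarityGroup (F := F) ⇑Q),
      Helper45.Ind ⇑Q g (Helper44.POm.simHom ⇑Q ⟨g, hg⟩) := fun g hg =>
    (Helper45.OO.semi_ind_iff _ _ _ (Helper44.POm.semi_of_mem _ g hg) _).mpr rfl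
  have hmemG : ∀ (g : GL ι F) (hg : g ∈ Helper45.ID.simDet Q D),
      Helper44.POm.simHom ⇑Q ⟨g, hg.1⟩ ∈ Helper45.ID.autK Q D := fun g hg =>
    (Helper45.ID.mem_autK_iff Q D _).mpr ⟨g, hg, hind g hg.1⟩
  -- the multipliers
  obtain ⟨cd, hcddef⟩ : ∃ cd : F, cd = Helper45.mult ⇑Q v₀ d := ⟨_, rfl⟩
  have hcd : ∀ v, Q ((d : Matrix ι ι F) *ᵥ v) = cd * Q v := by
    rw [hcddef]; exact (D.mult_spec hd.1).1
  have hcd0 : cd ≠ 0 := by rw [hcddef]; exact (D.mult_spec hd.1).2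
  obtain ⟨ch, hchdef⟩ : ∃ ch : F, ch = Helper45.mult ⇑Q v₀ h := ⟨_, rfl⟩
  have hch : ∀ v, Q ((h : Matrix ι ι F) *ᵥ v) = ch * Q v := by
    rw [hchdef]; exact (D.mult_spec hh).1
  have hch0 : ch ≠ 0 := by rw [hchdef]; exact (D.mult_spec hh).2
  have hdeth : (h : Matrix ι ι F).det = -(ch ^ n) := by
    have h1 := D.det_sq hh
    rw [← hchdef] at h1 hnp
    have h3 : ((h : Matrix ι ι F).det - ch ^ n) * ((h : Matrix ι ι F).det + ch ^ n) = 0 := by
      linear_combination h1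
    rcases mul_eq_zero.mp h3 with h4 | h4
    · exact absurd (sub_eq_zero.mp h4) hnp
    · exact eq_neg_of_add_eq_zero_left h4
  have hsqc : IsSquare cd := by
    by_contra hns
    obtain ⟨w, hwdef⟩ : ∃ w : ι → F, w = v₀ := ⟨_, rfl⟩
    have hw1 : Q w = 1 := by rw [hwdef]; exact D.hv₀
    have hw0 : Q w ≠ 0 := by
      rw [hw1]
      exact one_ne_zero
    have hdw : Q ((d : Matrix ι ι F) *ᵥ w) = cd := by
      rw [hcd w, hw1, mul_one]
    have hdw0 : Q ((d : Matrix ι ι F) *ᵥ w) ≠ 0 := by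
      rw [hdw]
      exact hcd0
    obtain ⟨r, hr⟩ : ∃ r : ↥(isometryGroup F ⇑Q), r = Helper45.reflO Q w hw0 := ⟨_, rfl⟩
    obtain ⟨r', hr'⟩ : ∃ r' : ↥(isometryGroup F ⇑Q),
        r' = Helper45.reflO Q ((d : Matrix ι ι F) *ᵥ w) hdw0 := ⟨_, rfl⟩
    have hrsim : (r : GL ι F) ∈ Geo.quadSimilarityGroup (F := F) ⇑Q :=
      Helper45.iso_le_sim _ r.2
    have hrdet : ((r : GL ι F) : Matrix ι ι F).det = -1 := by
      rw [hr, Helper45.reflO_coe]
      exact Helper13.reflection_det Q w hw0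
    have hrmult : Helper45.mult ⇑Q v₀ (r : GL ι F) = 1 := by
      unfold Helper45.mult
      rw [(Helper45.mem_iso_iff ⇑Q _).mp r.2, D.hv₀]
    -- `r h` lies in `simDet`
    have hrh : (r : GL ι F) * h ∈ Helper45.ID.simDet Q D := by
      refine ⟨mul_mem hrsim hh, ?_⟩
      rw [Units.val_mul, Matrix.det_mul, hrdet, hdeth, D.mult_mul hrsim, hrmult, one_mul,
        ← hchdef]
      ring
    obtain ⟨h', hh'⟩ : ∃ h' : GL ι F, h' = (r : GL ι F) * h := ⟨_, rfl⟩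
    have hh'mem : h' ∈ Helper45.ID.simDet Q D := by rw [hh']; exact hrh
    obtain ⟨ch', hch'def⟩ : ∃ ch' : F, ch' = Helper45.mult ⇑Q v₀ h' := ⟨_, rfl⟩
    have hch' : ∀ v, Q ((h' : Matrix ι ι F) *ᵥ v) = ch' * Q v := by
      rw [hch'def]; exact (D.mult_spec hh'mem.1).1
    have hch'0 : ch' ≠ 0 := by rw [hch'def]; exact (D.mult_spec hh'mem.1).2
    -- the commutator of `r h` and `d` lies in `Ω`
    obtain ⟨k, hk⟩ : ∃ k : GL ι F, k = h' * d * h'⁻¹ * d⁻¹ := ⟨_, rfl⟩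
    have hkmem : k ∈ Helper45.ID.simDet Q D := by
      rw [hk]
      exact mul_mem (mul_mem (mul_mem hh'mem hd) (inv_mem hh'mem)) (inv_mem hd)
    have hkiso : k ∈ isometryGroup F ⇑Q := by
      rw [hk]
      exact Helper44.POm.comm_mem_iso Q _ _ ch' cd hch'0 hcd0 hch' hcd
    have hkinn : Helper44.POm.simHom ⇑Q ⟨k, hkmem.1⟩ ∈ Inn (POmega F ⇑Q) := by
      have h3 : (⟨k, hkmem.1⟩ : ↥(Geo.quadSimilarityGroup (F := F) ⇑Q))
          = ⟨h', hh'mem.1⟩ * ⟨d, hd.1⟩ * (⟨h', hh'mem.1⟩ : ↥(Geo.quadSimilarityGroup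
            (F := F) ⇑Q))⁻¹ * (⟨d, hd.1⟩ : ↥(Geo.quadSimilarityGroup (F := F) ⇑Q))⁻¹ := by
        apply Subtype.ext
        exact hk
      rw [h3, map_mul, map_mul, map_mul, map_inv, map_inv]
      exact Helper44.POm.comm_mem_of_relIndex_four _ _ hnormT hidx4 _ _ (hmemG h' hh'mem)
        (hmemG d hd)
    have hkΩ : (⟨k, hkiso⟩ : ↥(isometryGroup F ⇑Q)) ∈ Omega F ⇑Q :=
      Helper45.omega_of_mem_inn Q hscal hneg ⟨w, hw0⟩ _ (Helper44.POm.simHom ⇑Q ⟨k, hkmem.1⟩)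
        (hind k hkmem.1) hkinn
    -- the commutator of `h` and `d` is a scalar
    obtain ⟨zS, hzS⟩ : ∃ zS : ↥(Geo.quadSimilarityGroup (F := F) ⇑Q),
        zS = ⟨h, hh⟩ * ⟨d, hd.1⟩ * (⟨h, hh⟩ : ↥(Geo.quadSimilarityGroup
          (F := F) ⇑Q))⁻¹ * (⟨d, hd.1⟩ : ↥(Geo.quadSimilarityGroup (F := F) ⇑Q))⁻¹ :=
      ⟨_, rfl⟩
    have hzgl : (zS : GL ι F) = h * d * h⁻¹ * d⁻¹ := by
      rw [hzS]
      rfl
    have hz1 : Helper44.POm.simHom ⇑Q zS = 1 := by
      rw [hzS, map_mul, map_mul, map_mul, map_inv, map_inv, ← hcomm]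
      group
    obtain ⟨lam, hlam⟩ := (Helper44.POm.simHom_eq_one_iff Q hQ hn5 zS).mp hz1
    have hziso : (zS : GL ι F) ∈ isometryGroup F ⇑Q := by
      rw [hzgl]
      exact Helper44.POm.comm_mem_iso Q _ _ ch cd hch0 hcd0 hch hcd
    have hlam2 : lam * lam = 1 := by
      have h3 := (Helper45.mem_iso_iff _ _).mp hziso w
      rw [hlam, Matrix.smul_mulVec, Matrix.one_mulVec, QuadraticMap.map_smul, hw1, smul_eq_mul,
        mul_one] at h3
      exact h3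
    have hzΩ : (⟨(zS : GL ι F), hziso⟩ : ↥(isometryGroup F ⇑Q)) ∈ Omega F ⇑Q := by
      have h4 : (lam - 1) * (lam + 1) = 0 := by linear_combination hlam2
      rcases mul_eq_zero.mp h4 with h5 | h5
      · have h6 : (⟨(zS : GL ι F), hziso⟩ : ↥(isometryGroup F ⇑Q)) = 1 := by
          apply Subtype.ext
          apply Units.ext
          show ((zS : GL ι F) : Matrix ι ι F) = 1
          rw [hlam, sub_eq_zero.mp h5, one_smul]
        rw [h6]
        exact one_mem _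
      · have h6 : (⟨(zS : GL ι F), hziso⟩ : ↥(isometryGroup F ⇑Q)) = Helper45.negO Q := by
          apply Subtype.ext
          apply Units.ext
          show ((zS : GL ι F) : Matrix ι ι F) = -1
          rw [hlam, eq_neg_of_add_eq_zero_left h5, neg_smul, one_smul]
        rw [h6]
        exact hneg
    -- the relation between the two commutators
    have hr'gl : (r' : GL ι F) = d * (r : GL ι F) * d⁻¹ := by
      apply Units.ext
      rw [hr', hr, Units.val_mul, Units.val_mul, Helper45.reflO_coe, Helper45.reflO_coe]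
      have h1 : (d : Matrix ι ι F) * ((d⁻¹ : GL ι F) : Matrix ι ι F) = 1 := by
        rw [← Units.val_mul, mul_inv_cancel, Units.val_one]
      have h2 : ((d⁻¹ : GL ι F) : Matrix ι ι F) * (d : Matrix ι ι F) = 1 := by
        rw [← Units.val_mul, inv_mul_cancel, Units.val_one]
      exact (Helper44.POm.refl_rect Q Q _ _ h1 h2 cd hcd0 hcd w).symm
    have hrel : (⟨(zS : GL ι F), hziso⟩ : ↥(isometryGroup F ⇑Q))
        = r⁻¹ * ⟨k, hkiso⟩ * r' := by
      apply Subtype.ext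
      show (zS : GL ι F) = (r : GL ι F)⁻¹ * k * (r' : GL ι F)
      rw [hzgl, hk, hr'gl, hh']
      group
    have hsz := ((Helper45.mem_omega_iff Q h2F hQ hcard2 c₁ hc₁ _).mp hzΩ).1
    have hsk := ((Helper45.mem_omega_iff Q h2F hQ hcard2 c₁ hc₁ _).mp hkΩ).1
    rw [hrel, map_mul, map_mul, map_inv, hsk, mul_one] at hsz
    have hsr : Helper45.spin ⇑Q 1 r = -1 := by
      rw [hr]
      exact Helper45.spin_one_reflO_sq _ h2F w hw0 (by rw [hw1]; exact ⟨1, by ring⟩)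
    have hsr' : Helper45.spin ⇑Q 1 r' = 1 := by
      rw [hr']
      exact Helper45.spin_one_reflO_nsq _ h2F _ hdw0 (by rw [hdw]; exact hns)
    rw [hsr, hsr'] at hsz
    revert hsz
    decide
  -- conclusion: a square multiplier gives an element of `PSO`
  have e1 : Helper45.mult ⇑Q v₀ d ^ (Fintype.card F / 2) = 1 := by
    rw [← hcddef]
    exact (FiniteField.isSquare_iff hchar hcd0).mp hsqc
  exact Helper45.ID.pso_of_theta Q D hd.1 e1 hd.2 (hind d hd.1)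

end Cfsg.Agent.Helper45.GmCENT
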