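import Mathlib
import Cfsg.Agent.Helper44.OmGB
import Cfsg.Agent.Helper3.QFPerp
import Cfsg.Agent.Helper45.GmCENT

/-!
# CALL S2719, piece CNT2 (helper45): generic version of `Helper44.POm.plus_graph_count_two`
-/

set_option autoImplicit false
set_option linter.unusedSectionVars false
set_option linter.unusedVariables false

namespace Cfsg.Agent.Helper45.GmCNT2

open Matrix Cfsg

universe u

variable {ι : Type} [Fintype ι] [DecidableEq ι] {F : Type u} [Field F] [Fintype F]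
  (Q : QuadraticForm F (ι → F))

set_option maxHeartbeats 1600000 in
/-- **CNT2**: if `-1 ∈ Ω`, the `autK`-class of the automorphism of an improper similarity `h`
commuting with a product of two reflections of non-square spinor norm is the union of two
`PΩ`-classes.  (Generic version of `Helper44.POm.plus_graph_count_two`.) -/
theorem graph_count_two (hodd : Odd (Fintype.card F))
    (hQ : (QuadraticMap.polarBilin Q).Nondegenerate) (hn5 : 5 ≤ Fintype.card ι)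
    {n : ℕ} {J : Matrix ι ι F} {v₀ : ι → F} (D : Helper45.KData ⇑Q n J v₀)
    (g₁ : GL ι F) (c₁ : F) (hg₁ : ∀ v, Q ((g₁ : Matrix ι ι F) *ᵥ v) = c₁ * Q v)
    (hc₁ : ¬ IsSquare c₁) (hdet₁ : (g₁ : Matrix ι ι F).det = c₁ ^ n)
    (hneg : Helper45.negO Q ∈ Omega F ⇑Q)
    (h : GL ι F) (hh : h ∈ Geo.quadSimilarityGroup (F := F) ⇑Q)
    (hnp : (h : Matrix ι ι F).det ≠ Helper45.mult ⇑Q v₀ h ^ n)
    (u w : ι → F) (hu : Q u ≠ 0) (hw : Q w ≠ 0) (hns : ¬ IsSquare (Q u * Q w))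
    (hcomm : (h : Matrix ι ι F) * (reflectionMatrix ⇑Q u * reflectionMatrix ⇑Q w)
      = (reflectionMatrix ⇑Q u * reflectionMatrix ⇑Q w) * (h : Matrix ι ι F)) :
    splitClassCount (Helper45.ID.autK Q D) (Inn (POmega F ⇑Q))
      (Helper44.POm.simHom ⇑Q ⟨h, hh⟩) = 2 := by
  classical
  have h2F : (2 : F) ≠ 0 := D.h2
  have hchar : ringChar F ≠ 2 := Helper45.ringChar_ne_two h2F
  have hcard2 : 2 ≤ Fintype.card ι := by omega
  have hscal : ∀ g : GL ι F,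
      g ∈ Geo.quadSimilarityGroup (F := F) ⇑Q →
      Helper45.Ind ⇑Q g 1 →
      ∃ c : F, (g : Matrix ι ι F) = c • (1 : Matrix ι ι F) :=
    fun g hg h1 => Helper45.OO.scalar_of_ind Q hQ hn5 g hg h1
  have hind : ∀ (g : GL ι F) (hg : g ∈ Geo.quadSimilarityGroup (F := F) ⇑Q),
      Helper45.Ind ⇑Q g (Helper44.POm.simHom ⇑Q ⟨g, hg⟩) := fun g hg =>
    (Helper45.OO.semi_ind_iff _ _ _ (Helper44.POm.semi_of_mem _ g hg) _).mpr rfl
  have hidx2 : (psoAut F ⇑Q).relIndex (Helper45.ID.autK Q D) = 2 :=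
    Helper45.ID.relIndex_pso_autK Q hodd D hscal g₁ c₁ hg₁ hc₁ hdet₁
  have hidxPT : (Inn (POmega F ⇑Q)).relIndex (psoAut F ⇑Q) = 2 :=
    Helper45.pso_relIndex_two Q h2F hQ hcard2 hscal hneg
  have hTP : Inn (POmega F ⇑Q) ≤ psoAut F ⇑Q := Helper45.inn_le_psoAut Q
  have hPG : psoAut F ⇑Q ≤ Helper45.ID.autK Q D := Helper45.ID.psoAut_le_autK Q D
  have hInnG : Inn (POmega F ⇑Q) ≤ Helper45.ID.autK Q D := hTP.trans hPG
  have hnormT : ∀ g ∈ Helper45.ID.autK Q D,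
      ∀ t ∈ Inn (POmega F ⇑Q),
      g * t * g⁻¹ ∈ Inn (POmega F ⇑Q) :=
    fun g _ t ht => (innNormal (POmega F ⇑Q)).conj_mem t ht g
  obtain ⟨x, hxdef⟩ : ∃ x, x = Helper44.POm.simHom ⇑Q ⟨h, hh⟩ := ⟨_, rfl⟩
  rw [← hxdef]
  -- the commuting element
  obtain ⟨gO, hgO⟩ : ∃ gO : ↥(isometryGroup F ⇑Q),
      gO = Helper45.reflO Q u hu * Helper45.reflO Q w hw := ⟨_, rfl⟩
  have hgOv : ((gO : GL ι F) : Matrix ι ι F)
      = reflectionMatrix ⇑Q u * reflectionMatrix ⇑Q w := by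
    rw [hgO]
    rfl
  have hdet : ((gO : GL ι F) : Matrix ι ι F).det = 1 := by
    rw [hgOv, Matrix.det_mul]
    have e1 := Helper13.reflection_det Q u hu
    have e2 := Helper13.reflection_det Q w hw
    rw [e1, e2]
    ring
  have hgsim : (gO : GL ι F) ∈ Geo.quadSimilarityGroup (F := F) ⇑Q :=
    Helper45.iso_le_sim _ gO.2
  obtain ⟨β₁, hβ₁⟩ : ∃ β₁, β₁ = Helper44.POm.simHom ⇑Q ⟨(gO : GL ι F), hgsim⟩ :=
    ⟨_, rfl⟩
  have hβ₁ind : Helper45.Ind ⇑Q (gO : GL ι F) β₁ := by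
    rw [hβ₁]
    exact hind _ hgsim
  have hβ₁P : β₁ ∈ psoAut F ⇑Q := by
    exact (Helper45.mem_psoAut_iff _ β₁).mpr
      ⟨(gO : GL ι F), (Helper45.mem_special_iff Q _).mpr ⟨gO.2, hdet⟩, hβ₁ind⟩
  have hβ₁T : β₁ ∉ Inn (POmega F ⇑Q) := by
    intro hinn
    have h3 := Helper45.omega_of_mem_inn Q hscal hneg ⟨u, hu⟩ gO β₁ hβ₁ind hinn
    rw [Helper45.mem_omega_prod_refl Q h2F hQ hcard2 [u, w]
      (by
        intro v hv
        simp only [List.mem_cons, List.not_mem_nil, or_false] at hv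
        rcases hv with rfl | rfl
        · exact hu
        · exact hw)
      gO (by
        rw [hgOv]
        simp)] at h3
    apply hns
    have h4 := h3.2
    simpa using h4
  have hβ₁x : β₁ * x = x * β₁ := by
    rw [hβ₁, hxdef, ← map_mul, ← map_mul]
    congr 1
    apply Subtype.ext
    apply Units.ext
    show ((gO : GL ι F) : Matrix ι ι F) * (h : Matrix ι ι F)
      = (h : Matrix ι ι F) * ((gO : GL ι F) : Matrix ι ι F)
    rw [hgOv]
    exact hcomm.symm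
  have hcent : ∀ c ∈ Helper45.ID.autK Q D, c * x = x * c → c ∈ psoAut F ⇑Q := by
    intro c hc hcx
    obtain ⟨d, hd, hdc⟩ := (Helper45.ID.mem_autK_iff Q D c).mp hc
    have hceq : c = Helper44.POm.simHom ⇑Q ⟨d, hd.1⟩ :=
      (Helper45.ind_unique ⇑Q d hd.1 c hdc).trans
        (Helper45.ind_unique ⇑Q d hd.1 _ (hind d hd.1)).symm
    rw [hceq]
    rw [hceq, hxdef] at hcx
    exact GmCENT.cent_graph_pso Q hodd hQ hn5 D g₁ c₁ hg₁ hc₁ hdet₁ hneg h hh hnp d hd hcx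
  rw [Helper44.POm.splitCount_eq_relIndex (Helper45.ID.autK Q D)
    (Inn (POmega F ⇑Q)) (psoAut F ⇑Q) x hnormT ?_, hidx2]
  intro g hg
  constructor
  · intro hgP
    by_cases hgT : g ∈ Inn (POmega F ⇑Q)
    · exact ⟨g, hgT, rfl⟩
    · refine ⟨g * β₁⁻¹, ?_, ?_⟩
      · rw [Helper44.POm.mul_mem_iff_relIndex_two (psoAut F ⇑Q)
          (Inn (POmega F ⇑Q)) hidxPT hgP (inv_mem hβ₁P), inv_mem_iff]
        exact ⟨fun h3 => absurd h3 hgT, fun h3 => absurd h3 hβ₁T⟩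
      · have h3 : β₁⁻¹ * x * β₁ = x := by
          rw [mul_assoc, ← hβ₁x, inv_mul_cancel_left]
        calc g * x * g⁻¹ = g * (β₁⁻¹ * x * β₁) * g⁻¹ := by rw [h3]
          _ = g * β₁⁻¹ * x * (g * β₁⁻¹)⁻¹ := by group
  · rintro ⟨t, ht, hgt⟩
    have h3 : (t⁻¹ * g) * x = x * (t⁻¹ * g) := by
      have h4 : t⁻¹ * (g * x * g⁻¹) * g = t⁻¹ * (t * x * t⁻¹) * g := by rw [hgt]
      calc t⁻¹ * g * x = t⁻¹ * (g * x * g⁻¹) * g := by group
        _ = t⁻¹ * (t * x * t⁻¹) * g := h4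
        _ = x * (t⁻¹ * g) := by group
    have h5 := hcent (t⁻¹ * g) (mul_mem (inv_mem (hInnG ht)) hg) h3
    have h6 : g = t * (t⁻¹ * g) := by group
    rw [h6]
    exact mul_mem (hTP ht) h5

end Cfsg.Agent.Helper45.GmCNT2
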