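import Mathlib
import Cfsg.Agent.Helper44.OmGB
import Cfsg.Agent.Helper3.QFPerp

set_option autoImplicit false

open Matrix Cfsg

universe u

namespace Cfsg.Agent.Helper45.GmEXR

variable {ι : Type} [Fintype ι] [DecidableEq ι] {F : Type u} [Field F] [Fintype F]
  (Q : QuadraticForm F (ι → F))

omit [Fintype F] in
/-- the reflection in a non-zero multiple of `v` is the reflection in `v` -/
theorem reflMatrix_smul (t : F) (ht : t ≠ 0) (v : ι → F) :
    reflectionMatrix ⇑Q (t • v) = reflectionMatrix ⇑Q v := by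
  apply Helper13.mulVec_ext
  intro x
  rw [Helper13.reflectionMatrix_mulVec, Helper13.reflectionMatrix_mulVec, QuadraticMap.map_smul,
    QuadraticMap.polar_smul_left, smul_smul, smul_eq_mul, smul_eq_mul]
  by_cases hv : Q v = 0
  · rw [hv]
    simp
  · congr 2
    field_simp

/-- **EXR**: a similarity whose square is a scalar commutes with a product of two reflections
of non-square spinor norm. -/
theorem graph_exists_refl (hodd : Odd (Fintype.card F))
    (hQ : (QuadraticMap.polarBilin Q).Nondegenerate) (hcard : 5 ≤ Fintype.card ι)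
    (H : Matrix ι ι F) (c : F) (hc : c ≠ 0) (hsim : ∀ v, Q (H *ᵥ v) = c * Q v) (ν : F)
    (hν : H * H = ν • (1 : Matrix ι ι F)) :
    ∃ u w : ι → F, Q u ≠ 0 ∧ Q w ≠ 0 ∧ ¬ IsSquare (Q u * Q w) ∧
      reflectionMatrix ⇑Q (H *ᵥ u) * reflectionMatrix ⇑Q (H *ᵥ w)
        = reflectionMatrix ⇑Q u * reflectionMatrix ⇑Q w := by
  have h2F : (2 : F) ≠ 0 := Helper45.two_ne_zero_of_odd_card hodd
  have hcard3 : 3 ≤ Fintype.card ι := by omega
  have hHH : ∀ v, H *ᵥ (H *ᵥ v) = ν • v := by
    intro v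
    rw [Matrix.mulVec_mulVec, hν, Matrix.smul_mulVec, Matrix.one_mulVec]
  obtain ⟨u₀, hu₀⟩ := Helper45.exists_norm_eq Q h2F hQ (by omega) 1
  have hν2 : ν * ν = c * c := by
    have h3 := hsim (H *ᵥ u₀)
    rw [hHH, hsim, QuadraticMap.map_smul, hu₀, smul_eq_mul] at h3
    linear_combination h3
  have h6 : (ν - c) * (ν + c) = 0 := by linear_combination hν2
  rcases mul_eq_zero.mp h6 with h7 | h7
  · have hνc : ν = c := sub_eq_zero.mp h7
    rw [hνc] at hHH
    by_cases hsq : IsSquare c
    · obtain ⟨s, rfl⟩ := hsq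
      have hs : s ≠ 0 := fun h0 => hc (by rw [h0, mul_zero])
      exact Helper44.POm.exists_refl_eigen Q h2F hQ hcard3 _ s hs hsim hHH u₀
        (by
          rw [hu₀]
          exact one_ne_zero)
    · obtain ⟨x, hx, hperp⟩ := Helper3.QFP.exists_nonsing_perp Q h2F hQ hcard H c hsq hsim
        (Or.inl (by rw [hν, hνc]))
      refine ⟨x, H *ᵥ x, hx, ?_, ?_, ?_⟩
      · rw [hsim]
        exact mul_ne_zero hc hx
      · rw [hsim]
        intro hsq'
        apply hsq
        obtain ⟨r, hr⟩ := hsq'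
        refine ⟨r / Q x, ?_⟩
        field_simp
        linear_combination hr
      · rw [hHH, reflMatrix_smul Q c hc x]
        exact (Helper44.POm.refl_comm_orth Q x (H *ᵥ x) hperp).symm
  · have hνc : ν = -c := eq_neg_of_add_eq_zero_left h7
    rw [hνc] at hHH
    exact Helper44.POm.exists_refl_neg Q h2F _ c hc hsim hHH u₀ 1 hu₀ one_ne_zero

end Cfsg.Agent.Helper45.GmEXR
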