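import Mathlib
import Cfsg.Agent.Helper44.OmGB
import Cfsg.Agent.Helper3.QFPerp

set_option autoImplicit false

open Matrix Cfsg

universe u

namespace Cfsg.Agent.Helper45.GmSWAP

variable {ι : Type} [Fintype ι] [DecidableEq ι] {F : Type u} [Field F] [Fintype F]
  (Q : QuadraticForm F (ι → F))

/-- conjugation by a similarity with non-square multiplier exchanges the two sign characters -/
theorem spin_comp_conj (h2 : (2 : F) ≠ 0)
    (hQ : (QuadraticMap.polarBilin Q).Nondegenerate)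
    (d : GL ι F) (cd : F) (hcd : ¬ IsSquare cd)
    (hd : ∀ v, Q ((d : Matrix ι ι F) *ᵥ v) = cd * Q v)
    (hd' : d ∈ Geo.quadSimilarityGroup (F := F) ⇑Q) :
    (Helper45.spin ⇑Q 1).comp (Helper45.conjO ⇑Q d hd').toMonoidHom = Helper45.spin ⇑Q cd := by
  have hcd0 : cd ≠ 0 := by
    rintro rfl
    exact hcd ⟨0, by simp⟩
  apply MonoidHom.eq_of_eqOn_dense (Helper45.reflGroup_eq_top Q h2 hQ)
  rintro r ⟨v, hv, rfl⟩
  have hgv : Q ((d : Matrix ι ι F) *ᵥ v) ≠ 0 := by
    rw [hd v]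
    exact mul_ne_zero hcd0 hv
  show Helper45.spin ⇑Q 1 (Helper45.conjO ⇑Q d hd' (Helper45.reflO Q v hv))
    = Helper45.spin ⇑Q cd (Helper45.reflO Q v hv)
  rw [Helper45.conjO_reflO Q d hd' v hv hgv]
  by_cases hsq : IsSquare (Q v)
  · rw [Helper45.spin_eps_reflO_sq Q h2 cd hcd v hv hsq]
    apply Helper45.spin_one_reflO_nsq Q h2
    rw [hd v]
    exact Helper45.not_isSquare_mul hcd hsq hv
  · rw [Helper45.spin_eps_reflO_nsq Q h2 cd hcd v hv hsq]
    apply Helper45.spin_one_reflO_sq Q h2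
    rw [hd v]
    exact Helper45.isSquare_mul_of_not h2 hcd hsq

/-- **SWAP**: a similarity with non-square multiplier does not commute with an isometry of
determinant `-1`. -/
theorem sim_not_comm (hodd : Odd (Fintype.card F))
    (hQ : (QuadraticMap.polarBilin Q).Nondegenerate) (hcard : 2 ≤ Fintype.card ι)
    (k : ↥(isometryGroup F ⇑Q)) (hdet : ((k : GL ι F) : Matrix ι ι F).det = -1)
    (d : GL ι F) (cd : F) (hcd : ¬ IsSquare cd)
    (hd : ∀ v, Q ((d : Matrix ι ι F) *ᵥ v) = cd * Q v) :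
    (d : Matrix ι ι F) * ((k : GL ι F) : Matrix ι ι F)
      ≠ ((k : GL ι F) : Matrix ι ι F) * (d : Matrix ι ι F) := by
  intro hcomm
  have h2 : (2 : F) ≠ 0 := Helper45.two_ne_zero_of_odd_card hodd
  have hcd0 : cd ≠ 0 := by
    rintro rfl
    exact hcd ⟨0, by simp⟩
  have hd' : d ∈ Geo.quadSimilarityGroup (F := F) ⇑Q := ⟨Units.mk0 cd hcd0, hd⟩
  have hconj : Helper45.conjO ⇑Q d hd' k = k := by
    apply Subtype.ext
    rw [Helper45.conjO_coe]
    have h1 : d * (k : GL ι F) = (k : GL ι F) * d := by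
      apply Units.ext
      rw [Units.val_mul, Units.val_mul]
      exact hcomm
    rw [h1, mul_assoc, mul_inv_cancel, mul_one]
  have hsp := congrArg (fun f : ↥(isometryGroup F ⇑Q) →* ℤˣ => f k)
    (spin_comp_conj Q h2 hQ d cd hcd hd hd')
  simp only [MonoidHom.comp_apply] at hsp
  have hsp' : Helper45.spin ⇑Q 1 k = Helper45.spin ⇑Q cd k := by
    rw [← hsp]
    show Helper45.spin ⇑Q 1 k = Helper45.spin ⇑Q 1 (Helper45.conjO ⇑Q d hd' k)
    rw [hconj]
  have hone : ((k : GL ι F) : Matrix ι ι F).det = 1 := by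
    rw [Helper45.det_eq_one_iff Q h2 hQ cd hcd k, ← hsp']
    exact Int.units_mul_self _
  rw [hone] at hdet
  have : (2 : F) = 0 := by linear_combination hdet
  exact h2 this

end Cfsg.Agent.Helper45.GmSWAP
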