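import Cfsg.Agent.Helper45.InvOmega

set_option autoImplicit false
set_option linter.unusedSectionVars false

universe u

/-!
Cartan–Dieudonné for forms of Witt index at most one (in particular `O⁻_4(2)`), following helper44's
proof in `Helper44/CD.lean` with the single use of the dimension hypothesis isolated.
-/

namespace Cfsg.Agent.Helper45

open Cfsg Matrix

section CDEich

variable {ι : Type} [Fintype ι] [DecidableEq ι] {F : Type u} [Field F]
  (Q : QuadraticForm F (ι → F))

/-- the one-step extension property of Witt's lemma inside the group generated by reflections -/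
theorem refl_step_eich (hQ : (QuadraticMap.polarBilin Q).Nondegenerate)
    (hE : ∀ u w : ι → F, Q u = 0 → Q w = 0 → QuadraticMap.polar ⇑Q u w = 0 →
      ∃ ρ ∈ reflGroup Q, ∀ x, mv ⇑Q ρ x = Helper44.eich Q u w x)
    (X₀ : Submodule F (ι → F)) (x₀ y : ι → F) (hx₀ : x₀ ∉ X₀) (hy : y ∉ X₀) (hQy : Q y = Q x₀)
    (hpol : ∀ z ∈ X₀, QuadraticMap.polar ⇑Q y z = QuadraticMap.polar ⇑Q x₀ z) :
    ∃ ρ ∈ reflGroup Q, (∀ z ∈ X₀, mv ⇑Q ρ z = z) ∧ mv ⇑Q ρ x₀ = y := by
  set u := y - x₀ with hu
  have hperp : ∀ z ∈ X₀, QuadraticMap.polar ⇑Q u z = 0 := fun z hz => by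
    rw [hu, QuadraticMap.polar_sub_left, hpol z hz, sub_self]
  by_cases hQu : Q u ≠ 0
  · exact Helper44.refl_step_one Q X₀ x₀ y hQy.symm hQu hperp
  push Not at hQu
  have hQu' : 2 * Q x₀ - QuadraticMap.polar ⇑Q y x₀ = 0 := by
    rw [← hQu, hu, q_sub, hQy]; ring
  have hux₀ : QuadraticMap.polar ⇑Q u x₀ = 0 := by
    rw [hu, QuadraticMap.polar_sub_left, Helper44.polar_self_eq]; linear_combination -hQu'
  have huy : QuadraticMap.polar ⇑Q u y = 0 := by
    rw [hu, QuadraticMap.polar_sub_left, Helper44.polar_self_eq, hQy, QuadraticMap.polar_comm ⇑Q x₀ y]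
    linear_combination hQu'
  have hgood := Helper13.exists_good (fun a b => QuadraticMap.polar ⇑Q a b)
      (fun ψ => ⟨(LinearMap.BilinForm.toDual (QuadraticMap.polarBilin Q) hQ).symm ψ, fun v =>
        LinearMap.BilinForm.apply_toDual_symm_apply (B := QuadraticMap.polarBilin Q) (hB := hQ) ψ v⟩)
      X₀ x₀ y hx₀ hy
  by_cases hexw : ∃ w, (∀ z ∈ X₀, QuadraticMap.polar ⇑Q w z = 0) ∧ QuadraticMap.polar ⇑Q w x₀ ≠ 0
      ∧ QuadraticMap.polar ⇑Q w y ≠ 0 ∧ Q w ≠ 0
  · -- two reflections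
    obtain ⟨w, hwX, hwx, hwy, hQw⟩ := hexw
    set l := -(QuadraticMap.polar ⇑Q w x₀) / Q w with hl
    have hl0 : l ≠ 0 := div_ne_zero (neg_ne_zero.mpr hwx) hQw
    set m := x₀ + l • w with hm
    have hlw : l * Q w + QuadraticMap.polar ⇑Q w x₀ = 0 := by rw [hl]; field_simp; ring
    have hQm : Q m = Q x₀ := by
      rw [hm, Helper13.Q_add', QuadraticMap.map_smul, QuadraticMap.polar_smul_right, smul_eq_mul,
        smul_eq_mul, QuadraticMap.polar_comm ⇑Q x₀ w]
      linear_combination l * hlw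
    have h1 : Q (m - x₀) ≠ 0 := by
      rw [hm, add_sub_cancel_left, QuadraticMap.map_smul]
      exact mul_ne_zero (mul_ne_zero hl0 hl0) hQw
    obtain ⟨t₁, ht₁G, ht₁fix, ht₁⟩ := Helper44.refl_step_one Q X₀ x₀ m hQm.symm h1 (fun z hz => by
      rw [hm, add_sub_cancel_left, QuadraticMap.polar_smul_left, hwX z hz, smul_zero])
    have e : y - m = u - l • w := by rw [hm, hu]; abel
    have h2 : Q (y - m) ≠ 0 := by
      have e2 : Q (y - m) = -l * QuadraticMap.polar ⇑Q w y := by
        rw [e, q_sub, hQu, QuadraticMap.map_smul, QuadraticMap.polar_smul_right, smul_eq_mul,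
          smul_eq_mul, QuadraticMap.polar_comm ⇑Q u w]
        have e3 : QuadraticMap.polar ⇑Q w u
            = QuadraticMap.polar ⇑Q w y - QuadraticMap.polar ⇑Q w x₀ := by
          rw [hu, QuadraticMap.polar_sub_right]
        rw [e3]
        linear_combination l * hlw
      rw [e2]
      exact mul_ne_zero (neg_ne_zero.mpr hl0) hwy
    obtain ⟨t₂, ht₂G, ht₂fix, ht₂⟩ := Helper44.refl_step_one Q X₀ m y (hQm.trans hQy.symm) h2
      (fun z hz => by
        rw [e, QuadraticMap.polar_sub_left, hperp z hz, QuadraticMap.polar_smul_left,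
          hwX z hz, smul_zero, sub_zero])
    refine ⟨t₂ * t₁, mul_mem ht₂G ht₁G, ?_, ?_⟩
    · intro z hz; rw [mv_mul, ht₁fix z hz, ht₂fix z hz]
    · rw [mv_mul, ht₁, ht₂]
  · -- Eichler transformation
    push Not at hexw
    obtain ⟨w, hwX, hwx, hwy⟩ := hgood
    have hQw : Q w = 0 := hexw w hwX hwx hwy
    have hQwu : Q (w + u) = 0 := by
      apply hexw (w + u)
      · intro z hz
        rw [QuadraticMap.polar_add_left, hwX z hz, hperp z hz, add_zero]
      · rw [QuadraticMap.polar_add_left, hux₀, add_zero]; exact hwx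
      · rw [QuadraticMap.polar_add_left, huy, add_zero]; exact hwy
    have hwu : QuadraticMap.polar ⇑Q w u = 0 := by
      rw [Helper13.Q_add', hQw, hQu] at hQwu
      linear_combination hQwu
    set w₁ := (QuadraticMap.polar ⇑Q w x₀)⁻¹ • w with hw₁
    have hQw₁ : Q w₁ = 0 := by rw [hw₁, QuadraticMap.map_smul, hQw, smul_zero]
    have huw₁ : QuadraticMap.polar ⇑Q u w₁ = 0 := by
      rw [hw₁, QuadraticMap.polar_smul_right, QuadraticMap.polar_comm ⇑Q u w, hwu, smul_zero]
    obtain ⟨ρ, hρ, hρx⟩ := hE u w₁ hQu hQw₁ huw₁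
    refine ⟨ρ, hρ, ?_, ?_⟩
    · intro z hz
      rw [hρx, Helper44.eich, hQw₁, zero_mul, sub_zero, hperp z hz, hw₁, QuadraticMap.polar_smul_left,
        hwX z hz]
      simp
    · rw [hρx, Helper44.eich, hQw₁, zero_mul, sub_zero, hux₀, hw₁, QuadraticMap.polar_smul_left, smul_eq_mul,
        inv_mul_cancel₀ hwx, one_smul, zero_smul, sub_zero, hu]
      abel

/-- Cartan–Dieudonné (weak form) from the hypothesis that the Eichler transformations attached to two
singular vectors are products of reflections (copy of helper44's argument with that hypothesis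
isolated). -/
theorem reflGroup_eq_top_eich (hQ : (QuadraticMap.polarBilin Q).Nondegenerate)
    (hE : ∀ u w : ι → F, Q u = 0 → Q w = 0 → QuadraticMap.polar ⇑Q u w = 0 →
      ∃ ρ ∈ reflGroup Q, ∀ x, mv ⇑Q ρ x = Helper44.eich Q u w x) : reflGroup Q = ⊤ := by
  rw [eq_top_iff]
  intro g _
  have hsk := Helper13.witt_skeleton (F := F) (V := ι → F)
    (fun a b => (Q a, QuadraticMap.polar ⇑Q a b)) ((reflGroup Q).map (Helper44.isoToLE Q))
    (by
      rintro t ⟨ρ, -, rfl⟩ x x'
      rw [Helper44.isoToLE_apply, Helper44.isoToLE_apply, mv_quad ⇑Q ρ, mv_polar Q ρ])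
    (by
      intro X₀ x₀ y hx₀ hy hc hyy
      have hQy : Q y = Q x₀ := (Prod.mk.inj hyy).1
      obtain ⟨ρ, hρ, hfix, hρx⟩ := refl_step_eich Q hQ hE X₀ x₀ y hx₀ hy hQy
        (fun z hz => (Prod.mk.inj (hc z hz).2).2)
      refine ⟨Helper44.isoToLE Q ρ, Subgroup.mem_map_of_mem _ hρ, ?_, ?_⟩
      · intro z hz; rw [Helper44.isoToLE_apply]; exact hfix z hz
      · rw [Helper44.isoToLE_apply]; exact hρx)
    (Module.finrank F (ι → F)) ⊤ (Submodule.finrank_le _)
    (Matrix.toLin' ((g : GL ι F) : Matrix ι ι F))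
    (by
      intro x _ x' _
      rw [Matrix.toLin'_apply, Matrix.toLin'_apply]
      show (Q (mv ⇑Q g x), QuadraticMap.polar ⇑Q (mv ⇑Q g x) (mv ⇑Q g x')) = _
      rw [mv_quad ⇑Q g, mv_polar Q g])
    (by
      intro x _ hx
      rw [Matrix.toLin'_apply] at hx
      have h1 : mv ⇑Q g⁻¹ (mv ⇑Q g x) = x := by rw [← mv_mul, inv_mul_cancel, mv_one]
      have h2 : mv ⇑Q g x = 0 := hx
      rw [h2] at h1
      rw [← h1]
      exact Matrix.mulVec_zero _)
  obtain ⟨t, ⟨ρ, hρ, rfl⟩, htx⟩ := hsk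
  have hgρ : g = ρ := by
    apply ext_mv
    intro x
    have := htx x trivial
    rw [Helper44.isoToLE_apply, Matrix.toLin'_apply] at this
    exact this.symm
  rw [hgρ]
  exact hρ


/-- if no two independent singular vectors are orthogonal, the isometry group is generated by
reflections -/
theorem reflGroup_eq_top_of_witt_le_one (hQ : (QuadraticMap.polarBilin Q).Nondegenerate)
    (hW : ∀ u w : ι → F, Q u = 0 → Q w = 0 → QuadraticMap.polar ⇑Q u w = 0 →
      u = 0 ∨ w ∈ Submodule.span F {u}) : reflGroup Q = ⊤ := by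
  apply reflGroup_eq_top_eich Q hQ
  intro u w hu hw huw
  rcases hW u w hu hw huw with hu0 | hwu
  · refine ⟨1, one_mem _, fun x => ?_⟩
    rw [mv_one, Helper44.eich, hu0, QuadraticMap.polar_zero_left, smul_zero, zero_smul, add_zero,
      sub_zero]
  · obtain ⟨c, rfl⟩ := Submodule.mem_span_singleton.mp hwu
    refine ⟨1, one_mem _, fun x => ?_⟩
    rw [mv_one, Helper44.eich, QuadraticMap.polar_smul_left, hw, zero_mul, sub_zero, smul_eq_mul,
      smul_smul, mul_comm]
    abel

end CDEich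

end Cfsg.Agent.Helper45
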