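import Cfsg.Agent.Helper45.OctI
import Cfsg.Agent.Helper31.OctPCK
import Cfsg.Agent.Helper46.OctPDW
import Cfsg.Agent.Helper20.OctPNI
import Cfsg.Agent.Helper20.OctPS4O
import Cfsg.Agent.Helper31.OctPDC
import Cfsg.Agent.Helper65.OctPKL
import Cfsg.Agent.Helper73.OctPGL
import Cfsg.Agent.Helper61.TriD8F

set_option autoImplicit false
set_option linter.unusedSectionVars false
set_option linter.unusedSimpArgs false
set_option linter.unusedVariables false
set_option linter.style.haveILetI false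
set_option linter.unreachableTactic false
set_option linter.unusedTactic false

/-!
Helper library (helper45), triality, part K: the outer automorphism group of `PΩ⁺₂ₘ(q)`, `q` odd.
-/

universe u

namespace Cfsg.Agent.Helper45.Oct

open Cfsg Matrix Module Cfsg.Agent.Helper45.AO Cfsg.Agent.Helper45.OO

section Odd

variable {F : Type u} [Field F] [Fintype F]

set_option maxHeartbeats 1600000 in
/-- **`Out(PΩ⁺₈(q)) ≅ S₄ × C_f`, `q = p^f` odd** -/
theorem plus8_out_odd (p f : ℕ) [Fact p.Prime] (hf : 1 ≤ f) (hF : Fintype.card F = p ^ f)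
    (hp : p ≠ 2) :
    Nonempty (Out (POmega F ⇑(Helper43.plusQF 4 F)) ≃*
      Equiv.Perm (Fin 4) × Multiplicative (ZMod f)) := by
  have hpodd : Odd p := (Fact.out : p.Prime).odd_of_ne_two hp
  have hodd : Odd (Fintype.card F) := by rw [hF]; exact hpodd.pow
  have h2 : (2 : F) ≠ 0 := two_ne_zero_of_odd_card hodd
  have hQ := Helper45.plusQF_nondeg' (F := F) 4
  have hq : ⇑(Helper43.plusQF 4 F) = quadFormPlus 4 F := Helper43.plusQF_coe 4 F
  have hn : 5 ≤ Fintype.card (Fin 4 ⊕ Fin 4) := by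
    rw [Fintype.card_sum, Fintype.card_fin]; norm_num
  have hn2 : 2 ≤ Fintype.card (Fin 4 ⊕ Fin 4) := by omega
  haveI := Helper44.charP_of_card (F := F) p f hF
  obtain ⟨hcyc, hcardC⟩ := Helper44.ringAut_cyclic_card (F := F) p f hF
  obtain ⟨φ, hφ⟩ := hcyc.exists_generator
  have hordφ : orderOf φ = f := by
    rw [orderOf_eq_card_of_forall_mem_zpowers hφ, hcardC]
  obtain ⟨θ, γ, h1, hγP, hγ2, h3, htri, hθψ, hγψ, hγI, hθ⟩ :=
    tri_data (Helper43.plusQF 4 F) hq (plus_field 4) hQ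
  -- a non-square norm
  obtain ⟨ε, hε⟩ := FiniteField.exists_nonsquare (ringChar_ne_two h2)
  obtain ⟨a, ha⟩ := exists_norm_eq (Helper43.plusQF 4 F) h2 hQ hn2 ε
  have hε0 : ε ≠ 0 := by
    rintro rfl
    exact hε ⟨0, by simp⟩
  have ha0 : Helper43.plusQF 4 F a ≠ 0 := by rw [ha]; exact hε0
  have hca : Helper43.plusQF 4 F (cj a) = ε := by
    have : Helper43.plusQF 4 F (cj a) = quadFormPlus 4 F (cj a) := rfl
    rw [this, nm_cj]
    exact ha
  have hca0 : Helper43.plusQF 4 F (cj a) ≠ 0 := by rw [hca]; exact hε0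
  have h10 := q_one8_ne (Helper43.plusQF 4 F) hq
  obtain ⟨ρ, hρ⟩ : ∃ ρ : ↥(isometryGroup F ⇑(Helper43.plusQF 4 F)),
      ρ = reflO (Helper43.plusQF 4 F) a ha0 * reflO (Helper43.plusQF 4 F) one8 h10 := ⟨_, rfl⟩
  have hρs : (ρ : GL (Fin 4 ⊕ Fin 4) F) ∈
      Geo.quadSimilarityGroup (F := F) ⇑(Helper43.plusQF 4 F) := iso_le_sim _ ρ.2
  obtain ⟨δ, hδ⟩ : ∃ δ, δ = indAut ⇑(Helper43.plusQF 4 F) (ρ : GL (Fin 4 ⊕ Fin 4) F) hρs :=
    ⟨_, rfl⟩
  have hδI : Ind ⇑(Helper43.plusQF 4 F) (ρ : GL (Fin 4 ⊕ Fin 4) F) δ := by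
    rw [hδ]; exact ind_indAut _ _ hρs
  rw [hρ] at hδI
  -- left multiplication by `a`
  obtain ⟨g, hg, hga⟩ := exists_lmul (Helper43.plusQF 4 F) hq hQ a ha0
  have hTL := theta_conj_refl (Helper43.plusQF 4 F) hq hQ θ hθ a ha0 δ hδI g hg hga
  have hL : θ⁻¹ * δ * θ⁻¹⁻¹ = semiAut ⇑(Helper43.plusQF 4 F) g (RingEquiv.refl F) hg := by
    rw [inv_inv, mul_assoc, ← hTL, inv_mul_cancel_left]
  have hgsim : g ∈ Geo.quadSimilarityGroup (F := F) ⇑(Helper43.plusQF 4 F) :=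
    (sim_iff_semi _ g).mpr hg
  have hLI : Ind ⇑(Helper43.plusQF 4 F) g
      (semiAut ⇑(Helper43.plusQF 4 F) g (RingEquiv.refl F) hg) :=
    (semi_ind_iff _ g (RingEquiv.refl F) hg _).mpr rfl
  -- `-1 ∈ Ω`
  have hneg : negO (Helper43.plusQF 4 F) ∈ Omega F ⇑(Helper43.plusQF 4 F) := by
    have h5 := (negO_plus_mem_iff (F := F) (m := 4) hodd h2 (by norm_num)).mpr
      (((pow_mod_four _ 4 hodd).1).mpr (by
        rintro ⟨h6, -⟩
        exact absurd h6 (by decide)))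
    exact h5
  have hIK : Inn (POmega F ⇑(Helper43.plusQF 4 F)) ≤ pgoAut F ⇑(Helper43.plusQF 4 F) := by
    intro α hα
    rw [mem_pgoAut_iff]
    exact inn_sim _ α hα
  have hγK : γ ∈ pgoAut F ⇑(Helper43.plusQF 4 F) :=
    (mem_pgoAut_iff _ _).mpr ⟨_, iso_le_sim _ (SetLike.coe_mem _), hγI⟩
  have hKrel : (Inn (POmega F ⇑(Helper43.plusQF 4 F))).relIndex
      (pgoAut F ⇑(Helper43.plusQF 4 F)) = 8 := by
    obtain ⟨-, hB⟩ := Helper45.pgo_plus_mod_inn (F := F) (m := 4) hodd (le_refl 4)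
    obtain ⟨φD, hφs, hφk⟩ := hB (by
      rintro ⟨h6, -⟩
      exact absurd h6 (by decide))
    show (Inn (POmega F (quadFormPlus 4 F))).relIndex (pgoAut F (quadFormPlus 4 F)) = 8
    rw [relIndex_of_surj _ _ φD hφs hφk, Nat.card_eq_fintype_card, DihedralGroup.card]
  apply Cfsg.Agent.Helper20.OctP.s4_out (Inn (POmega F ⇑(Helper43.plusQF 4 F)))
    (pgoAut F ⇑(Helper43.plusQF 4 F)) hIK f (by omega)
    (fieldHom (Helper43.plusQF 4 F) (plus_field 4) φ) γ δ θ⁻¹
  · exact fun n => field_pow_inn _ (plus_field 4) hQ hn φ f hordφ n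
  · exact hKrel
  · intro k hk
    rw [mem_pgoAut_iff] at hk ⊢
    exact semi_conj_sim _ hQ hn _ (fieldHom_mem _ (plus_field 4) φ) k hk
  · intro i hi
    rw [mem_pgoAut_iff] at hi
    rw [field_pow_sim _ (plus_field 4) hQ hn φ i hi]
    exact one_mem _
  · have h8 := card_out_eq (Helper43.plusQF 4 F) (plus_field 4) hQ hn p f hF
    rw [semiSub_index_eight, hKrel] at h8
    rw [h8]
    ring
  · exact hγK
  · exact (mem_pgoAut_iff _ _).mpr ⟨_, iso_le_sim _ (SetLike.coe_mem _), hδI⟩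
  · intro k hk
    rw [mem_pgoAut_iff] at hk
    exact Cfsg.Agent.Helper31.OctP.pair_central (Helper43.plusQF 4 F) h2 hQ hn2 a one8 ha0 h10 δ hδI
      k hk
  · rw [hL]
    exact (mem_pgoAut_iff _ _).mpr ⟨g, hgsim, hLI⟩
  · rw [hL]
    have hGL := Cfsg.Agent.Helper73.OctP.gamma_lmul_comm (Helper43.plusQF 4 F) hq hQ γ hγI a ha0
      hca0 g hg hga
    refine Cfsg.Agent.Helper20.OctP.pair_not_inn (Helper43.plusQF 4 F) h2 hQ hn hneg (cj a) one8
      hca0 h10 ?_ _ hGL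
    rw [hca, q_one8 _ hq, mul_one]
    exact hε
  · exact (hγψ φ).symm
  · have h9 := hθψ φ
    calc fieldHom (Helper43.plusQF 4 F) (plus_field 4) φ * θ⁻¹
        = θ⁻¹ * (θ * fieldHom (Helper43.plusQF 4 F) (plus_field 4) φ) * θ⁻¹ := by group
      _ = θ⁻¹ * fieldHom (Helper43.plusQF 4 F) (plus_field 4) φ := by rw [h9]; group

/-- **`Out(PΩ⁺₂ₘ(q))` for `m ≥ 5`, `q = p^f` odd** -/
theorem plus_out_odd_big (m p f : ℕ) [Fact p.Prime] (hf : 1 ≤ f) (hF : Fintype.card F = p ^ f)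
    (hp : p ≠ 2) (hm : 5 ≤ m) :
    ((Odd m ∧ Fintype.card F % 4 = 3) →
      Nonempty (Out (POmega F ⇑(Helper43.plusQF m F)) ≃*
        Multiplicative (ZMod 2 × ZMod 2 × ZMod f))) ∧
    (¬ (Odd m ∧ Fintype.card F % 4 = 3) →
      Nonempty (Out (POmega F ⇑(Helper43.plusQF m F)) ≃*
        DihedralGroup 4 × Multiplicative (ZMod f))) := by
  have hpodd : Odd p := (Fact.out : p.Prime).odd_of_ne_two hp
  have hodd : Odd (Fintype.card F) := by rw [hF]; exact hpodd.pow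
  have hQ := Helper45.plusQF_nondeg' (F := F) m
  have hcard : Fintype.card (Fin m ⊕ Fin m) = 2 * m := by
    rw [Fintype.card_sum, Fintype.card_fin]; omega
  have hn : 5 ≤ Fintype.card (Fin m ⊕ Fin m) := by omega
  obtain ⟨Θ, hΘ1, hΘ2⟩ := exists_theta (Helper43.plusQF m F) hQ (by omega) (Or.inl (by omega))
  haveI := Helper44.charP_of_card (F := F) p f hF
  obtain ⟨hcyc, hcardC⟩ := Helper44.ringAut_cyclic_card (F := F) p f hF
  have hsΘ : ∀ σ : RingAut F, Θ (fieldHom (Helper43.plusQF m F) (plus_field m) σ) = σ :=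
    fun σ => hΘ1 1 σ (plus_field m σ)
  have hker := theta_ker_iff (Helper43.plusQF m F) Θ hΘ1 hΘ2
  have hI : Inn (POmega F ⇑(Helper43.plusQF m F)) ≤ Θ.ker := by
    intro α hα
    exact (hker α).mpr (inn_sim (Helper43.plusQF m F) α hα)
  have hpgo : pgoAut F (⇑(Helper43.plusQF m F)) = Θ.ker := by
    ext α
    rw [mem_pgoAut_iff]
    exact (hker α).symm
  have hpgo' := Helper45.pgo_plus_mod_inn (F := F) (m := m) hodd (by omega)
  constructor
  · intro hc
    obtain ⟨φ, hφs, hφk⟩ : ∃ φ : ↥(Θ.ker) →* Multiplicative (ZMod 2 × ZMod 2),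
        Function.Surjective φ ∧
        φ.ker = (Inn (POmega F (⇑(Helper43.plusQF m F)))).subgroupOf Θ.ker := by
      rw [← hpgo, Helper43.plusQF_coe]
      exact hpgo'.1 hc
    exact Cfsg.Agent.Helper65.OctP.out_klein_field (Inn (POmega F ⇑(Helper43.plusQF m F))) hcyc f
      hcardC (by omega) Θ (fieldHom (Helper43.plusQF m F) (plus_field m)) hsΘ hI φ hφs hφk
      (fun k hk c => Cfsg.Agent.Helper31.OctP.plus_field_comm_klein m (by omega) hodd hc k ((hker k).mp hk) c)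
  · intro hc
    obtain ⟨φ, hφs, hφk⟩ : ∃ φ : ↥(Θ.ker) →* DihedralGroup 4, Function.Surjective φ ∧
        φ.ker = (Inn (POmega F (⇑(Helper43.plusQF m F)))).subgroupOf Θ.ker := by
      rw [← hpgo, Helper43.plusQF_coe]
      exact hpgo'.2 hc
    obtain ⟨γ, k, hγsim, hγ2, hγcomm, hksim, hγk⟩ :=
      Cfsg.Agent.Helper46.OctP.plus_d8_witness (F := F) m (by omega) hodd hc
    obtain ⟨φ₀, hφ₀⟩ := hcyc.exists_generator
    have hordφ : orderOf φ₀ = f := by
      rw [orderOf_eq_card_of_forall_mem_zpowers hφ₀, hcardC]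
    haveI : Finite (RingAut F) :=
      Finite.of_injective (fun σ : RingAut F => (σ : F → F)) DFunLike.coe_injective
    refine Cfsg.Agent.Helper61.TriCall.out_d8_field (Inn (POmega F ⇑(Helper43.plusQF m F))) f
      (by omega) hcardC Θ hI φ hφs hφk (fieldHom (Helper43.plusQF m F) (plus_field m) φ₀) ?_ ?_
      γ ((hker γ).mpr hγsim) ?_ ?_ k ((hker k).mpr hksim) hγk
    · intro c
      rw [hsΘ]
      have h1 : c ∈ Submonoid.powers φ₀ := by
        rw [mem_powers_iff_mem_zpowers]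
        exact hφ₀ c
      obtain ⟨j, rfl⟩ := h1
      exact ⟨j, rfl⟩
    · exact (field_pow_inn _ (plus_field m) hQ hn φ₀ f hordφ f).mpr dvd_rfl
    · rw [hγ2]
      exact one_mem _
    · rw [hγcomm φ₀, mul_inv_cancel_right, mul_inv_cancel]
      exact one_mem _

end Odd

end Cfsg.Agent.Helper45.Oct
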