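import Cfsg.Agent.Helper44.OmV
import Cfsg.Agent.Helper45.OctK

set_option autoImplicit false
set_option linter.unusedSectionVars false
set_option linter.unusedSimpArgs false
set_option linter.unusedVariables false
set_option linter.style.haveILetI false

/-!
Helper library (helper45), field automorphisms of `PΩ⁺₂ₘ(q)`, part A: the group of class-preserving
similarities of the hyperbolic form, its action on `PΩ⁺`, the standard field automorphism, and
extension of scalars from a subfield.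
-/

universe u v

namespace Cfsg.Agent.Helper45.Fld

open Matrix Cfsg
open Cfsg.Agent.Helper45.OO (semiAut semiMap glMap)
open Cfsg.Agent.Helper44.POm

section Grp

variable {F : Type u} [Field F] [Fintype F] {m : ℕ}

/-- the group of class-preserving similarities of the hyperbolic form -/
def pscpGrp (hR : Helper45.reflGroup (Helper43.plusQF m F) = ⊤) :
    Subgroup (GL (Fin m ⊕ Fin m) F) where
  carrier := {g | g ∈ Geo.quadSimilarityGroup (F := F) (quadFormPlus m F) ∧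
    PreservesSingularClasses (quadFormPlus m F) (g : Matrix (Fin m ⊕ Fin m) (Fin m ⊕ Fin m) F)}
  mul_mem' {g h} hg hh := ⟨mul_mem hg.1 hh.1, psc_mul hR g h hg.1 hh.1 hg.2 hh.2⟩
  one_mem' := ⟨one_mem _, psc_one' hR⟩
  inv_mem' {g} hg := ⟨inv_mem hg.1, psc_inv hR g hg.1 hg.2⟩

theorem mem_pscpGrp (hR : Helper45.reflGroup (Helper43.plusQF m F) = ⊤)
    (g : GL (Fin m ⊕ Fin m) F) :
    g ∈ pscpGrp hR ↔ g ∈ Geo.quadSimilarityGroup (F := F) (quadFormPlus m F) ∧
      PreservesSingularClasses (quadFormPlus m F)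
        (g : Matrix (Fin m ⊕ Fin m) (Fin m ⊕ Fin m) F) := Iff.rfl

theorem pscpGrp_le (hR : Helper45.reflGroup (Helper43.plusQF m F) = ⊤) :
    pscpGrp hR ≤ Geo.quadSimilarityGroup (F := F) (quadFormPlus m F) :=
  fun _ hg => hg.1

/-- the action of the class-preserving similarities on `PΩ⁺` -/
noncomputable def pscpD (hR : Helper45.reflGroup (Helper43.plusQF m F) = ⊤) :
    ↥(pscpGrp hR) →* MulAut (POmega F (quadFormPlus m F)) :=
  (simHom (quadFormPlus m F)).comp (Subgroup.inclusion (pscpGrp_le hR))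

theorem pscpD_apply (hR : Helper45.reflGroup (Helper43.plusQF m F) = ⊤) (g : ↥(pscpGrp hR)) :
    pscpD hR g = semiAut (quadFormPlus m F) g.1 (RingEquiv.refl F)
      (semi_of_mem _ g.1 g.2.1) := rfl

theorem pscpD_range (hR : Helper45.reflGroup (Helper43.plusQF m F) = ⊤) :
    (pscpD hR).range = inndiagPOmegaPlus m F := by
  ext β
  rw [MonoidHom.mem_range]
  constructor
  · rintro ⟨g, rfl⟩
    apply Subgroup.subset_closure
    exact ⟨g.1, g.2.1, g.2.2,
      (Helper45.OO.semi_ind_iff _ _ _ (semi_of_mem _ g.1 g.2.1) _).mpr rfl⟩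
  · intro hβ
    obtain ⟨d, hd, hP, hind⟩ := inndiag_plus_rep hR β hβ
    exact ⟨⟨d, hd, hP⟩,
      ((Helper45.OO.semi_ind_iff _ d (RingEquiv.refl F) (semi_of_mem _ d hd) β).mp hind).symm⟩

theorem pscpD_eq_one_iff (hm : 3 ≤ m) (hR : Helper45.reflGroup (Helper43.plusQF m F) = ⊤)
    (g : ↥(pscpGrp hR)) :
    pscpD hR g = 1 ↔ ∃ c : F, ((g : GL (Fin m ⊕ Fin m) F) :
      Matrix (Fin m ⊕ Fin m) (Fin m ⊕ Fin m) F) = c • (1 : Matrix (Fin m ⊕ Fin m) (Fin m ⊕ Fin m) F) := by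
  have hQ := Helper45.plusQF_nondeg' (F := F) m
  have hn5 : 5 ≤ Fintype.card (Fin m ⊕ Fin m) := by
    rw [Fintype.card_sum, Fintype.card_fin]; omega
  exact simHom_eq_one_iff (Helper43.plusQF m F) hQ hn5
    (Subgroup.inclusion (pscpGrp_le hR) g)

/-- membership in `Inndiag(PΩ⁺)` through the class-preserving similarities -/
theorem mem_inndiag_plus (hR : Helper45.reflGroup (Helper43.plusQF m F) = ⊤)
    (δ : MulAut (POmega F (quadFormPlus m F))) :
    δ ∈ inndiagPOmegaPlus m F ↔ ∃ g : ↥(pscpGrp hR), pscpD hR g = δ := by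
  rw [← pscpD_range hR]
  exact MonoidHom.mem_range

/-- the standard field automorphism of `PΩ⁺₂ₘ(F)` -/
noncomputable def pF (m : ℕ) (σ : RingAut F) : MulAut (POmega F (quadFormPlus m F)) :=
  Oct.fieldHom (Helper43.plusQF m F) (Oct.plus_field m) σ

theorem pF_apply (σ : RingAut F) :
    pF m σ = semiAut (quadFormPlus m F) 1 σ (Oct.plus_field m σ) := rfl

theorem pF_mul (σ τ : RingAut F) : pF m (σ * τ) = pF m σ * pF m τ :=
  map_mul (Oct.fieldHom (Helper43.plusQF m F) (Oct.plus_field m)) σ τ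

theorem pF_pow (σ : RingAut F) (n : ℕ) : pF m (σ ^ n) = pF m σ ^ n :=
  map_pow (Oct.fieldHom (Helper43.plusQF m F) (Oct.plus_field m)) σ n

theorem pF_one : pF m (1 : RingAut F) = 1 :=
  map_one (Oct.fieldHom (Helper43.plusQF m F) (Oct.plus_field m))

/-- an automorphism which is the field automorphism of `σ` in the sense of the definitions is the
standard one -/
theorem pF_of_std (σ : RingAut F) (φ : MulAut (POmega F (quadFormPlus m F)))
    (hφ : IsFieldAutPOmegaOf (quadFormPlus m F) σ φ) : φ = pF m σ := by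
  apply (Helper45.OO.semi_ind_iff _ _ σ (Oct.plus_field m σ) _).mp
  intro s s' hss'
  apply hφ s s'
  rw [hss', Units.val_one, Matrix.one_mul, inv_one, Units.val_one, Matrix.mul_one]

end Grp

section Ext

variable {F : Type u} [Field F] {F₀ : Type v} [Field F₀] {m : ℕ}

/-- the hyperbolic form commutes with ring homomorphisms -/
theorem qplus_map (ι : F₀ →+* F) (v : Fin m ⊕ Fin m → F₀) :
    quadFormPlus m F (fun i => ι (v i)) = ι (quadFormPlus m F₀ v) := by
  unfold quadFormPlus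
  simp only [map_sum, map_mul]

/-- a similarity of the hyperbolic form stays one after extension of scalars -/
theorem plus_sim_map (ι : F₀ →+* F) (M : Matrix (Fin m ⊕ Fin m) (Fin m ⊕ Fin m) F₀) (c : F₀)
    (hM : ∀ v, quadFormPlus m F₀ (M *ᵥ v) = c * quadFormPlus m F₀ v) (x : Fin m ⊕ Fin m → F) :
    quadFormPlus m F (M.map ι *ᵥ x) = ι c * quadFormPlus m F x := by
  have h := quad_transfer ι
    ((Helper43.plusQF m F).comp (Matrix.mulVecLin (M.map ι)))
    (ι c • Helper43.plusQF m F) ?_ x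
  · exact h
  · intro v
    show quadFormPlus m F (M.map ι *ᵥ fun i => ι (v i))
      = ι c * quadFormPlus m F (fun i => ι (v i))
    have h1 : M.map ι *ᵥ (fun i => ι (v i)) = fun i => ι ((M *ᵥ v) i) := by
      funext i
      exact (RingHom.map_mulVec ι M v i).symm
    rw [h1, qplus_map, qplus_map, hM, map_mul]

/-- descending a similarity with entries in the subfield -/
theorem plus_sim_descend (hm : 1 ≤ m) (ι : F₀ →+* F)
    (M₀ : Matrix (Fin m ⊕ Fin m) (Fin m ⊕ Fin m) F₀) (c : F)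
    (hM : ∀ v, quadFormPlus m F (M₀.map ι *ᵥ v) = c * quadFormPlus m F v) :
    ∃ c₀ : F₀, ι c₀ = c ∧
      ∀ v, quadFormPlus m F₀ (M₀ *ᵥ v) = c₀ * quadFormPlus m F₀ v := by
  obtain ⟨n, rfl⟩ : ∃ n, m = n + 1 := ⟨m - 1, by omega⟩
  have hmv : ∀ v : Fin (n + 1) ⊕ Fin (n + 1) → F₀,
      M₀.map ι *ᵥ (fun i => ι (v i)) = fun i => ι ((M₀ *ᵥ v) i) := by
    intro v
    funext i
    exact (RingHom.map_mulVec ι M₀ v i).symm
  have key : ∀ v : Fin (n + 1) ⊕ Fin (n + 1) → F₀, ι (quadFormPlus (n + 1) F₀ (M₀ *ᵥ v))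
      = c * ι (quadFormPlus (n + 1) F₀ v) := by
    intro v
    rw [← qplus_map ι (M₀ *ᵥ v), ← hmv, hM, qplus_map]
  have hu : quadFormPlus (n + 1) F₀ (Pi.single (Sum.inl 0) 1 + Pi.single (Sum.inr 0) 1) = 1 :=
    qplus_u0 n
  refine ⟨quadFormPlus (n + 1) F₀ (M₀ *ᵥ (Pi.single (Sum.inl 0) 1 + Pi.single (Sum.inr 0) 1)),
    ?_, fun v => ?_⟩
  · rw [key, hu, map_one, mul_one]
  · apply ι.injective
    rw [key, map_mul, key, hu, map_one, mul_one]

end Ext

section Iota

variable {F : Type u} [Field F] [Fintype F] {F₀ : Type v} [Field F₀] [Fintype F₀] {m : ℕ}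

/-- extension of scalars of an isometry of the hyperbolic form -/
theorem plus_iota_iso (ι : F₀ →+* F) (g : ↥(isometryGroup F₀ ⇑(Helper43.plusQF m F₀))) :
    Matrix.GeneralLinearGroup.map ι (g : GL (Fin m ⊕ Fin m) F₀)
      ∈ isometryGroup F ⇑(Helper43.plusQF m F) := by
  rw [Helper45.mem_iso_iff]
  intro v
  have h := plus_sim_map ι ((g : GL (Fin m ⊕ Fin m) F₀) : Matrix _ _ F₀) 1 (fun w => by
    rw [one_mul]; exact (Helper45.mem_iso_iff _ _).mp g.2 w) v
  rw [map_one, one_mul] at h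
  exact h

/-- the Dickson invariant is unchanged by extension of scalars -/
theorem dick_iota (ι : F₀ →+* F) (g : ↥(isometryGroup F₀ ⇑(Helper43.plusQF m F₀)))
    (g' : ↥(isometryGroup F ⇑(Helper43.plusQF m F)))
    (hg' : ((g' : GL (Fin m ⊕ Fin m) F) : Matrix (Fin m ⊕ Fin m) (Fin m ⊕ Fin m) F)
      = ((g : GL (Fin m ⊕ Fin m) F₀) : Matrix (Fin m ⊕ Fin m) (Fin m ⊕ Fin m) F₀).map ι) :
    Helper45.dick (Helper43.plusQF m F) g' = Helper45.dick (Helper43.plusQF m F₀) g := by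
  have h1 := Helper45.finrank_fixSub_add_rank (Helper43.plusQF m F) g'
  have h2 := Helper45.finrank_fixSub_add_rank (Helper43.plusQF m F₀) g
  have h5 : (((g : GL (Fin m ⊕ Fin m) F₀) : Matrix (Fin m ⊕ Fin m) (Fin m ⊕ Fin m) F₀) - 1).map ι
      = ((g : GL (Fin m ⊕ Fin m) F₀) : Matrix (Fin m ⊕ Fin m) (Fin m ⊕ Fin m) F₀).map ι - 1 := by
    ext i j
    rw [Matrix.sub_apply, Matrix.map_apply, Matrix.map_apply, Matrix.sub_apply, map_sub,
      Matrix.one_apply, Matrix.one_apply]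
    by_cases hij : i = j
    · rw [if_pos hij, if_pos hij, map_one]
    · rw [if_neg hij, if_neg hij, map_zero]
  have h3 : (((g' : GL (Fin m ⊕ Fin m) F) : Matrix (Fin m ⊕ Fin m) (Fin m ⊕ Fin m) F) - 1).rank
      = (((g : GL (Fin m ⊕ Fin m) F₀) : Matrix (Fin m ⊕ Fin m) (Fin m ⊕ Fin m) F₀) - 1).rank := by
    rw [hg', ← h5, rank_map_hom]
  have h4 : Module.finrank F (Helper45.fixSub (Helper43.plusQF m F) g')
      = Module.finrank F₀ (Helper45.fixSub (Helper43.plusQF m F₀) g) := by omega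
  unfold Helper45.dick
  rw [h4]

/-- the class of a similarity is unchanged by extension of scalars -/
theorem isCls_iota (ι : F₀ →+* F) (t : Matrix (Fin m ⊕ Fin m) (Fin m ⊕ Fin m) F₀) (v : ZMod 2)
    (h : IsCls m t v) : IsCls m (t.map ι) v := by
  obtain ⟨c, g, hc, rfl, rfl⟩ := h
  obtain ⟨g', hg'⟩ : ∃ g' : ↥(isometryGroup F ⇑(Helper43.plusQF m F)),
      g' = ⟨Matrix.GeneralLinearGroup.map ι (g : GL (Fin m ⊕ Fin m) F₀), plus_iota_iso ι g⟩ :=
    ⟨_, rfl⟩
  have hg'v : ((g' : GL (Fin m ⊕ Fin m) F) : Matrix (Fin m ⊕ Fin m) (Fin m ⊕ Fin m) F)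
      = ((g : GL (Fin m ⊕ Fin m) F₀) : Matrix (Fin m ⊕ Fin m) (Fin m ⊕ Fin m) F₀).map ι := by
    rw [hg']; rfl
  refine ⟨ι c, g', (map_ne_zero ι).mpr hc, ?_, dick_iota ι g g' hg'v⟩
  rw [hg'v, Matrix.map_mul]
  congr 1
  ext i j
  unfold Dc
  rcases i with i | i <;> rcases j with j | j <;>
    simp [Matrix.map_apply, Matrix.fromBlocks, Matrix.diagonal_apply, Matrix.one_apply,
      apply_ite ι, Matrix.smul_apply]

/-- **extension of scalars of a similarity of the hyperbolic form**: it is a similarity, and it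
preserves the two classes of maximal totally singular subspaces exactly when the original does -/
theorem psc_iota (hR₀ : Helper45.reflGroup (Helper43.plusQF m F₀) = ⊤)
    (hR : Helper45.reflGroup (Helper43.plusQF m F) = ⊤) (ι : F₀ →+* F)
    (g₀ : GL (Fin m ⊕ Fin m) F₀)
    (hg₀ : g₀ ∈ Geo.quadSimilarityGroup (F := F₀) (quadFormPlus m F₀)) :
    Matrix.GeneralLinearGroup.map ι g₀ ∈ Geo.quadSimilarityGroup (F := F) (quadFormPlus m F) ∧
    (PreservesSingularClasses (quadFormPlus m F)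
        ((Matrix.GeneralLinearGroup.map ι g₀ : GL (Fin m ⊕ Fin m) F) :
          Matrix (Fin m ⊕ Fin m) (Fin m ⊕ Fin m) F) ↔
      PreservesSingularClasses (quadFormPlus m F₀)
        (g₀ : Matrix (Fin m ⊕ Fin m) (Fin m ⊕ Fin m) F₀)) := by
  obtain ⟨v, hv⟩ := isCls_exists g₀ hg₀
  obtain ⟨c₀, hc₀⟩ := id hg₀
  have hsim : Matrix.GeneralLinearGroup.map ι g₀
      ∈ Geo.quadSimilarityGroup (F := F) (quadFormPlus m F) :=
    ⟨Units.map (ι : F₀ →* F) c₀, fun x => plus_sim_map ι _ _ hc₀ x⟩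
  refine ⟨hsim, ?_⟩
  have h1 := isCls_iota ι _ v hv
  have e : ((Matrix.GeneralLinearGroup.map ι g₀ : GL (Fin m ⊕ Fin m) F) :
      Matrix (Fin m ⊕ Fin m) (Fin m ⊕ Fin m) F)
      = (g₀ : Matrix (Fin m ⊕ Fin m) (Fin m ⊕ Fin m) F₀).map ι := rfl
  rw [e, isCls_psc hR _ v h1, isCls_psc hR₀ _ v hv]

/-- the embedding of the class-preserving similarities over a subfield -/
noncomputable def pscpTh (hR₀ : Helper45.reflGroup (Helper43.plusQF m F₀) = ⊤)
    (hR : Helper45.reflGroup (Helper43.plusQF m F) = ⊤) (ι : F₀ →+* F) :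
    ↥(pscpGrp hR₀) →* ↥(pscpGrp hR) :=
  ((Matrix.GeneralLinearGroup.map ι).comp (Subgroup.subtype _)).codRestrict _ (fun g₀ => by
    have h := psc_iota hR₀ hR ι g₀.1 g₀.2.1
    exact ⟨h.1, h.2.mpr g₀.2.2⟩)

theorem pscpTh_coe (hR₀ : Helper45.reflGroup (Helper43.plusQF m F₀) = ⊤)
    (hR : Helper45.reflGroup (Helper43.plusQF m F) = ⊤) (ι : F₀ →+* F) (g₀ : ↥(pscpGrp hR₀)) :
    (((pscpTh hR₀ hR ι g₀ : ↥(pscpGrp hR)) : GL (Fin m ⊕ Fin m) F) :
      Matrix (Fin m ⊕ Fin m) (Fin m ⊕ Fin m) F)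
    = ((g₀ : GL (Fin m ⊕ Fin m) F₀) : Matrix (Fin m ⊕ Fin m) (Fin m ⊕ Fin m) F₀).map ι := rfl

end Iota

end Cfsg.Agent.Helper45.Fld
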