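import Cfsg.Agent.Helper45.FldC
import Cfsg.Agent.Helper3.FldPSB
import Cfsg.Agent.Helper33.FldPG2
import Cfsg.Agent.Helper33.FldPIL
import Cfsg.Agent.Helper33.FldPN3
import Cfsg.Agent.Helper42.FldPC4
import Cfsg.Agent.Helper47.FldPC5
import Cfsg.Agent.Helper67.FldPD4
import Cfsg.Agent.Helper67.FldPSC
import Cfsg.Agent.Helper73.FldPG4
import Cfsg.Agent.Helper73.FldPO
import Cfsg.Agent.Helper98.FldPSA

set_option autoImplicit false
set_option linter.unusedSectionVars false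
set_option linter.unusedSimpArgs false
set_option linter.unusedVariables false
set_option linter.style.haveILetI false
set_option linter.unreachableTactic false
set_option linter.unusedTactic false

/-!
Helper library (helper45), field automorphisms of `PΩ⁺₂ₘ(q)`, part B: `Inndiag(PΩ⁺₂ₘ(q))` is normal
in the automorphism group (for `2m = 8` triality interchanges the classes of `r_a r_1` and of the
diagonal similarity), the centraliser of the standard field automorphism, and the class splitting.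
-/

universe u v

namespace Cfsg.Agent.Helper45.Fld

open Matrix Cfsg
open Cfsg.Agent.Helper45.OO (semiAut semiMap glMap)
open Cfsg.Agent.Helper44.POm
open Cfsg.Agent.Helper45.Oct (om one8 cj Tri q_one8_ne)
open Cfsg.Agent.Helper3.FldP (Dc_sq_inn_iff)
open Cfsg.Agent.Helper33.FldP (splitCount_two_of_four inn_le_inndiag_plus inndiag_plus_le_inn_char2)
open Cfsg.Agent.Helper42.FldP (plus_fixed_comm)
open Cfsg.Agent.Helper47.FldP (plus_comm_descend)
open Cfsg.Agent.Helper67.FldP (inndiag_plus_cosets sqrt_nonsquare_isSquare_iff)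
open Cfsg.Agent.Helper73.FldP (splitCount_eq_relIndex orderOf_pF)
open Cfsg.Agent.Helper98.FldP (plus_rat_sq_inn)

section GrpNormal

variable {X : Type*} [Group X]

/-- a subgroup `D` normalised by `P`, with `D = I ∪ Is ∪ It ∪ Ist` and `θ` interchanging `s` and
`t`, is normalised by everything when `X = P ∪ θP ∪ γ⁻¹θP` -/
theorem normal_of_tri (D I P : Subgroup X) [I.Normal] (hID : I ≤ D) (θ γ s t : X)
    (hP : ∀ α ∈ P, ∀ δ ∈ D, α * δ * α⁻¹ ∈ D) (hγP : γ ∈ P)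
    (htri : ∀ α : X, α ∈ P ∨ θ⁻¹ * α ∈ P ∨ θ⁻¹ * γ * α ∈ P)
    (hF1 : θ * t = s * θ) (hF2 : θ * s = t * θ) (hsD : s ∈ D) (htD : t ∈ D)
    (hcos : ∀ δ ∈ D, δ ∈ I ∨ δ * s⁻¹ ∈ I ∨ δ * t⁻¹ ∈ I ∨ δ * (s * t)⁻¹ ∈ I)
    (a h : X) (hh : h ∈ D) : a * h * a⁻¹ ∈ D := by
  have hIn : ∀ (b k : X), k ∈ I → b * k * b⁻¹ ∈ I :=
    fun b k hk => (inferInstance : I.Normal).conj_mem k hk b
  have key : ∀ τ : X, τ * s * τ⁻¹ ∈ D → τ * t * τ⁻¹ ∈ D → ∀ δ ∈ D, τ * δ * τ⁻¹ ∈ D := by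
    intro τ hτs hτt δ hδ
    rcases hcos δ hδ with h | h | h | h
    · exact hID (hIn τ δ h)
    · have e : τ * δ * τ⁻¹ = (τ * (δ * s⁻¹) * τ⁻¹) * (τ * s * τ⁻¹) := by group
      rw [e]
      exact D.mul_mem (hID (hIn τ _ h)) hτs
    · have e : τ * δ * τ⁻¹ = (τ * (δ * t⁻¹) * τ⁻¹) * (τ * t * τ⁻¹) := by group
      rw [e]
      exact D.mul_mem (hID (hIn τ _ h)) hτt
    · have e : τ * δ * τ⁻¹ = (τ * (δ * (s * t)⁻¹) * τ⁻¹) * ((τ * s * τ⁻¹) * (τ * t * τ⁻¹)) := by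
        group
      rw [e]
      exact D.mul_mem (hID (hIn τ _ h)) (D.mul_mem hτs hτt)
  have e1 : θ * s * θ⁻¹ = t := by rw [hF2, mul_inv_cancel_right]
  have e2 : θ * t * θ⁻¹ = s := by rw [hF1, mul_inv_cancel_right]
  have hθD := key θ (by rw [e1]; exact htD) (by rw [e2]; exact hsD)
  rcases htri a with hp | hp | hp
  · exact hP a hp h hh
  · have e : a * h * a⁻¹ = θ * ((θ⁻¹ * a) * h * (θ⁻¹ * a)⁻¹) * θ⁻¹ := by group
    rw [e]
    exact hθD _ (hP _ hp h hh)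
  · have e : a * h * a⁻¹ = γ⁻¹ * (θ * ((θ⁻¹ * γ * a) * h * (θ⁻¹ * γ * a)⁻¹) * θ⁻¹) * γ⁻¹⁻¹ := by
      group
    rw [e]
    exact hP γ⁻¹ (inv_mem hγP) _ (hθD _ (hP _ hp h hh))

end GrpNormal

section Normal

variable {F : Type u} [Field F] [Fintype F] {m : ℕ}

/-- a product of two reflections preserves the two classes -/
theorem psc_pair (hm : 3 ≤ m) (a b : Fin m ⊕ Fin m → F) (ha : Helper43.plusQF m F a ≠ 0)
    (hb : Helper43.plusQF m F b ≠ 0) :
    PreservesSingularClasses (quadFormPlus m F)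
      (((Helper45.reflO (Helper43.plusQF m F) a ha * Helper45.reflO (Helper43.plusQF m F) b hb :
        ↥(isometryGroup F ⇑(Helper43.plusQF m F))) : GL (Fin m ⊕ Fin m) F) :
          Matrix (Fin m ⊕ Fin m) (Fin m ⊕ Fin m) F) := by
  have hR := plus_reflGroup_top (F := F) hm
  have hQ := Helper45.plusQF_nondeg' (F := F) m
  have h1 := isCls_iso (Helper45.reflO (Helper43.plusQF m F) a ha *
    Helper45.reflO (Helper43.plusQF m F) b hb)
  apply (isCls_psc hR _ _ h1).mpr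
  rw [Helper45.dick_refl_mul _ hQ, Helper45.dick_refl _ hQ]
  rfl

/-- the diagonal similarity preserves the two classes -/
theorem psc_DcGL (hm : 3 ≤ m) (c : F) (hc : c ≠ 0) :
    PreservesSingularClasses (quadFormPlus m F)
      ((DcGL m c hc : GL (Fin m ⊕ Fin m) F) : Matrix (Fin m ⊕ Fin m) (Fin m ⊕ Fin m) F) := by
  have hR := plus_reflGroup_top (F := F) hm
  have h1 : IsCls m ((DcGL m c hc : GL (Fin m ⊕ Fin m) F) :
      Matrix (Fin m ⊕ Fin m) (Fin m ⊕ Fin m) F) 0 :=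
    ⟨c, 1, hc, by rw [DcGL_coe]; simp, Helper45.dick_one _⟩
  exact (isCls_psc hR _ _ h1).mpr rfl


set_option maxHeartbeats 1600000 in
/-- for `q` odd, triality normalises `Inndiag(PΩ⁺₈(q))`, hence so does every automorphism -/
theorem plus8_inndiag_normal (hodd : Odd (Fintype.card F))
    (a h : MulAut (POmega F (quadFormPlus 4 F))) (hh : h ∈ inndiagPOmegaPlus 4 F) :
    a * h * a⁻¹ ∈ inndiagPOmegaPlus 4 F := by
  have h2 : (2 : F) ≠ 0 := Helper45.two_ne_zero_of_odd_card hodd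
  have hQ := Helper45.plusQF_nondeg' (F := F) 4
  have hq : ⇑(Helper43.plusQF 4 F) = quadFormPlus 4 F := Helper43.plusQF_coe 4 F
  have hm3 : 3 ≤ 4 := by norm_num
  obtain ⟨θ, γ, h1, hγP, hγ2, h3, htri, hθψ, hγψ, hγI, hθ⟩ :=
    Oct.tri_data (Helper43.plusQF 4 F) hq (Oct.plus_field 4) hQ
  obtain ⟨ε, hε⟩ := FiniteField.exists_nonsquare (Helper45.ringChar_ne_two h2)
  have hε0 : ε ≠ 0 := by
    rintro rfl
    exact hε ⟨0, by simp⟩
  obtain ⟨a₀, ha₀⟩ : ∃ a₀ : Fin 4 ⊕ Fin 4 → F,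
      a₀ = Pi.single (Sum.inl 0) ε + Pi.single (Sum.inr 0) 1 := ⟨_, rfl⟩
  have hNa : Helper43.plusQF 4 F a₀ = ε := by
    rw [ha₀]
    exact (lmul_diag ε 0).2
  have ha0 : Helper43.plusQF 4 F a₀ ≠ 0 := by
    rw [hNa]
    exact hε0
  have h10 := q_one8_ne (Helper43.plusQF 4 F) hq
  obtain ⟨ρ, hρ⟩ : ∃ ρ : ↥(isometryGroup F ⇑(Helper43.plusQF 4 F)),
      ρ = Helper45.reflO (Helper43.plusQF 4 F) a₀ ha0 *
        Helper45.reflO (Helper43.plusQF 4 F) one8 h10 := ⟨_, rfl⟩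
  have hρs : (ρ : GL (Fin 4 ⊕ Fin 4) F) ∈
      Geo.quadSimilarityGroup (F := F) ⇑(Helper43.plusQF 4 F) := Helper45.iso_le_sim _ ρ.2
  obtain ⟨s, hs⟩ : ∃ s, s = Helper45.indAut ⇑(Helper43.plusQF 4 F)
      (ρ : GL (Fin 4 ⊕ Fin 4) F) hρs := ⟨_, rfl⟩
  have hsI : Helper45.Ind ⇑(Helper43.plusQF 4 F) (ρ : GL (Fin 4 ⊕ Fin 4) F) s := by
    rw [hs]
    exact Helper45.ind_indAut _ _ hρs
  rw [hρ] at hsI
  obtain ⟨g, hg, hga⟩ := Oct.exists_lmul (Helper43.plusQF 4 F) hq hQ a₀ ha0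
  obtain ⟨t, ht⟩ : ∃ t, t = semiAut ⇑(Helper43.plusQF 4 F) g (RingEquiv.refl F) hg := ⟨_, rfl⟩
  have hF1 : θ * t = s * θ := by
    rw [ht]
    exact Oct.theta_conj_refl (Helper43.plusQF 4 F) hq hQ θ hθ a₀ ha0 s hsI g hg hga
  have hF2 : θ * s = t * θ := by
    rw [ht]
    exact theta_conj_lmul (Helper43.plusQF 4 F) hq hQ θ hθ a₀ ha0 s hsI g hg hga
  have hgD : g = DcGL 4 ε hε0 := by
    apply Units.ext
    rw [DcGL_coe]
    apply Helper13.mulVec_ext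
    intro x
    have h5 := hga x
    rw [ha₀, (lmul_diag ε x).1] at h5
    exact h5
  have htI : Helper45.Ind (quadFormPlus 4 F) (DcGL 4 ε hε0) t := by
    rw [← hgD, ht]
    exact (Helper45.OO.semi_ind_iff _ g (RingEquiv.refl F) hg _).mpr rfl
  have hab : ¬ IsSquare (Helper43.plusQF 4 F a₀ * Helper43.plusQF 4 F one8) := by
    rw [hNa, Oct.q_one8 _ hq, mul_one]
    exact hε
  have hcos := inndiag_plus_cosets hm3 hodd ε hε0 hε a₀ one8 ha0 h10 hab s t hsI htI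
  have hID : Inn (POmega F (quadFormPlus 4 F)) ≤ inndiagPOmegaPlus 4 F :=
    inn_le_inndiag_plus hm3
  have hsD : s ∈ inndiagPOmegaPlus 4 F :=
    ind_mem_inndiag _ (Helper45.iso_le_sim _ (SetLike.coe_mem _)) (psc_pair hm3 a₀ one8 ha0 h10)
      s hsI
  have htD : t ∈ inndiagPOmegaPlus 4 F :=
    ind_mem_inndiag _ (DcGL_sim ε hε0) (psc_DcGL hm3 ε hε0) t htI
  have hP : ∀ α : MulAut (POmega F (quadFormPlus 4 F)), α ∈ Oct.semiSub (Helper43.plusQF 4 F) →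
      ∀ δ ∈ inndiagPOmegaPlus 4 F, α * δ * α⁻¹ ∈ inndiagPOmegaPlus 4 F :=
    fun α hα δ hδ => semi_conj_inndiag hm3 α hα δ hδ
  exact normal_of_tri (inndiagPOmegaPlus 4 F) (Inn (POmega F (quadFormPlus 4 F)))
    (Oct.semiSub (Helper43.plusQF 4 F)) hID θ γ s t hP hγP htri hF1 hF2 hsD htD hcos a h hh

/-- **`Inndiag(PΩ⁺₂ₘ(q))` is normal in the automorphism group** -/
theorem inndiag_plus_normal (hm : 4 ≤ m) (a h : MulAut (POmega F (quadFormPlus m F)))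
    (hh : h ∈ inndiagPOmegaPlus m F) : a * h * a⁻¹ ∈ inndiagPOmegaPlus m F := by
  have hm3 : 3 ≤ m := by omega
  by_cases h4 : m = 4
  · subst h4
    by_cases h2 : ringChar F = 2
    · exact inn_le_inndiag_plus hm3
        ((innNormal (POmega F (quadFormPlus 4 F))).conj_mem h
          (inndiag_plus_le_inn_char2 hm3 h2 h hh) a)
    · have hodd : Odd (Fintype.card F) := by
        rw [Nat.odd_iff]
        exact FiniteField.odd_card_of_char_ne_two h2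
      exact plus8_inndiag_normal hodd a h hh
  · have htop := Oct.semiSub_top (F := F) m (by omega)
    exact semi_conj_inndiag hm3 a (by rw [htop]; trivial) h hh

end Normal

section Cent

variable {F : Type u} [Field F] [Fintype F] {F₀ : Type v} [Field F₀] [Fintype F₀] {m : ℕ}

/-- conjugating by `δ` or by `δ c⁻¹` is the same when `c` commutes with `x` -/
theorem conj_eq_of_comm' {X : Type*} [Group X] (δ c x : X) (hc : c * x = x * c) :
    δ * x * δ⁻¹ = (δ * c⁻¹) * x * (δ * c⁻¹)⁻¹ := by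
  have h : c⁻¹ * x * c = x := by
    rw [mul_assoc, ← hc, inv_mul_cancel_left]
  calc δ * x * δ⁻¹ = δ * (c⁻¹ * x * c) * δ⁻¹ := by rw [h]
    _ = (δ * c⁻¹) * x * (δ * c⁻¹)⁻¹ := by group

/-- the matrix of a reflection in a vector fixed by a field automorphism is fixed -/
theorem reflO_map_fixed (σ : RingAut F) (w : Fin m ⊕ Fin m → F)
    (hw : Helper43.plusQF m F w ≠ 0) (hσw : fvec σ w = w) :
    (((Helper45.reflO (Helper43.plusQF m F) w hw :
      ↥(isometryGroup F ⇑(Helper43.plusQF m F))) : GL (Fin m ⊕ Fin m) F) :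
        Matrix (Fin m ⊕ Fin m) (Fin m ⊕ Fin m) F).map σ
    = (((Helper45.reflO (Helper43.plusQF m F) w hw :
      ↥(isometryGroup F ⇑(Helper43.plusQF m F))) : GL (Fin m ⊕ Fin m) F) :
        Matrix (Fin m ⊕ Fin m) (Fin m ⊕ Fin m) F) := by
  have h := refl_comm_semi (Helper43.plusQF m F) σ 1 1 one_ne_zero (fun v => by
    rw [Matrix.one_mulVec, one_mul]
    exact qplus_fvec σ v) w hw 1 one_ne_zero (by rw [Matrix.one_mulVec, one_smul, hσw])
  rw [Matrix.mul_one, Matrix.one_mul] at h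
  exact h.symm

/-- PIECE S1: a field automorphism of odd order: the class does not split -/
theorem plus_field_split_odd (hm : 3 ≤ m) (hodd : Odd (Fintype.card F)) (σ : RingAut F) (r : ℕ)
    (hr : orderOf σ = r) (hrodd : Odd r) (ι : F₀ →+* F)
    (hι : ∀ x, σ x = x ↔ x ∈ Set.range ι) :
    splitClassCount (inndiagPOmegaPlus m F) (Inn (POmega F (quadFormPlus m F))) (pF m σ) = 1 := by
  have hR := plus_reflGroup_top (F := F) hm
  have h2 : (2 : F) ≠ 0 := Helper45.two_ne_zero_of_odd_card hodd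
  have h2₀ : (2 : F₀) ≠ 0 := by
    intro h
    apply h2
    have h3 := congrArg ι h
    rwa [map_ofNat, map_zero] at h3
  obtain ⟨ε₀, hε₀⟩ := FiniteField.exists_nonsquare (Helper45.ringChar_ne_two h2₀)
  have hε : ¬ IsSquare (ι ε₀) := not_isSquare_iota_of_odd σ r hr hrodd ι hι ε₀ hε₀
  have hε0 : ι ε₀ ≠ 0 := by
    intro h
    exact hε ⟨0, by rw [h, mul_zero]⟩
  have hσε : σ (ι ε₀) = ι ε₀ := (hι _).mpr ⟨ε₀, rfl⟩
  obtain ⟨n, rfl⟩ : ∃ n, m = n + 1 := ⟨m - 1, by omega⟩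
  obtain ⟨a, ha⟩ : ∃ a : Fin (n + 1) ⊕ Fin (n + 1) → F,
      a = Pi.single (Sum.inl 0) 1 + Pi.single (Sum.inr 0) 1 := ⟨_, rfl⟩
  obtain ⟨b, hb⟩ : ∃ b : Fin (n + 1) ⊕ Fin (n + 1) → F,
      b = Pi.single (Sum.inl 0) (ι ε₀) + Pi.single (Sum.inr 0) 1 := ⟨_, rfl⟩
  have hqa : Helper43.plusQF (n + 1) F a = 1 := by
    rw [ha]
    exact qplus_u0 n
  have hqb : Helper43.plusQF (n + 1) F b = ι ε₀ := by
    rw [hb]
    show quadFormPlus (n + 1) F _ = _
    unfold quadFormPlus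
    rw [Finset.sum_eq_single (0 : Fin (n + 1))]
    · simp
    · intro i _ hi
      simp [Pi.single_apply, hi]
    · intro h
      exact absurd (Finset.mem_univ _) h
  have hσa : fvec σ a = a := by
    rw [ha]
    funext i
    rcases i with i | i <;>
      simp [fvec, Pi.single_apply, apply_ite σ]
  have hσb : fvec σ b = b := by
    rw [hb]
    funext i
    rcases i with i | i <;>
      simp [fvec, Pi.single_apply, apply_ite σ, hσε]
  have hqa0 : Helper43.plusQF (n + 1) F a ≠ 0 := by rw [hqa]; exact one_ne_zero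
  have hqb0 : Helper43.plusQF (n + 1) F b ≠ 0 := by rw [hqb]; exact hε0
  have hab : ¬ IsSquare (Helper43.plusQF (n + 1) F a * Helper43.plusQF (n + 1) F b) := by
    rw [hqa, hqb, one_mul]
    exact hε
  obtain ⟨ρ, hρ⟩ : ∃ ρ : ↥(isometryGroup F ⇑(Helper43.plusQF (n + 1) F)),
      ρ = Helper45.reflO (Helper43.plusQF (n + 1) F) a hqa0 *
        Helper45.reflO (Helper43.plusQF (n + 1) F) b hqb0 := ⟨_, rfl⟩
  have hρP : (ρ : GL (Fin (n + 1) ⊕ Fin (n + 1)) F) ∈ pscpGrp hR := by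
    refine ⟨Helper45.iso_le_sim _ ρ.2, ?_⟩
    rw [hρ]
    exact psc_pair hm a b hqa0 hqb0
  have hDP : DcGL (n + 1) (ι ε₀) hε0 ∈ pscpGrp hR := ⟨DcGL_sim _ _, psc_DcGL hm _ _⟩
  obtain ⟨s, hs⟩ : ∃ s, s = pscpD hR ⟨(ρ : GL (Fin (n + 1) ⊕ Fin (n + 1)) F), hρP⟩ := ⟨_, rfl⟩
  obtain ⟨t, ht⟩ : ∃ t, t = pscpD hR ⟨DcGL (n + 1) (ι ε₀) hε0, hDP⟩ := ⟨_, rfl⟩
  have hsI : Helper45.Ind (quadFormPlus (n + 1) F) (ρ : GL (Fin (n + 1) ⊕ Fin (n + 1)) F) s := by
    rw [hs]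
    exact (Helper45.OO.semi_ind_iff _ _ _ (semi_of_mem _ _ hρP.1) _).mpr rfl
  have htI : Helper45.Ind (quadFormPlus (n + 1) F) (DcGL (n + 1) (ι ε₀) hε0) t := by
    rw [ht]
    exact (Helper45.OO.semi_ind_iff _ _ _ (semi_of_mem _ _ hDP.1) _).mpr rfl
  have hρσ : (((ρ : GL (Fin (n + 1) ⊕ Fin (n + 1)) F) :
      Matrix (Fin (n + 1) ⊕ Fin (n + 1)) (Fin (n + 1) ⊕ Fin (n + 1)) F)).map σ
      = ((ρ : GL (Fin (n + 1) ⊕ Fin (n + 1)) F) :
      Matrix (Fin (n + 1) ⊕ Fin (n + 1)) (Fin (n + 1) ⊕ Fin (n + 1)) F) := by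
    rw [hρ]
    show ((((Helper45.reflO (Helper43.plusQF (n + 1) F) a hqa0 :
      ↥(isometryGroup F ⇑(Helper43.plusQF (n + 1) F))) : GL (Fin (n + 1) ⊕ Fin (n + 1)) F) :
        Matrix (Fin (n + 1) ⊕ Fin (n + 1)) (Fin (n + 1) ⊕ Fin (n + 1)) F) *
      (((Helper45.reflO (Helper43.plusQF (n + 1) F) b hqb0 :
      ↥(isometryGroup F ⇑(Helper43.plusQF (n + 1) F))) : GL (Fin (n + 1) ⊕ Fin (n + 1)) F) :
        Matrix (Fin (n + 1) ⊕ Fin (n + 1)) (Fin (n + 1) ⊕ Fin (n + 1)) F)).map σ = _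
    rw [gmat_map_mul, reflO_map_fixed σ a hqa0 hσa, reflO_map_fixed σ b hqb0 hσb]
    rfl
  have hsx : s * pF (n + 1) σ = pF (n + 1) σ * s := by
    rw [hs]
    exact plus_fixed_comm hR σ ⟨(ρ : GL (Fin (n + 1) ⊕ Fin (n + 1)) F), hρP⟩ hρσ
  have htx : t * pF (n + 1) σ = pF (n + 1) σ * t := by
    rw [ht]
    apply plus_fixed_comm hR σ
    show (Dc (n + 1) (ι ε₀)).map σ = Dc (n + 1) (ι ε₀)
    rw [Dc_map, hσε]
  have hstx : (s * t) * pF (n + 1) σ = pF (n + 1) σ * (s * t) := by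
    rw [mul_assoc, htx, ← mul_assoc, hsx, mul_assoc]
  apply splitCount_one_of_forall
  intro δ hδ
  rcases inndiag_plus_cosets hm hodd (ι ε₀) hε0 hε a b hqa0 hqb0 hab s t
    (by rw [← hρ]; exact hsI) htI δ hδ with h | h | h | h
  · exact ⟨δ, h, rfl⟩
  · exact ⟨δ * s⁻¹, h, conj_eq_of_comm' δ s _ hsx⟩
  · exact ⟨δ * t⁻¹, h, conj_eq_of_comm' δ t _ htx⟩
  · exact ⟨δ * (s * t)⁻¹, h, conj_eq_of_comm' δ (s * t) _ hstx⟩

/-- **the centraliser of the standard field automorphism in `Inndiag(PΩ⁺₂ₘ(q))`** -/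
theorem plus_centralizer_iso (hm : 3 ≤ m) (σ : RingAut F) (r : ℕ) (hr : orderOf σ = r)
    (hr0 : 0 < r) (ι : F₀ →+* F) (hι : ∀ x, σ x = x ↔ x ∈ Set.range ι) :
    Nonempty (↥(inndiagPOmegaPlus m F ⊓ Subgroup.centralizer {pF m σ})
      ≃* ↥(inndiagPOmegaPlus m F₀)) := by
  have hR := plus_reflGroup_top (F := F) hm
  have hR₀ := plus_reflGroup_top (F := F₀) hm
  obtain ⟨e1⟩ := centralizer_iso_gen (pscpD hR) (inndiagPOmegaPlus m F) (pscpD_range hR)
    (pscpTh hR₀ hR ι) (pF m σ)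
    (fun γ => plus_fixed_comm hR σ _ (by
      rw [pscpTh_coe]
      ext i j
      exact (hι _).mpr ⟨_, rfl⟩))
    (fun g hg => plus_comm_descend hm hR₀ hR σ r hr hr0 ι hι g hg)
    (pscpD hR₀).ker (fun γ => pscpTh_ker hm hR₀ hR ι γ)
  have e2 : (↥(pscpGrp hR₀) ⧸ (pscpD hR₀).ker) ≃* ↥(inndiagPOmegaPlus m F₀) :=
    (QuotientGroup.quotientKerEquivRange (pscpD hR₀)).trans
      (MulEquiv.subgroupCongr (pscpD_range hR₀))
  exact ⟨e1.trans e2⟩

/-- the square of an odd number is `1` modulo `4` -/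
theorem sq_mod_four_of_odd (n : ℕ) (hn : Odd n) : n ^ 2 % 4 = 1 := by
  obtain ⟨k, rfl⟩ := hn
  have : (2 * k + 1) ^ 2 = 4 * (k * k + k) + 1 := by ring
  rw [this]
  omega

/-- `[Inndiag : Inn] = 4` when `q ≡ 1 (mod 4)` -/
theorem plus_relIndex_four (hm : 4 ≤ m) (hodd : Odd (Fintype.card F))
    (h41 : Fintype.card F % 4 = 1) :
    (Inn (POmega F (quadFormPlus m F))).relIndex (inndiagPOmegaPlus m F) = 4 := by
  obtain ⟨-, hB, hC⟩ := Helper45.ID.inndiag_plus_mod_inn (F := F) (m := m) hodd hm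
  rcases Nat.even_or_odd m with he | ho
  · obtain ⟨φD, hs, hk⟩ := hC he
    rw [Oct.relIndex_of_surj _ _ φD hs hk, Nat.card_eq_fintype_card]
    rfl
  · obtain ⟨φD, hs, hk⟩ := hB ⟨ho, h41⟩
    rw [Oct.relIndex_of_surj _ _ φD hs hk, Nat.card_eq_fintype_card]
    rfl

set_option maxHeartbeats 1600000 in
/-- the centraliser of the standard field automorphism of order two in `Inndiag`, modulo `Inn` -/
theorem plus_cent_quadratic (hm : 3 ≤ m) (hodd : Odd (Fintype.card F)) (p f : ℕ) [Fact p.Prime]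
    (hF : Fintype.card F = p ^ f) (hF₀ : Fintype.card F₀ = p ^ (f / 2)) (h2f : 2 ∣ f)
    (σ : RingAut F) (hσ : orderOf σ = 2) (ι : F₀ →+* F)
    (hι : ∀ x, σ x = x ↔ x ∈ Set.range ι) :
    ∃ c ∈ inndiagPOmegaPlus m F, c * pF m σ = pF m σ * c ∧
      (c ∈ Inn (POmega F (quadFormPlus m F)) ↔ ¬ (Odd m ∧ Fintype.card F₀ % 4 = 1)) ∧
      ∀ c' ∈ inndiagPOmegaPlus m F, c' * pF m σ = pF m σ * c' →
        c' ∈ Inn (POmega F (quadFormPlus m F)) ∨
          c' * c⁻¹ ∈ Inn (POmega F (quadFormPlus m F)) := by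
  have h2 : (2 : F) ≠ 0 := Helper45.two_ne_zero_of_odd_card hodd
  have h2₀ : (2 : F₀) ≠ 0 := two_ne_zero_sub h2 ι
  have hR := plus_reflGroup_top (F := F) hm
  have hR₀ := plus_reflGroup_top (F := F₀) hm
  have hsq : ∀ c : F₀, IsSquare (ι c) := isSquare_iota_of_two p f hF hodd hF₀ h2f ι
  obtain ⟨ε₀, hε₀⟩ := FiniteField.exists_nonsquare (Helper45.ringChar_ne_two h2₀)
  have hε₀0 : ε₀ ≠ 0 := by
    rintro rfl
    exact hε₀ ⟨0, by simp⟩
  obtain ⟨ω, hω⟩ := hsq ε₀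
  have hω0 : ω ≠ 0 := by
    rintro rfl
    rw [mul_zero] at hω
    exact hε₀0 ((map_eq_zero ι).mp hω)
  obtain ⟨d₀, hd₀⟩ : ∃ d₀ : ↥(pscpGrp hR₀),
      d₀ = ⟨DcGL m ε₀ hε₀0, DcGL_sim ε₀ hε₀0, psc_DcGL hm ε₀ hε₀0⟩ := ⟨_, rfl⟩
  obtain ⟨c, hc⟩ : ∃ c, c = pscpD hR (pscpTh hR₀ hR ι d₀) := ⟨_, rfl⟩
  have hcD : c ∈ inndiagPOmegaPlus m F := by
    rw [hc]
    exact (mem_inndiag_plus hR _).mpr ⟨_, rfl⟩
  have hfixTh : ∀ γ : ↥(pscpGrp hR₀), pscpD hR (pscpTh hR₀ hR ι γ) * pF m σ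
      = pF m σ * pscpD hR (pscpTh hR₀ hR ι γ) := fun γ => plus_fixed_comm hR σ _ (by
    rw [pscpTh_coe]
    ext i j
    exact (hι _).mpr ⟨_, rfl⟩)
  have hcx : c * pF m σ = pF m σ * c := by
    rw [hc]
    exact hfixTh d₀
  have hmat : ((pscpTh hR₀ hR ι d₀ : ↥(pscpGrp hR)) : GL (Fin m ⊕ Fin m) F)
      = DcGL m (ω * ω) (mul_ne_zero hω0 hω0) := by
    apply Units.ext
    rw [pscpTh_coe, hd₀, DcGL_coe]
    show (Dc m ε₀).map ι = Dc m (ω * ω)
    rw [← hω]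
    ext i j
    unfold Dc
    rcases i with i | i <;> rcases j with j | j <;>
      simp [Matrix.map_apply, Matrix.diagonal_apply, apply_ite ι]
  have hcI : Helper45.Ind (quadFormPlus m F) (DcGL m (ω * ω) (mul_ne_zero hω0 hω0)) c := by
    rw [← hmat, hc, pscpD_apply]
    exact (Helper45.OO.semi_ind_iff _ _ (RingEquiv.refl F) _ _).mpr rfl
  have hodd₀ : Odd (Fintype.card F₀) := by
    rw [Nat.odd_iff]
    exact FiniteField.odd_card_of_char_ne_two (Helper45.ringChar_ne_two h2₀)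
  have hcardsq : Fintype.card F = Fintype.card F₀ ^ 2 := by
    obtain ⟨k, rfl⟩ := h2f
    rw [hF, hF₀, Nat.mul_div_cancel_left k (by norm_num), ← pow_mul, mul_comm]
  have hcard4 : Fintype.card F % 4 = 1 := by
    rw [hcardsq]
    exact sq_mod_four_of_odd _ hodd₀
  have hneg : Helper45.negO (Helper43.plusQF m F) ∈ Omega F ⇑(Helper43.plusQF m F) := by
    have h5 := (Helper45.negO_plus_mem_iff (F := F) (m := m) hodd h2 (by omega)).mpr (by
      rw [Nat.pow_mod, hcard4]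
      simp)
    exact h5
  have hSB := Dc_sq_inn_iff hm hodd hneg ω hω0 c hcI
  have hSC := sqrt_nonsquare_isSquare_iff hodd₀ hcardsq ι ε₀ hε₀ ω hω.symm
  have h4 : Fintype.card F₀ % 4 = 1 ∨ Fintype.card F₀ % 4 = 3 := by
    obtain ⟨k, hk⟩ := hodd₀
    omega
  refine ⟨c, hcD, hcx, ?_, ?_⟩
  · rw [hSB]
    constructor
    · rintro ⟨z, hz⟩ ⟨hmo, h41⟩
      obtain ⟨k, hk⟩ := hmo
      have hωk : ω ^ k ≠ 0 := pow_ne_zero _ hω0
      have hsqω : IsSquare ω := by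
        refine ⟨z * (ω ^ k)⁻¹, ?_⟩
        have h5 : ω ^ m = ω * (ω ^ k * ω ^ k) := by
          rw [hk]
          ring
        rw [h5] at hz
        field_simp
        linear_combination hz
      have := hSC.mp hsqω
      omega
    · intro hn
      by_cases hmo : Odd m
      · have h43 : Fintype.card F₀ % 4 = 3 := by
          rcases h4 with h | h
          · exact absurd ⟨hmo, h⟩ hn
          · exact h
        obtain ⟨z, hz⟩ := hSC.mpr h43
        exact ⟨z ^ m, by rw [hz, mul_pow]⟩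
      · obtain ⟨k, hk⟩ := Nat.not_odd_iff_even.mp hmo
        exact ⟨ω ^ k, by rw [hk, pow_add]⟩
  · intro c' hc'D hc'x
    obtain ⟨g, rfl⟩ := (mem_inndiag_plus hR c').mp hc'D
    obtain ⟨γ, hγ⟩ := plus_comm_descend hm hR₀ hR σ 2 hσ (by norm_num) ι hι g hc'x
    rw [hγ]
    obtain ⟨μ, hμ⟩ := id γ.2.1
    by_cases hsqμ : IsSquare (μ : F₀)
    · left
      obtain ⟨c₁, hc₁⟩ := hsqμ
      have hc₁0 : c₁ ≠ 0 := by
        rintro rfl
        rw [mul_zero] at hc₁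
        exact μ.ne_zero hc₁
      exact plus_rat_sq_inn hm hodd hR₀ hR ι hsq γ c₁ hc₁0 (fun v => by
        rw [← hc₁]
        exact hμ v)
    · right
      have hε₀inv : ¬ IsSquare ε₀⁻¹ := by
        rintro ⟨z, hz⟩
        apply hε₀
        exact ⟨z⁻¹, by rw [← mul_inv, ← hz, inv_inv]⟩
      obtain ⟨c₁, hc₁⟩ := Helper45.isSquare_mul_of_not h2₀ hsqμ hε₀inv
      have hc₁0 : c₁ ≠ 0 := by
        rintro rfl
        rw [mul_zero] at hc₁
        exact (mul_ne_zero μ.ne_zero (inv_ne_zero hε₀0)) hc₁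
      have hγ' := plus_rat_sq_inn hm hodd hR₀ hR ι hsq (γ * d₀⁻¹) c₁ hc₁0 (fun v => by
        rw [← hc₁]
        have e : (((γ * d₀⁻¹ : ↥(pscpGrp hR₀)) : GL (Fin m ⊕ Fin m) F₀) :
            Matrix (Fin m ⊕ Fin m) (Fin m ⊕ Fin m) F₀)
            = ((γ : GL (Fin m ⊕ Fin m) F₀) : Matrix (Fin m ⊕ Fin m) (Fin m ⊕ Fin m) F₀)
              * Dc m ε₀⁻¹ := by
          rw [hd₀]
          rfl
        rw [e, ← Matrix.mulVec_mulVec, hμ, Dc_quad, mul_assoc])
      rw [map_mul, map_mul, map_inv, map_inv] at hγ'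
      rw [hc]
      exact hγ'

end Cent

section Main

variable {F : Type u} [Field F] [Fintype F] {m : ℕ}

set_option maxHeartbeats 1600000 in
/-- **field automorphisms of prime order of `PΩ⁺₂ₘ(q)`** -/
theorem plus_field_class (p f : ℕ) [Fact p.Prime] (hF : Fintype.card F = p ^ f) (hf : 1 ≤ f)
    (hm : 4 ≤ m) (x : MulAut (POmega F (quadFormPlus m F)))
    (hx : IsFieldAutClassPOmega (quadFormPlus m F) x) (r : ℕ) (hr : r.Prime)
    (hxr : orderOf x = r) (F₀ : Type v) [Field F₀] [Fintype F₀]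
    (hF₀ : Fintype.card F₀ = p ^ (f / r)) :
    r ∣ f ∧
      Nonempty (↥(inndiagPOmegaPlus m F ⊓ Subgroup.centralizer {x})
        ≃* ↥(inndiagPOmegaPlus m F₀)) ∧
      ((Odd r ∨ p = 2) → splitClassCount (inndiagPOmegaPlus m F)
        (Inn (POmega F (quadFormPlus m F))) x = 1) ∧
      ((r = 2 ∧ p ≠ 2 ∧ Odd m ∧ p ^ (f / 2) % 4 = 1) → splitClassCount (inndiagPOmegaPlus m F)
        (Inn (POmega F (quadFormPlus m F))) x = 2) ∧
      ((r = 2 ∧ p ≠ 2 ∧ ¬ (Odd m ∧ p ^ (f / 2) % 4 = 1)) →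
        splitClassCount (inndiagPOmegaPlus m F) (Inn (POmega F (quadFormPlus m F))) x = 4) := by
  have hm3 : 3 ≤ m := by omega
  obtain ⟨α, φ, σ, hσ, hφ, hα⟩ := hx
  rw [pF_of_std σ φ hφ] at hα
  have hσr : orderOf (σ : RingAut F) = r := by
    rw [← orderOf_pF hm3 σ, ← hα, Helper44.PSLn.lang_orderOf_conj, hxr]
  have hx' : x = α⁻¹ * pF m σ * α⁻¹⁻¹ := by
    rw [← hα]
    group
  have hrf := (Helper44.PSLn.lang_card_fix p f hF σ r hσr hr.pos).1
  have hN : ∀ (a : MulAut (POmega F (quadFormPlus m F))), ∀ h ∈ inndiagPOmegaPlus m F,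
      a * h * a⁻¹ ∈ inndiagPOmegaPlus m F := fun a h hh => inndiag_plus_normal hm a h hh
  have hH : ∀ h ∈ inndiagPOmegaPlus m F, α⁻¹ * h * α⁻¹⁻¹ ∈ inndiagPOmegaPlus m F :=
    fun h hh => hN α⁻¹ h hh
  have hH' : ∀ h ∈ inndiagPOmegaPlus m F, α⁻¹⁻¹ * h * α⁻¹ ∈ inndiagPOmegaPlus m F := by
    intro h hh
    have h1 := hN α⁻¹⁻¹ h hh
    rwa [inv_inv] at h1 ⊢
  have hK : ∀ k ∈ Inn (POmega F (quadFormPlus m F)),
      α⁻¹ * k * α⁻¹⁻¹ ∈ Inn (POmega F (quadFormPlus m F)) :=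
    fun k hk => (innNormal (POmega F (quadFormPlus m F))).conj_mem k hk α⁻¹
  have hK' : ∀ k ∈ Inn (POmega F (quadFormPlus m F)),
      α⁻¹⁻¹ * k * α⁻¹ ∈ Inn (POmega F (quadFormPlus m F)) := by
    intro k hk
    have h1 := (innNormal (POmega F (quadFormPlus m F))).conj_mem k hk α⁻¹⁻¹
    rwa [inv_inv] at h1 ⊢
  obtain ⟨ι, hι⟩ := Helper44.PSLn.lang_exists_embedding p f hF σ r hσr hr.pos F₀ hF₀
  have hKH : Inn (POmega F (quadFormPlus m F)) ≤ inndiagPOmegaPlus m F :=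
    inn_le_inndiag_plus hm3
  have hNK : ∀ h ∈ inndiagPOmegaPlus m F, ∀ k ∈ Inn (POmega F (quadFormPlus m F)),
      h * k * h⁻¹ ∈ Inn (POmega F (quadFormPlus m F)) :=
    fun h _ k hk => (innNormal (POmega F (quadFormPlus m F))).conj_mem k hk h
  refine ⟨hrf, ?_, ?_, ?_, ?_⟩
  · obtain ⟨e1⟩ := Helper44.PSpn.centralizer_conj_iso (inndiagPOmegaPlus m F) α⁻¹ hH hH' (pF m σ)
    obtain ⟨e2⟩ := plus_centralizer_iso (F₀ := F₀) hm3 σ r hσr hr.pos ι hι
    rw [hx']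
    exact ⟨e1.trans e2⟩
  · intro hor
    rw [hx', Helper44.PSpn.splitCount_conj _ _ α⁻¹ hH hH' hK hK' (pF m σ)]
    by_cases h2 : ringChar F = 2
    · exact splitCount_one_of_forall _ _ _
        (fun δ hδ => ⟨δ, inndiag_plus_le_inn_char2 hm3 h2 δ hδ, rfl⟩)
    · have hodd : Odd (Fintype.card F) := by
        rw [Nat.odd_iff]
        exact FiniteField.odd_card_of_char_ne_two h2
      have hrodd : Odd r := by
        rcases hor with h | h
        · exact h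
        · exfalso
          subst h
          rw [hF] at hodd
          exact (Nat.not_even_iff_odd.mpr hodd) ((Nat.even_pow).mpr ⟨even_two, by omega⟩)
      exact plus_field_split_odd hm3 hodd σ r hσr hrodd ι hι
  · rintro ⟨rfl, hp2, hmo, h41⟩
    rw [hx', Helper44.PSpn.splitCount_conj _ _ α⁻¹ hH hH' hK hK' (pF m σ)]
    have hodd : Odd (Fintype.card F) := by
      rw [hF]
      exact ((Fact.out : p.Prime).odd_of_ne_two hp2).pow
    obtain ⟨c, hcD, hcx, hcI, hall⟩ := plus_cent_quadratic hm3 hodd p f hF hF₀ hrf σ hσr ι hι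
    have hodd₀ : Odd (Fintype.card F₀) := by
      rw [hF₀]
      exact ((Fact.out : p.Prime).odd_of_ne_two hp2).pow
    have hcard4 : Fintype.card F % 4 = 1 := by
      obtain ⟨k, rfl⟩ := hrf
      rw [Nat.mul_div_cancel_left k (by norm_num)] at hF₀
      rw [hF, mul_comm, pow_mul, ← hF₀]
      exact sq_mod_four_of_odd _ hodd₀
    have hcK : c ∉ Inn (POmega F (quadFormPlus m F)) := by
      rw [hcI, hF₀]
      exact not_not.mpr ⟨hmo, h41⟩
    exact splitCount_two_of_four _ _ hKH hNK (plus_relIndex_four hm hodd hcard4) (pF m σ) c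
      hcD hcx hcK hall
  · rintro ⟨rfl, hp2, hn⟩
    rw [hx', Helper44.PSpn.splitCount_conj _ _ α⁻¹ hH hH' hK hK' (pF m σ)]
    have hodd : Odd (Fintype.card F) := by
      rw [hF]
      exact ((Fact.out : p.Prime).odd_of_ne_two hp2).pow
    obtain ⟨c, hcD, hcx, hcI, hall⟩ := plus_cent_quadratic hm3 hodd p f hF hF₀ hrf σ hσr ι hι
    have hodd₀ : Odd (Fintype.card F₀) := by
      rw [hF₀]
      exact ((Fact.out : p.Prime).odd_of_ne_two hp2).pow
    have hcard4 : Fintype.card F % 4 = 1 := by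
      obtain ⟨k, rfl⟩ := hrf
      rw [Nat.mul_div_cancel_left k (by norm_num)] at hF₀
      rw [hF, mul_comm, pow_mul, ← hF₀]
      exact sq_mod_four_of_odd _ hodd₀
    have hcK : c ∈ Inn (POmega F (quadFormPlus m F)) := hcI.mpr (by rw [hF₀]; exact hn)
    rw [splitCount_eq_relIndex _ _ hKH hNK (pF m σ) (fun c' hc'D hc'x => by
      rcases hall c' hc'D hc'x with h | h
      · exact h
      · have h5 := (Inn (POmega F (quadFormPlus m F))).mul_mem h hcK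
        rwa [inv_mul_cancel_right] at h5)]
    exact plus_relIndex_four hm hodd hcard4

end Main

end Cfsg.Agent.Helper45.Fld
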