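import Cfsg.Agent.Helper45.FldA

set_option autoImplicit false
set_option linter.unusedSectionVars false
set_option linter.unusedSimpArgs false
set_option linter.unusedVariables false
set_option linter.style.haveILetI false
set_option linter.unreachableTactic false
set_option linter.unusedTactic false

/-!
Helper library (helper45), field automorphisms of `PΩ⁺`, part C: triality conjugates the
automorphism induced by a product of two reflections to left multiplication by an invertible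
octonion, and the diagonal similarity `diag(ε, 1)` is such a left multiplication.
-/

universe u v

namespace Cfsg.Agent.Helper45.Fld

open Matrix Cfsg
open Cfsg.Agent.Helper45.AO Cfsg.Agent.Helper45.OO
open Cfsg.Agent.Helper44.POm
open Cfsg.Agent.Helper45.Oct

section Oct8

variable {F : Type u} [Field F] [Fintype F] (Q : QuadraticForm F (Fin 4 ⊕ Fin 4 → F))
  (hq : ⇑Q = quadFormPlus 4 F)

include hq in
/-- right multiplication by an invertible octonion, as a similarity -/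
theorem exists_rmul (hQ : (QuadraticMap.polarBilin Q).Nondegenerate)
    (a : Fin 4 ⊕ Fin 4 → F) (ha : Q a ≠ 0) :
    ∃ (g : GL (Fin 4 ⊕ Fin 4) F) (hg : IsSemisimilarityPair ⇑Q g (RingEquiv.refl F)),
      ∀ x, semiMap g (RingEquiv.refl F) x = om x a := by
  have hS : SS Q (fun x => om x a) (RingEquiv.refl F) (Q a) :=
    ⟨fun x y => om_add_left x y a, fun t x => om_smul_left t x a, fun x => by
      show Q (om x a) = Q a * Q x
      rw [hq, nm_om, mul_comm], ha⟩
  obtain ⟨g, hg, h⟩ := exists_pair_of_SS Q hQ hS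
  exact ⟨g, hg, h⟩

include hq in
/-- PIECE N2a: **triality conjugates the automorphism induced by the product of two reflections
to left multiplication by an invertible octonion** -/
theorem theta_conj_lmul (hQ : (QuadraticMap.polarBilin Q).Nondegenerate)
    (θ : MulAut (POmega F ⇑Q))
    (hθ : ∀ (g₁ g₂ : ↥(Omega F ⇑Q)) (g₃ : ↥(isometryGroup F ⇑Q)),
      Tri Q (g₁ : ↥(isometryGroup F ⇑Q)) (g₂ : ↥(isometryGroup F ⇑Q)) g₃ →
        θ (QuotientGroup.mk g₁) = QuotientGroup.mk g₂)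
    (a : Fin 4 ⊕ Fin 4 → F) (ha : Q a ≠ 0) (β : MulAut (POmega F ⇑Q))
    (hβ : Helper45.Ind ⇑Q ((Helper45.reflO Q a ha * Helper45.reflO Q one8 (q_one8_ne Q hq) :
      ↥(isometryGroup F ⇑Q)) : GL (Fin 4 ⊕ Fin 4) F) β)
    (g : GL (Fin 4 ⊕ Fin 4) F) (hg : IsSemisimilarityPair ⇑Q g (RingEquiv.refl F))
    (hga : ∀ x, semiMap g (RingEquiv.refl F) x = om a x) :
    θ * β = semiAut ⇑Q g (RingEquiv.refl F) hg * θ := by
  obtain ⟨g', hg', hga'⟩ := exists_rmul Q hq hQ a ha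
  obtain ⟨ρ, hρ⟩ : ∃ ρ : ↥(isometryGroup F ⇑Q),
      ρ = Helper45.reflO Q a ha * Helper45.reflO Q one8 (q_one8_ne Q hq) := ⟨_, rfl⟩
  rw [← hρ] at hβ
  have hρx : ∀ x, Helper45.mv ⇑Q ρ x = (Q a)⁻¹ • om a (om x a) := by
    rw [hρ]; exact mv_refl_one Q hq a ha
  have key : ∀ x y, om (om a x) (om y a) = Q a • Helper45.mv ⇑Q ρ (om x y) := by
    intro x y
    rw [hρx, smul_smul, mul_inv_cancel₀ ha, one_smul, moufang_mid]
  ext t
  obtain ⟨g₁, rfl⟩ := QuotientGroup.mk_surjective t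
  obtain ⟨g₂, g₃, htri⟩ := exists_tri_omega Q hq hQ g₁
  rw [MulAut.mul_apply, MulAut.mul_apply, hθ g₁ g₂ g₃ htri, semiAut_mk]
  have hmem : ρ * (g₁ : ↥(isometryGroup F ⇑Q)) * ρ⁻¹ ∈ Omega F ⇑Q :=
    (inferInstance : (Omega F ⇑Q).Normal).conj_mem _ g₁.2 ρ
  rw [(Helper45.ind_iff ⇑Q _ β).mp hβ g₁ ⟨ρ * g₁ * ρ⁻¹, hmem⟩ rfl]
  apply hθ _ _ (semiO ⇑Q g' (RingEquiv.refl F) hg' g₃)
  intro x y
  obtain ⟨x', rfl⟩ : ∃ x', semiMap g (RingEquiv.refl F) x' = x :=
    ⟨semiInv g _ x, semiMap_semiInv g _ x⟩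
  obtain ⟨y', rfl⟩ : ∃ y', semiMap g' (RingEquiv.refl F) y' = y :=
    ⟨semiInv g' _ y, semiMap_semiInv g' _ y⟩
  have e1 : Helper45.mv ⇑Q ((semiO ⇑Q g' (RingEquiv.refl F) hg' g₃ : ↥(isometryGroup F ⇑Q)))
      (semiMap g' (RingEquiv.refl F) y') =
        semiMap g' (RingEquiv.refl F) (Helper45.mv ⇑Q g₃ y') := by
    show (((semiO ⇑Q g' (RingEquiv.refl F) hg' g₃ : ↥(isometryGroup F ⇑Q)) :
      GL (Fin 4 ⊕ Fin 4) F) : Matrix _ _ F) *ᵥ semiMap g' (RingEquiv.refl F) y' =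
        semiMap g' (RingEquiv.refl F) ((((g₃ : ↥(isometryGroup F ⇑Q)) :
          GL (Fin 4 ⊕ Fin 4) F) : Matrix _ _ F) *ᵥ y')
    rw [semiMap_mulVec, semiO_coe]
  show Helper45.mv ⇑Q (ρ * (g₁ : ↥(isometryGroup F ⇑Q)) * ρ⁻¹)
      (om (semiMap g (RingEquiv.refl F) x') (semiMap g' (RingEquiv.refl F) y')) =
    om (Helper45.mv ⇑Q ((semiΩ ⇑Q g (RingEquiv.refl F) hg g₂ : ↥(Omega F ⇑Q)) :
        ↥(isometryGroup F ⇑Q)) (semiMap g (RingEquiv.refl F) x'))
      (Helper45.mv ⇑Q ((semiO ⇑Q g' (RingEquiv.refl F) hg' g₃ : ↥(isometryGroup F ⇑Q)))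
        (semiMap g' (RingEquiv.refl F) y'))
  rw [e1, mv_semiΩ, hga, hga', hga, hga', key, key, Helper45.mv_mul, Helper45.mv_mul,
    Helper45.mv_smul, Helper45.mv_smul, Helper45.mv_inv_cancel', htri x' y', Helper45.mv_smul]

/-- PIECE N2b: the diagonal similarity `diag(ε, 1)` is left multiplication by an octonion of
norm `ε` -/
theorem lmul_diag (ε : F) (x : Fin 4 ⊕ Fin 4 → F) :
    om (Pi.single (Sum.inl 0) ε + Pi.single (Sum.inr 0) 1) x = Dc 4 ε *ᵥ x ∧
    quadFormPlus 4 F (Pi.single (Sum.inl 0) ε + Pi.single (Sum.inr 0) 1) = ε := by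
  constructor
  · apply ext8 <;>
      simp [om_l0, om_l1, om_l2, om_l3, om_r0, om_r1, om_r2, om_r3, Dc_mulVec_inl,
        Dc_mulVec_inr, Pi.single_apply]
  · rw [nm_eq]
    simp [Pi.single_apply]

end Oct8

section N1

variable {F : Type u} [Field F] [Fintype F] {m : ℕ}

/-- the reflections generate the isometry group of the hyperbolic form in dimension `≥ 6` -/
theorem plus_reflGroup_top (hm : 3 ≤ m) : Helper45.reflGroup (Helper43.plusQF m F) = ⊤ :=
  Helper44.reflGroup_eq_top_of _ (Helper45.plusQF_nondeg' (F := F) m) (Or.inr (by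
    rw [Fintype.card_sum, Fintype.card_fin]
    omega))

/-- the automorphism induced by a class-preserving similarity lies in `Inndiag` -/
theorem ind_mem_inndiag (g : GL (Fin m ⊕ Fin m) F)
    (hg : g ∈ Geo.quadSimilarityGroup (F := F) (quadFormPlus m F))
    (hP : PreservesSingularClasses (quadFormPlus m F)
      (g : Matrix (Fin m ⊕ Fin m) (Fin m ⊕ Fin m) F))
    (β : MulAut (POmega F (quadFormPlus m F))) (hβ : Helper45.Ind (quadFormPlus m F) g β) :
    β ∈ inndiagPOmegaPlus m F :=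
  Subgroup.subset_closure ⟨g, hg, hP, hβ⟩

/-- a semisimilarity of the hyperbolic form is a similarity -/
theorem plus_semi_sim (g : GL (Fin m ⊕ Fin m) F) (σ : RingAut F)
    (hg : IsSemisimilarityPair (quadFormPlus m F) g σ) :
    g ∈ Geo.quadSimilarityGroup (F := F) (quadFormPlus m F) := by
  obtain ⟨c, hc⟩ := hg
  refine ⟨c, fun v => ?_⟩
  have h := hc (fvec σ⁻¹ v)
  have e : (fun i => σ (fvec σ⁻¹ v i)) = v := fvec_inv σ v
  rw [e, qplus_fvec] at h
  rw [h]
  congr 1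
  exact RingEquiv.apply_symm_apply σ _

/-- PIECE N1: the automorphisms induced by semisimilarities normalise `Inndiag(PΩ⁺)` -/
theorem semi_conj_inndiag (hm : 3 ≤ m)
    (α : MulAut (POmega F (quadFormPlus m F)))
    (hα : α ∈ Oct.semiSub (Helper43.plusQF m F))
    (δ : MulAut (POmega F (quadFormPlus m F))) (hδ : δ ∈ inndiagPOmegaPlus m F) :
    α * δ * α⁻¹ ∈ inndiagPOmegaPlus m F := by
  have hR := plus_reflGroup_top (F := F) hm
  have hα' : ∃ (g : GL (Fin m ⊕ Fin m) F) (σ : F ≃+* F)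
      (hg : IsSemisimilarityPair (quadFormPlus m F) g σ),
      α = semiAut (quadFormPlus m F) g σ hg := hα
  obtain ⟨g, σ, hg, rfl⟩ := hα'
  obtain ⟨d, rfl⟩ := (mem_inndiag_plus hR δ).mp hδ
  have gs : g ∈ Geo.quadSimilarityGroup (F := F) (quadFormPlus m F) := plus_semi_sim g σ hg
  have ds : (d : GL (Fin m ⊕ Fin m) F) ∈ Geo.quadSimilarityGroup (F := F) (quadFormPlus m F) :=
    d.2.1
  have dσs : glMap σ (d : GL (Fin m ⊕ Fin m) F)
      ∈ Geo.quadSimilarityGroup (F := F) (quadFormPlus m F) := by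
    have h := plus_semi_sim _ _ (semi_mul (quadFormPlus m F) (Oct.plus_field m σ)
      (semi_of_mem _ (d : GL (Fin m ⊕ Fin m) F) ds))
    rwa [one_mul] at h
  have ks : g * glMap σ (d : GL (Fin m ⊕ Fin m) F) * g⁻¹
      ∈ Geo.quadSimilarityGroup (F := F) (quadFormPlus m F) :=
    mul_mem (mul_mem gs dσs) (inv_mem gs)
  obtain ⟨v, hv⟩ := isCls_exists g gs
  obtain ⟨v', hv'⟩ := isCls_exists g⁻¹ (inv_mem gs)
  have h0 : IsCls m ((d : GL (Fin m ⊕ Fin m) F) : Matrix (Fin m ⊕ Fin m) (Fin m ⊕ Fin m) F) 0 := by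
    obtain ⟨w, hw⟩ := isCls_exists (d : GL (Fin m ⊕ Fin m) F) ds
    have h1 := (isCls_psc hR _ _ hw).mp d.2.2
    rw [h1] at hw
    exact hw
  have h1 := isCls_map σ _ _ h0
  have h2 := isCls_mul hR _ _ _ _ (isCls_mul hR _ _ _ _ hv h1) hv'
  have h3 := isCls_mul hR _ _ _ _ hv hv'
  rw [← Units.val_mul, mul_inv_cancel, Units.val_one] at h3
  have h4 := isCls_unique hR _ _ _ h3 isCls_one
  have kP : PreservesSingularClasses (quadFormPlus m F)
      ((g * glMap σ (d : GL (Fin m ⊕ Fin m) F) * g⁻¹ : GL (Fin m ⊕ Fin m) F) :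
        Matrix (Fin m ⊕ Fin m) (Fin m ⊕ Fin m) F) := by
    rw [Units.val_mul, Units.val_mul, glMap_coe]
    apply (isCls_psc hR _ _ h2).mpr
    rw [add_zero]
    exact h4
  apply ind_mem_inndiag _ ks kP
  apply (semi_ind_iff _ _ _ (semi_of_mem _ _ ks) _).mpr
  have e2 : (semiAut (quadFormPlus m F) g σ hg)⁻¹
      = semiAut (quadFormPlus m F) (glMap σ.symm g⁻¹) σ.symm (semi_inv (quadFormPlus m F) hg) :=
    Oct.semiAut_inv (Helper43.plusQF m F) g σ hg
  rw [pscpD_apply, semiAut_mul, e2, semiAut_mul]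
  apply semiAut_congr
  · rw [glMap_glMap]
    have e : ((σ * (RingEquiv.refl F : RingAut F) : RingAut F) * (σ.symm : RingAut F) : RingAut F)
        = (RingEquiv.refl F : RingAut F) := by
      ext x
      simp
    rw [e, glMap_refl]
  · ext x
    simp

end N1

section C6

variable {F : Type u} [Field F] [Fintype F] {F₀ : Type v} [Field F₀] [Fintype F₀] {m : ℕ}

/-- PIECE C6: the kernel of the action of the rational class-preserving similarities -/
theorem pscpTh_ker (hm : 3 ≤ m) (hR₀ : Helper45.reflGroup (Helper43.plusQF m F₀) = ⊤)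
    (hR : Helper45.reflGroup (Helper43.plusQF m F) = ⊤) (ι : F₀ →+* F)
    (γ : ↥(pscpGrp hR₀)) :
    γ ∈ (pscpD hR₀).ker ↔ pscpD hR (pscpTh hR₀ hR ι γ) = 1 := by
  rw [MonoidHom.mem_ker, pscpD_eq_one_iff hm hR₀, pscpD_eq_one_iff hm hR, pscpTh_coe]
  constructor
  · rintro ⟨c, hc⟩
    refine ⟨ι c, ?_⟩
    rw [hc]
    ext i j
    rw [Matrix.map_apply, Matrix.smul_apply, Matrix.smul_apply, Matrix.one_apply,
      Matrix.one_apply, smul_eq_mul, smul_eq_mul, map_mul]
    by_cases hij : i = j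
    · rw [if_pos hij, if_pos hij, map_one]
    · rw [if_neg hij, if_neg hij, map_zero]
  · rintro ⟨c, hc⟩
    obtain ⟨i0⟩ : Nonempty (Fin m ⊕ Fin m) := ⟨Sum.inl ⟨0, by omega⟩⟩
    refine ⟨((γ : GL (Fin m ⊕ Fin m) F₀) : Matrix (Fin m ⊕ Fin m) (Fin m ⊕ Fin m) F₀) i0 i0, ?_⟩
    ext i j
    apply ι.injective
    have hij := congrFun (congrFun hc i) j
    have h00 := congrFun (congrFun hc i0) i0
    rw [Matrix.map_apply, Matrix.smul_apply, Matrix.one_apply, smul_eq_mul] at hij h00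
    rw [if_pos rfl, mul_one] at h00
    rw [Matrix.smul_apply, Matrix.one_apply, smul_eq_mul, hij, map_mul, h00]
    by_cases h : i = j
    · rw [if_pos h, if_pos h, map_one]
    · rw [if_neg h, if_neg h, map_zero]

end C6

end Cfsg.Agent.Helper45.Fld
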