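import Mathlib

set_option autoImplicit false

/-!
Helper library (helper45): recognising the quotient by a normal subgroup of index four as cyclic
or as a four-group.
-/

namespace Cfsg.Agent.Helper45.ID

theorem nonempty_mulEquiv_zmod {H : Type*} [Group H] (hc : IsCyclic H) (n : ℕ) (hn : Nat.card H = n) :
    Nonempty (H ≃* Multiplicative (ZMod n)) := by
  subst hn
  exact ⟨(zmodCyclicMulEquiv hc).symm⟩

theorem exists_hom_of_mulEquiv {G : Type*} [Group G] (N : Subgroup G) [N.Normal] {K : Type*} [Group K]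
    (e : G ⧸ N ≃* K) : ∃ φ : G →* K, Function.Surjective φ ∧ φ.ker = N := by
  refine ⟨e.toMonoidHom.comp (QuotientGroup.mk' N), e.surjective.comp (QuotientGroup.mk'_surjective N), ?_⟩
  ext g
  rw [MonoidHom.mem_ker, MonoidHom.comp_apply]
  show e (QuotientGroup.mk g) = 1 ↔ g ∈ N
  rw [MulEquiv.map_eq_one_iff]
  exact QuotientGroup.eq_one_iff g

/-- a normal subgroup of index four with an element whose square is outside: cyclic quotient -/
theorem exists_hom_zmod4 {G : Type*} [Group G] (N : Subgroup G) [N.Normal] (hidx : N.index = 4)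
    (x : G) (hx : x * x ∉ N) :
    ∃ φ : G →* Multiplicative (ZMod 4), Function.Surjective φ ∧ φ.ker = N := by
  have hcard : Nat.card (G ⧸ N) = 4 := hidx
  have hfin : Finite (G ⧸ N) := Nat.finite_of_card_ne_zero (by rw [hcard]; norm_num)
  obtain ⟨y, hy⟩ : ∃ y : G ⧸ N, y = QuotientGroup.mk x := ⟨_, rfl⟩
  have hy2 : y * y ≠ 1 := by
    intro h
    apply hx
    rw [← QuotientGroup.eq_one_iff, QuotientGroup.mk_mul, ← hy]
    exact h
  have hord : orderOf y = 4 := by
    have hdvd : orderOf y ∣ 4 := hcard ▸ orderOf_dvd_natCard y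
    have hle : orderOf y ≤ 4 := Nat.le_of_dvd (by norm_num) hdvd
    have hpos : 0 < orderOf y := orderOf_pos y
    have h1 : orderOf y ≠ 1 := by
      intro h
      rw [orderOf_eq_one_iff] at h
      rw [h, one_mul] at hy2
      exact hy2 rfl
    have h2' : orderOf y ≠ 2 := by
      intro h
      have := pow_orderOf_eq_one y
      rw [h, pow_two] at this
      exact hy2 this
    have h3 : orderOf y ≠ 3 := by
      intro h
      rw [h] at hdvd
      revert hdvd
      decide
    omega
  have hcyc : IsCyclic (G ⧸ N) := isCyclic_of_orderOf_eq_card y (by rw [hord, hcard])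
  obtain ⟨e⟩ := nonempty_mulEquiv_zmod hcyc 4 hcard
  exact exists_hom_of_mulEquiv N e

/-- a normal subgroup of index four with two distinct involutions in the quotient: four-group -/
theorem exists_hom_klein {G : Type*} [Group G] (N : Subgroup G) [N.Normal] (hidx : N.index = 4)
    (a b : G) (ha : a * a ∈ N) (hb : b * b ∈ N) (ha' : a ∉ N) (hb' : b ∉ N) (hab : a⁻¹ * b ∉ N) :
    ∃ φ : G →* Multiplicative (ZMod 2 × ZMod 2), Function.Surjective φ ∧ φ.ker = N := by
  classical
  have hcard : Nat.card (G ⧸ N) = 4 := hidx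
  have hfin : Finite (G ⧸ N) := Nat.finite_of_card_ne_zero (by rw [hcard]; norm_num)
  have : Fintype (G ⧸ N) := Fintype.ofFinite _
  obtain ⟨A, hA⟩ : ∃ A : G ⧸ N, A = QuotientGroup.mk a := ⟨_, rfl⟩
  obtain ⟨B, hB⟩ : ∃ B : G ⧸ N, B = QuotientGroup.mk b := ⟨_, rfl⟩
  have hA1 : A ≠ 1 := by
    intro h
    apply ha'
    rw [← QuotientGroup.eq_one_iff, ← hA]
    exact h
  have hB1 : B ≠ 1 := by
    intro h
    apply hb'
    rw [← QuotientGroup.eq_one_iff, ← hB]
    exact h
  have hAA : A ^ 2 = 1 := by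
    rw [pow_two, hA, ← QuotientGroup.mk_mul]
    exact (QuotientGroup.eq_one_iff _).mpr ha
  have hBB : B ^ 2 = 1 := by
    rw [pow_two, hB, ← QuotientGroup.mk_mul]
    exact (QuotientGroup.eq_one_iff _).mpr hb
  have hAB : A ≠ B := by
    intro h
    apply hab
    rw [← QuotientGroup.eq_one_iff, QuotientGroup.mk_mul, QuotientGroup.mk_inv, ← hA, ← hB, h, inv_mul_cancel]
  have : Fact (Nat.Prime 2) := ⟨Nat.prime_two⟩
  have hoA : orderOf A = 2 := orderOf_eq_prime hAA hA1
  have hoB : orderOf B = 2 := orderOf_eq_prime hBB hB1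
  have hnt : Nontrivial (G ⧸ N) := ⟨⟨A, 1, hA1⟩⟩
  have hexp : Monoid.exponent (G ⧸ N) = 2 := by
    rw [Monoid.exponent_eq_prime_iff Nat.prime_two]
    intro g hg
    by_contra hne
    have hdvd : orderOf g ∣ 4 := hcard ▸ orderOf_dvd_natCard g
    have hle : orderOf g ≤ 4 := Nat.le_of_dvd (by norm_num) hdvd
    have hpos : 0 < orderOf g := orderOf_pos g
    have h1 : orderOf g ≠ 1 := by
      intro h
      rw [orderOf_eq_one_iff] at h
      exact hg h
    have h3 : orderOf g ≠ 3 := by
      intro h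
      rw [h] at hdvd
      revert hdvd
      decide
    have h4 : orderOf g = 4 := by omega
    have hcyc : IsCyclic (G ⧸ N) := isCyclic_of_orderOf_eq_card g (by rw [h4, hcard])
    have htot := IsCyclic.card_orderOf_eq_totient (α := G ⧸ N) (d := 2)
      (by rw [← Nat.card_eq_fintype_card, hcard]; norm_num)
    rw [Nat.totient_two] at htot
    have hmA : A ∈ Finset.univ.filter (fun x : G ⧸ N => orderOf x = 2) := by
      rw [Finset.mem_filter]; exact ⟨Finset.mem_univ _, hoA⟩
    have hmB : B ∈ Finset.univ.filter (fun x : G ⧸ N => orderOf x = 2) := by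
      rw [Finset.mem_filter]; exact ⟨Finset.mem_univ _, hoB⟩
    exact hAB (Finset.card_le_one.mp (le_of_eq htot) A hmA B hmB)
  have hK : IsKleinFour (G ⧸ N) := ⟨hcard, hexp⟩
  obtain ⟨e⟩ := IsKleinFour.nonempty_mulEquiv (G₁ := G ⧸ N) (G₂ := Multiplicative (ZMod 2 × ZMod 2))
  exact exists_hom_of_mulEquiv N e

end Cfsg.Agent.Helper45.ID
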