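import Cfsg.Agent.Helper45.TSing
import Cfsg.Agent.Helper45.PGO
import Cfsg.Agent.Helper44.OmegaStab

set_option autoImplicit false

/-!
Helper library (helper45): the two classes of maximal totally singular subspaces of a hyperbolic
quadratic form in odd characteristic. A similarity preserves the two classes exactly when its
determinant equals that of a reference similarity with the same multiplier which stabilises a
fixed maximal totally singular subspace.
-/

universe u

namespace Cfsg.Agent.Helper45.ID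

open Cfsg Matrix Cfsg.Agent.Helper45

section Geom

variable {ι : Type} [Fintype ι] [DecidableEq ι] {F : Type u} [Field F]
  (Q : QuadraticForm F (ι → F))

theorem zmod2_cases (a : ZMod 2) : a = 0 ∨ a = 1 := by
  revert a; decide

theorem neg_one_pow_val_add (a b : ZMod 2) :
    (-1 : F) ^ (a + b).val = (-1 : F) ^ a.val * (-1 : F) ^ b.val := by
  have h11 : (1 + 1 : ZMod 2) = 0 := rfl
  have v0 : (0 : ZMod 2).val = 0 := rfl
  have v1 : (1 : ZMod 2).val = 1 := rfl
  rcases zmod2_cases a with rfl | rfl <;> rcases zmod2_cases b with rfl | rfl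
  · rw [add_zero, v0]; simp
  · rw [zero_add, v0, v1]; simp
  · rw [add_zero, v0, v1]; simp
  · rw [h11, v0, v1]; simp

theorem neg_one_pow_val_eq_one_iff (h2 : (2 : F) ≠ 0) (a : ZMod 2) :
    (-1 : F) ^ a.val = 1 ↔ a = 0 := by
  have hne : (-1 : F) ≠ 1 := by
    intro h
    apply h2
    have : (2 : F) = 1 - (-1) := by ring
    rw [this, h]; ring
  have v0 : (0 : ZMod 2).val = 0 := rfl
  have v1 : (1 : ZMod 2).val = 1 := rfl
  rcases zmod2_cases a with rfl | rfl
  · rw [v0]; simp
  · rw [v1, pow_one]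
    constructor
    · intro h; exact absurd h hne
    · intro h; exact absurd h (by decide)

/-- in odd characteristic the determinant of an isometry is `(-1)` to the Dickson invariant -/
theorem det_eq_neg_one_pow_dick (h2 : (2 : F) ≠ 0) (hQ : (QuadraticMap.polarBilin Q).Nondegenerate)
    (g : ↥(isometryGroup F ⇑Q)) :
    ((g : GL ι F) : Matrix ι ι F).det = (-1 : F) ^ (dick Q g).val := by
  have hR := reflGroup_eq_top Q h2 hQ
  have key : ∀ g : ↥(isometryGroup F ⇑Q), g ∈ reflGroup Q →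
      ((g : GL ι F) : Matrix ι ι F).det = (-1 : F) ^ (dick Q g).val := by
    intro g hg
    induction hg using Subgroup.closure_induction with
    | mem x hx =>
      obtain ⟨v, hv, rfl⟩ := hx
      rw [reflO_coe, Helper13.reflection_det Q v hv, dick_refl Q hQ,
        show (1 : ZMod 2).val = 1 from rfl, pow_one]
    | one =>
      rw [dick_one, show (0 : ZMod 2).val = 0 from rfl, pow_zero]
      show ((1 : GL ι F) : Matrix ι ι F).det = 1
      rw [Units.val_one, Matrix.det_one]
    | mul x y hx hy ihx ihy =>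
      rw [dick_mul_of_mem Q hQ x hx y, neg_one_pow_val_add, ← ihx, ← ihy]
      show (((x : GL ι F) * (y : GL ι F) : GL ι F) : Matrix ι ι F).det = _
      rw [Units.val_mul, Matrix.det_mul]
    | inv x hx ihx =>
      have h1 := dick_mul_of_mem Q hQ x hx x⁻¹
      rw [mul_inv_cancel, dick_one] at h1
      have h3 : (((x : GL ι F) * ((x⁻¹ : ↥(isometryGroup F ⇑Q)) : GL ι F) : GL ι F) : Matrix ι ι F).det = 1 := by
        have : (x : GL ι F) * ((x⁻¹ : ↥(isometryGroup F ⇑Q)) : GL ι F) = 1 := by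
          rw [← Subgroup.coe_mul, mul_inv_cancel]; rfl
        rw [this, Units.val_one, Matrix.det_one]
      rw [Units.val_mul, Matrix.det_mul, ihx] at h3
      have h4 := neg_one_pow_val_add (F := F) (dick Q x) (dick Q x⁻¹)
      rw [← h1] at h4
      have h5 : (-1 : F) ^ (0 : ZMod 2).val = 1 := by simp
      rw [h5] at h4
      have hne : (-1 : F) ^ (dick Q x).val ≠ 0 := pow_ne_zero _ (neg_ne_zero.mpr one_ne_zero)
      apply mul_left_cancel₀ hne
      rw [h3, ← h4]
  exact key g (by rw [hR]; trivial)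

theorem det_eq_one_iff_dick (h2 : (2 : F) ≠ 0) (hQ : (QuadraticMap.polarBilin Q).Nondegenerate)
    (g : ↥(isometryGroup F ⇑Q)) :
    ((g : GL ι F) : Matrix ι ι F).det = 1 ↔ dick Q g = 0 := by
  rw [det_eq_neg_one_pow_dick Q h2 hQ, neg_one_pow_val_eq_one_iff h2]

/-- every maximal totally singular subspace is the image under an isometry of a fixed totally
singular subspace of half the dimension -/
theorem exists_iso_of_max (hQ : (QuadraticMap.polarBilin Q).Nondegenerate)
    (E : Submodule F (ι → F)) (hE : ∀ w ∈ E, Q w = 0)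
    (hdim : 2 * Module.finrank F E = Fintype.card ι)
    (U : Submodule F (ι → F)) (hU : IsMaxTotallySingular ⇑Q U) :
    ∃ h : ↥(isometryGroup F ⇑Q), imgSub Q h E = U := by
  have hUts : ∀ w ∈ U, Q w = 0 := hU.1
  have hle : Module.finrank F U ≤ Module.finrank F E := by
    have := finrank_ts_le Q hQ U hUts
    omega
  obtain ⟨f₀, hf₀⟩ := finrank_le_iff_exists_linearMap.mp hle
  obtain ⟨π, hπ⟩ := LinearMap.exists_leftInverse_of_injective U.subtype (Submodule.ker_subtype U)
  have hπx : ∀ x (hx : x ∈ U), π x = ⟨x, hx⟩ := by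
    intro x hx
    have := congrArg (fun f => f ⟨x, hx⟩) hπ
    simpa using this
  obtain ⟨f, hfdef⟩ : ∃ f : (ι → F) →ₗ[F] (ι → F), f = E.subtype ∘ₗ f₀ ∘ₗ π := ⟨_, rfl⟩
  have hf : ∀ x (hx : x ∈ U), f x = (f₀ ⟨x, hx⟩ : ι → F) := by
    intro x hx
    rw [hfdef]
    show ((f₀ (π x) : E) : ι → F) = _
    rw [hπx x hx]
  obtain ⟨g, hg, hgx⟩ := Helper13.witt_quad Q hQ U f
    (by
      intro x hx
      rw [hf x hx, hE _ (f₀ ⟨x, hx⟩).2, hUts x hx])
    (by
      intro x hx h0
      rw [hf x hx] at h0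
      have h1 : f₀ ⟨x, hx⟩ = 0 := Subtype.ext h0
      have h3 := hf₀ (h1.trans (map_zero f₀).symm)
      exact congrArg Subtype.val h3)
  obtain ⟨k, hk⟩ := Helper44.exists_iso_of_linearEquiv Q g hg
  have h1 : U ≤ imgSub Q k⁻¹ E := by
    intro x hx
    rw [mem_imgSub, inv_inv, hk, hgx x hx, hf x hx]
    exact (f₀ ⟨x, hx⟩).2
  exact ⟨k⁻¹, hU.2 (imgSub Q k⁻¹ E) (ts_imgSub Q k⁻¹ E hE) h1⟩

omit [DecidableEq ι] in
/-- a totally singular subspace of half the dimension is maximal -/
theorem isMax_of_half (hQ : (QuadraticMap.polarBilin Q).Nondegenerate)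
    (E : Submodule F (ι → F)) (hE : ∀ w ∈ E, Q w = 0)
    (hdim : 2 * Module.finrank F E = Fintype.card ι) : IsMaxTotallySingular ⇑Q E := by
  refine ⟨hE, fun W hW hEW => ?_⟩
  have := finrank_ts_le Q hQ W hW
  exact (Submodule.eq_of_le_of_finrank_le hEW (by omega)).symm

/-- the parity class relation between two images of `E` -/
theorem sameParity_iff (h2 : (2 : F) ≠ 0) (hQ : (QuadraticMap.polarBilin Q).Nondegenerate)
    (E : Submodule F (ι → F)) (hE : ∀ w ∈ E, Q w = 0)
    (hdim : 2 * Module.finrank F E = Fintype.card ι) (h h' : ↥(isometryGroup F ⇑Q)) :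
    SameParityClass (imgSub Q h E) (imgSub Q h' E) ↔
      (((h⁻¹ * h' : ↥(isometryGroup F ⇑Q)) : GL ι F) : Matrix ι ι F).det = 1 := by
  have hinf : imgSub Q h E ⊓ imgSub Q h' E = imgSub Q h (E ⊓ imgSub Q (h⁻¹ * h') E) := by
    ext x
    rw [Submodule.mem_inf, mem_imgSub, mem_imgSub, mem_imgSub, Submodule.mem_inf, mem_imgSub,
      ← mv_mul]
    have : (h⁻¹ * h')⁻¹ * h⁻¹ = h'⁻¹ := by group
    rw [this]
  have hpar := parity_ts' Q hQ (reflGroup_eq_top Q h2 hQ) E hE hdim (h⁻¹ * h')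
  have hle : Module.finrank F ↥(E ⊓ imgSub Q (h⁻¹ * h') E) ≤ Module.finrank F E :=
    Submodule.finrank_mono inf_le_left
  unfold SameParityClass
  rw [hinf, finrank_imgSub, finrank_imgSub, det_eq_one_iff_dick Q h2 hQ, ← hpar,
    ZMod.natCast_eq_zero_iff, Nat.even_iff]
  omega

/-- **criterion for preserving the two classes**: compare the determinant with that of a reference
similarity with the same multiplier stabilising `E` -/
theorem pres_iff (h2 : (2 : F) ≠ 0) (hQ : (QuadraticMap.polarBilin Q).Nondegenerate)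
    (E : Submodule F (ι → F)) (hE : ∀ w ∈ E, Q w = 0)
    (hdim : 2 * Module.finrank F E = Fintype.card ι) (g d : GL ι F) (μ : F) (hμ : μ ≠ 0)
    (hg : ∀ v, Q ((g : Matrix ι ι F) *ᵥ v) = μ * Q v)
    (hd : ∀ v, Q ((d : Matrix ι ι F) *ᵥ v) = μ * Q v)
    (hdE : E.map (Matrix.toLin' (d : Matrix ι ι F)) = E) :
    PreservesSingularClasses ⇑Q (g : Matrix ι ι F) ↔
      (g : Matrix ι ι F).det = (d : Matrix ι ι F).det := by
  have hdinv : ∀ v, Q (((d⁻¹ : GL ι F) : Matrix ι ι F) *ᵥ v) = μ⁻¹ * Q v := by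
    intro v
    have h1 := hd (((d⁻¹ : GL ι F) : Matrix ι ι F) *ᵥ v)
    rw [Matrix.mulVec_mulVec, ← Units.val_mul, mul_inv_cancel, Units.val_one, Matrix.one_mulVec] at h1
    rw [h1, ← mul_assoc, inv_mul_cancel₀ hμ, one_mul]
  have hd0 : (d : Matrix ι ι F).det ≠ 0 := by
    have h1 : (d : Matrix ι ι F) * ((d⁻¹ : GL ι F) : Matrix ι ι F) = 1 := by
      rw [← Units.val_mul, mul_inv_cancel]; rfl
    have h3 := congrArg Matrix.det h1
    rw [Matrix.det_mul, Matrix.det_one] at h3
    intro h0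
    rw [h0, zero_mul] at h3
    exact zero_ne_one h3
  have key : ∀ U : Submodule F (ι → F), IsMaxTotallySingular ⇑Q U →
      (SameParityClass U (imageSubmodule (g : Matrix ι ι F) U) ↔
        (g : Matrix ι ι F).det = (d : Matrix ι ι F).det) := by
    intro U hU
    obtain ⟨h, rfl⟩ := exists_iso_of_max Q hQ E hE hdim U hU
    have hmem : g * (h : GL ι F) * d⁻¹ ∈ isometryGroup F ⇑Q := by
      rw [mem_iso_iff]
      intro v
      rw [Units.val_mul, Units.val_mul, ← Matrix.mulVec_mulVec, ← Matrix.mulVec_mulVec, hg]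
      have h1 := mv_quad ⇑Q h (((d⁻¹ : GL ι F) : Matrix ι ι F) *ᵥ v)
      have h3 : mv ⇑Q h (((d⁻¹ : GL ι F) : Matrix ι ι F) *ᵥ v) =
          ((h : GL ι F) : Matrix ι ι F) *ᵥ (((d⁻¹ : GL ι F) : Matrix ι ι F) *ᵥ v) := rfl
      rw [← h3, h1, hdinv, ← mul_assoc, mul_inv_cancel₀ hμ, one_mul]
    obtain ⟨h', hh'⟩ : ∃ h' : ↥(isometryGroup F ⇑Q), h' = ⟨g * (h : GL ι F) * d⁻¹, hmem⟩ := ⟨_, rfl⟩
    have hh'c : ((h' : GL ι F) : Matrix ι ι F) =
        (g : Matrix ι ι F) * ((h : GL ι F) : Matrix ι ι F) * ((d⁻¹ : GL ι F) : Matrix ι ι F) := by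
      rw [hh']; rfl
    have himg : imageSubmodule (g : Matrix ι ι F) (imgSub Q h E) = imgSub Q h' E := by
      have e1 : imageSubmodule (g : Matrix ι ι F) (imgSub Q h E) =
          E.map (Matrix.toLin' ((g : Matrix ι ι F) * ((h : GL ι F) : Matrix ι ι F))) := by
        unfold imageSubmodule imgSub
        rw [← Submodule.map_comp, ← Matrix.toLin'_mul]
      have e2 : imgSub Q h' E =
          E.map (Matrix.toLin' ((g : Matrix ι ι F) * ((h : GL ι F) : Matrix ι ι F))) := by
        unfold imgSub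
        conv_lhs => rw [← hdE]
        have hdd : ((d⁻¹ : GL ι F) : Matrix ι ι F) * (d : Matrix ι ι F) = 1 := by
          rw [← Units.val_mul, inv_mul_cancel, Units.val_one]
        rw [← Submodule.map_comp, ← Matrix.toLin'_mul, hh'c, Matrix.mul_assoc _ _ (d : Matrix ι ι F),
          hdd, Matrix.mul_one]
      rw [e1, e2]
    rw [himg, sameParity_iff Q h2 hQ E hE hdim]
    have hdet : (((h⁻¹ * h' : ↥(isometryGroup F ⇑Q)) : GL ι F) : Matrix ι ι F).det =
        (g : Matrix ι ι F).det / (d : Matrix ι ι F).det := by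
      have e1 : (((h⁻¹ * h' : ↥(isometryGroup F ⇑Q)) : GL ι F) : Matrix ι ι F) =
          (((h : GL ι F)⁻¹ : GL ι F) : Matrix ι ι F) * ((h' : GL ι F) : Matrix ι ι F) := rfl
      have e3 : ((((h : GL ι F)⁻¹ : GL ι F) : Matrix ι ι F)).det * (((h : GL ι F) : Matrix ι ι F)).det = 1 := by
        rw [← Matrix.det_mul, ← Units.val_mul, inv_mul_cancel, Units.val_one, Matrix.det_one]
      have e4 : (((d⁻¹ : GL ι F) : Matrix ι ι F)).det * (d : Matrix ι ι F).det = 1 := by
        rw [← Matrix.det_mul, ← Units.val_mul, inv_mul_cancel, Units.val_one, Matrix.det_one]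
      rw [e1, hh'c, Matrix.det_mul, Matrix.det_mul, Matrix.det_mul, eq_div_iff hd0]
      linear_combination (g : Matrix ι ι F).det * (((d⁻¹ : GL ι F) : Matrix ι ι F)).det *
        (d : Matrix ι ι F).det * e3 + (g : Matrix ι ι F).det * e4
    rw [hdet, div_eq_one_iff_eq hd0]
  constructor
  · intro hP
    exact (key E (isMax_of_half Q hQ E hE hdim)).mp (hP E (isMax_of_half Q hQ E hE hdim))
  · intro hdet U hU
    exact (key U hU).mpr hdet

end Geom

section Plus

variable {F : Type u} [Field F] {m : ℕ}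

/-- the standard maximal totally singular subspace of the hyperbolic form: the vectors supported on
the first half of the coordinates -/
def Eplus (m : ℕ) (F : Type u) [Field F] : Submodule F (Fin m ⊕ Fin m → F) :=
  LinearMap.ker (LinearMap.funLeft F F (Sum.inr : Fin m → Fin m ⊕ Fin m))

theorem mem_Eplus (x : Fin m ⊕ Fin m → F) : x ∈ Eplus m F ↔ ∀ i, x (Sum.inr i) = 0 := by
  unfold Eplus
  rw [LinearMap.mem_ker]
  constructor
  · intro h i
    exact congrFun h i
  · intro h
    funext i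
    exact h i

theorem Eplus_ts (x : Fin m ⊕ Fin m → F) (hx : x ∈ Eplus m F) : quadFormPlus m F x = 0 := by
  rw [mem_Eplus] at hx
  unfold quadFormPlus
  apply Finset.sum_eq_zero
  intro i _
  rw [hx i, mul_zero]

theorem finrank_Eplus : 2 * Module.finrank F (Eplus m F) = Fintype.card (Fin m ⊕ Fin m) := by
  have hsurj : Function.Surjective (LinearMap.funLeft F F (Sum.inr : Fin m → Fin m ⊕ Fin m)) := by
    intro y
    refine ⟨Sum.elim 0 y, ?_⟩
    funext i
    rfl
  have h1 := LinearMap.finrank_range_add_finrank_ker (LinearMap.funLeft F F (Sum.inr : Fin m → Fin m ⊕ Fin m))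
  rw [LinearMap.range_eq_top.mpr hsurj, finrank_top, Module.finrank_fintype_fun_eq_card,
    Module.finrank_fintype_fun_eq_card, Fintype.card_sum, Fintype.card_fin] at h1
  rw [Fintype.card_sum, Fintype.card_fin]
  unfold Eplus
  omega

/-- the reference similarity `diag(μ, 1)` -/
theorem exists_dmu (h2 : (2 : F) ≠ 0) (μ : F) (hμ : μ ≠ 0) :
    ∃ d : GL (Fin m ⊕ Fin m) F,
      (∀ v, quadFormPlus m F ((d : Matrix (Fin m ⊕ Fin m) (Fin m ⊕ Fin m) F) *ᵥ v) = μ * quadFormPlus m F v) ∧
      (d : Matrix (Fin m ⊕ Fin m) (Fin m ⊕ Fin m) F).det = μ ^ m ∧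
      (Eplus m F).map (Matrix.toLin' (d : Matrix (Fin m ⊕ Fin m) (Fin m ⊕ Fin m) F)) = Eplus m F := by
  have hdet : (fromBlocks (μ • (1 : Matrix (Fin m) (Fin m) F)) 0 0 (1 : Matrix (Fin m) (Fin m) F)).det = μ ^ m := by
    rw [det_fromBlocks_zero₂₁, det_smul, det_one, Fintype.card_fin, mul_one, mul_one]
  obtain ⟨d, hd⟩ : ∃ d : GL (Fin m ⊕ Fin m) F, d = Matrix.GeneralLinearGroup.mkOfDetNeZero
    (fromBlocks (μ • (1 : Matrix (Fin m) (Fin m) F)) 0 0 (1 : Matrix (Fin m) (Fin m) F))
    (by rw [hdet]; exact pow_ne_zero _ hμ) := ⟨_, rfl⟩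
  have hdc : (d : Matrix (Fin m ⊕ Fin m) (Fin m ⊕ Fin m) F) =
      fromBlocks (μ • (1 : Matrix (Fin m) (Fin m) F)) 0 0 (1 : Matrix (Fin m) (Fin m) F) := by
    rw [hd]; rfl
  refine ⟨d, ?_, by rw [hdc, hdet], ?_⟩
  · intro v
    rw [hdc]
    apply S2722.sim_blocks h2
    · simp
    · simp
    · simp
  · have hinj : Function.Injective (Matrix.toLin' (d : Matrix (Fin m ⊕ Fin m) (Fin m ⊕ Fin m) F)) := by
      intro x y hxy
      rw [Matrix.toLin'_apply, Matrix.toLin'_apply] at hxy
      have h1 := congrArg (fun z => ((d⁻¹ : GL (Fin m ⊕ Fin m) F) : Matrix (Fin m ⊕ Fin m) (Fin m ⊕ Fin m) F) *ᵥ z) hxy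
      simp only [Matrix.mulVec_mulVec] at h1
      rw [← Units.val_mul, inv_mul_cancel, Units.val_one, Matrix.one_mulVec, Matrix.one_mulVec] at h1
      exact h1
    have hle : (Eplus m F).map (Matrix.toLin' (d : Matrix (Fin m ⊕ Fin m) (Fin m ⊕ Fin m) F)) ≤ Eplus m F := by
      rintro _ ⟨x, hx, rfl⟩
      rw [SetLike.mem_coe, mem_Eplus] at hx
      rw [mem_Eplus]
      intro i
      rw [Matrix.toLin'_apply, hdc]
      have hxv : x = Sum.elim (fun j => x (Sum.inl j)) (fun j => x (Sum.inr j)) := by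
        funext j
        rcases j with j | j <;> rfl
      rw [hxv, Matrix.fromBlocks_mulVec]
      simp [hx]
    apply Submodule.eq_of_le_of_finrank_le hle
    rw [(Submodule.equivMapOfInjective _ hinj (Eplus m F)).finrank_eq]

/-- a similarity of the hyperbolic form with multiplier `μ` preserves the two classes of maximal
totally singular subspaces exactly when its determinant is `μ ^ m` -/
theorem pres_plus_iff (h2 : (2 : F) ≠ 0) (g : GL (Fin m ⊕ Fin m) F) (μ : F) (hμ : μ ≠ 0)
    (hg : ∀ v, quadFormPlus m F ((g : Matrix (Fin m ⊕ Fin m) (Fin m ⊕ Fin m) F) *ᵥ v) = μ * quadFormPlus m F v) :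
    PreservesSingularClasses (quadFormPlus m F) (g : Matrix (Fin m ⊕ Fin m) (Fin m ⊕ Fin m) F) ↔
      (g : Matrix (Fin m ⊕ Fin m) (Fin m ⊕ Fin m) F).det = μ ^ m := by
  obtain ⟨d, hd, hddet, hdE⟩ := exists_dmu (m := m) h2 μ hμ
  rw [← hddet]
  exact pres_iff (qPlus m F h2) h2 (qPlus_nondeg h2) (Eplus m F) Eplus_ts finrank_Eplus g d μ hμ hg hd hdE

end Plus

end Cfsg.Agent.Helper45.ID
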