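import Cfsg.Agent.Helper45.IDGeom
import Cfsg.Agent.Helper45.IDAbs

set_option autoImplicit false

/-!
Helper library (helper45): the group induced on `PΩ` by the similarities whose determinant is the
`n`-th power of the multiplier (the inner-diagonal group for the even-dimensional orthogonal
groups in odd characteristic), and its quotient by the inner automorphisms.
-/

universe u

namespace Cfsg.Agent.Helper45.ID

open Cfsg Matrix Cfsg.Agent.Helper45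

section Main

variable {ι : Type} [Fintype ι] [DecidableEq ι] {F : Type u} [Field F] [Fintype F]
  (Q : QuadraticForm F (ι → F))

omit [Fintype F] in
theorem mult_one {n : ℕ} {J : Matrix ι ι F} {v₀ : ι → F} (D : KData ⇑Q n J v₀) :
    mult ⇑Q v₀ (1 : GL ι F) = 1 := by
  unfold mult
  rw [Units.val_one, Matrix.one_mulVec, D.hv₀]

/-- similarities whose determinant is the `n`-th power of the multiplier -/
def simDet {n : ℕ} {J : Matrix ι ι F} {v₀ : ι → F} (D : KData ⇑Q n J v₀) : Subgroup (GL ι F) where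
  carrier := {g | g ∈ Geo.quadSimilarityGroup (F := F) ⇑Q ∧ (g : Matrix ι ι F).det = mult ⇑Q v₀ g ^ n}
  mul_mem' := by
    rintro a b ⟨ha, ha'⟩ ⟨hb, hb'⟩
    refine ⟨mul_mem ha hb, ?_⟩
    rw [Units.val_mul, Matrix.det_mul, ha', hb', D.mult_mul ha, mul_pow]
  one_mem' := by
    refine ⟨one_mem _, ?_⟩
    rw [mult_one Q D, one_pow, Units.val_one, Matrix.det_one]
  inv_mem' := by
    rintro a ⟨ha, ha'⟩
    refine ⟨inv_mem ha, ?_⟩
    have h1 := D.mult_mul (h := a⁻¹) ha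
    rw [mul_inv_cancel, mult_one Q D] at h1
    have h3 : (a : Matrix ι ι F).det * ((a⁻¹ : GL ι F) : Matrix ι ι F).det = 1 := by
      rw [← Matrix.det_mul, ← Units.val_mul, mul_inv_cancel, Units.val_one, Matrix.det_one]
    have hm0 := (D.mult_spec ha).2
    apply mul_left_cancel₀ (pow_ne_zero n hm0)
    rw [← mul_pow, ← h1, one_pow, ← ha', h3]

omit [Fintype F] in
theorem mem_simDet {n : ℕ} {J : Matrix ι ι F} {v₀ : ι → F} (D : KData ⇑Q n J v₀) (g : GL ι F) :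
    g ∈ simDet Q D ↔ g ∈ Geo.quadSimilarityGroup (F := F) ⇑Q ∧
      (g : Matrix ι ι F).det = mult ⇑Q v₀ g ^ n := Iff.rfl

/-- the group of automorphisms of `PΩ` induced by `simDet` -/
def autK {n : ℕ} {J : Matrix ι ι F} {v₀ : ι → F} (D : KData ⇑Q n J v₀) :
    Subgroup (MulAut (POmega F ⇑Q)) :=
  autSubgroupOf (fun β : POmega F ⇑Q ≃* POmega F ⇑Q => ∃ g : GL ι F, g ∈ simDet Q D ∧ Ind ⇑Q g β)

omit [Fintype F] in
theorem mem_autK_iff {n : ℕ} {J : Matrix ι ι F} {v₀ : ι → F} (D : KData ⇑Q n J v₀)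
    (β : MulAut (POmega F ⇑Q)) :
    β ∈ autK Q D ↔ ∃ g : GL ι F, g ∈ simDet Q D ∧ Ind ⇑Q g β :=
  mem_autSubgroupOf_iff ⇑Q (simDet Q D) (fun _ hg => hg.1) β

omit [Fintype F] in
theorem psoAut_le_autK {n : ℕ} {J : Matrix ι ι F} {v₀ : ι → F} (D : KData ⇑Q n J v₀) :
    psoAut F ⇑Q ≤ autK Q D := by
  intro β hβ
  rw [mem_psoAut_iff] at hβ
  obtain ⟨g, hg, hind⟩ := hβ
  rw [mem_autK_iff]
  refine ⟨g, ⟨specialIsometryGL_le _ hg, ?_⟩, hind⟩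
  rw [mem_special_iff] at hg
  have hm : mult ⇑Q v₀ g = 1 := by
    unfold mult
    rw [(mem_iso_iff ⇑Q g).mp hg.1, D.hv₀]
  rw [hm, one_pow, hg.2]

omit [Fintype F] in
theorem inn_le_autK {n : ℕ} {J : Matrix ι ι F} {v₀ : ι → F} (D : KData ⇑Q n J v₀) :
    Inn (POmega F ⇑Q) ≤ autK Q D :=
  (inn_le_psoAut Q).trans (psoAut_le_autK Q D)

/-- a similarity with square multiplier and the right determinant induces an element of `PSO` -/
theorem pso_of_theta {n : ℕ} {J : Matrix ι ι F} {v₀ : ι → F}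
    (D : KData ⇑Q n J v₀) {g : GL ι F} (hg : g ∈ Geo.quadSimilarityGroup (F := F) ⇑Q)
    (e1 : mult ⇑Q v₀ g ^ (Fintype.card F / 2) = 1)
    (hdet : (g : Matrix ι ι F).det = mult ⇑Q v₀ g ^ n) {β : MulAut (POmega F ⇑Q)}
    (hgβ : Ind ⇑Q g β) : β ∈ psoAut F ⇑Q := by
  have hchar : ringChar F ≠ 2 := ringChar_ne_two D.h2
  rw [mem_psoAut_iff]
  have hm0 := (D.mult_spec hg).2
  obtain ⟨r, hr⟩ := (FiniteField.isSquare_iff hchar hm0).mpr e1
  have hr0 : r ≠ 0 := by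
    rintro rfl
    rw [mul_zero] at hr
    exact hm0 hr
  obtain ⟨z, hzdef⟩ : ∃ z : GL ι F, z = Matrix.GeneralLinearGroup.scalar ι (Units.mk0 r⁻¹ (inv_ne_zero hr0)) :=
    ⟨_, rfl⟩
  have hz : (z : Matrix ι ι F) = r⁻¹ • (1 : Matrix ι ι F) := by
    rw [hzdef]
    show Matrix.scalar ι r⁻¹ = _
    ext i j
    simp [Matrix.scalar_apply, Matrix.diagonal_apply, Matrix.one_apply]
  have hzmem : z ∈ Geo.quadSimilarityGroup (F := F) ⇑Q := by
    refine ⟨Units.mk0 (r⁻¹ * r⁻¹) (mul_ne_zero (inv_ne_zero hr0) (inv_ne_zero hr0)), fun v => ?_⟩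
    rw [hz, Matrix.smul_mulVec, Matrix.one_mulVec, quad_smul ⇑Q J D.h2 D.hJ]
    rfl
  refine ⟨g * z, ⟨(mem_iso_iff ⇑Q _).mpr ?_, ?_⟩, ?_⟩
  · intro v
    rw [Units.val_mul, ← Matrix.mulVec_mulVec, (D.mult_spec hg).1, hz, Matrix.smul_mulVec,
      Matrix.one_mulVec, quad_smul ⇑Q J D.h2 D.hJ, hr]
    field_simp
  · show Matrix.GeneralLinearGroup.det (g * z) = 1
    apply Units.ext
    rw [Matrix.GeneralLinearGroup.val_det_apply, Units.val_mul, Matrix.det_mul, hdet, hz,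
      Matrix.det_smul, Matrix.det_one, D.hcard, hr, Units.val_one, pow_add, mul_one, mul_pow]
    rw [mul_mul_mul_comm, ← mul_pow, mul_inv_cancel₀ hr0, one_pow, one_mul]
  · have := ind_mul ⇑Q hzmem hgβ (ind_scalar ⇑Q z r⁻¹ hz)
    rwa [mul_one] at this

/-- the first coordinate of `theta` -/
noncomputable def th1 (v₀ : ι → F) (g : GL ι F) : ZMod 2 :=
  ind2 (mult ⇑Q v₀ g ^ (Fintype.card F / 2))

theorem th1_mul (hodd : Odd (Fintype.card F)) {n : ℕ} {J : Matrix ι ι F} {v₀ : ι → F}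
    (D : KData ⇑Q n J v₀) {g h : GL ι F}
    (hg : g ∈ Geo.quadSimilarityGroup (F := F) ⇑Q) (hh : h ∈ Geo.quadSimilarityGroup (F := F) ⇑Q) :
    th1 Q v₀ (g * h) = th1 Q v₀ g + th1 Q v₀ h := by
  have h1 := D.theta_mul hodd hg hh
  exact congrArg (fun t : Multiplicative (ZMod 2 × ZMod 2) => (Multiplicative.toAdd t).1) h1

theorem th1_eq_of_ind (hodd : Odd (Fintype.card F)) {n : ℕ} {J : Matrix ι ι F} {v₀ : ι → F}
    (D : KData ⇑Q n J v₀)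
    (hscal : ∀ g : GL ι F, g ∈ Geo.quadSimilarityGroup (F := F) ⇑Q → Ind ⇑Q g 1 →
      ∃ c : F, (g : Matrix ι ι F) = c • (1 : Matrix ι ι F))
    {g h : GL ι F} (hg : g ∈ Geo.quadSimilarityGroup (F := F) ⇑Q)
    (hh : h ∈ Geo.quadSimilarityGroup (F := F) ⇑Q) {β : MulAut (POmega F ⇑Q)}
    (hgβ : Ind ⇑Q g β) (hhβ : Ind ⇑Q h β) : th1 Q v₀ g = th1 Q v₀ h := by
  have h1 := D.theta_eq_of_ind hodd hscal hg hh hgβ hhβ
  exact congrArg (fun t : Multiplicative (ZMod 2 × ZMod 2) => (Multiplicative.toAdd t).1) h1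

/-- the character "multiplier modulo squares" on `autK`, with kernel `PSO` -/
theorem exists_psi (hodd : Odd (Fintype.card F)) {n : ℕ} {J : Matrix ι ι F} {v₀ : ι → F}
    (D : KData ⇑Q n J v₀)
    (hscal : ∀ g : GL ι F, g ∈ Geo.quadSimilarityGroup (F := F) ⇑Q → Ind ⇑Q g 1 →
      ∃ c : F, (g : Matrix ι ι F) = c • (1 : Matrix ι ι F))
    (g₁ : GL ι F) (c₁ : F) (hg₁ : ∀ v, Q ((g₁ : Matrix ι ι F) *ᵥ v) = c₁ * Q v) (hc₁ : ¬ IsSquare c₁)
    (hdet₁ : (g₁ : Matrix ι ι F).det = c₁ ^ n) :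
    ∃ ψ : ↥(autK Q D) →* Multiplicative (ZMod 2), Function.Surjective ψ ∧
      ψ.ker = (psoAut F ⇑Q).subgroupOf (autK Q D) ∧
      ∀ (β : ↥(autK Q D)) (g : GL ι F), g ∈ Geo.quadSimilarityGroup (F := F) ⇑Q →
        Ind ⇑Q g (β : MulAut (POmega F ⇑Q)) → ψ β = Multiplicative.ofAdd (th1 Q v₀ g) := by
  classical
  have hchar : ringChar F ≠ 2 := ringChar_ne_two D.h2
  choose gsel hsel using fun β : ↥(autK Q D) => (mem_autK_iff Q D (β : MulAut (POmega F ⇑Q))).mp β.2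
  obtain ⟨ψ, hψdef⟩ : ∃ ψ : ↥(autK Q D) →* Multiplicative (ZMod 2),
      ∀ β, ψ β = Multiplicative.ofAdd (th1 Q v₀ (gsel β)) := by
    refine ⟨MonoidHom.mk' (fun β => Multiplicative.ofAdd (th1 Q v₀ (gsel β))) ?_, fun β => rfl⟩
    intro β γ
    have h1 : Ind ⇑Q (gsel β * gsel γ) ((β * γ : ↥(autK Q D)) : MulAut (POmega F ⇑Q)) :=
      ind_mul ⇑Q (hsel γ).1.1 (hsel β).2 (hsel γ).2
    rw [th1_eq_of_ind Q hodd D hscal (hsel (β * γ)).1.1 (mul_mem (hsel β).1.1 (hsel γ).1.1)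
      (hsel (β * γ)).2 h1, th1_mul Q hodd D (hsel β).1.1 (hsel γ).1.1]
    rfl
  have hψ : ∀ (β : ↥(autK Q D)) (g : GL ι F), g ∈ Geo.quadSimilarityGroup (F := F) ⇑Q →
      Ind ⇑Q g (β : MulAut (POmega F ⇑Q)) → ψ β = Multiplicative.ofAdd (th1 Q v₀ g) := by
    intro β g hg hgβ
    rw [hψdef, th1_eq_of_ind Q hodd D hscal (hsel β).1.1 hg (hsel β).2 hgβ]
  have hc₁0 : c₁ ≠ 0 := by
    rintro rfl
    exact hc₁ ⟨0, by simp⟩
  have hg₁mem : g₁ ∈ Geo.quadSimilarityGroup (F := F) ⇑Q := ⟨Units.mk0 c₁ hc₁0, hg₁⟩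
  have hm₁ : mult ⇑Q v₀ g₁ = c₁ := by unfold mult; rw [hg₁, D.hv₀, mul_one]
  have hβ₁mem : indAut ⇑Q g₁ hg₁mem ∈ autK Q D :=
    (mem_autK_iff Q D _).mpr ⟨g₁, ⟨hg₁mem, by rw [hm₁, hdet₁]⟩, ind_indAut ⇑Q g₁ hg₁mem⟩
  have hβ₁ : ψ ⟨indAut ⇑Q g₁ hg₁mem, hβ₁mem⟩ = Multiplicative.ofAdd (1 : ZMod 2) := by
    rw [hψ _ g₁ hg₁mem (ind_indAut ⇑Q g₁ hg₁mem)]
    unfold th1
    rw [hm₁, ind2_of_ne]
    intro h
    exact hc₁ ((FiniteField.isSquare_iff hchar hc₁0).mpr h)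
  refine ⟨ψ, ?_, ?_, hψ⟩
  · intro x
    obtain ⟨a, rfl⟩ := Multiplicative.ofAdd.surjective x
    rcases zmod2_cases a with rfl | rfl
    · exact ⟨1, map_one ψ⟩
    · exact ⟨_, hβ₁⟩
  · ext β
    rw [MonoidHom.mem_ker, Subgroup.mem_subgroupOf]
    constructor
    · intro h
      rw [hψdef] at h
      have h' : th1 Q v₀ (gsel β) = 0 := Multiplicative.ofAdd.injective (h.trans ofAdd_zero.symm)
      exact pso_of_theta Q D (hsel β).1.1 (ind2_eq_zero h') (hsel β).1.2 (hsel β).2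
    · intro h
      rw [mem_psoAut_iff] at h
      obtain ⟨k, hk, hkβ⟩ := h
      rw [hψ β k (specialIsometryGL_le _ hk) hkβ]
      have hm : mult ⇑Q v₀ k = 1 := by
        unfold mult
        rw [(mem_iso_iff ⇑Q k).mp hk.1, D.hv₀]
      unfold th1
      rw [hm, one_pow, ind2_one]
      rfl

/-- the index of `PSO` in `autK` is two -/
theorem relIndex_pso_autK (hodd : Odd (Fintype.card F)) {n : ℕ} {J : Matrix ι ι F} {v₀ : ι → F}
    (D : KData ⇑Q n J v₀)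
    (hscal : ∀ g : GL ι F, g ∈ Geo.quadSimilarityGroup (F := F) ⇑Q → Ind ⇑Q g 1 →
      ∃ c : F, (g : Matrix ι ι F) = c • (1 : Matrix ι ι F))
    (g₁ : GL ι F) (c₁ : F) (hg₁ : ∀ v, Q ((g₁ : Matrix ι ι F) *ᵥ v) = c₁ * Q v) (hc₁ : ¬ IsSquare c₁)
    (hdet₁ : (g₁ : Matrix ι ι F).det = c₁ ^ n) :
    (psoAut F ⇑Q).relIndex (autK Q D) = 2 := by
  obtain ⟨ψ, hs, hk, -⟩ := exists_psi Q hodd D hscal g₁ c₁ hg₁ hc₁ hdet₁
  unfold Subgroup.relIndex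
  rw [← hk, Subgroup.index_ker, MonoidHom.range_eq_top.mpr hs, Subgroup.card_top, Nat.card_eq_fintype_card]
  rfl

/-- case `-1 ∉ Ω`: the quotient of `autK` by the inner automorphisms has order two -/
theorem autK_mod_inn_two (hodd : Odd (Fintype.card F)) (hQ : (QuadraticMap.polarBilin Q).Nondegenerate)
    (hcard : 2 ≤ Fintype.card ι) (heven : Even (Fintype.card ι))
    {n : ℕ} {J : Matrix ι ι F} {v₀ : ι → F} (D : KData ⇑Q n J v₀)
    (hscal : ∀ g : GL ι F, g ∈ Geo.quadSimilarityGroup (F := F) ⇑Q → Ind ⇑Q g 1 →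
      ∃ c : F, (g : Matrix ι ι F) = c • (1 : Matrix ι ι F))
    (g₁ : GL ι F) (c₁ : F) (hg₁ : ∀ v, Q ((g₁ : Matrix ι ι F) *ᵥ v) = c₁ * Q v) (hc₁ : ¬ IsSquare c₁)
    (hdet₁ : (g₁ : Matrix ι ι F).det = c₁ ^ n)
    (hneg : negO Q ∉ Omega F ⇑Q) :
    ∃ φ : ↥(autK Q D) →* Multiplicative (ZMod 2), Function.Surjective φ ∧
      φ.ker = (Inn (POmega F ⇑Q)).subgroupOf (autK Q D) := by
  obtain ⟨ψ, hs, hk, -⟩ := exists_psi Q hodd D hscal g₁ c₁ hg₁ hc₁ hdet₁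
  refine ⟨ψ, hs, ?_⟩
  rw [hk]
  have : psoAut F ⇑Q = Inn (POmega F ⇑Q) :=
    le_antisymm (Subgroup.relIndex_eq_one.mp (pso_relIndex_one Q D.h2 hQ hcard heven hneg)) (inn_le_psoAut Q)
  rw [this]

/-- the index of the inner automorphisms in `autK` is four when `-1 ∈ Ω` -/
theorem relIndex_inn_autK (hodd : Odd (Fintype.card F)) (hQ : (QuadraticMap.polarBilin Q).Nondegenerate)
    (hcard : 2 ≤ Fintype.card ι)
    {n : ℕ} {J : Matrix ι ι F} {v₀ : ι → F} (D : KData ⇑Q n J v₀)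
    (hscal : ∀ g : GL ι F, g ∈ Geo.quadSimilarityGroup (F := F) ⇑Q → Ind ⇑Q g 1 →
      ∃ c : F, (g : Matrix ι ι F) = c • (1 : Matrix ι ι F))
    (g₁ : GL ι F) (c₁ : F) (hg₁ : ∀ v, Q ((g₁ : Matrix ι ι F) *ᵥ v) = c₁ * Q v) (hc₁ : ¬ IsSquare c₁)
    (hdet₁ : (g₁ : Matrix ι ι F).det = c₁ ^ n)
    (hneg : negO Q ∈ Omega F ⇑Q) :
    ((Inn (POmega F ⇑Q)).subgroupOf (autK Q D)).index = 4 := by
  show (Inn (POmega F ⇑Q)).relIndex (autK Q D) = 4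
  rw [← Subgroup.relIndex_mul_relIndex _ _ _ (inn_le_psoAut Q) (psoAut_le_autK Q D),
    pso_relIndex_two Q D.h2 hQ hcard hscal hneg,
    relIndex_pso_autK Q hodd D hscal g₁ c₁ hg₁ hc₁ hdet₁]

/-- case `-1 ∈ Ω`, with a similarity `s` of non-square multiplier `c₁`, determinant `-c₁ ^ n` and
square `c₁`: the quotient of `autK` by the inner automorphisms is cyclic of order four -/
theorem autK_mod_inn_cyclic (hodd : Odd (Fintype.card F)) (hQ : (QuadraticMap.polarBilin Q).Nondegenerate)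
    (hcard : 2 ≤ Fintype.card ι)
    {n : ℕ} {J : Matrix ι ι F} {v₀ : ι → F} (D : KData ⇑Q n J v₀)
    (hscal : ∀ g : GL ι F, g ∈ Geo.quadSimilarityGroup (F := F) ⇑Q → Ind ⇑Q g 1 →
      ∃ c : F, (g : Matrix ι ι F) = c • (1 : Matrix ι ι F))
    (g₁ : GL ι F) (c₁ : F) (hg₁ : ∀ v, Q ((g₁ : Matrix ι ι F) *ᵥ v) = c₁ * Q v) (hc₁ : ¬ IsSquare c₁)
    (hdet₁ : (g₁ : Matrix ι ι F).det = c₁ ^ n)
    (s : GL ι F) (hs : ∀ v, Q ((s : Matrix ι ι F) *ᵥ v) = c₁ * Q v)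
    (hsdet : (s : Matrix ι ι F).det = -c₁ ^ n)
    (hss : (s : Matrix ι ι F) * (s : Matrix ι ι F) = c₁ • (1 : Matrix ι ι F))
    (hneg : negO Q ∈ Omega F ⇑Q) :
    ∃ φ : ↥(autK Q D) →* Multiplicative (ZMod 4), Function.Surjective φ ∧
      φ.ker = (Inn (POmega F ⇑Q)).subgroupOf (autK Q D) := by
  have h2 := D.h2
  have hidx := relIndex_inn_autK Q hodd hQ hcard D hscal g₁ c₁ hg₁ hc₁ hdet₁ hneg
  have hc₁0 : c₁ ≠ 0 := by
    rintro rfl
    exact hc₁ ⟨0, by simp⟩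
  have hsmem : s ∈ Geo.quadSimilarityGroup (F := F) ⇑Q := ⟨Units.mk0 c₁ hc₁0, hs⟩
  obtain ⟨u, hu⟩ := exists_norm_eq Q h2 hQ hcard 1
  have hu0 : Q u ≠ 0 := by rw [hu]; exact one_ne_zero
  have husq : IsSquare (Q u) := by rw [hu]; exact ⟨1, by ring⟩
  have hgu : Q ((s : Matrix ι ι F) *ᵥ u) = c₁ := by rw [hs, hu, mul_one]
  have hgu0 : Q ((s : Matrix ι ι F) *ᵥ u) ≠ 0 := by rw [hgu]; exact hc₁0
  have hgunsq : ¬ IsSquare (Q ((s : Matrix ι ι F) *ᵥ u)) := by rw [hgu]; exact hc₁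
  obtain ⟨ε, hε⟩ := FiniteField.exists_nonsquare (ringChar_ne_two h2)
  obtain ⟨ru, hru⟩ : ∃ ru, ru = reflO Q u hu0 := ⟨_, rfl⟩
  obtain ⟨k, hkdef⟩ : ∃ k, k = conjO ⇑Q s hsmem ru := ⟨_, rfl⟩
  have hkrefl : k = reflO Q ((s : Matrix ι ι F) *ᵥ u) hgu0 := by
    rw [hkdef, hru]
    exact conjO_reflO Q s hsmem u hu0 hgu0
  have vεu : spin ⇑Q ε ru = 1 := by rw [hru]; exact spin_eps_reflO_sq Q h2 ε hε u hu0 husq
  have vεk : spin ⇑Q ε k = -1 := by rw [hkrefl]; exact spin_eps_reflO_nsq Q h2 ε hε _ hgu0 hgunsq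
  have hrumem : ((ru : ↥(isometryGroup F ⇑Q)) : GL ι F) ∈ Geo.quadSimilarityGroup (F := F) ⇑Q :=
    iso_le_sim _ ru.2
  have hkmem : ((k : ↥(isometryGroup F ⇑Q)) : GL ι F) ∈ Geo.quadSimilarityGroup (F := F) ⇑Q :=
    iso_le_sim _ k.2
  -- the element `s * ru`
  obtain ⟨t, htdef⟩ : ∃ t : GL ι F, t = s * ((ru : ↥(isometryGroup F ⇑Q)) : GL ι F) := ⟨_, rfl⟩
  have htmem : t ∈ Geo.quadSimilarityGroup (F := F) ⇑Q := by rw [htdef]; exact mul_mem hsmem hrumem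
  have hrudet : (((ru : ↥(isometryGroup F ⇑Q)) : GL ι F) : Matrix ι ι F).det = -1 := by
    rw [hru, reflO_coe, Helper13.reflection_det Q u hu0]
  have hrumult : mult ⇑Q v₀ ((ru : ↥(isometryGroup F ⇑Q)) : GL ι F) = 1 := by
    unfold mult
    rw [(mem_iso_iff ⇑Q _).mp ru.2, D.hv₀]
  have hsmult : mult ⇑Q v₀ s = c₁ := by unfold mult; rw [hs, D.hv₀, mul_one]
  have htK : t ∈ simDet Q D := by
    refine ⟨htmem, ?_⟩
    rw [htdef, D.mult_mul hsmem, hsmult, hrumult, mul_one, Units.val_mul, Matrix.det_mul, hsdet, hrudet]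
    ring
  obtain ⟨x, hxdef⟩ : ∃ x : ↥(autK Q D), x = ⟨indAut ⇑Q t htmem,
      (mem_autK_iff Q D _).mpr ⟨t, htK, ind_indAut ⇑Q t htmem⟩⟩ := ⟨_, rfl⟩
  have hxind : Ind ⇑Q t (x : MulAut (POmega F ⇑Q)) := by rw [hxdef]; exact ind_indAut ⇑Q t htmem
  -- the scalar `c₁`
  obtain ⟨z, hzdef⟩ : ∃ z : GL ι F, z = s * s := ⟨_, rfl⟩
  have hz : (z : Matrix ι ι F) = c₁ • (1 : Matrix ι ι F) := by rw [hzdef, Units.val_mul, hss]
  have hzmem : z ∈ Geo.quadSimilarityGroup (F := F) ⇑Q := by rw [hzdef]; exact mul_mem hsmem hsmem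
  have hzind : Ind ⇑Q z (1 : MulAut (POmega F ⇑Q)) := ind_scalar ⇑Q z c₁ hz
  have hzcomm : ∀ y : GL ι F, z * y = y * z := by
    intro y
    apply Units.ext
    rw [Units.val_mul, Units.val_mul, hz, Matrix.smul_mul, Matrix.mul_smul, Matrix.one_mul, Matrix.mul_one]
  -- `t * t = (k * ru) * z`
  have htt : t * t = ((k * ru : ↥(isometryGroup F ⇑Q)) : GL ι F) * z := by
    have hkc : ((k : ↥(isometryGroup F ⇑Q)) : GL ι F) = s * ((ru : ↥(isometryGroup F ⇑Q)) : GL ι F) * s⁻¹ := by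
      rw [hkdef]; rfl
    rw [Subgroup.coe_mul, hkc, htdef, mul_assoc _ _ z, ← hzcomm, hzdef]
    group
  have hind1 : Ind ⇑Q (((k * ru : ↥(isometryGroup F ⇑Q)) : GL ι F) * z)
      ((x * x : ↥(autK Q D)) : MulAut (POmega F ⇑Q)) := by
    rw [← htt]
    exact ind_mul ⇑Q htmem hxind hxind
  have hind2 : Ind ⇑Q ((k * ru : ↥(isometryGroup F ⇑Q)) : GL ι F)
      ((x * x : ↥(autK Q D)) : MulAut (POmega F ⇑Q)) := by
    have h1 := ind_mul ⇑Q (inv_mem hzmem) hind1 (ind_inv ⇑Q hzmem hzind)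
    rw [mul_inv_cancel_right, inv_one, mul_one] at h1
    exact h1
  have hne : ∃ v, Q v ≠ 0 := ⟨u, hu0⟩
  have hxx : x * x ∉ (Inn (POmega F ⇑Q)).subgroupOf (autK Q D) := by
    intro h'
    rw [Subgroup.mem_subgroupOf] at h'
    have h3 := omega_of_mem_inn Q hscal hneg hne (k * ru) _ hind2 h'
    rw [mem_omega_iff Q h2 hQ hcard ε hε, map_mul, map_mul, vεu, vεk] at h3
    exact absurd h3.2 (by decide)
  exact exists_hom_zmod4 _ hidx x hxx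

/-- case `-1 ∈ Ω`, with a similarity `s` of non-square multiplier `c₁`, determinant `c₁ ^ n` and
square `c₁`: the quotient of `autK` by the inner automorphisms is a four-group -/
theorem autK_mod_inn_klein (hodd : Odd (Fintype.card F)) (hQ : (QuadraticMap.polarBilin Q).Nondegenerate)
    (hcard : 2 ≤ Fintype.card ι)
    {n : ℕ} {J : Matrix ι ι F} {v₀ : ι → F} (D : KData ⇑Q n J v₀)
    (hscal : ∀ g : GL ι F, g ∈ Geo.quadSimilarityGroup (F := F) ⇑Q → Ind ⇑Q g 1 →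
      ∃ c : F, (g : Matrix ι ι F) = c • (1 : Matrix ι ι F))
    (c₁ : F) (hc₁ : ¬ IsSquare c₁)
    (s : GL ι F) (hs : ∀ v, Q ((s : Matrix ι ι F) *ᵥ v) = c₁ * Q v)
    (hsdet : (s : Matrix ι ι F).det = c₁ ^ n)
    (hss : (s : Matrix ι ι F) * (s : Matrix ι ι F) = c₁ • (1 : Matrix ι ι F))
    (hneg : negO Q ∈ Omega F ⇑Q) :
    ∃ φ : ↥(autK Q D) →* Multiplicative (ZMod 2 × ZMod 2), Function.Surjective φ ∧
      φ.ker = (Inn (POmega F ⇑Q)).subgroupOf (autK Q D) := by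
  have h2 := D.h2
  have hchar : ringChar F ≠ 2 := ringChar_ne_two h2
  have hidx := relIndex_inn_autK Q hodd hQ hcard D hscal s c₁ hs hc₁ hsdet hneg
  obtain ⟨ψ, hψs, hψk, hψ⟩ := exists_psi Q hodd D hscal s c₁ hs hc₁ hsdet
  have hc₁0 : c₁ ≠ 0 := by
    rintro rfl
    exact hc₁ ⟨0, by simp⟩
  have hsmem : s ∈ Geo.quadSimilarityGroup (F := F) ⇑Q := ⟨Units.mk0 c₁ hc₁0, hs⟩
  have hsmult : mult ⇑Q v₀ s = c₁ := by unfold mult; rw [hs, D.hv₀, mul_one]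
  have hsK : s ∈ simDet Q D := ⟨hsmem, by rw [hsmult, hsdet]⟩
  obtain ⟨a, hadef⟩ : ∃ a : ↥(autK Q D), a = ⟨indAut ⇑Q s hsmem,
      (mem_autK_iff Q D _).mpr ⟨s, hsK, ind_indAut ⇑Q s hsmem⟩⟩ := ⟨_, rfl⟩
  have haind : Ind ⇑Q s (a : MulAut (POmega F ⇑Q)) := by rw [hadef]; exact ind_indAut ⇑Q s hsmem
  have hψa : ψ a = Multiplicative.ofAdd (1 : ZMod 2) := by
    rw [hψ a s hsmem haind]
    unfold th1
    rw [hsmult, ind2_of_ne]
    intro h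
    exact hc₁ ((FiniteField.isSquare_iff hchar hc₁0).mpr h)
  -- `a * a = 1`
  have hz : ((s * s : GL ι F) : Matrix ι ι F) = c₁ • (1 : Matrix ι ι F) := by rw [Units.val_mul, hss]
  have haa : ((a * a : ↥(autK Q D)) : MulAut (POmega F ⇑Q)) = 1 := by
    have h1 : Ind ⇑Q (s * s) ((a * a : ↥(autK Q D)) : MulAut (POmega F ⇑Q)) := ind_mul ⇑Q hsmem haind haind
    have h3 : Ind ⇑Q (s * s) (1 : MulAut (POmega F ⇑Q)) := ind_scalar ⇑Q (s * s) c₁ hz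
    rw [ind_unique ⇑Q _ (mul_mem hsmem hsmem) _ h1, ← ind_unique ⇑Q _ (mul_mem hsmem hsmem) _ h3]
  -- an element of `PSO` outside the inner automorphisms
  obtain ⟨β₀, hβ₀mem, hβ₀⟩ := Subgroup.relIndex_eq_two_iff.mp (pso_relIndex_two Q h2 hQ hcard hscal hneg)
  have hβ₀n : β₀ ∉ Inn (POmega F ⇑Q) := by
    intro h
    rcases hβ₀ 1 (one_mem _) with ⟨h1, h3⟩ | ⟨h1, h3⟩
    · exact h3 (one_mem _)
    · rw [one_mul] at h3
      exact h3 h
  have hβ₀sq : β₀ * β₀ ∈ Inn (POmega F ⇑Q) := by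
    rcases hβ₀ β₀ hβ₀mem with ⟨h1, h3⟩ | ⟨h1, h3⟩
    · exact h1
    · exact absurd h1 hβ₀n
  obtain ⟨b, hbdef⟩ : ∃ b : ↥(autK Q D), b = ⟨β₀, psoAut_le_autK Q D hβ₀mem⟩ := ⟨_, rfl⟩
  have hbc : (b : MulAut (POmega F ⇑Q)) = β₀ := by rw [hbdef]
  have hψb : ψ b = 1 := by
    have : b ∈ ψ.ker := by
      rw [hψk, Subgroup.mem_subgroupOf, hbc]
      exact hβ₀mem
    exact this
  have hNle : ∀ y : ↥(autK Q D), y ∈ (Inn (POmega F ⇑Q)).subgroupOf (autK Q D) → ψ y = 1 := by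
    intro y hy
    have : y ∈ ψ.ker := by
      rw [hψk, Subgroup.mem_subgroupOf]
      rw [Subgroup.mem_subgroupOf] at hy
      exact inn_le_psoAut Q hy
    exact this
  have hne1 : Multiplicative.ofAdd (1 : ZMod 2) ≠ 1 := by decide
  refine exists_hom_klein _ hidx a b ?_ ?_ ?_ ?_ ?_
  · rw [Subgroup.mem_subgroupOf, haa]
    exact one_mem _
  · rw [Subgroup.mem_subgroupOf]
    show (b : MulAut (POmega F ⇑Q)) * (b : MulAut (POmega F ⇑Q)) ∈ _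
    rw [hbc]
    exact hβ₀sq
  · intro h
    have := hNle a h
    rw [hψa] at this
    exact hne1 this
  · intro h
    rw [Subgroup.mem_subgroupOf, hbc] at h
    exact hβ₀n h
  · intro h
    have := hNle _ h
    rw [map_mul, map_inv, hψa, hψb, mul_one] at this
    exact hne1 (inv_eq_one.mp this)

/-- version of `autK` for a form given as a function -/
def autKf (q : (ι → F) → F) (n : ℕ) (v₀ : ι → F) : Subgroup (MulAut (POmega F q)) :=
  autSubgroupOf (fun β : POmega F q ≃* POmega F q => ∃ g : GL ι F,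
    (g ∈ Geo.quadSimilarityGroup (F := F) q ∧ (g : Matrix ι ι F).det = mult q v₀ g ^ n) ∧ Ind q g β)

omit [Fintype F] in
theorem autKf_eq {n : ℕ} {J : Matrix ι ι F} {v₀ : ι → F} (D : KData ⇑Q n J v₀) :
    autKf ⇑Q n v₀ = autK Q D := rfl

theorem autKf_mod_inn_two (q : (ι → F) → F) (hq : ⇑Q = q)
    (hodd : Odd (Fintype.card F)) (hQ : (QuadraticMap.polarBilin Q).Nondegenerate)
    (hcard : 2 ≤ Fintype.card ι) (heven : Even (Fintype.card ι))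
    {n : ℕ} {J : Matrix ι ι F} {v₀ : ι → F} (D : KData q n J v₀)
    (hscal : ∀ g : GL ι F, g ∈ Geo.quadSimilarityGroup (F := F) q → Ind q g 1 →
      ∃ c : F, (g : Matrix ι ι F) = c • (1 : Matrix ι ι F))
    (g₁ : GL ι F) (c₁ : F) (hg₁ : ∀ v, q ((g₁ : Matrix ι ι F) *ᵥ v) = c₁ * q v) (hc₁ : ¬ IsSquare c₁)
    (hdet₁ : (g₁ : Matrix ι ι F).det = c₁ ^ n)
    (hneg : negO Q ∉ Omega F ⇑Q) :
    ∃ φ : ↥(autKf q n v₀) →* Multiplicative (ZMod 2), Function.Surjective φ ∧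
      φ.ker = (Inn (POmega F q)).subgroupOf (autKf q n v₀) := by
  subst hq
  exact autK_mod_inn_two Q hodd hQ hcard heven D hscal g₁ c₁ hg₁ hc₁ hdet₁ hneg

theorem autKf_mod_inn_cyclic (q : (ι → F) → F) (hq : ⇑Q = q)
    (hodd : Odd (Fintype.card F)) (hQ : (QuadraticMap.polarBilin Q).Nondegenerate)
    (hcard : 2 ≤ Fintype.card ι)
    {n : ℕ} {J : Matrix ι ι F} {v₀ : ι → F} (D : KData q n J v₀)
    (hscal : ∀ g : GL ι F, g ∈ Geo.quadSimilarityGroup (F := F) q → Ind q g 1 →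
      ∃ c : F, (g : Matrix ι ι F) = c • (1 : Matrix ι ι F))
    (g₁ : GL ι F) (c₁ : F) (hg₁ : ∀ v, q ((g₁ : Matrix ι ι F) *ᵥ v) = c₁ * q v) (hc₁ : ¬ IsSquare c₁)
    (hdet₁ : (g₁ : Matrix ι ι F).det = c₁ ^ n)
    (s : GL ι F) (hs : ∀ v, q ((s : Matrix ι ι F) *ᵥ v) = c₁ * q v)
    (hsdet : (s : Matrix ι ι F).det = -c₁ ^ n)
    (hss : (s : Matrix ι ι F) * (s : Matrix ι ι F) = c₁ • (1 : Matrix ι ι F))
    (hneg : negO Q ∈ Omega F ⇑Q) :
    ∃ φ : ↥(autKf q n v₀) →* Multiplicative (ZMod 4), Function.Surjective φ ∧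
      φ.ker = (Inn (POmega F q)).subgroupOf (autKf q n v₀) := by
  subst hq
  exact autK_mod_inn_cyclic Q hodd hQ hcard D hscal g₁ c₁ hg₁ hc₁ hdet₁ s hs hsdet hss hneg

theorem autKf_mod_inn_klein (q : (ι → F) → F) (hq : ⇑Q = q)
    (hodd : Odd (Fintype.card F)) (hQ : (QuadraticMap.polarBilin Q).Nondegenerate)
    (hcard : 2 ≤ Fintype.card ι)
    {n : ℕ} {J : Matrix ι ι F} {v₀ : ι → F} (D : KData q n J v₀)
    (hscal : ∀ g : GL ι F, g ∈ Geo.quadSimilarityGroup (F := F) q → Ind q g 1 →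
      ∃ c : F, (g : Matrix ι ι F) = c • (1 : Matrix ι ι F))
    (c₁ : F) (hc₁ : ¬ IsSquare c₁)
    (s : GL ι F) (hs : ∀ v, q ((s : Matrix ι ι F) *ᵥ v) = c₁ * q v)
    (hsdet : (s : Matrix ι ι F).det = c₁ ^ n)
    (hss : (s : Matrix ι ι F) * (s : Matrix ι ι F) = c₁ • (1 : Matrix ι ι F))
    (hneg : negO Q ∈ Omega F ⇑Q) :
    ∃ φ : ↥(autKf q n v₀) →* Multiplicative (ZMod 2 × ZMod 2), Function.Surjective φ ∧
      φ.ker = (Inn (POmega F q)).subgroupOf (autKf q n v₀) := by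
  subst hq
  exact autK_mod_inn_klein Q hodd hQ hcard D hscal c₁ hc₁ s hs hsdet hss hneg

end Main

end Cfsg.Agent.Helper45.ID
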