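import Cfsg.Agent.Helper45.IDMain

set_option autoImplicit false

/-!
Helper library (helper45): `Inndiag(PΩ⁺_{2m}(q)) / Inn` for odd `q`.
-/

universe u

namespace Cfsg.Agent.Helper45.ID

open Cfsg Matrix Cfsg.Agent.Helper45

section PlusID

variable {F : Type u} [Field F] {m : ℕ}

/-- the similarity `e_i ↦ f_i`, `f_i ↦ c e_i` of the hyperbolic form -/
theorem exists_swap_sim (h2 : (2 : F) ≠ 0) (c : F) (hc : c ≠ 0) :
    ∃ s : GL (Fin m ⊕ Fin m) F,
      (∀ v, quadFormPlus m F ((s : Matrix (Fin m ⊕ Fin m) (Fin m ⊕ Fin m) F) *ᵥ v) = c * quadFormPlus m F v) ∧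
      (s : Matrix (Fin m ⊕ Fin m) (Fin m ⊕ Fin m) F).det = (-c) ^ m ∧
      (s : Matrix (Fin m ⊕ Fin m) (Fin m ⊕ Fin m) F) * (s : Matrix (Fin m ⊕ Fin m) (Fin m ⊕ Fin m) F) =
        c • (1 : Matrix (Fin m ⊕ Fin m) (Fin m ⊕ Fin m) F) := by
  have hU : (fromBlocks (1 : Matrix (Fin m) (Fin m) F) (1 : Matrix (Fin m) (Fin m) F) (0 : Matrix (Fin m) (Fin m) F) (1 : Matrix (Fin m) (Fin m) F)).det = 1 := by
    rw [det_fromBlocks_zero₂₁, det_one, mul_one]
  have hUM : fromBlocks (1 : Matrix (Fin m) (Fin m) F) (1 : Matrix (Fin m) (Fin m) F) (0 : Matrix (Fin m) (Fin m) F) (1 : Matrix (Fin m) (Fin m) F) *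
      fromBlocks (0 : Matrix (Fin m) (Fin m) F) (c • (1 : Matrix (Fin m) (Fin m) F)) (1 : Matrix (Fin m) (Fin m) F) (0 : Matrix (Fin m) (Fin m) F) =
      fromBlocks (1 : Matrix (Fin m) (Fin m) F) (c • (1 : Matrix (Fin m) (Fin m) F)) (1 : Matrix (Fin m) (Fin m) F) (0 : Matrix (Fin m) (Fin m) F) := by
    rw [fromBlocks_multiply]
    simp
  have hdet : (fromBlocks (0 : Matrix (Fin m) (Fin m) F) (c • (1 : Matrix (Fin m) (Fin m) F)) (1 : Matrix (Fin m) (Fin m) F) (0 : Matrix (Fin m) (Fin m) F)).det =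
      (-c) ^ m := by
    have h := congrArg Matrix.det hUM
    rw [det_mul, hU, one_mul, det_fromBlocks_one₁₁] at h
    rw [h, zero_sub, one_mul, ← neg_smul, det_smul, det_one, mul_one, Fintype.card_fin]
  obtain ⟨s, hs⟩ : ∃ s : GL (Fin m ⊕ Fin m) F, s = Matrix.GeneralLinearGroup.mkOfDetNeZero
    (fromBlocks (0 : Matrix (Fin m) (Fin m) F) (c • (1 : Matrix (Fin m) (Fin m) F)) (1 : Matrix (Fin m) (Fin m) F) (0 : Matrix (Fin m) (Fin m) F))
    (by rw [hdet]; exact pow_ne_zero _ (neg_ne_zero.mpr hc)) := ⟨_, rfl⟩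
  have hsc : (s : Matrix (Fin m ⊕ Fin m) (Fin m ⊕ Fin m) F) =
      fromBlocks (0 : Matrix (Fin m) (Fin m) F) (c • (1 : Matrix (Fin m) (Fin m) F)) (1 : Matrix (Fin m) (Fin m) F) (0 : Matrix (Fin m) (Fin m) F) := by
    rw [hs]; rfl
  refine ⟨s, ?_, by rw [hsc, hdet], ?_⟩
  · intro v
    rw [hsc]
    apply S2722.sim_blocks h2
    · simp
    · simp
    · simp
  · rw [hsc, fromBlocks_multiply, ← fromBlocks_one, fromBlocks_smul]
    simp

/-- the inner-diagonal group of `PΩ⁺` is the group induced by the similarities with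
`det = multiplier ^ m` -/
theorem inndiag_plus_eq (h2 : (2 : F) ≠ 0) (i₀ : Fin m)
    (D : KData (quadFormPlus m F) m (S2722.gramJ m F) (S2722.v0 F i₀)) :
    inndiagPOmegaPlus m F = autKf (quadFormPlus m F) m (S2722.v0 F i₀) := by
  unfold inndiagPOmegaPlus autKf
  congr 1
  funext β
  apply propext
  unfold IsInnerDiagonalAutPOmegaPlus
  constructor
  · rintro ⟨g, hg, hP, hind⟩
    have hspec := D.mult_spec hg
    exact ⟨g, ⟨hg, (pres_plus_iff h2 g _ hspec.2 hspec.1).mp hP⟩, hind⟩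
  · rintro ⟨g, ⟨hg, hdet⟩, hind⟩
    have hspec := D.mult_spec hg
    exact ⟨g, hg, (pres_plus_iff h2 g _ hspec.2 hspec.1).mpr hdet, hind⟩

variable [Fintype F]

set_option maxHeartbeats 1000000 in
/-- `Inndiag(PΩ⁺_{2m}(q)) / Inn` for odd `q` and `m ≥ 4`: cyclic of order two, cyclic of order four
or a four-group -/
theorem inndiag_plus_mod_inn (hodd : Odd (Fintype.card F)) (hm : 4 ≤ m) :
    ((Odd m ∧ Fintype.card F % 4 = 3) →
      (∃ φ : ↥(inndiagPOmegaPlus m F) →* Multiplicative (ZMod 2), Function.Surjective φ ∧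
        φ.ker = (Inn (POmega F (quadFormPlus m F))).subgroupOf (inndiagPOmegaPlus m F))) ∧
    ((Odd m ∧ Fintype.card F % 4 = 1) →
      (∃ φ : ↥(inndiagPOmegaPlus m F) →* Multiplicative (ZMod 4), Function.Surjective φ ∧
        φ.ker = (Inn (POmega F (quadFormPlus m F))).subgroupOf (inndiagPOmegaPlus m F))) ∧
    (Even m →
      (∃ φ : ↥(inndiagPOmegaPlus m F) →* Multiplicative (ZMod 2 × ZMod 2), Function.Surjective φ ∧
        φ.ker = (Inn (POmega F (quadFormPlus m F))).subgroupOf (inndiagPOmegaPlus m F))) := by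
  have h2 := two_ne_zero_of_odd_card hodd
  have hchar : ringChar F ≠ 2 := ringChar_ne_two h2
  have hm3 : 3 ≤ m := by omega
  have hm1 : 1 ≤ m := by omega
  obtain ⟨i₀⟩ : Nonempty (Fin m) := ⟨⟨0, by omega⟩⟩
  have hiff := negO_plus_mem_iff (m := m) hodd h2 hm1
  rw [(pow_mod_four _ m hodd).1] at hiff
  have hcard : 2 ≤ Fintype.card (Fin m ⊕ Fin m) := by rw [Fintype.card_sum, Fintype.card_fin]; omega
  have heven : Even (Fintype.card (Fin m ⊕ Fin m)) := by
    rw [Fintype.card_sum, Fintype.card_fin]; exact ⟨m, rfl⟩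
  have D : KData (quadFormPlus m F) m (S2722.gramJ m F) (S2722.v0 F i₀) := by
    constructor
    · simp
    · exact S2722.quad_eq
    · exact S2722.gramJ_transpose
    · exact S2722.gramJ_det
    · exact S2722.quad_v0 _
    · exact h2
  obtain ⟨c₁, hc₁⟩ := FiniteField.exists_nonsquare hchar
  have hc₁0 : c₁ ≠ 0 := by
    rintro rfl
    exact hc₁ ⟨0, by simp⟩
  obtain ⟨g₁, hg₁, hdet₁⟩ := S2722.exists_g1 (m := m) h2 c₁ hc₁0
  obtain ⟨s, hs, hsdet, hss⟩ := exists_swap_sim (m := m) h2 c₁ hc₁0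
  rw [inndiag_plus_eq h2 i₀ D]
  refine ⟨?_, ?_, ?_⟩
  · intro hc
    exact autKf_mod_inn_two (qPlus m F h2) (quadFormPlus m F) rfl hodd (qPlus_nondeg h2) hcard heven D
      (fun g hg h1 => scalar_of_ind_one_plus h2 hm3 g hg h1) g₁ c₁ hg₁ hc₁ hdet₁
      (fun h => (hiff.mp h) hc)
  · rintro ⟨hmo, hq1⟩
    exact autKf_mod_inn_cyclic (qPlus m F h2) (quadFormPlus m F) rfl hodd (qPlus_nondeg h2) hcard D
      (fun g hg h1 => scalar_of_ind_one_plus h2 hm3 g hg h1) g₁ c₁ hg₁ hc₁ hdet₁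
      s hs (by rw [hsdet, Odd.neg_pow hmo]) hss (hiff.mpr (fun h => by omega))
  · intro hme
    exact autKf_mod_inn_klein (qPlus m F h2) (quadFormPlus m F) rfl hodd (qPlus_nondeg h2) hcard D
      (fun g hg h1 => scalar_of_ind_one_plus h2 hm3 g hg h1) c₁ hc₁
      s hs (by rw [hsdet, Even.neg_pow hme]) hss
      (hiff.mpr (fun h => (Nat.not_even_iff_odd.mpr h.1) hme))

end PlusID

end Cfsg.Agent.Helper45.ID
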