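import Cfsg.Agent.Helper45.InvNormal
import Cfsg.Agent.Helper45.CenterForms

set_option autoImplicit false
set_option linter.unusedSectionVars false

universe u

namespace Cfsg.Agent.Helper45

open Cfsg Matrix

section HypFrames

variable {ι : Type} [Fintype ι] [DecidableEq ι] {F : Type u} [Field F]
  {Q : QuadraticForm F (ι → F)}

theorem HypPairs.polar_L_gv {m : ℕ} {L R : Fin m → ι} (H : HypPairs Q m L R) (a b : Fin m) :
    QuadraticMap.polar ⇑Q (Pi.single (L a) 1) (gv F L R b) = if a = b then 1 else 0 := by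
  rw [H.hpL, gv_apply, if_neg (fun h => H.hLR b a h.symm), zero_add]
  by_cases hab : a = b
  · rw [if_pos hab, if_pos (by rw [hab])]
  · rw [if_neg hab, if_neg (fun h => hab (H.hR h))]

theorem HypPairs.polar_R_gv {m : ℕ} {L R : Fin m → ι} (H : HypPairs Q m L R) (a b : Fin m) :
    QuadraticMap.polar ⇑Q (Pi.single (R a) 1) (gv F L R b) = if a = b then 1 else 0 := by
  rw [H.hpR, gv_apply, if_neg (fun h => H.hLR a b h), add_zero]
  by_cases hab : a = b
  · rw [if_pos hab, if_pos (by rw [hab])]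
  · rw [if_neg hab, if_neg (fun h => hab (H.hL h))]

theorem HypPairs.polar_gv_gv [CharP F 2] {m : ℕ} {L R : Fin m → ι} (H : HypPairs Q m L R)
    (a b : Fin m) : QuadraticMap.polar ⇑Q (gv F L R a) (gv F L R b) = 0 := by
  have h : gv F L R a = Pi.single (L a) 1 + Pi.single (R a) 1 := rfl
  rw [h, QuadraticMap.polar_add_left, H.polar_L_gv, H.polar_R_gv]
  exact CharTwo.add_self_eq_zero _

/-- the orthonormal totally isotropic frame `e_i + f_i`, `i < s` -/
theorem HypPairs.frame_id [CharP F 2] {m : ℕ} {L R : Fin m → ι} (H : HypPairs Q m L R) (s : ℕ)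
    (hs : s ≤ m) :
    InvFrame Q id (fun i : Fin s => gv F L R (Fin.castLE hs i))
      (fun i : Fin s => (Pi.single (L (Fin.castLE hs i)) 1 : ι → F)) where
  ti := fun i j => H.polar_gv_gv _ _
  dual := fun i j => by
    rw [H.polar_L_gv]
    by_cases hij : i = j
    · rw [if_pos hij, if_pos (by rw [hij])]
    · rw [if_neg hij, if_neg (fun h => hij (Fin.castLE_injective hs h))]
  quad := fun i => by
    rw [if_pos (show id i = i from rfl), gv_eq_uv, H.Q_uv]
  invol := fun i => rfl

/-- the totally singular frame `e_i`, `i < 2k` -/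
theorem HypPairs.frame_swap {m : ℕ} {L R : Fin m → ι} (H : HypPairs Q m L R) (k : ℕ)
    (hk : k + k ≤ m) :
    InvFrame Q Sum.swap
      (fun i : Fin k ⊕ Fin k => (Pi.single (L (Fin.castLE hk (finSumFinEquiv i))) 1 : ι → F))
      (fun i : Fin k ⊕ Fin k => (Pi.single (R (Fin.castLE hk (finSumFinEquiv i))) 1 : ι → F)) where
  ti := fun i j => by
    rw [H.hpL, Pi.single_apply, if_neg (fun h => H.hLR _ _ h.symm)]
  dual := fun i j => by
    rw [H.hpR, Pi.single_apply]
    by_cases hij : i = j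
    · rw [if_pos hij, if_pos (by rw [hij])]
    · rw [if_neg hij, if_neg (fun h => hij (finSumFinEquiv.injective
        (Fin.castLE_injective hk (H.hL h))))]
  quad := fun i => by
    rw [H.hQL, if_neg]
    cases i with
    | inl i => exact fun h => Sum.inr_ne_inl h
    | inr i => exact fun h => Sum.inl_ne_inr h
  invol := Sum.swap_swap

/-- adding one more vector of norm one to an orthonormal totally isotropic frame -/
theorem InvFrame.cons_id [CharP F 2] {s : ℕ} {c d : Fin s → (ι → F)} (h : InvFrame Q id c d)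
    (z w : ι → F) (hz : Q z = 1) (hzc : ∀ i, QuadraticMap.polar ⇑Q z (c i) = 0)
    (hwz : QuadraticMap.polar ⇑Q w z = 1) (hwc : ∀ i, QuadraticMap.polar ⇑Q w (c i) = 0)
    (hdz : ∀ i, QuadraticMap.polar ⇑Q (d i) z = 0) :
    InvFrame Q id (Fin.cons z c : Fin (s + 1) → (ι → F)) (Fin.cons w d : Fin (s + 1) → (ι → F)) where
  ti := fun i j => by
    refine Fin.cases ?_ (fun i => ?_) i
    · refine Fin.cases ?_ (fun j => ?_) j
      · rw [Fin.cons_zero, QuadraticMap.polar_self, two_smul, CharTwo.add_self_eq_zero]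
      · rw [Fin.cons_zero, Fin.cons_succ, hzc]
    · refine Fin.cases ?_ (fun j => ?_) j
      · rw [Fin.cons_zero, Fin.cons_succ, QuadraticMap.polar_comm, hzc]
      · rw [Fin.cons_succ, Fin.cons_succ, h.ti]
  dual := fun i j => by
    refine Fin.cases ?_ (fun i => ?_) i
    · refine Fin.cases ?_ (fun j => ?_) j
      · rw [Fin.cons_zero, Fin.cons_zero, hwz, if_pos rfl]
      · rw [Fin.cons_zero, Fin.cons_succ, hwc, if_neg (Fin.succ_ne_zero j).symm]
    · refine Fin.cases ?_ (fun j => ?_) j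
      · rw [Fin.cons_zero, Fin.cons_succ, hdz, if_neg (Fin.succ_ne_zero i)]
      · rw [Fin.cons_succ, Fin.cons_succ, h.dual]
        by_cases hij : i = j
        · rw [if_pos hij, if_pos (by rw [hij])]
        · rw [if_neg hij, if_neg (fun hc => hij (Fin.succ_injective _ hc))]
  quad := fun i => by
    refine Fin.cases ?_ (fun i => ?_) i
    · rw [Fin.cons_zero, hz, if_pos (show id (0 : Fin (s + 1)) = 0 from rfl)]
    · rw [Fin.cons_succ, h.quad, if_pos (show id i = i from rfl),
        if_pos (show id i.succ = i.succ from rfl)]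
  invol := fun i => rfl

end HypFrames

section PlusCount

variable {F : Type u} [Field F] [Fintype F] [CharP F 2]

/-- `O⁺_{2m}(q)`, `q` even, has `m + ⌊m/2⌋` classes of involutions -/
theorem plus_card_involution_classes (m : ℕ) :
    Nat.card {C : ConjClasses ↥(isometryGroup F ⇑(Helper43.plusQF m F)) //
      ∃ g : ↥(isometryGroup F ⇑(Helper43.plusQF m F)), ConjClasses.mk g = C ∧ orderOf g = 2} =
      m + m / 2 := by
  have hQ : (QuadraticMap.polarBilin (Helper43.plusQF m F)).Nondegenerate := plusQF_nondeg' m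
  apply card_involution_classes (Helper43.plusQF m F) hQ m (m / 2)
  · intro t ht
    have h := two_rank_le (Helper43.plusQF m F) t ht
    rw [card_plus_index] at h
    omega
  · intro t k ht _ hk
    have h := two_rank_le (Helper43.plusQF m F) t ht
    rw [card_plus_index] at h
    omega
  · intro s _ hs
    exact ⟨_, _, (plus_hypPairs m).frame_id s hs⟩
  · intro k _ hk
    exact ⟨_, _, (plus_hypPairs m).frame_swap k (by omega)⟩

end PlusCount

section MinusCount

variable {F : Type u} [Field F] [Fintype F] [CharP F 2]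

theorem minus_a_ne_zero (a b : F)
    (hab : ∀ z₁ z₂ : F, z₁ ^ 2 + a * z₁ * z₂ + b * z₂ ^ 2 = 0 → z₁ = 0 ∧ z₂ = 0) : a ≠ 0 := by
  intro ha
  obtain ⟨r, hr⟩ := FiniteField.isSquare_of_char_two (CharP.ringChar_of_prime_eq_zero Nat.prime_two
    (CharTwo.two_eq_zero (R := F))) b
  have h := hab r 1 (by
    rw [ha, hr]
    have h2 : r ^ 2 + 0 * r * 1 + r * r * 1 ^ 2 = r * r + r * r := by ring
    rw [h2]
    exact CharTwo.add_self_eq_zero _)
  exact one_ne_zero h.2

/-- the full orthonormal frame of the minus-type form -/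
theorem minus_full_frame (k : ℕ) (a b : F)
    (hab : ∀ z₁ z₂ : F, z₁ ^ 2 + a * z₁ * z₂ + b * z₂ ^ 2 = 0 → z₁ = 0 ∧ z₂ = 0) :
    ∃ c d : Fin (k + 1) → ((Fin k ⊕ Fin k) ⊕ Fin 2 → F),
      InvFrame (Helper43.minusQF k F a b) id c d := by
  have H := minus_hypPairs (F := F) k a b
  have hf := H.frame_id k le_rfl
  have ha := minus_a_ne_zero a b hab
  have hgv : ∀ (i : Fin k) (j : Fin 2), QuadraticMap.polar ⇑(Helper43.minusQF k F a b)
      (Pi.single (Sum.inr j) 1)
      (gv F (fun i : Fin k => (Sum.inl (Sum.inl i) : (Fin k ⊕ Fin k) ⊕ Fin 2))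
        (fun i : Fin k => (Sum.inl (Sum.inr i) : (Fin k ⊕ Fin k) ⊕ Fin 2)) i) = 0 := by
    intro i j
    have h : gv F (fun i : Fin k => (Sum.inl (Sum.inl i) : (Fin k ⊕ Fin k) ⊕ Fin 2))
        (fun i : Fin k => (Sum.inl (Sum.inr i) : (Fin k ⊕ Fin k) ⊕ Fin 2)) i =
        Pi.single (Sum.inl (Sum.inl i)) 1 + Pi.single (Sum.inl (Sum.inr i)) 1 := rfl
    rw [QuadraticMap.polar_comm, h, QuadraticMap.polar_add_left, H.hpL, H.hpR, Pi.single_apply,
      Pi.single_apply, if_neg (by simp), if_neg (by simp), add_zero]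
  have hz : Helper43.minusQF k F a b (Pi.single (Sum.inr 0) 1) = 1 := by
    show quadFormMinus k F a b (Pi.single (Sum.inr 0) 1) = 1
    unfold quadFormMinus
    simp
  have hwz : QuadraticMap.polar ⇑(Helper43.minusQF k F a b) (a⁻¹ • Pi.single (Sum.inr 1) 1)
      (Pi.single (Sum.inr 0) 1) = 1 := by
    rw [QuadraticMap.polar_smul_left, minusQF_polar]
    simp [ha]
  refine ⟨_, _, hf.cons_id (Pi.single (Sum.inr 0) 1) (a⁻¹ • Pi.single (Sum.inr 1) 1) hz
    (fun i => hgv _ 0) hwz (fun i => ?_) (fun i => ?_)⟩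
  · rw [QuadraticMap.polar_smul_left, hgv, smul_zero]
  · rw [H.hpL, Pi.single_apply, if_neg (by simp)]

/-- `O⁻_{2k+2}(q)`, `q` even, has `(k + 1) + ⌊k/2⌋` classes of involutions -/
theorem minus_card_involution_classes (k : ℕ) (a b : F)
    (hab : ∀ z₁ z₂ : F, z₁ ^ 2 + a * z₁ * z₂ + b * z₂ ^ 2 = 0 → z₁ = 0 ∧ z₂ = 0) :
    Nat.card {C : ConjClasses ↥(isometryGroup F ⇑(Helper43.minusQF k F a b)) //
      ∃ g : ↥(isometryGroup F ⇑(Helper43.minusQF k F a b)), ConjClasses.mk g = C ∧ orderOf g = 2} =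
      (k + 1) + k / 2 := by
  have hQ : (QuadraticMap.polarBilin (Helper43.minusQF k F a b)).Nondegenerate :=
    minusQF_nondeg' k a b hab
  apply card_involution_classes (Helper43.minusQF k F a b) hQ (k + 1) (k / 2)
  · intro t ht
    have h := two_rank_le (Helper43.minusQF k F a b) t ht
    rw [card_minus_index] at h
    omega
  · intro t j ht halt hj
    by_contra hcon
    have hfin := finrank_range_sub_one (Helper43.minusQF k F a b) t
    obtain ⟨v, hv, hQv⟩ := minus_exists_nonsingular k a b hab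
      (LinearMap.range (Matrix.toLin' (((t : GL ((Fin k ⊕ Fin k) ⊕ Fin 2) F) :
        Matrix ((Fin k ⊕ Fin k) ⊕ Fin 2) ((Fin k ⊕ Fin k) ⊕ Fin 2) F) - 1))) (by omega)
    exact hQv (alt_range_singular (Helper43.minusQF k F a b) t halt v hv)
  · intro s _ hs
    by_cases hsk : s ≤ k
    · exact ⟨_, _, (minus_hypPairs k a b).frame_id s hsk⟩
    · have hs' : s = k + 1 := by omega
      subst hs'
      exact minus_full_frame k a b hab
  · intro j _ hj
    exact ⟨_, _, (minus_hypPairs k a b).frame_swap j (by omega)⟩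

end MinusCount

end Cfsg.Agent.Helper45
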