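import Cfsg.Agent.Helper45.CDWitt

set_option autoImplicit false
set_option linter.unusedSectionVars false

universe u

namespace Cfsg.Agent.Helper45

open Cfsg Matrix

section MinusOmega

variable {F : Type u} [Field F] [Fintype F] [CharP F 2]

/-- in the minus-type form of dimension four, orthogonal singular vectors are proportional -/
theorem minus_witt_one (a b : F)
    (hab : ∀ z₁ z₂ : F, z₁ ^ 2 + a * z₁ * z₂ + b * z₂ ^ 2 = 0 → z₁ = 0 ∧ z₂ = 0)
    (u w : (Fin 1 ⊕ Fin 1) ⊕ Fin 2 → F) (hu : Helper43.minusQF 1 F a b u = 0)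
    (hw : Helper43.minusQF 1 F a b w = 0)
    (huw : QuadraticMap.polar ⇑(Helper43.minusQF 1 F a b) u w = 0) :
    u = 0 ∨ w ∈ Submodule.span F {u} := by
  by_contra hcon
  push Not at hcon
  obtain ⟨hu0, hwu⟩ := hcon
  have hts : ∀ x ∈ Submodule.span F {u, w}, Helper43.minusQF 1 F a b x = 0 := by
    intro x hx
    obtain ⟨α, β, rfl⟩ := Submodule.mem_span_pair.mp hx
    rw [Helper13.Q_add', QuadraticMap.map_smul, QuadraticMap.map_smul, hu, hw,
      QuadraticMap.polar_smul_left, QuadraticMap.polar_smul_right, huw]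
    simp
  have hfin : 2 ≤ Module.finrank F (Submodule.span F {u, w}) := by
    by_contra hlt
    have hle : Submodule.span F {u} ≤ Submodule.span F {u, w} :=
      Submodule.span_mono (by simp)
    have h1 : Module.finrank F (Submodule.span F {u}) = 1 := finrank_span_singleton hu0
    have heq := Submodule.eq_of_le_of_finrank_le hle (by omega)
    apply hwu
    rw [heq]
    exact Submodule.subset_span (by simp)
  obtain ⟨v, hv, hQv⟩ := minus_exists_nonsingular 1 a b hab _ hfin
  exact hQv (hts v hv)

/-- the orthogonal group of a minus-type form is generated by reflections (characteristic two, every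
dimension, every finite field) -/
theorem minus_reflGroup_top (k : ℕ) (a b : F)
    (hab : ∀ z₁ z₂ : F, z₁ ^ 2 + a * z₁ * z₂ + b * z₂ ^ 2 = 0 → z₁ = 0 ∧ z₂ = 0) :
    reflGroup (Helper43.minusQF k F a b) = ⊤ := by
  have hQ := minusQF_nondeg' k a b hab
  by_cases hk : k = 1
  · subst hk
    exact reflGroup_eq_top_of_witt_le_one (Helper43.minusQF 1 F a b) hQ (minus_witt_one a b hab)
  · apply Helper44.reflGroup_eq_top_of (Helper43.minusQF k F a b) hQ
    right
    rw [card_minus_index]
    omega

/-- `Ω⁻_{2k+2}(q)`, `q` even, has `⌊(k+1)/2⌋ + ⌊k/2⌋` classes of involutions -/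
theorem minus_card_omega_involution_classes (k : ℕ) (a b : F)
    (hab : ∀ z₁ z₂ : F, z₁ ^ 2 + a * z₁ * z₂ + b * z₂ ^ 2 = 0 → z₁ = 0 ∧ z₂ = 0) :
    Nat.card {C : ConjClasses ↥(Omega F ⇑(Helper43.minusQF k F a b)) //
      ∃ g : ↥(Omega F ⇑(Helper43.minusQF k F a b)), ConjClasses.mk g = C ∧ orderOf g = 2} =
      (k + 1) / 2 + k / 2 := by
  have hQ : (QuadraticMap.polarBilin (Helper43.minusQF k F a b)).Nondegenerate :=
    minusQF_nondeg' k a b hab
  have hR := minus_reflGroup_top k a b hab
  have : Nonempty ((Fin k ⊕ Fin k) ⊕ Fin 2) := ⟨Sum.inr 0⟩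
  obtain ⟨v₀, hv₀⟩ := exists_nonsingular (Helper43.minusQF k F a b) hQ
  have key := card_omega_involution_classes (Helper43.minusQF k F a b) hQ hR v₀ hv₀ (k + 1) (k / 2)
    (k + 1) 0 (by rw [card_minus_index]; ring)
    (by
      intro t ht
      have h := two_rank_le (Helper43.minusQF k F a b) t ht
      rw [card_minus_index] at h
      omega)
    (by
      intro t j ht halt hj
      by_contra hcon
      have hfin := finrank_range_sub_one (Helper43.minusQF k F a b) t
      obtain ⟨v, hv, hQv⟩ := minus_exists_nonsingular k a b hab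
        (LinearMap.range (Matrix.toLin' (((t : GL ((Fin k ⊕ Fin k) ⊕ Fin 2) F) :
          Matrix ((Fin k ⊕ Fin k) ⊕ Fin 2) ((Fin k ⊕ Fin k) ⊕ Fin 2) F) - 1))) (by omega)
      exact hQv (alt_range_singular (Helper43.minusQF k F a b) t halt v hv))
    (by
      intro s _ hs
      by_cases hsk : s ≤ k
      · exact ⟨_, _, (minus_hypPairs k a b).frame_id s hsk⟩
      · have hs' : s = k + 1 := by omega
        subst hs'
        exact minus_full_frame k a b hab)
    (fun j _ hj => ⟨_, _, (minus_hypPairs k a b).frame_swap j (by omega)⟩)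
    (by
      intro _ _ h3
      omega)
    (fun _ => rfl)
  rw [add_zero] at key
  exact key

end MinusOmega

end Cfsg.Agent.Helper45
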