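import Cfsg.Agent.Helper45.OmegaRefl
import Cfsg.Agent.Helper45.InvForms

set_option autoImplicit false
set_option linter.unusedSectionVars false

universe u

namespace Cfsg.Agent.Helper45

open Cfsg Matrix

section OmegaClasses

variable {ι : Type} [Fintype ι] [DecidableEq ι] [Nonempty ι] {F : Type u} [Field F] [Fintype F]
  [CharP F 2] (Q : QuadraticForm F (ι → F))

/-- for an involution `t₀` whose image is a maximal totally singular subspace of even dimension, the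
conjugate of `t₀` under a reflection is not conjugate to `t₀` under `Ω` -/
theorem not_omega_conj_refl (hQ : (QuadraticMap.polarBilin Q).Nondegenerate)
    (hR : reflGroup Q = ⊤) (t₀ : ↥(isometryGroup F ⇑Q)) (ht₀ : t₀ * t₀ = 1)
    (hrank : 2 * (((t₀ : GL ι F) : Matrix ι ι F) - 1).rank = Fintype.card ι)
    (halt : ∀ v, Q (mv ⇑Q t₀ v + v) = 0) (hev : Even (((t₀ : GL ι F) : Matrix ι ι F) - 1).rank)
    (v : ι → F) (hv : Q v ≠ 0) :
    ¬ ∃ h ∈ Omega F ⇑Q, h * (reflO Q v hv * t₀ * (reflO Q v hv)⁻¹) * h⁻¹ = t₀ := by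
  rintro ⟨h, hh, hc⟩
  have hconj : IsConj t₀ (reflO Q v hv * t₀ * (reflO Q v hv)⁻¹) := isConj_iff.mpr ⟨_, rfl⟩
  have halt' : ∀ v, Q (v + mv ⇑Q t₀ v) = 0 := fun v => by rw [add_comm]; exact halt v
  have key := (involution_conj_refl Q hQ hR t₀ _ ht₀ hconj).2 ⟨hrank, halt'⟩ hev
  have h1 : ∃ g ∈ Omega F ⇑Q, g * t₀ * g⁻¹ = reflO Q v hv * t₀ * (reflO Q v hv)⁻¹ := by
    refine ⟨h⁻¹, inv_mem hh, ?_⟩
    have h2 : h⁻¹ * t₀ * h⁻¹⁻¹ = h⁻¹ * (h * (reflO Q v hv * t₀ * (reflO Q v hv)⁻¹) * h⁻¹) * h := by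
      rw [hc, inv_inv]
    rw [h2]
    group
  have h2 := key.mp h1
  have hW := alt_range_singular Q t₀ halt
  have hdim : 2 * Module.finrank F (LinearMap.range (Matrix.toLin'
      (((t₀ : GL ι F) : Matrix ι ι F) - 1))) = Fintype.card ι := by
    rw [finrank_range_sub_one]
    exact hrank
  have h3 := parity_ts' Q hQ hR _ hW hdim (reflO Q v hv)
  rw [← range_sub_one_conj, dick_refl Q hQ] at h3
  have h4 : Even (Module.finrank F ↥(LinearMap.range (Matrix.toLin'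
      (((t₀ : GL ι F) : Matrix ι ι F) - 1)) ⊓ LinearMap.range (Matrix.toLin'
      ((((reflO Q v hv * t₀ * (reflO Q v hv)⁻¹ : ↥(isometryGroup F ⇑Q)) : GL ι F) :
        Matrix ι ι F) - 1))) + Module.finrank F (LinearMap.range (Matrix.toLin'
      (((t₀ : GL ι F) : Matrix ι ι F) - 1)))) :=
    h2.add (by rw [finrank_range_sub_one]; exact hev)
  rw [(ZMod.natCast_eq_zero_iff _ 2).mpr (even_iff_two_dvd.mp h4)] at h3
  exact absurd h3 (by decide)

/-- the number of classes of involutions of `Ω(Q)` in characteristic two -/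
theorem card_omega_involution_classes (hQ : (QuadraticMap.polarBilin Q).Nondegenerate)
    (hR : reflGroup Q = ⊤) (v₀ : ι → F) (hv₀ : Q v₀ ≠ 0) (A B M E : ℕ)
    (hn : Fintype.card ι = 2 * M)
    (hA : ∀ t : ↥(isometryGroup F ⇑Q), t * t = 1 → (((t : GL ι F) : Matrix ι ι F) - 1).rank ≤ A)
    (hB : ∀ (t : ↥(isometryGroup F ⇑Q)) (k : ℕ), t * t = 1 → (∀ v, Q (mv ⇑Q t v + v) = 0) →
      (((t : GL ι F) : Matrix ι ι F) - 1).rank = 2 * k → k ≤ B)
    (exA : ∀ s, 1 ≤ s → s ≤ A → ∃ c d : Fin s → (ι → F), InvFrame Q id c d)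
    (exB : ∀ k, 1 ≤ k → k ≤ B → ∃ c d : Fin k ⊕ Fin k → (ι → F), InvFrame Q Sum.swap c d)
    (hE1 : Even M → 2 ≤ M → M ≤ 2 * B → E = 1)
    (hE0 : ¬ (Even M ∧ 2 ≤ M ∧ M ≤ 2 * B) → E = 0) :
    Nat.card {C : ConjClasses ↥(Omega F ⇑Q) //
      ∃ g : ↥(Omega F ⇑Q), ConjClasses.mk g = C ∧ orderOf g = 2} = A / 2 + B + E := by
  have hrepA : ∀ i : Fin (A / 2), ∃ t : ↥(isometryGroup F ⇑Q), t * t = 1 ∧
      (((t : GL ι F) : Matrix ι ι F) - 1).rank = 2 * (i + 1) ∧ ∃ v, Q (mv ⇑Q t v + v) ≠ 0 := by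
    intro i
    have hi := i.2
    obtain ⟨c, d, hf⟩ := exA (2 * (i + 1)) (by omega) (by omega)
    obtain ⟨t, ht, hc⟩ := hf.exists_iso
    refine ⟨t, ht, ?_, hf.nonalt_of_id Q (by omega) t hc⟩
    rw [hf.rank_eq t hc, Fintype.card_fin]
  have hrepB : ∀ j : Fin B, ∃ t : ↥(isometryGroup F ⇑Q), t * t = 1 ∧
      (((t : GL ι F) : Matrix ι ι F) - 1).rank = 2 * (j + 1) ∧ ∀ v, Q (mv ⇑Q t v + v) = 0 := by
    intro j
    obtain ⟨c, d, hf⟩ := exB (j + 1) (by omega) (by omega)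
    obtain ⟨t, ht, hc⟩ := hf.exists_iso
    refine ⟨t, ht, ?_, hf.alt_of_swap Q t hc⟩
    rw [hf.rank_eq t hc, Fintype.card_sum, Fintype.card_fin]
    ring
  choose rA hA1 hA2 hA3 using hrepA
  choose rB hB1 hB2 hB3 using hrepB
  have hrBmem : ∀ j : Fin B, rB j ∈ Omega F ⇑Q := by
    intro j
    rw [mem_omega_iff_even_rank_refl Q hQ hR, hB2]
    exact even_two_mul _
  have hrAmem : ∀ i : Fin (A / 2), rA i ∈ Omega F ⇑Q := by
    intro i
    rw [mem_omega_iff_even_rank_refl Q hQ hR, hA2]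
    exact even_two_mul _
  -- the reference involution of type `a_M`
  obtain ⟨t₀, ht₀Ω, ht₀⟩ : ∃ t₀ : ↥(isometryGroup F ⇑Q), t₀ ∈ Omega F ⇑Q ∧
      ((Even M ∧ 2 ≤ M ∧ M ≤ 2 * B) → ∃ j : Fin B, M = 2 * ((j : ℕ) + 1) ∧ t₀ = rB j) := by
    by_cases hS : Even M ∧ 2 ≤ M ∧ M ≤ 2 * B
    · obtain ⟨⟨k, hk⟩, h2, h3⟩ := hS
      exact ⟨rB ⟨M / 2 - 1, by omega⟩, hrBmem _, fun _ => ⟨⟨M / 2 - 1, by omega⟩, by
        show M = 2 * (M / 2 - 1 + 1)
        omega, rfl⟩⟩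
    · exact ⟨1, one_mem _, fun h => absurd h hS⟩
  have hES : 0 < E → ∃ j : Fin B, M = 2 * ((j : ℕ) + 1) ∧ t₀ = rB j ∧ E = 1 := by
    intro hpos
    have hS : Even M ∧ 2 ≤ M ∧ M ≤ 2 * B := by
      by_contra hS
      have := hE0 hS
      omega
    obtain ⟨j, hj, hj'⟩ := ht₀ hS
    exact ⟨j, hj, hj', hE1 hS.1 hS.2.1 hS.2.2⟩
  have hrr := reflO_mul_self Q v₀ hv₀
  have hrinv := Helper44.reflO_inv Q v₀ hv₀
  obtain ⟨t₁, ht₁⟩ : ∃ t₁ : ↥(isometryGroup F ⇑Q),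
      t₁ = reflO Q v₀ hv₀ * t₀ * (reflO Q v₀ hv₀)⁻¹ := ⟨_, rfl⟩
  have hE_t₁ : 0 < E → t₁ * t₁ = 1 ∧ (((t₁ : GL ι F) : Matrix ι ι F) - 1).rank = M ∧
      (∀ v, Q (mv ⇑Q t₁ v + v) = 0) ∧ ¬ ∃ h ∈ Omega F ⇑Q, h * t₁ * h⁻¹ = t₀ := by
    intro hpos
    obtain ⟨j, hj, hj', -⟩ := hES hpos
    have h00 : t₀ * t₀ = 1 := by rw [hj']; exact hB1 j
    have hrk : (((t₀ : GL ι F) : Matrix ι ι F) - 1).rank = M := by rw [hj', hB2, ← hj]
    have halt : ∀ v, Q (mv ⇑Q t₀ v + v) = 0 := by rw [hj']; exact hB3 j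
    refine ⟨?_, ?_, ?_, ?_⟩
    · rw [ht₁]
      calc reflO Q v₀ hv₀ * t₀ * (reflO Q v₀ hv₀)⁻¹ * (reflO Q v₀ hv₀ * t₀ * (reflO Q v₀ hv₀)⁻¹)
          = reflO Q v₀ hv₀ * (t₀ * t₀) * (reflO Q v₀ hv₀)⁻¹ := by group
        _ = 1 := by rw [h00, mul_one, mul_inv_cancel]
    · rw [ht₁, rank_sub_one_conj, hrk]
    · rw [ht₁]
      exact (alt_conj_iff Q _ t₀).mpr halt
    · rw [ht₁]
      exact not_omega_conj_refl Q hQ hR t₀ h00 (by rw [hrk, hn]) halt
        (by rw [hrk, hj]; exact even_two_mul _) v₀ hv₀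
  have ht₁Ω : t₁ ∈ Omega F ⇑Q := by
    rw [ht₁]
    exact (inferInstance : (Omega F ⇑Q).Normal).conj_mem t₀ ht₀Ω _
  -- the representatives
  obtain ⟨rep', hrep'⟩ : ∃ rep' : (Fin (A / 2) ⊕ Fin B) ⊕ Fin E → ↥(isometryGroup F ⇑Q),
      rep' = Sum.elim (Sum.elim rA rB) (fun _ => t₁) := ⟨_, rfl⟩
  have hrepA' : ∀ i, rep' (Sum.inl (Sum.inl i)) = rA i := fun i => by rw [hrep']; rfl
  have hrepB' : ∀ j, rep' (Sum.inl (Sum.inr j)) = rB j := fun j => by rw [hrep']; rfl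
  have hrepE' : ∀ e, rep' (Sum.inr e) = t₁ := fun e => by rw [hrep']; rfl
  have hmem : ∀ i, rep' i ∈ Omega F ⇑Q := by
    rintro ((i | j) | e)
    · rw [hrepA']; exact hrAmem i
    · rw [hrepB']; exact hrBmem j
    · rw [hrepE']; exact ht₁Ω
  have h1 : ∀ g h : ↥(Omega F ⇑Q), IsConj g h →
      (((((g : ↥(isometryGroup F ⇑Q)) : GL ι F) : Matrix ι ι F) - 1).rank,
        (∀ v, Q (mv ⇑Q (g : ↥(isometryGroup F ⇑Q)) v + v) = 0),
        ∃ x ∈ Omega F ⇑Q, x * (g : ↥(isometryGroup F ⇑Q)) * x⁻¹ = t₀) =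
      (((((h : ↥(isometryGroup F ⇑Q)) : GL ι F) : Matrix ι ι F) - 1).rank,
        (∀ v, Q (mv ⇑Q (h : ↥(isometryGroup F ⇑Q)) v + v) = 0),
        ∃ x ∈ Omega F ⇑Q, x * (h : ↥(isometryGroup F ⇑Q)) * x⁻¹ = t₀) := by
    intro g h hgh
    obtain ⟨c, rfl⟩ := isConj_iff.mp hgh
    have e : ((c * g * c⁻¹ : ↥(Omega F ⇑Q)) : ↥(isometryGroup F ⇑Q)) =
        (c : ↥(isometryGroup F ⇑Q)) * (g : ↥(isometryGroup F ⇑Q)) *
          (c : ↥(isometryGroup F ⇑Q))⁻¹ := rfl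
    rw [e, rank_sub_one_conj, propext (alt_conj_iff Q (c : ↥(isometryGroup F ⇑Q))
      (g : ↥(isometryGroup F ⇑Q)))]
    refine Prod.ext rfl (Prod.ext rfl (propext ⟨?_, ?_⟩))
    · rintro ⟨x, hx, hc⟩
      refine ⟨x * (c : ↥(isometryGroup F ⇑Q))⁻¹, mul_mem hx (inv_mem c.2), ?_⟩
      rw [← hc]
      group
    · rintro ⟨x, hx, hc⟩
      refine ⟨x * (c : ↥(isometryGroup F ⇑Q)), mul_mem hx c.2, ?_⟩
      rw [← hc]
      group
  have h2 : ∀ i, orderOf (⟨rep' i, hmem i⟩ : ↥(Omega F ⇑Q)) = 2 := by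
    intro i
    rw [← Subgroup.orderOf_coe]
    show orderOf (rep' i) = 2
    rw [orderOf_eq_prime_iff, pow_two]
    rcases i with (i | j) | e
    · rw [hrepA']
      refine ⟨hA1 i, fun h => ?_⟩
      have h3 := hA2 i
      rw [h, rank_one_sub_one] at h3
      omega
    · rw [hrepB']
      refine ⟨hB1 j, fun h => ?_⟩
      have h3 := hB2 j
      rw [h, rank_one_sub_one] at h3
      omega
    · rw [hrepE']
      have hpos : 0 < E := by have := e.2; omega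
      obtain ⟨h11, hrk, -, -⟩ := hE_t₁ hpos
      obtain ⟨j, hj, -, -⟩ := hES hpos
      refine ⟨h11, fun h => ?_⟩
      rw [h, rank_one_sub_one] at hrk
      omega
  have h3 : ∀ i j : (Fin (A / 2) ⊕ Fin B) ⊕ Fin E,
      (((((rep' i : ↥(isometryGroup F ⇑Q)) : GL ι F) : Matrix ι ι F) - 1).rank,
        (∀ v, Q (mv ⇑Q (rep' i) v + v) = 0),
        ∃ x ∈ Omega F ⇑Q, x * rep' i * x⁻¹ = t₀) =
      (((((rep' j : ↥(isometryGroup F ⇑Q)) : GL ι F) : Matrix ι ι F) - 1).rank,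
        (∀ v, Q (mv ⇑Q (rep' j) v + v) = 0),
        ∃ x ∈ Omega F ⇑Q, x * rep' j * x⁻¹ = t₀) → i = j := by
    intro i j h
    have hrank : (((rep' i : GL ι F) : Matrix ι ι F) - 1).rank =
        (((rep' j : GL ι F) : Matrix ι ι F) - 1).rank := congrArg Prod.fst h
    have halt : (∀ v, Q (mv ⇑Q (rep' i) v + v) = 0) = (∀ v, Q (mv ⇑Q (rep' j) v + v) = 0) :=
      congrArg (fun p => p.2.1) h
    have hthird : (∃ x ∈ Omega F ⇑Q, x * rep' i * x⁻¹ = t₀) =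
        (∃ x ∈ Omega F ⇑Q, x * rep' j * x⁻¹ = t₀) := congrArg (fun p => p.2.2) h
    rcases i with (i | i) | e <;> rcases j with (j | j) | e'
    · rw [hrepA', hrepA', hA2, hA2] at hrank
      exact congrArg (fun x => Sum.inl (Sum.inl x)) (Fin.ext (by omega))
    · rw [hrepA', hrepB'] at halt
      obtain ⟨v, hv⟩ := hA3 i
      exact absurd (Eq.mpr halt (hB3 j) v) hv
    · rw [hrepA', hrepE'] at halt
      obtain ⟨v, hv⟩ := hA3 i
      exact absurd (Eq.mpr halt (hE_t₁ (by have := e'.2; omega)).2.2.1 v) hv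
    · rw [hrepB', hrepA'] at halt
      obtain ⟨v, hv⟩ := hA3 j
      exact absurd (Eq.mp halt (hB3 i) v) hv
    · rw [hrepB', hrepB', hB2, hB2] at hrank
      exact congrArg (fun x => Sum.inl (Sum.inr x)) (Fin.ext (by omega))
    · exfalso
      have hpos : 0 < E := by have := e'.2; omega
      obtain ⟨-, hrk, -, hnot⟩ := hE_t₁ hpos
      obtain ⟨j₀, hj₀, hj₀', -⟩ := hES hpos
      rw [hrepB', hrepE', hB2, hrk] at hrank
      have hij : i = j₀ := Fin.ext (by omega)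
      rw [hrepB', hrepE'] at hthird
      apply hnot
      apply Eq.mp hthird
      refine ⟨1, one_mem _, ?_⟩
      rw [one_mul, inv_one, mul_one, hij, hj₀']
    · rw [hrepE', hrepA'] at halt
      obtain ⟨v, hv⟩ := hA3 j
      exact absurd (Eq.mp halt (hE_t₁ (by have := e.2; omega)).2.2.1 v) hv
    · exfalso
      have hpos : 0 < E := by have := e.2; omega
      obtain ⟨-, hrk, -, hnot⟩ := hE_t₁ hpos
      obtain ⟨j₀, hj₀, hj₀', -⟩ := hES hpos
      rw [hrepB', hrepE', hB2, hrk] at hrank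
      have hij : j = j₀ := Fin.ext (by omega)
      rw [hrepB', hrepE'] at hthird
      apply hnot
      apply Eq.mpr hthird
      refine ⟨1, one_mem _, ?_⟩
      rw [one_mul, inv_one, mul_one, hij, hj₀']
    · have hpos : 0 < E := by have := e.2; omega
      obtain ⟨-, -, -, hE⟩ := hES hpos
      have he := e.2
      have he' := e'.2
      exact congrArg Sum.inr (Fin.ext (by omega))
  have h4 : ∀ g : ↥(Omega F ⇑Q), orderOf g = 2 →
      ∃ i, IsConj g (⟨rep' i, hmem i⟩ : ↥(Omega F ⇑Q)) := by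
    intro g hg
    have htrans : ∀ i, (∃ x ∈ Omega F ⇑Q, x * (g : ↥(isometryGroup F ⇑Q)) * x⁻¹ = rep' i) →
        IsConj g (⟨rep' i, hmem i⟩ : ↥(Omega F ⇑Q)) := by
      rintro i ⟨x, hx, hc⟩
      exact isConj_iff.mpr ⟨⟨x, hx⟩, Subtype.ext hc⟩
    rw [← Subgroup.orderOf_coe, orderOf_eq_prime_iff, pow_two] at hg
    obtain ⟨hg2, hg1⟩ := hg
    have hpos := rank_pos_of_ne_one Q (g : ↥(isometryGroup F ⇑Q)) hg1
    obtain ⟨k, hk⟩ := (mem_omega_iff_even_rank_refl Q hQ hR (g : ↥(isometryGroup F ⇑Q))).mp g.2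
    have hk1 : 1 ≤ k := by omega
    by_cases halt : ∀ v, Q (mv ⇑Q (g : ↥(isometryGroup F ⇑Q)) v + v) = 0
    · have hkB := hB (g : ↥(isometryGroup F ⇑Q)) k hg2 halt (by rw [hk]; ring)
      have hconj : IsConj (g : ↥(isometryGroup F ⇑Q)) (rB ⟨k - 1, by omega⟩) := by
        apply involution_isConj Q hQ _ _ hg2 (hB1 _)
        · rw [hB2, hk]
          show k + k = 2 * ((k - 1) + 1)
          omega
        · exact ⟨fun _ => hB3 _, fun _ => halt⟩
      have hgen := involution_conj_refl Q hQ hR (g : ↥(isometryGroup F ⇑Q)) _ hg2 hconj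
      by_cases hmax : 2 * ((((g : ↥(isometryGroup F ⇑Q)) : GL ι F) : Matrix ι ι F) - 1).rank =
          Fintype.card ι
      · -- the splitting class
        have hM : M = k + k := by omega
        have hE : E = 1 := hE1 ⟨k, hM⟩ (by omega) (by omega)
        obtain ⟨j₀, hj₀, hj₀', -⟩ := hES (by omega)
        have hjj : (⟨k - 1, by omega⟩ : Fin B) = j₀ := Fin.ext (by
          show k - 1 = (j₀ : ℕ)
          omega)
        rw [hjj, ← hj₀'] at hconj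
        obtain ⟨a, ha⟩ := isConj_iff.mp hconj
        rcases omega_dichotomy_refl Q hQ hR v₀ hv₀ a⁻¹ with h5 | h5
        · refine ⟨Sum.inl (Sum.inr j₀), htrans _ ⟨a, ?_, ?_⟩⟩
          · have := inv_mem h5
            rwa [inv_inv] at this
          · rw [hrepB', ← hj₀']
            exact ha
        · refine ⟨Sum.inr ⟨0, by omega⟩, htrans _ ⟨reflO Q v₀ hv₀ * a, ?_, ?_⟩⟩
          · have h6 := inv_mem h5
            rw [_root_.mul_inv_rev, inv_inv, hrinv] at h6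
            exact h6
          · rw [hrepE', ht₁, ← ha]
            group
      · refine ⟨Sum.inl (Sum.inr ⟨k - 1, by omega⟩), htrans _ ?_⟩
        rw [hrepB']
        exact hgen.1 (fun hc => hmax hc.1)
    · have hle := hA (g : ↥(isometryGroup F ⇑Q)) hg2
      have hconj : IsConj (g : ↥(isometryGroup F ⇑Q)) (rA ⟨k - 1, by omega⟩) := by
        apply involution_isConj Q hQ _ _ hg2 (hA1 _)
        · rw [hA2, hk]
          show k + k = 2 * ((k - 1) + 1)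
          omega
        · constructor
          · intro h
            exact absurd h halt
          · intro h
            obtain ⟨v, hv⟩ := hA3 ⟨k - 1, by omega⟩
            exact absurd (h v) hv
      have hgen := involution_conj_refl Q hQ hR (g : ↥(isometryGroup F ⇑Q)) _ hg2 hconj
      refine ⟨Sum.inl (Sum.inl ⟨k - 1, by omega⟩), htrans _ ?_⟩
      rw [hrepA']
      apply hgen.1
      rintro ⟨-, hc⟩
      exact halt (fun v => by rw [add_comm]; exact hc v)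
  rw [card_conjClasses_eq (G := ↥(Omega F ⇑Q)) (I := (Fin (A / 2) ⊕ Fin B) ⊕ Fin E)
    (fun g : ↥(Omega F ⇑Q) =>
      (((((g : ↥(isometryGroup F ⇑Q)) : GL ι F) : Matrix ι ι F) - 1).rank,
        (∀ v, Q (mv ⇑Q (g : ↥(isometryGroup F ⇑Q)) v + v) = 0),
        ∃ x ∈ Omega F ⇑Q, x * (g : ↥(isometryGroup F ⇑Q)) * x⁻¹ = t₀))
    (fun g => orderOf g = 2) (fun i => ⟨rep' i, hmem i⟩) h1 h2 h3 h4,
    Fintype.card_sum, Fintype.card_sum, Fintype.card_fin, Fintype.card_fin, Fintype.card_fin]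

end OmegaClasses

end Cfsg.Agent.Helper45
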