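import Cfsg.Agent.Helper45.SpCent4

set_option autoImplicit false
set_option linter.unusedSectionVars false

/-!
Arithmetic for the orders of centralisers of involutions in `Ω⁺_{2m}(q)`, `q` even.
-/

namespace Cfsg.Agent.Helper45.OI

/-- the order of `Sp_{2k}(q)` -/
def spOrd (q k : ℕ) : ℕ := q ^ (k ^ 2) * ∏ i ∈ Finset.range k, (q ^ (2 * (i + 1)) - 1)

/-- the order of `Ω⁺_{2k}(q)`, `q` even, `k ≥ 1` -/
def omOrd (q k : ℕ) : ℕ :=
  q ^ (k * (k - 1)) * (q ^ k - 1) * ∏ i ∈ Finset.range (k - 1), (q ^ (2 * (i + 1)) - 1)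

/-- the number of totally singular `s`-frames of the hyperbolic space of dimension `2m` -/
def tsProd (q m s : ℕ) : ℕ :=
  ∏ i ∈ Finset.range s, (q ^ (2 * m - 1 - i) + (q ^ m - q ^ (m - 1)) - q ^ i)

theorem f_aux (a b q : ℕ) (hq : 1 ≤ q) (hb : 1 ≤ b) :
    a * b * b * q + (a * b * q - a * b) - a = a * ((b * q - 1) * (b + 1)) := by
  obtain ⟨q', rfl⟩ := Nat.exists_eq_add_of_le hq
  obtain ⟨b', rfl⟩ := Nat.exists_eq_add_of_le hb
  have h1 : a * (1 + b') * (1 + q') - a * (1 + b') = a * (1 + b') * q' := by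
    rw [mul_add, mul_one, Nat.add_sub_cancel_left]
  have h2 : (1 + b') * (1 + q') - 1 = b' + q' + b' * q' := by
    have : (1 + b') * (1 + q') = 1 + (b' + q' + b' * q') := by ring
    rw [this, Nat.add_sub_cancel_left]
  rw [h1, h2]
  apply Nat.sub_eq_of_eq_add
  ring

theorem f_eq (q s k : ℕ) (hq : 1 ≤ q) :
    q ^ (2 * (s + k + 2) - 1 - s) + (q ^ (s + k + 2) - q ^ (s + k + 2 - 1)) - q ^ s =
      q ^ s * ((q ^ (k + 2) - 1) * (q ^ (k + 1) + 1)) := by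
  have e1 : q ^ (2 * (s + k + 2) - 1 - s) = q ^ s * q ^ (k + 1) * q ^ (k + 1) * q := by
    rw [← pow_add, ← pow_add, ← pow_succ]
    congr 1
    omega
  have e2 : q ^ (s + k + 2) = q ^ s * q ^ (k + 1) * q := by
    rw [← pow_add, ← pow_succ]
    rfl
  have e3 : q ^ (s + k + 2 - 1) = q ^ s * q ^ (k + 1) := by
    rw [← pow_add]
    rfl
  have e4 : q ^ (k + 2) = q ^ (k + 1) * q := by rw [← pow_succ]
  rw [e1, e2, e3, e4]
  exact f_aux _ _ q hq (Nat.one_le_pow _ _ hq)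

theorem sq_sub_one (b : ℕ) (hb : 1 ≤ b) : b * b - 1 = (b - 1) * (b + 1) := by
  obtain ⟨b', rfl⟩ := Nat.exists_eq_add_of_le hb
  rw [Nat.add_sub_cancel_left]
  apply Nat.sub_eq_of_eq_add
  ring

theorem omOrd_succ (q k : ℕ) (hq : 1 ≤ q) :
    omOrd q (k + 2) =
      q ^ (2 * (k + 1)) * ((q ^ (k + 2) - 1) * (q ^ (k + 1) + 1)) * omOrd q (k + 1) := by
  show q ^ ((k + 2) * (k + 1)) * (q ^ (k + 2) - 1) *
      ∏ i ∈ Finset.range (k + 1), (q ^ (2 * (i + 1)) - 1) =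
    q ^ (2 * (k + 1)) * ((q ^ (k + 2) - 1) * (q ^ (k + 1) + 1)) *
      (q ^ ((k + 1) * k) * (q ^ (k + 1) - 1) * ∏ i ∈ Finset.range k, (q ^ (2 * (i + 1)) - 1))
  rw [Finset.prod_range_succ]
  have h1 : q ^ (2 * (k + 1)) - 1 = (q ^ (k + 1) - 1) * (q ^ (k + 1) + 1) := by
    rw [← sq_sub_one _ (Nat.one_le_pow _ _ hq), ← pow_add]
    congr 2
    omega
  have h2 : q ^ ((k + 2) * (k + 1)) = q ^ (2 * (k + 1)) * q ^ ((k + 1) * k) := by
    rw [← pow_add]
    congr 1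
    ring
  rw [h1, h2]
  ring

theorem expE_succ (s k : ℕ) :
    2 * (s + k + 2) * (s + 1) - (3 * (s + 1) ^ 2 + (s + 1)) / 2 + s =
      2 * (s + k + 2) * s - (3 * s ^ 2 + s) / 2 + 2 * (k + 1) := by
  have h1 : (s + 1) ^ 2 = s * s + 2 * s + 1 := by ring
  have h2 : 2 * (s + k + 2) * (s + 1) = 2 * (s * s) + 2 * (k * s) + 6 * s + 2 * k + 4 := by ring
  have h3 : 2 * (s + k + 2) * s = 2 * (s * s) + 2 * (k * s) + 4 * s := by ring
  have h4 : s ^ 2 = s * s := by ring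
  rw [h1, h2, h3, h4]
  generalize s * s = P
  generalize k * s = R
  omega

/-- `q^e · |Ω⁺_{2(m-s)}(q)| · #(singular s-frames) = |Ω⁺_{2m}(q)|` for `s < m` -/
theorem om_arith (q : ℕ) (hq : 1 ≤ q) : ∀ (s k m : ℕ), m = s + k + 1 →
    q ^ (2 * m * s - (3 * s ^ 2 + s) / 2) * omOrd q (k + 1) * tsProd q m s = omOrd q m := by
  intro s
  induction s with
  | zero =>
    intro k m hm
    subst hm
    simp [tsProd]
  | succ s ih =>
    intro k m hm
    have h1 := ih (k + 1) m (by omega)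
    have hm' : m = s + k + 2 := by omega
    subst hm'
    rw [← h1]
    have hT : tsProd q (s + k + 2) (s + 1) =
        tsProd q (s + k + 2) s * (q ^ s * ((q ^ (k + 2) - 1) * (q ^ (k + 1) + 1))) := by
      unfold tsProd
      rw [Finset.prod_range_succ, f_eq q s k hq]
    rw [hT, omOrd_succ q k hq]
    have key : q ^ (2 * (s + k + 2) * (s + 1) - (3 * (s + 1) ^ 2 + (s + 1)) / 2) * q ^ s =
        q ^ (2 * (s + k + 2) * s - (3 * s ^ 2 + s) / 2) * q ^ (2 * (k + 1)) := by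
      rw [← pow_add, ← pow_add, expE_succ s k]
    generalize q ^ (2 * (s + k + 2) * (s + 1) - (3 * (s + 1) ^ 2 + (s + 1)) / 2) = A at key ⊢
    generalize q ^ (2 * (s + k + 2) * s - (3 * s ^ 2 + s) / 2) = A' at key ⊢
    generalize tsProd q (s + k + 2) s = T
    generalize omOrd q (k + 1) = O1
    generalize (q ^ (k + 2) - 1) * (q ^ (k + 1) + 1) = B
    calc A * O1 * (T * (q ^ s * B)) = (A * q ^ s) * (O1 * T * B) := by ring
      _ = (A' * q ^ (2 * (k + 1))) * (O1 * T * B) := by rw [key]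
      _ = _ := by ring

theorem expE_top (n : ℕ) :
    2 * (n + 1) * (n + 1) - (3 * (n + 1) ^ 2 + (n + 1)) / 2 + n =
      2 * (n + 1) * n - (3 * n ^ 2 + n) / 2 := by
  have h1 : (n + 1) ^ 2 = n * n + 2 * n + 1 := by ring
  have h2 : 2 * (n + 1) * (n + 1) = 2 * (n * n) + 4 * n + 2 := by ring
  have h3 : 2 * (n + 1) * n = 2 * (n * n) + 2 * n := by ring
  have h4 : n ^ 2 = n * n := by ring
  rw [h1, h2, h3, h4]
  generalize n * n = P
  omega

theorem f_top_aux (a q : ℕ) (hq : 1 ≤ q) : a * q + (a * q - a) - a = 2 * (a * (q - 1)) := by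
  obtain ⟨q', rfl⟩ := Nat.exists_eq_add_of_le hq
  rw [Nat.add_sub_cancel_left]
  have e3 : a * (1 + q') - a = a * q' := by
    rw [mul_add, mul_one, Nat.add_sub_cancel_left]
  rw [e3]
  apply Nat.sub_eq_of_eq_add
  ring

/-- `q^e · #(singular m-frames) = 2 |Ω⁺_{2m}(q)|` -/
theorem om_arith_top (q : ℕ) (hq : 1 ≤ q) (m : ℕ) (hm : 1 ≤ m) :
    q ^ (2 * m * m - (3 * m ^ 2 + m) / 2) * tsProd q m m = 2 * omOrd q m := by
  obtain ⟨n, rfl⟩ : ∃ n, m = n + 1 := ⟨m - 1, by omega⟩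
  have h1 := om_arith q hq n 0 (n + 1) rfl
  have h2 : omOrd q (0 + 1) = q - 1 := by simp [omOrd]
  rw [h2] at h1
  rw [← h1]
  have hf : q ^ (2 * (n + 1) - 1 - n) + (q ^ (n + 1) - q ^ (n + 1 - 1)) - q ^ n =
      2 * (q ^ n * (q - 1)) := by
    have e1 : 2 * (n + 1) - 1 - n = n + 1 := by omega
    have e2 : n + 1 - 1 = n := by omega
    rw [e1, e2, pow_succ]
    exact f_top_aux _ q hq
  have hT : tsProd q (n + 1) (n + 1) = tsProd q (n + 1) n * (2 * (q ^ n * (q - 1))) := by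
    unfold tsProd
    rw [Finset.prod_range_succ, hf]
  rw [hT]
  have key : q ^ (2 * (n + 1) * (n + 1) - (3 * (n + 1) ^ 2 + (n + 1)) / 2) * q ^ n =
      q ^ (2 * (n + 1) * n - (3 * n ^ 2 + n) / 2) := by
    rw [← pow_add, expE_top n]
  rw [← key]
  ring

theorem expF (n r : ℕ) :
    2 * (n + 1) * r - (3 * (r + 1) ^ 2 - 3 * (r + 1)) / 2 = 2 * n * r - (3 * r ^ 2 - r) / 2 := by
  have h1 : (r + 1) ^ 2 = r * r + 2 * r + 1 := by ring
  have h2 : 2 * (n + 1) * r = 2 * (n * r) + 2 * r := by ring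
  have h3 : 2 * n * r = 2 * (n * r) := by ring
  have h4 : r ^ 2 = r * r := by ring
  have h5 : r ≤ r * r := Nat.le_mul_self r
  rw [h1, h2, h3, h4]
  generalize r * r = P at *
  generalize n * r = N
  omega

/-- `q^e · |Sp_{2(m-s)}(q)| · #(isotropic s-frames of vectors of norm one) = |Ω⁺_{2m}(q)|` -/
theorem om_arith_one (q m r : ℕ) (hr : r + 1 ≤ m) :
    q ^ (2 * m * r - (3 * (r + 1) ^ 2 - 3 * (r + 1)) / 2) * spOrd q (m - (r + 1)) *
      ((q ^ m - 1) * q ^ (m - 1) * ∏ i ∈ Finset.range r, (q ^ (2 * m - i - 2) - q ^ i)) =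
    omOrd q m := by
  obtain ⟨n, rfl⟩ : ∃ n, m = n + 1 := ⟨m - 1, by omega⟩
  have h1 := SpI.sp_arith q n r (by omega)
  have e1 : n + 1 - (r + 1) = n - r := by omega
  have e2 : n + 1 - 1 = n := by omega
  have e3 : ∏ i ∈ Finset.range r, (q ^ (2 * (n + 1) - i - 2) - q ^ i) =
      ∏ i ∈ Finset.range r, (q ^ (2 * n - i) - q ^ i) := by
    apply Finset.prod_congr rfl
    intro i _
    congr 2
    omega
  have e4 : omOrd q (n + 1) = q ^ ((n + 1) * n) * (q ^ (n + 1) - 1) *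
      ∏ i ∈ Finset.range n, (q ^ (2 * (i + 1)) - 1) := rfl
  have e5 : q ^ ((n + 1) * n) = q ^ n * q ^ (n ^ 2) := by
    rw [← pow_add]
    congr 1
    ring
  rw [e1, e2, e3, e4, expF, e5]
  unfold spOrd
  calc q ^ (2 * n * r - (3 * r ^ 2 - r) / 2) *
        (q ^ ((n - r) ^ 2) * ∏ i ∈ Finset.range (n - r), (q ^ (2 * (i + 1)) - 1)) *
        ((q ^ (n + 1) - 1) * q ^ n * ∏ i ∈ Finset.range r, (q ^ (2 * n - i) - q ^ i)) =
      (q ^ (n + 1) - 1) * q ^ n * (q ^ (2 * n * r - (3 * r ^ 2 - r) / 2) *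
        (q ^ ((n - r) ^ 2) * ∏ i ∈ Finset.range (n - r), (q ^ (2 * (i + 1)) - 1)) *
        ∏ i ∈ Finset.range r, (q ^ (2 * n - i) - q ^ i)) := by ring
    _ = _ := by rw [h1]; ring

theorem expG (m s : ℕ) (hs2 : 2 ≤ s) (hsm : s ≤ m) :
    2 * m * (s - 1) - (3 * s ^ 2 - 5 * s) / 2 - 1 =
      2 * m * (s - 1) - (3 * s ^ 2 - 3 * s) / 2 + (s - 1) := by
  have h1 : s ^ 2 = s * s := by ring
  have h2 : 2 * m * (s - 1) = 2 * (m * (s - 1)) := by ring
  have hP : 2 * s ≤ s * s := Nat.mul_le_mul_right s hs2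
  have hN : s * s - s ≤ m * (s - 1) := by
    have := Nat.mul_le_mul_right (s - 1) hsm
    rw [Nat.mul_sub_one] at this
    exact this
  have hpar : (s * s - s) % 2 = 0 := by
    have := Nat.even_mul_pred_self s
    rw [Nat.mul_sub_one] at this
    exact Nat.even_iff.mp this
  rw [h1, h2]
  generalize s * s = P at *
  generalize m * (s - 1) = N at *
  omega

end Cfsg.Agent.Helper45.OI
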