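import Cfsg.Agent.Helper45.InvNormal
import Cfsg.Agent.Helper45.SpCent1

set_option autoImplicit false
set_option linter.unusedSectionVars false

universe u

/-!
Centralisers of involutions of orthogonal groups in characteristic two: orbit counting on frames.
-/

namespace Cfsg.Agent.Helper45.OI

open Cfsg Matrix

section Frames

variable {ι : Type} [Fintype ι] [DecidableEq ι] {F : Type u} [Field F]
  (Q : QuadraticForm F (ι → F))
variable {κ : Type} [Fintype κ] [DecidableEq κ]

/-- the isometry group is transitive on totally isotropic families with prescribed values of `Q`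
(Witt) -/
theorem frame_trans (hQ : (QuadraticMap.polarBilin Q).Nondegenerate) {c d c' : κ → (ι → F)}
    (hti : ∀ i j, QuadraticMap.polar ⇑Q (c i) (c j) = 0)
    (hdual : ∀ i j, QuadraticMap.polar ⇑Q (d i) (c j) = if i = j then 1 else 0)
    (hti' : ∀ i j, QuadraticMap.polar ⇑Q (c' i) (c' j) = 0) (hli' : LinearIndependent F c')
    (hq : ∀ i, Q (c i) = Q (c' i)) :
    ∃ k : ↥(isometryGroup F ⇑Q), ∀ j, mv ⇑Q k (c j) = c' j := by
  let φ : (ι → F) →ₗ[F] (ι → F) := ∑ i, (QuadraticMap.polarBilin Q (d i)).smulRight (c' i)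
  have hφ : ∀ x, φ x = ∑ i, QuadraticMap.polar ⇑Q (d i) x • c' i := by
    intro x
    show (∑ i, (QuadraticMap.polarBilin Q (d i)).smulRight (c' i)) x = _
    rw [LinearMap.sum_apply]
    apply Finset.sum_congr rfl
    intro i _
    rw [LinearMap.smulRight_apply, QuadraticMap.polarBilin_apply_apply]
  have hφl : ∀ l : κ → F, φ (∑ j, l j • c j) = ∑ j, l j • c' j := by
    intro l
    rw [hφ]
    apply Finset.sum_congr rfl
    intro i _
    congr 1
    rw [polar_sum_right, Finset.sum_eq_single i]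
    · rw [hdual, if_pos rfl, mul_one]
    · intro j _ hji
      rw [hdual, if_neg (Ne.symm hji), mul_zero]
    · intro hi
      exact absurd (Finset.mem_univ i) hi
  have hφc : ∀ j, φ (c j) = c' j := by
    intro j
    rw [hφ, Finset.sum_eq_single j]
    · rw [hdual, if_pos rfl, one_smul]
    · intro i _ hij
      rw [hdual, if_neg hij, zero_smul]
    · intro hj
      exact absurd (Finset.mem_univ j) hj
  obtain ⟨g, hg, hgx⟩ := Helper13.witt_quad Q hQ (Submodule.span F (Set.range c)) φ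
    (by
      intro x hx
      obtain ⟨l, rfl⟩ := (Submodule.mem_span_range_iff_exists_fun F).mp hx
      rw [hφl, quad_sum_ti Q c' hti', quad_sum_ti Q c hti]
      apply Finset.sum_congr rfl
      intro i _
      rw [hq])
    (by
      intro x hx h0
      obtain ⟨l, rfl⟩ := (Submodule.mem_span_range_iff_exists_fun F).mp hx
      rw [hφl] at h0
      have hl := Fintype.linearIndependent_iff.mp hli' l h0
      apply Finset.sum_eq_zero
      intro i _
      rw [hl i, zero_smul])
  obtain ⟨k, hk⟩ := Helper44.exists_iso_of_linearEquiv Q g hg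
  refine ⟨k, ?_⟩
  intro j
  rw [hk, hgx (c j) (Submodule.subset_span ⟨j, rfl⟩), hφc]

theorem mv_inv_cancel (g : ↥(isometryGroup F ⇑Q)) (x : ι → F) :
    mv ⇑Q g (mv ⇑Q g⁻¹ x) = x := by rw [← mv_mul, mul_inv_cancel, mv_one]

theorem mv_inv_cancel' (g : ↥(isometryGroup F ⇑Q)) (x : ι → F) :
    mv ⇑Q g⁻¹ (mv ⇑Q g x) = x := by rw [← mv_mul, inv_mul_cancel, mv_one]

/-- the pointwise stabiliser of a family of vectors -/
def oStab (c : κ → (ι → F)) : Subgroup ↥(isometryGroup F ⇑Q) where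
  carrier := {g | ∀ i, mv ⇑Q g (c i) = c i}
  one_mem' := fun i => mv_one _ _
  mul_mem' := fun {g h} hg hh i => by
    show mv ⇑Q (g * h) (c i) = c i
    rw [mv_mul, hh i, hg i]
  inv_mem' := fun {g} hg i => by
    show mv ⇑Q g⁻¹ (c i) = c i
    have h1 := mv_inv_cancel' Q g (c i)
    rw [hg i] at h1
    exact h1

theorem mem_oStab (c : κ → (ι → F)) (g : ↥(isometryGroup F ⇑Q)) :
    g ∈ oStab Q c ↔ ∀ i, mv ⇑Q g (c i) = c i := Iff.rfl

variable {Q}

theorem frame_map {σ : κ → κ} {c d : κ → (ι → F)} (h : InvFrame Q σ c d)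
    (g : ↥(isometryGroup F ⇑Q)) :
    InvFrame Q σ (fun i => mv ⇑Q g (c i)) (fun i => mv ⇑Q g (d i)) :=
  { ti := fun i j => by rw [mv_polar, h.ti]
    dual := fun i j => by rw [mv_polar, h.dual]
    quad := fun i => by rw [mv_quad ⇑Q g, h.quad]
    invol := h.invol }

theorem orbit_map_eq_iff (c : κ → (ι → F)) (g k : ↥(isometryGroup F ⇑Q)) :
    ((fun i => mv ⇑Q g (c i)) = fun i => mv ⇑Q k (c i)) ↔ g⁻¹ * k ∈ oStab Q c := by
  rw [mem_oStab]
  constructor
  · intro h i
    have h1 := congrFun h i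
    rw [mv_mul, ← h1, mv_inv_cancel']
  · intro h
    funext i
    have h1 := h i
    rw [mv_mul] at h1
    have h2 := congrArg (mv ⇑Q g) h1
    rw [mv_inv_cancel] at h2
    exact h2.symm

/-- orbit-stabiliser for the isometry group acting on frames -/
theorem card_iso_eq_frames (hQ : (QuadraticMap.polarBilin Q).Nondegenerate) {σ : κ → κ}
    {c d : κ → (ι → F)} (h : InvFrame Q σ c d) :
    Nat.card ↥(isometryGroup F ⇑Q) =
      Nat.card ↥{c' : κ → (ι → F) | ∃ d', InvFrame Q σ c' d'} * Nat.card (oStab Q c) := by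
  have hset : (Set.range fun (g : ↥(isometryGroup F ⇑Q)) (i : κ) => mv ⇑Q g (c i)) =
      {c' : κ → (ι → F) | ∃ d', InvFrame Q σ c' d'} := by
    ext c'
    constructor
    · rintro ⟨g, rfl⟩
      exact ⟨_, frame_map h g⟩
    · rintro ⟨d', h'⟩
      obtain ⟨k, hk⟩ := frame_trans Q hQ h.ti h.dual h'.ti h'.linIndep
        (fun i => by rw [h.quad, h'.quad])
      exact ⟨k, funext hk⟩
  rw [SpI.card_eq_range_mul (oStab Q c) (fun g i => mv ⇑Q g (c i)) (orbit_map_eq_iff c), hset]

/-- conjugating the frame endomorphism -/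
theorem frameN_conj (σ : κ → κ) (c : κ → (ι → F)) (g : ↥(isometryGroup F ⇑Q)) (x : ι → F) :
    mv ⇑Q g (frameN Q σ c (mv ⇑Q g⁻¹ x)) = frameN Q σ (fun i => mv ⇑Q g (c i)) x := by
  rw [frameN_apply, frameN_apply, mv_sum']
  apply Finset.sum_congr rfl
  intro i _
  rw [mv_smul, ← mv_polar Q g (mv ⇑Q g⁻¹ x) (c i), mv_inv_cancel]

variable [CharP F 2]

theorem nilp_conj (g t : ↥(isometryGroup F ⇑Q)) (x : ι → F) :
    nilp Q (g * t * g⁻¹) x = mv ⇑Q g (nilp Q t (mv ⇑Q g⁻¹ x)) := by
  rw [nilp_apply, nilp_apply, mv_add, mv_mul, mv_mul, mv_inv_cancel]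

theorem nilp_eq_frameN {σ : κ → κ} {c : κ → (ι → F)} (t : ↥(isometryGroup F ⇑Q))
    (ht : ∀ x, mv ⇑Q t x = x + frameN Q σ c x) : nilp Q t = frameN Q σ c := by
  apply LinearMap.ext
  intro x
  rw [nilp_apply, ht, add_comm x, add_assoc, vec_add_self, add_zero]

theorem mem_centralizer_iff_frameN {σ : κ → κ} {c : κ → (ι → F)}
    (t : ↥(isometryGroup F ⇑Q)) (ht : ∀ x, mv ⇑Q t x = x + frameN Q σ c x)
    (g : ↥(isometryGroup F ⇑Q)) :
    g ∈ Subgroup.centralizer ({t} : Set ↥(isometryGroup F ⇑Q)) ↔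
      frameN Q σ (fun i => mv ⇑Q g (c i)) = frameN Q σ c := by
  have key : ∀ x, nilp Q (g * t * g⁻¹) x = frameN Q σ (fun i => mv ⇑Q g (c i)) x := by
    intro x
    rw [nilp_conj, nilp_eq_frameN t ht, frameN_conj]
  rw [Subgroup.mem_centralizer_iff]
  constructor
  · intro hg
    have h1 : g * t * g⁻¹ = t := by
      rw [← hg t rfl, mul_inv_cancel_right]
    apply LinearMap.ext
    intro x
    rw [← key, h1, nilp_eq_frameN t ht]
  · intro hg s hs
    rw [Set.mem_singleton_iff] at hs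
    subst hs
    have h1 : g * s * g⁻¹ = s := by
      apply ext_mv
      intro x
      rw [mv_eq_add_nilp, key, hg, ht]
    calc s * g = g * s * g⁻¹ * g := by rw [h1]
      _ = g * s := by rw [inv_mul_cancel_right]

theorem oStab_le_centralizer {σ : κ → κ} {c : κ → (ι → F)}
    (t : ↥(isometryGroup F ⇑Q)) (ht : ∀ x, mv ⇑Q t x = x + frameN Q σ c x) :
    oStab Q c ≤ Subgroup.centralizer ({t} : Set ↥(isometryGroup F ⇑Q)) := by
  intro g hg
  rw [mem_centralizer_iff_frameN t ht]
  have h1 : (fun i => mv ⇑Q g (c i)) = c := funext hg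
  rw [h1]

/-- orbit-stabiliser for the centraliser of an involution acting on its frames -/
theorem card_centralizer_eq (hQ : (QuadraticMap.polarBilin Q).Nondegenerate) {σ : κ → κ}
    {c d : κ → (ι → F)} (h : InvFrame Q σ c d) (t : ↥(isometryGroup F ⇑Q))
    (ht : ∀ x, mv ⇑Q t x = x + frameN Q σ c x) :
    Nat.card ↥(Subgroup.centralizer ({t} : Set ↥(isometryGroup F ⇑Q))) =
      Nat.card ↥{c' : κ → (ι → F) |
        (∃ d', InvFrame Q σ c' d') ∧ frameN Q σ c' = frameN Q σ c} * Nat.card (oStab Q c) := by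
  have hle := oStab_le_centralizer t ht
  have hset : (Set.range fun
      (g : ↥(Subgroup.centralizer ({t} : Set ↥(isometryGroup F ⇑Q)))) (i : κ) =>
      mv ⇑Q (g : ↥(isometryGroup F ⇑Q)) (c i)) =
      {c' : κ → (ι → F) | (∃ d', InvFrame Q σ c' d') ∧ frameN Q σ c' = frameN Q σ c} := by
    ext c'
    constructor
    · rintro ⟨g, rfl⟩
      exact ⟨⟨_, frame_map h g⟩, (mem_centralizer_iff_frameN t ht g).mp g.2⟩
    · rintro ⟨⟨d', h'⟩, hN⟩
      obtain ⟨k, hk⟩ := frame_trans Q hQ h.ti h.dual h'.ti h'.linIndep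
        (fun i => by rw [h.quad, h'.quad])
      have hk' : (fun i => mv ⇑Q k (c i)) = c' := funext hk
      refine ⟨⟨k, (mem_centralizer_iff_frameN t ht k).mpr ?_⟩, hk'⟩
      rw [hk', hN]
  rw [SpI.card_eq_range_mul ((oStab Q c).subgroupOf
      (Subgroup.centralizer ({t} : Set ↥(isometryGroup F ⇑Q))))
    (fun (g : ↥(Subgroup.centralizer ({t} : Set ↥(isometryGroup F ⇑Q)))) i =>
      mv ⇑Q (g : ↥(isometryGroup F ⇑Q)) (c i))
    (fun g k => by
      rw [Subgroup.mem_subgroupOf]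
      exact orbit_map_eq_iff c (g : ↥(isometryGroup F ⇑Q)) (k : ↥(isometryGroup F ⇑Q))),
    Nat.card_congr (Subgroup.subgroupOfEquivOfLe hle).toEquiv, hset]

end Frames

end Cfsg.Agent.Helper45.OI
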