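import Cfsg.Agent.Helper45.SpCent3
import Cfsg.Agent.Helper45.InvNormal

set_option autoImplicit false
set_option linter.unusedSectionVars false

universe u

/-!
Counting totally isotropic frames with prescribed values of a quadratic form whose polar form is
the standard symplectic form (characteristic two).
-/

namespace Cfsg.Agent.Helper45.OI

open Cfsg Matrix

section Count

variable {F : Type u} [Field F] [CharP F 2] [Fintype F] {m : ℕ}
  (Q : QuadraticForm F (Fin m ⊕ Fin m → F))

theorem card_perp {s : ℕ} (c : Fin s → (Fin m ⊕ Fin m → F)) (hli : LinearIndependent F c) :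
    {v : Fin m ⊕ Fin m → F | ∀ j, Helper13.sympB m F v (c j) = 0}.ncard =
      Fintype.card F ^ (2 * m - s) := by
  have hW : Module.finrank F (Submodule.span F (Set.range c)) = s := by
    rw [finrank_span_eq_card hli, Fintype.card_fin]
  have hO : Module.finrank F ((Helper13.sympB m F).orthogonal (Submodule.span F (Set.range c))) =
      2 * m - s := by
    rw [LinearMap.BilinForm.finrank_orthogonal Helper13.sympB_nondegenerate, hW,
      Module.finrank_fintype_fun_eq_card, Fintype.card_sum, Fintype.card_fin, two_mul]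
  have hset : {v : Fin m ⊕ Fin m → F | ∀ j, Helper13.sympB m F v (c j) = 0} =
      ((Helper13.sympB m F).orthogonal (Submodule.span F (Set.range c)) :
        Set (Fin m ⊕ Fin m → F)) := by
    ext v
    show (∀ j, Helper13.sympB m F v (c j) = 0) ↔
      v ∈ (Helper13.sympB m F).orthogonal (Submodule.span F (Set.range c))
    rw [LinearMap.BilinForm.mem_orthogonal_iff]
    constructor
    · intro h w hw
      obtain ⟨l, rfl⟩ := (Submodule.mem_span_range_iff_exists_fun F).mp hw
      rw [SpI.sB_sum_left]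
      apply Finset.sum_eq_zero
      intro j _
      rw [SpI.sB_comm, h j, mul_zero]
    · intro h j
      rw [SpI.sB_comm]
      exact h _ (Submodule.subset_span ⟨j, rfl⟩)
  rw [hset, SpI.card_submodule, hO]

theorem isTI_card_le {s : ℕ} (c : Fin s → (Fin m ⊕ Fin m → F)) (hc : SpI.IsTI c) : s ≤ m := by
  have hW : Module.finrank F (Submodule.span F (Set.range c)) = s := by
    rw [finrank_span_eq_card hc.1, Fintype.card_fin]
  have hO : Module.finrank F ((Helper13.sympB m F).orthogonal (Submodule.span F (Set.range c))) =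
      2 * m - s := by
    rw [LinearMap.BilinForm.finrank_orthogonal Helper13.sympB_nondegenerate, hW,
      Module.finrank_fintype_fun_eq_card, Fintype.card_sum, Fintype.card_fin, two_mul]
  have hle : Submodule.span F (Set.range c) ≤
      (Helper13.sympB m F).orthogonal (Submodule.span F (Set.range c)) := by
    intro v hv
    rw [LinearMap.BilinForm.mem_orthogonal_iff]
    intro w hw
    exact SpI.form_span_zero c hc.2 _ _ hw hv
  have h1 := Submodule.finrank_mono hle
  omega

variable {Q}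

theorem quad_add_smul (hB : ∀ x y, QuadraticMap.polar ⇑Q x y = Helper13.sympB m F x y)
    (v w : Fin m ⊕ Fin m → F) (t : F) :
    Q (v + t • w) = Q v + t * t * Q w + t * Helper13.sympB m F v w := by
  rw [Helper13.Q_add', QuadraticMap.map_smul, hB, map_smul, smul_eq_mul, smul_eq_mul]

/-- moving along a singular direction `v0` meeting `v` non-trivially: exactly one point of each
coset is singular -/
theorem card_coset_zero (hB : ∀ x y, QuadraticMap.polar ⇑Q x y = Helper13.sympB m F x y) {s : ℕ}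
    (c : Fin s → (Fin m ⊕ Fin m → F)) (v0 : Fin m ⊕ Fin m → F) (hv0 : Q v0 = 0)
    (h0 : ∀ j, Helper13.sympB m F v0 (c j) = 0) :
    Fintype.card F * {v : Fin m ⊕ Fin m → F | (∀ j, Helper13.sympB m F v (c j) = 0) ∧
        Helper13.sympB m F v v0 ≠ 0 ∧ Q v = 0}.ncard =
      {v : Fin m ⊕ Fin m → F | (∀ j, Helper13.sympB m F v (c j) = 0) ∧
        Helper13.sympB m F v v0 ≠ 0}.ncard := by
  have e : {v : Fin m ⊕ Fin m → F // (∀ j, Helper13.sympB m F v (c j) = 0) ∧
        Helper13.sympB m F v v0 ≠ 0 ∧ Q v = 0} × F ≃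
      {v : Fin m ⊕ Fin m → F // (∀ j, Helper13.sympB m F v (c j) = 0) ∧
        Helper13.sympB m F v v0 ≠ 0} :=
    { toFun := fun p => ⟨p.1.1 + p.2 • v0, by
        refine ⟨fun j => ?_, ?_⟩
        · rw [map_add, LinearMap.add_apply, map_smul, LinearMap.smul_apply, p.1.2.1 j, h0 j,
            smul_zero, add_zero]
        · rw [map_add, LinearMap.add_apply, map_smul, LinearMap.smul_apply, SpI.sB_self,
            smul_zero, add_zero]
          exact p.1.2.2.1⟩
      invFun := fun w => (⟨w.1 + (Q w.1 / Helper13.sympB m F w.1 v0) • v0, by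
        refine ⟨fun j => ?_, ?_, ?_⟩
        · rw [map_add, LinearMap.add_apply, map_smul, LinearMap.smul_apply, w.2.1 j, h0 j,
            smul_zero, add_zero]
        · rw [map_add, LinearMap.add_apply, map_smul, LinearMap.smul_apply, SpI.sB_self,
            smul_zero, add_zero]
          exact w.2.2
        · rw [quad_add_smul hB, hv0, mul_zero, add_zero, div_mul_cancel₀ _ w.2.2]
          exact CharTwo.add_self_eq_zero _⟩, Q w.1 / Helper13.sympB m F w.1 v0)
      left_inv := fun p => by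
        have hq : Q (p.1.1 + p.2 • v0) = p.2 * Helper13.sympB m F p.1.1 v0 := by
          rw [quad_add_smul hB, hv0, mul_zero, add_zero, p.1.2.2.2, zero_add]
        have hb : Helper13.sympB m F (p.1.1 + p.2 • v0) v0 = Helper13.sympB m F p.1.1 v0 := by
          rw [map_add, LinearMap.add_apply, map_smul, LinearMap.smul_apply, SpI.sB_self,
            smul_zero, add_zero]
        have hu : Q (p.1.1 + p.2 • v0) / Helper13.sympB m F (p.1.1 + p.2 • v0) v0 = p.2 := by
          rw [hq, hb, mul_div_assoc, div_self p.1.2.2.1, mul_one]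
        apply Prod.ext
        · apply Subtype.ext
          show p.1.1 + p.2 • v0 +
            (Q (p.1.1 + p.2 • v0) / Helper13.sympB m F (p.1.1 + p.2 • v0) v0) • v0 = p.1.1
          rw [hu, add_assoc, vec_add_self, add_zero]
        · exact hu
      right_inv := fun w => by
        apply Subtype.ext
        show w.1 + (Q w.1 / Helper13.sympB m F w.1 v0) • v0 +
          (Q w.1 / Helper13.sympB m F w.1 v0) • v0 = w.1
        rw [add_assoc, vec_add_self, add_zero] }
  have h := Nat.card_congr e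
  rw [Nat.card_prod, Nat.card_eq_fintype_card (α := F)] at h
  rw [← Nat.card_coe_set_eq, ← Nat.card_coe_set_eq, mul_comm]
  exact h

theorem ncard_perp_ne {s : ℕ} (c : Fin s → (Fin m ⊕ Fin m → F)) (v0 : Fin m ⊕ Fin m → F)
    (hli : LinearIndependent F (Fin.cons v0 c : Fin (s + 1) → (Fin m ⊕ Fin m → F))) :
    {v : Fin m ⊕ Fin m → F | (∀ j, Helper13.sympB m F v (c j) = 0) ∧
        Helper13.sympB m F v v0 ≠ 0}.ncard =
      Fintype.card F ^ (2 * m - s) - Fintype.card F ^ (2 * m - (s + 1)) := by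
  have hli' : LinearIndependent F c := (linearIndependent_finCons.mp hli).1
  have hset : {v : Fin m ⊕ Fin m → F | (∀ j, Helper13.sympB m F v (c j) = 0) ∧
        Helper13.sympB m F v v0 ≠ 0} =
      {v : Fin m ⊕ Fin m → F | ∀ j, Helper13.sympB m F v (c j) = 0} \
        {v : Fin m ⊕ Fin m → F | ∀ j : Fin (s + 1), Helper13.sympB m F v
          ((Fin.cons v0 c : Fin (s + 1) → (Fin m ⊕ Fin m → F)) j) = 0} := by
    ext v
    constructor
    · rintro ⟨h1, h2⟩
      refine ⟨h1, fun h3 => h2 ?_⟩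
      have := h3 0
      rwa [Fin.cons_zero] at this
    · rintro ⟨h1, h2⟩
      refine ⟨h1, fun h3 => h2 (fun j => ?_)⟩
      refine Fin.cases ?_ (fun j' => ?_) j
      · rw [Fin.cons_zero]
        exact h3
      · rw [Fin.cons_succ]
        exact h1 j'
  have hsub : {v : Fin m ⊕ Fin m → F | ∀ j : Fin (s + 1), Helper13.sympB m F v
        ((Fin.cons v0 c : Fin (s + 1) → (Fin m ⊕ Fin m → F)) j) = 0} ⊆
      {v : Fin m ⊕ Fin m → F | ∀ j, Helper13.sympB m F v (c j) = 0} := by
    intro v hv j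
    have := hv j.succ
    rwa [Fin.cons_succ] at this
  rw [hset, Set.ncard_sdiff' hsub (Set.toFinite _), card_perp c hli', card_perp _ hli]

/-- the number of singular vectors orthogonal to a totally singular frame -/
theorem card_perp_zero (hB : ∀ x y, QuadraticMap.polar ⇑Q x y = Helper13.sympB m F x y) :
    ∀ (s : ℕ) (c : Fin s → (Fin m ⊕ Fin m → F)), SpI.IsTI c → (∀ j, Q (c j) = 0) →
      {v : Fin m ⊕ Fin m → F | (∀ j, Helper13.sympB m F v (c j) = 0) ∧ Q v = 0}.ncard +
          Fintype.card F ^ (2 * m - 1) =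
        {v : Fin m ⊕ Fin m → F | Q v = 0}.ncard + Fintype.card F ^ (2 * m - 1 - s) := by
  intro s
  induction s with
  | zero =>
    intro c _ _
    have hset : {v : Fin m ⊕ Fin m → F | (∀ j : Fin 0, Helper13.sympB m F v (c j) = 0) ∧ Q v = 0} =
        {v : Fin m ⊕ Fin m → F | Q v = 0} := by
      ext v
      exact ⟨fun h => h.2, fun h => ⟨fun j => j.elim0, h⟩⟩
    rw [hset]
    rfl
  | succ s ih =>
    intro c hc hq
    have hcons : (Fin.cons (c 0) (Fin.tail c) : Fin (s + 1) → (Fin m ⊕ Fin m → F)) = c :=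
      Fin.cons_self_tail c
    have hc' := hc
    rw [← hcons, SpI.isTI_cons] at hc'
    obtain ⟨hct, hnot, hperp⟩ := hc'
    have hsm := isTI_card_le c hc
    have ih' := ih (Fin.tail c) hct (fun j => hq j.succ)
    have hX := card_coset_zero hB (Fin.tail c) (c 0) (hq 0) hperp
    have hli : LinearIndependent F
        (Fin.cons (c 0) (Fin.tail c) : Fin (s + 1) → (Fin m ⊕ Fin m → F)) := by
      rw [hcons]
      exact hc.1
    rw [ncard_perp_ne (Fin.tail c) (c 0) hli] at hX
    have hunion : {v : Fin m ⊕ Fin m → F |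
        (∀ j, Helper13.sympB m F v (Fin.tail c j) = 0) ∧ Q v = 0} =
        {v : Fin m ⊕ Fin m → F | (∀ j, Helper13.sympB m F v (c j) = 0) ∧ Q v = 0} ∪
        {v : Fin m ⊕ Fin m → F | (∀ j, Helper13.sympB m F v (Fin.tail c j) = 0) ∧
          Helper13.sympB m F v (c 0) ≠ 0 ∧ Q v = 0} := by
      ext v
      constructor
      · rintro ⟨h1, h2⟩
        by_cases h3 : Helper13.sympB m F v (c 0) = 0
        · left
          refine ⟨fun j => ?_, h2⟩
          refine Fin.cases h3 (fun j' => ?_) j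
          exact h1 j'
        · right
          exact ⟨h1, h3, h2⟩
      · rintro (⟨h1, h2⟩ | ⟨h1, -, h2⟩)
        · exact ⟨fun j => h1 j.succ, h2⟩
        · exact ⟨h1, h2⟩
    have hdisj : Disjoint
        {v : Fin m ⊕ Fin m → F | (∀ j, Helper13.sympB m F v (c j) = 0) ∧ Q v = 0}
        {v : Fin m ⊕ Fin m → F | (∀ j, Helper13.sympB m F v (Fin.tail c j) = 0) ∧
          Helper13.sympB m F v (c 0) ≠ 0 ∧ Q v = 0} := by
      rw [Set.disjoint_left]
      rintro v ⟨h1, -⟩ ⟨-, h2, -⟩
      exact h2 (h1 0)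
    rw [hunion, Set.ncard_union_eq hdisj (Set.toFinite _) (Set.toFinite _)] at ih'
    have hq1 : 1 ≤ Fintype.card F := Fintype.card_pos
    have e1 : 2 * m - s = (2 * m - (s + 1)) + 1 := by omega
    have e2 : 2 * m - (s + 1) = (2 * m - 1 - (s + 1)) + 1 := by omega
    have e3 : 2 * m - 1 - s = 2 * m - (s + 1) := by omega
    rw [e3] at ih'
    rw [e1, pow_succ, e2, pow_succ] at hX
    rw [e2, pow_succ] at ih'
    generalize Fintype.card F ^ (2 * m - 1 - (s + 1)) = A at *
    generalize Fintype.card F ^ (2 * m - 1) = P at *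
    generalize {v : Fin m ⊕ Fin m → F | (∀ j, Helper13.sympB m F v (Fin.tail c j) = 0) ∧
          Helper13.sympB m F v (c 0) ≠ 0 ∧ Q v = 0}.ncard = X at *
    generalize Fintype.card F = q at *
    have hX' : X = A * q - A := by
      have h5 : q * X = q * (A * q - A) := by
        rw [hX, Nat.mul_sub]
        ring_nf
      exact Nat.eq_of_mul_eq_mul_left (by omega) h5
    have h6 : A ≤ A * q := Nat.le_mul_of_pos_right A (by omega)
    omega

/-- the number of ways to extend a totally singular frame by a singular vector -/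
theorem card_fib0 (hB : ∀ x y, QuadraticMap.polar ⇑Q x y = Helper13.sympB m F x y) {s : ℕ}
    (c : Fin s → (Fin m ⊕ Fin m → F)) (hc : SpI.IsTI c) (hq : ∀ j, Q (c j) = 0) :
    Nat.card {v : Fin m ⊕ Fin m → F // v ∉ Submodule.span F (Set.range c) ∧
        (∀ j, Helper13.sympB m F v (c j) = 0) ∧ Q v = 0} + Fintype.card F ^ s +
        Fintype.card F ^ (2 * m - 1) =
      {v : Fin m ⊕ Fin m → F | Q v = 0}.ncard + Fintype.card F ^ (2 * m - 1 - s) := by
  have hsub : (Submodule.span F (Set.range c) : Set (Fin m ⊕ Fin m → F)) ⊆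
      {v : Fin m ⊕ Fin m → F | (∀ j, Helper13.sympB m F v (c j) = 0) ∧ Q v = 0} := by
    intro v hv
    refine ⟨fun j => SpI.form_span_zero c hc.2 _ _ hv (Submodule.subset_span ⟨j, rfl⟩), ?_⟩
    obtain ⟨l, rfl⟩ := (Submodule.mem_span_range_iff_exists_fun F).mp hv
    rw [quad_sum_ti Q c (fun i j => by rw [hB]; exact hc.2 i j)]
    apply Finset.sum_eq_zero
    intro i _
    rw [hq, mul_zero]
  have hset : {v : Fin m ⊕ Fin m → F | v ∉ Submodule.span F (Set.range c) ∧
        (∀ j, Helper13.sympB m F v (c j) = 0) ∧ Q v = 0} =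
      {v : Fin m ⊕ Fin m → F | (∀ j, Helper13.sympB m F v (c j) = 0) ∧ Q v = 0} \
        (Submodule.span F (Set.range c) : Set (Fin m ⊕ Fin m → F)) := by
    ext v
    constructor
    · rintro ⟨h1, h2⟩
      exact ⟨h2, h1⟩
    · rintro ⟨h1, h2⟩
      exact ⟨h2, h1⟩
  have h1 := Set.ncard_sdiff_add_ncard_of_subset hsub (Set.toFinite _)
  rw [SpI.card_submodule, finrank_span_eq_card hc.1, Fintype.card_fin] at h1
  have h2 := card_perp_zero hB s c hc hq
  show Nat.card ↥{v : Fin m ⊕ Fin m → F | v ∉ Submodule.span F (Set.range c) ∧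
        (∀ j, Helper13.sympB m F v (c j) = 0) ∧ Q v = 0} + _ + _ = _
  rw [Nat.card_coe_set_eq, hset]
  omega

omit [Fintype F] in
theorem sq_exists [Finite F] (a : F) : ∃ r : F, r * r = a := by
  obtain ⟨r, hr⟩ := FiniteField.isSquare_of_char_two (ringChar.eq F 2) a
  exact ⟨r, hr.symm⟩

/-- square roots in a finite field of characteristic two -/
noncomputable def sq (a : F) : F := Classical.choose (sq_exists a)

theorem sq_mul_self (a : F) : sq a * sq a = a := Classical.choose_spec (sq_exists a)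

theorem sq_of_mul_self (t : F) : sq (t * t) = t := by
  have h := sq_mul_self (t * t)
  have h2 : (sq (t * t) + t) * (sq (t * t) + t) = 0 := by
    rw [CharTwo.add_mul_self, h, CharTwo.add_self_eq_zero]
  exact CharTwo.add_eq_zero.mp (mul_self_eq_zero.mp h2)

/-- the number of ways to extend a frame of vectors of norm one by a vector of norm one -/
theorem card_fib1 (hB : ∀ x y, QuadraticMap.polar ⇑Q x y = Helper13.sympB m F x y) {s : ℕ}
    (c : Fin (s + 1) → (Fin m ⊕ Fin m → F)) (hc : SpI.IsTI c) (hq : ∀ j, Q (c j) = 1) :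
    Fintype.card F * Nat.card {v : Fin m ⊕ Fin m → F // v ∉ Submodule.span F (Set.range c) ∧
        (∀ j, Helper13.sympB m F v (c j) = 0) ∧ Q v = 1} =
      Fintype.card F ^ (2 * m - (s + 1)) - Fintype.card F ^ (s + 1) := by
  have hc0 : ∀ t : F, t • c 0 ∈ Submodule.span F (Set.range c) :=
    fun t => Submodule.smul_mem _ _ (Submodule.subset_span ⟨0, rfl⟩)
  have e : {v : Fin m ⊕ Fin m → F // v ∉ Submodule.span F (Set.range c) ∧
        (∀ j, Helper13.sympB m F v (c j) = 0) ∧ Q v = 1} × F ≃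
      {v : Fin m ⊕ Fin m → F // v ∉ Submodule.span F (Set.range c) ∧
        ∀ j, Helper13.sympB m F v (c j) = 0} :=
    { toFun := fun p => ⟨p.1.1 + p.2 • c 0, by
        refine ⟨fun h => p.1.2.1 ((Submodule.add_mem_iff_left _ (hc0 p.2)).mp h), fun j => ?_⟩
        rw [map_add, LinearMap.add_apply, map_smul, LinearMap.smul_apply, p.1.2.2.1 j, hc.2 0 j,
          smul_zero, add_zero]⟩
      invFun := fun w => (⟨w.1 + sq (1 + Q w.1) • c 0, by
        refine ⟨fun h => w.2.1 ((Submodule.add_mem_iff_left _ (hc0 _)).mp h), fun j => ?_, ?_⟩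
        · rw [map_add, LinearMap.add_apply, map_smul, LinearMap.smul_apply, w.2.2 j, hc.2 0 j,
            smul_zero, add_zero]
        · rw [quad_add_smul hB, sq_mul_self, hq 0, mul_one, w.2.2 0, mul_zero, add_zero,
            add_comm 1 (Q w.1), ← add_assoc, CharTwo.add_self_eq_zero, zero_add]⟩,
        sq (1 + Q w.1))
      left_inv := fun p => by
        have hq' : Q (p.1.1 + p.2 • c 0) = 1 + p.2 * p.2 := by
          rw [quad_add_smul hB, hq 0, mul_one, p.1.2.2.1 0, mul_zero, add_zero, p.1.2.2.2]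
        have hu : sq (1 + Q (p.1.1 + p.2 • c 0)) = p.2 := by
          rw [hq', ← add_assoc, CharTwo.add_self_eq_zero, zero_add, sq_of_mul_self]
        apply Prod.ext
        · apply Subtype.ext
          show p.1.1 + p.2 • c 0 + sq (1 + Q (p.1.1 + p.2 • c 0)) • c 0 = p.1.1
          rw [hu, add_assoc, vec_add_self, add_zero]
        · exact hu
      right_inv := fun w => by
        apply Subtype.ext
        show w.1 + sq (1 + Q w.1) • c 0 + sq (1 + Q w.1) • c 0 = w.1
        rw [add_assoc, vec_add_self, add_zero] }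
  have h := Nat.card_congr e
  rw [Nat.card_prod, Nat.card_eq_fintype_card (α := F), SpI.card_ext c hc] at h
  rw [mul_comm]
  exact h

omit [Fintype F] in
theorem isTQ_cons (ε : F) {s : ℕ} (v : Fin m ⊕ Fin m → F) (c : Fin s → (Fin m ⊕ Fin m → F)) :
    (SpI.IsTI (Fin.cons v c : Fin (s + 1) → (Fin m ⊕ Fin m → F)) ∧
        ∀ i, Q ((Fin.cons v c : Fin (s + 1) → (Fin m ⊕ Fin m → F)) i) = ε) ↔
      (SpI.IsTI c ∧ ∀ i, Q (c i) = ε) ∧ (v ∉ Submodule.span F (Set.range c) ∧
        (∀ j, Helper13.sympB m F v (c j) = 0) ∧ Q v = ε) := by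
  rw [SpI.isTI_cons, Fin.forall_fin_succ]
  simp only [Fin.cons_zero, Fin.cons_succ]
  tauto

theorem card_TQ_succ (ε : F) (s N : ℕ)
    (hN : ∀ c : Fin s → (Fin m ⊕ Fin m → F), SpI.IsTI c → (∀ j, Q (c j) = ε) →
      Nat.card {v : Fin m ⊕ Fin m → F // v ∉ Submodule.span F (Set.range c) ∧
        (∀ j, Helper13.sympB m F v (c j) = 0) ∧ Q v = ε} = N) :
    Nat.card {c : Fin (s + 1) → (Fin m ⊕ Fin m → F) // SpI.IsTI c ∧ ∀ i, Q (c i) = ε} =
      Nat.card {c : Fin s → (Fin m ⊕ Fin m → F) // SpI.IsTI c ∧ ∀ i, Q (c i) = ε} * N := by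
  classical
  let e₁ : (Fin s → (Fin m ⊕ Fin m → F)) × (Fin m ⊕ Fin m → F) ≃
      (Fin (s + 1) → (Fin m ⊕ Fin m → F)) :=
    (Equiv.prodComm _ _).trans (Fin.consEquiv (fun _ => (Fin m ⊕ Fin m → F)))
  have he₁ : ∀ p, e₁ p = Fin.cons p.2 p.1 := fun p => rfl
  let e₂ : {p : (Fin s → (Fin m ⊕ Fin m → F)) × (Fin m ⊕ Fin m → F) //
      (SpI.IsTI p.1 ∧ ∀ i, Q (p.1 i) = ε) ∧ (p.2 ∉ Submodule.span F (Set.range p.1) ∧
        (∀ j, Helper13.sympB m F p.2 (p.1 j) = 0) ∧ Q p.2 = ε)} ≃
      {c : Fin (s + 1) → (Fin m ⊕ Fin m → F) // SpI.IsTI c ∧ ∀ i, Q (c i) = ε} :=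
    Equiv.subtypeEquiv e₁ (fun p => by rw [he₁, isTQ_cons])
  let e₃ : {p : (Fin s → (Fin m ⊕ Fin m → F)) × (Fin m ⊕ Fin m → F) //
      (SpI.IsTI p.1 ∧ ∀ i, Q (p.1 i) = ε) ∧ (p.2 ∉ Submodule.span F (Set.range p.1) ∧
        (∀ j, Helper13.sympB m F p.2 (p.1 j) = 0) ∧ Q p.2 = ε)} ≃
      (Σ c : {c : Fin s → (Fin m ⊕ Fin m → F) // SpI.IsTI c ∧ ∀ i, Q (c i) = ε},
        {v : Fin m ⊕ Fin m → F // v ∉ Submodule.span F (Set.range c.1) ∧
          (∀ j, Helper13.sympB m F v (c.1 j) = 0) ∧ Q v = ε}) :=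
    { toFun := fun p => ⟨⟨p.1.1, p.2.1⟩, ⟨p.1.2, p.2.2⟩⟩
      invFun := fun q => ⟨(q.1.1, q.2.1), q.1.2, q.2.2⟩
      left_inv := fun p => rfl
      right_inv := fun q => rfl }
  rw [← Nat.card_congr e₂, Nat.card_congr e₃, Nat.card_sigma,
    Finset.sum_congr rfl (fun c _ => hN c.1 c.2.1 c.2.2), Finset.sum_const, Finset.card_univ,
    smul_eq_mul, Nat.card_eq_fintype_card]

omit [Fintype F] [CharP F 2] in
theorem card_TQ_zero (ε : F) :
    Nat.card {c : Fin 0 → (Fin m ⊕ Fin m → F) // SpI.IsTI c ∧ ∀ i, Q (c i) = ε} = 1 := by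
  have : Nonempty {c : Fin 0 → (Fin m ⊕ Fin m → F) // SpI.IsTI c ∧ ∀ i, Q (c i) = ε} :=
    ⟨⟨Fin.elim0, ⟨linearIndependent_empty_type, fun i => i.elim0⟩, fun i => i.elim0⟩⟩
  have hsub : Subsingleton {c : Fin 0 → (Fin m ⊕ Fin m → F) // SpI.IsTI c ∧ ∀ i, Q (c i) = ε} :=
    ⟨fun a b => Subtype.ext (Subsingleton.elim _ _)⟩
  exact Nat.card_unique

/-- the number of totally singular frames -/
theorem card_TQ0 (hB : ∀ x y, QuadraticMap.polar ⇑Q x y = Helper13.sympB m F x y)
    (hz : {v : Fin m ⊕ Fin m → F | Q v = 0}.ncard =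
      Fintype.card F ^ (2 * m - 1) + (Fintype.card F ^ m - Fintype.card F ^ (m - 1))) (s : ℕ) :
    Nat.card {c : Fin s → (Fin m ⊕ Fin m → F) // SpI.IsTI c ∧ ∀ i, Q (c i) = 0} =
      ∏ i ∈ Finset.range s, (Fintype.card F ^ (2 * m - 1 - i) +
        (Fintype.card F ^ m - Fintype.card F ^ (m - 1)) - Fintype.card F ^ i) := by
  induction s with
  | zero => rw [Finset.prod_range_zero, card_TQ_zero]
  | succ s ih =>
    rw [card_TQ_succ 0 s (Fintype.card F ^ (2 * m - 1 - s) +
        (Fintype.card F ^ m - Fintype.card F ^ (m - 1)) - Fintype.card F ^ s)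
      (fun c hc hq => by
        have h1 := card_fib0 hB c hc hq
        rw [hz] at h1
        omega), ih, Finset.prod_range_succ]

/-- the number of totally isotropic frames of vectors of norm one -/
theorem card_TQ1 (hB : ∀ x y, QuadraticMap.polar ⇑Q x y = Helper13.sympB m F x y) (z₁ : ℕ)
    (hz1 : Nat.card {v : Fin m ⊕ Fin m → F // Q v = 1} = z₁) (s : ℕ) :
    Nat.card {c : Fin (s + 1) → (Fin m ⊕ Fin m → F) // SpI.IsTI c ∧ ∀ i, Q (c i) = 1} =
      z₁ * ∏ i ∈ Finset.range s, (Fintype.card F ^ (2 * m - i - 2) - Fintype.card F ^ i) := by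
  induction s with
  | zero =>
    rw [Finset.prod_range_zero, mul_one, card_TQ_succ 1 0 z₁ (fun c _ _ => by
      rw [← hz1]
      apply Nat.card_congr
      refine Equiv.subtypeEquivRight (fun v => ⟨fun h => h.2.2, fun h => ⟨?_, fun j => j.elim0, h⟩⟩)
      intro hv
      have h0 : Set.range c = ∅ := Set.range_eq_empty c
      rw [h0, Submodule.span_empty, Submodule.mem_bot] at hv
      rw [hv, map_zero] at h
      exact zero_ne_one h), card_TQ_zero, one_mul]
  | succ s ih =>
    rw [card_TQ_succ 1 (s + 1) (Fintype.card F ^ (2 * m - s - 2) - Fintype.card F ^ s)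
      (fun c hc hq => by
        have h1 := card_fib1 hB c hc hq
        have hsm := isTI_card_le c hc
        have hq1 : 1 ≤ Fintype.card F := Fintype.card_pos
        have e1 : 2 * m - (s + 1) = (2 * m - s - 2) + 1 := by omega
        rw [e1, pow_succ, pow_succ] at h1
        have h5 : Fintype.card F * Nat.card {v : Fin m ⊕ Fin m → F //
            v ∉ Submodule.span F (Set.range c) ∧
            (∀ j, Helper13.sympB m F v (c j) = 0) ∧ Q v = 1} =
            Fintype.card F * (Fintype.card F ^ (2 * m - s - 2) - Fintype.card F ^ s) := by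
          rw [h1, Nat.mul_sub]
          ring_nf
        exact Nat.eq_of_mul_eq_mul_left (by omega) h5), ih, Finset.prod_range_succ]
    ring

/-- frames of an involution in terms of the symplectic form -/
theorem oframe_iff (hB : ∀ x y, QuadraticMap.polar ⇑Q x y = Helper13.sympB m F x y)
    {κ : Type} [Fintype κ] [DecidableEq κ] (σ : κ → κ) (hσ : ∀ i, σ (σ i) = i)
    (c : κ → (Fin m ⊕ Fin m → F)) :
    (∃ d, InvFrame Q σ c d) ↔ (SpI.IsTI c ∧ ∀ i, Q (c i) = if σ i = i then 1 else 0) := by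
  constructor
  · rintro ⟨d, h⟩
    exact ⟨⟨h.linIndep, fun i j => by rw [← hB]; exact h.ti i j⟩, h.quad⟩
  · rintro ⟨⟨hli, hti⟩, hq⟩
    obtain ⟨d, hd⟩ := SpI.exists_dual c hli
    exact ⟨d, ⟨fun i j => by rw [hB]; exact hti i j, fun i j => by rw [hB]; exact hd i j, hq, hσ⟩⟩

theorem card_oframes_id (hB : ∀ x y, QuadraticMap.polar ⇑Q x y = Helper13.sympB m F x y) (z₁ : ℕ)
    (hz1 : Nat.card {v : Fin m ⊕ Fin m → F // Q v = 1} = z₁) (s : ℕ) :
    Nat.card ↥{c : Fin (s + 1) → (Fin m ⊕ Fin m → F) | ∃ d, InvFrame Q id c d} =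
      z₁ * ∏ i ∈ Finset.range s, (Fintype.card F ^ (2 * m - i - 2) - Fintype.card F ^ i) := by
  rw [← card_TQ1 hB z₁ hz1]
  apply Nat.card_congr
  refine Equiv.subtypeEquivRight (fun c => ?_)
  show (∃ d, InvFrame Q id c d) ↔ _
  rw [oframe_iff hB id (fun _ => rfl)]
  simp

theorem card_oframes_swap (hB : ∀ x y, QuadraticMap.polar ⇑Q x y = Helper13.sympB m F x y)
    (hz : {v : Fin m ⊕ Fin m → F | Q v = 0}.ncard =
      Fintype.card F ^ (2 * m - 1) + (Fintype.card F ^ m - Fintype.card F ^ (m - 1))) (k : ℕ) :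
    Nat.card ↥{c : Fin k ⊕ Fin k → (Fin m ⊕ Fin m → F) | ∃ d, InvFrame Q Sum.swap c d} =
      ∏ i ∈ Finset.range (k + k), (Fintype.card F ^ (2 * m - 1 - i) +
        (Fintype.card F ^ m - Fintype.card F ^ (m - 1)) - Fintype.card F ^ i) := by
  rw [← card_TQ0 hB hz]
  apply Nat.card_congr
  refine Equiv.subtypeEquiv (Equiv.arrowCongr finSumFinEquiv (Equiv.refl _)) ?_
  intro c
  show (∃ d, InvFrame Q Sum.swap c d) ↔
    (SpI.IsTI (c ∘ finSumFinEquiv.symm) ∧ ∀ i, Q ((c ∘ finSumFinEquiv.symm) i) = 0)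
  rw [oframe_iff hB Sum.swap Sum.swap_swap]
  have hne : ∀ i : Fin k ⊕ Fin k, Sum.swap i ≠ i := by
    rintro (i | i) h
    · exact Sum.inr_ne_inl h
    · exact Sum.inl_ne_inr h
  unfold SpI.IsTI
  rw [linearIndependent_equiv]
  constructor
  · rintro ⟨⟨h1, h2⟩, h3⟩
    refine ⟨⟨h1, fun i j => h2 _ _⟩, fun i => ?_⟩
    have := h3 (finSumFinEquiv.symm i)
    rwa [if_neg (hne _)] at this
  · rintro ⟨⟨h1, h2⟩, h3⟩
    refine ⟨⟨h1, fun i j => ?_⟩, fun i => ?_⟩
    · have := h2 (finSumFinEquiv i) (finSumFinEquiv j)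
      simpa using this
    · rw [if_neg (hne i)]
      have := h3 (finSumFinEquiv i)
      simpa using this

end Count

end Cfsg.Agent.Helper45.OI
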