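import Cfsg.Agent.Helper45.OCent1
import Cfsg.Agent.Helper45.OCount
import Cfsg.Agent.Helper45.SpCent5
import Cfsg.Agent.Helper45.CenterForms
import Cfsg.Agent.Helper45.DicksonRank
import Cfsg.Agent.Helper5.OrthForms
import Cfsg.Agent.S0289

set_option autoImplicit false
set_option linter.unusedSectionVars false

universe u

/-!
Centralisers of involutions of `O⁺_{2m}(q)`, `q` even: comparison of orthogonal frames with
symplectic frames, and the resulting order formula in the full orthogonal group.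
-/

namespace Cfsg.Agent.Helper45.OI

open Cfsg Matrix

section Bridge

variable {F : Type u} [Field F] [CharP F 2] {m : ℕ}
  (Q : QuadraticForm F (Fin m ⊕ Fin m → F))
variable {κ : Type} [Fintype κ] [DecidableEq κ]

theorem frameN_eq_sp (hB : ∀ x y, QuadraticMap.polar ⇑Q x y = Helper13.sympB m F x y)
    (σ : κ → κ) (c : κ → (Fin m ⊕ Fin m → F)) : frameN Q σ c = SpI.frameN σ c := by
  apply LinearMap.ext
  intro x
  rw [frameN_apply, SpI.frameN_apply]
  apply Finset.sum_congr rfl
  intro i _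
  rw [hB]

theorem frame_to_sp (hB : ∀ x y, QuadraticMap.polar ⇑Q x y = Helper13.sympB m F x y)
    {σ : κ → κ} {c d : κ → (Fin m ⊕ Fin m → F)} (h : InvFrame Q σ c d) : SpI.InvFrame σ c d :=
  ⟨fun i j => by rw [← hB]; exact h.ti i j, fun i j => by rw [← hB]; exact h.dual i j, h.invol⟩

theorem quad_frameN_eq {σ : κ → κ} {c d : κ → (Fin m ⊕ Fin m → F)} (h : InvFrame Q σ c d)
    (y : Fin m ⊕ Fin m → F) :
    Q (frameN Q σ c y) = QuadraticMap.polar ⇑Q y (frameN Q σ c y) := by
  have h1 := h.quad_add y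
  rw [Helper13.Q_add'] at h1
  have h2 : Q (frameN Q σ c y) + QuadraticMap.polar ⇑Q y (frameN Q σ c y) = 0 := by
    have h3 : Q y + Q (frameN Q σ c y) + QuadraticMap.polar ⇑Q y (frameN Q σ c y) =
        Q y + (Q (frameN Q σ c y) + QuadraticMap.polar ⇑Q y (frameN Q σ c y)) := by ring
    rw [h3] at h1
    exact add_eq_left.mp h1
  exact CharTwo.add_eq_zero.mp h2

theorem frames_set_eq (hB : ∀ x y, QuadraticMap.polar ⇑Q x y = Helper13.sympB m F x y)
    {σ : κ → κ} {c d : κ → (Fin m ⊕ Fin m → F)} (h : InvFrame Q σ c d) :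
    {c' : κ → (Fin m ⊕ Fin m → F) | (∃ d', InvFrame Q σ c' d') ∧ frameN Q σ c' = frameN Q σ c} =
      {c' : κ → (Fin m ⊕ Fin m → F) |
        (∃ d', SpI.InvFrame σ c' d') ∧ SpI.frameN σ c' = SpI.frameN σ c} := by
  ext c'
  constructor
  · rintro ⟨⟨d', h'⟩, hN⟩
    refine ⟨⟨d', frame_to_sp Q hB h'⟩, ?_⟩
    rw [← frameN_eq_sp Q hB, ← frameN_eq_sp Q hB, hN]
  · rintro ⟨⟨d', h'⟩, hN⟩
    have hN' : frameN Q σ c' = frameN Q σ c := by
      rw [frameN_eq_sp Q hB, frameN_eq_sp Q hB, hN]
    refine ⟨⟨d', ⟨fun i j => by rw [hB]; exact h'.ti i j, fun i j => by rw [hB]; exact h'.dual i j,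
      ?_, h.invol⟩⟩, hN'⟩
    intro i
    have h1 : c' i = frameN Q σ c (d' (σ i)) := by
      rw [← hN', frameN_eq_sp Q hB, h'.frameN_d, h.invol]
    have h2 : QuadraticMap.polar ⇑Q (d' (σ i)) (c' i) = if σ i = i then 1 else 0 := by
      rw [hB]
      exact h'.dual (σ i) i
    rw [← h2]
    conv_lhs => rw [h1]
    rw [quad_frameN_eq Q h, ← h1]

/-- the frames of an involution are parametrised by the matrices preserving the shape -/
theorem card_frames_eq (hB : ∀ x y, QuadraticMap.polar ⇑Q x y = Helper13.sympB m F x y)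
    {σ : κ → κ} {c d : κ → (Fin m ⊕ Fin m → F)} (h : InvFrame Q σ c d) :
    Nat.card ↥{c' : κ → (Fin m ⊕ Fin m → F) |
        (∃ d', InvFrame Q σ c' d') ∧ frameN Q σ c' = frameN Q σ c} =
      Nat.card {A : Matrix κ κ F // Aᵀ * SpI.shapeM F σ * A = SpI.shapeM F σ} := by
  rw [frames_set_eq Q hB h]
  exact SpI.card_frames_eq (frame_to_sp Q hB h)

/-- the order of the centraliser of an involution in the orthogonal group, up to the number of
frames -/
theorem card_centralizer_mul (hQ : (QuadraticMap.polarBilin Q).Nondegenerate)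
    (hB : ∀ x y, QuadraticMap.polar ⇑Q x y = Helper13.sympB m F x y)
    {σ : κ → κ} {c d : κ → (Fin m ⊕ Fin m → F)} (h : InvFrame Q σ c d)
    (t : ↥(isometryGroup F ⇑Q)) (ht : ∀ x, mv ⇑Q t x = x + frameN Q σ c x) :
    Nat.card ↥(Subgroup.centralizer ({t} : Set ↥(isometryGroup F ⇑Q))) *
        Nat.card ↥{c' : κ → (Fin m ⊕ Fin m → F) | ∃ d', InvFrame Q σ c' d'} =
      Nat.card {A : Matrix κ κ F // Aᵀ * SpI.shapeM F σ * A = SpI.shapeM F σ} *
        Nat.card ↥(isometryGroup F ⇑Q) := by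
  rw [card_centralizer_eq hQ h t ht, card_iso_eq_frames hQ h, card_frames_eq Q hB h]
  ring

end Bridge

section Plus

variable {F : Type u} [Field F] [Fintype F] [CharP F 2] {m : ℕ}

theorem polar_plus (x y : Fin m ⊕ Fin m → F) :
    QuadraticMap.polar ⇑(Helper43.plusQF m F) x y = Helper13.sympB m F x y := by
  rw [plusQF_polar', Helper13.sympB_apply, Helper13.sympForm_apply]
  apply Finset.sum_congr rfl
  intro i _
  rw [CharTwo.sub_eq_add]
  ring

/-- the number of singular vectors of the hyperbolic form -/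
theorem plus_zeros (hm : 1 ≤ m) :
    {v : Fin m ⊕ Fin m → F | Helper43.plusQF m F v = 0}.ncard =
      Fintype.card F ^ (2 * m - 1) + (Fintype.card F ^ m - Fintype.card F ^ (m - 1)) := by
  have h := Cfsg.Agent.S0289.result (F := F) rfl m hm
  have hle : Fintype.card F ^ (m - 1) ≤ Fintype.card F ^ m :=
    Nat.pow_le_pow_right Fintype.card_pos (by omega)
  rw [← Nat.add_sub_assoc hle, ← h, ← Nat.card_coe_set_eq]
  rfl

/-- the number of vectors of norm one of the hyperbolic form -/
theorem plus_ones :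
    Nat.card {v : Fin m ⊕ Fin m → F // Helper43.plusQF m F v = 1} =
      (Fintype.card F ^ m - 1) * Fintype.card F ^ (m - 1) := by
  have e : {v : Fin m ⊕ Fin m → F // Helper43.plusQF m F v = 1} ≃
      {p : (Fin m → F) × (Fin m → F) // ∑ i, p.1 i * p.2 i = 1} :=
    (Equiv.sumArrowEquivProdArrow (Fin m) (Fin m) F).subtypeEquiv (fun v => by
      show Cfsg.quadFormPlus m F v = 1 ↔ _
      simp [Cfsg.quadFormPlus, Equiv.sumArrowEquivProdArrow])
  rw [Nat.card_congr e, Helper5.card_dot_pairs, if_neg one_ne_zero, zero_add, Fintype.card_fin]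

end Plus

end Cfsg.Agent.Helper45.OI
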