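import Cfsg.Agent.Helper45.OCent2
import Cfsg.Agent.Helper45.TSing2
import Cfsg.Agent.Helper45.DicksonRank
import Cfsg.Agent.Helper44.CD

set_option autoImplicit false
set_option linter.unusedSectionVars false

universe u

/-!
Centralisers of involutions in `Ω` versus the full orthogonal group (characteristic two).
-/

namespace Cfsg.Agent.Helper45.OI

open Cfsg Matrix

section Halving

variable {G : Type*} [Group G]

/-- the elements of a subgroup commuting with `x`, as a subgroup of the centraliser -/
def centSubEquiv (N : Subgroup G) (x : G) :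
    {g : ↥N // (g : G) * x = x * (g : G)} ≃
      ↥(N.subgroupOf (Subgroup.centralizer ({x} : Set G))) where
  toFun g := ⟨⟨(g.1 : G), by
      rw [Subgroup.mem_centralizer_iff]
      intro h hh
      rw [Set.mem_singleton_iff] at hh
      rw [hh]
      exact g.2.symm⟩, by
      rw [Subgroup.mem_subgroupOf]
      exact g.1.2⟩
  invFun c := ⟨⟨((c.1 : ↥(Subgroup.centralizer ({x} : Set G))) : G), Subgroup.mem_subgroupOf.mp c.2⟩,
    ((Subgroup.mem_centralizer_iff.mp (c.1 : ↥(Subgroup.centralizer ({x} : Set G))).2) x rfl).symm⟩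
  left_inv _ := rfl
  right_inv _ := rfl

theorem card_cent_of_le (N : Subgroup G) (x : G)
    (hC : Subgroup.centralizer ({x} : Set G) ≤ N) :
    Nat.card ↥(Subgroup.centralizer ({x} : Set G)) =
      Nat.card {g : ↥N // (g : G) * x = x * (g : G)} := by
  rw [Nat.card_congr (centSubEquiv N x), Subgroup.subgroupOf_eq_top.mpr hC, Subgroup.card_top]

theorem card_cent_of_not_le (N : Subgroup G) (hN : N.index = 2) (x : G)
    (hC : ¬ Subgroup.centralizer ({x} : Set G) ≤ N) :
    Nat.card ↥(Subgroup.centralizer ({x} : Set G)) =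
      2 * Nat.card {g : ↥N // (g : G) * x = x * (g : G)} := by
  have hnorm : N.Normal := Subgroup.normal_of_index_eq_two hN
  have h1 : N.relIndex (Subgroup.centralizer ({x} : Set G)) ∣ 2 := by
    rw [← hN]
    exact Subgroup.relIndex_dvd_index_of_normal N _
  have h2 : N.relIndex (Subgroup.centralizer ({x} : Set G)) ≠ 1 := by
    intro h
    exact hC (Subgroup.relIndex_eq_one.mp h)
  have h3 : N.relIndex (Subgroup.centralizer ({x} : Set G)) = 2 := by
    rcases (Nat.dvd_prime Nat.prime_two).mp h1 with h | h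
    · exact absurd h h2
    · exact h
  rw [Nat.card_congr (centSubEquiv N x), ← h3]
  exact (Subgroup.index_mul_card _).symm

end Halving

section General

variable {ι : Type} [Fintype ι] [DecidableEq ι] {F : Type u} [Field F] [Fintype F] [CharP F 2]
  (Q : QuadraticForm F (ι → F))
variable {κ : Type} [Fintype κ] [DecidableEq κ]

/-- a reflection in a vector orthogonal to the frame centralises the involution -/
theorem cent_not_le_omega (hQ : (QuadraticMap.polarBilin Q).Nondegenerate)
    (hR : reflGroup Q = ⊤) {σ : κ → κ} {c : κ → (ι → F)} (t : ↥(isometryGroup F ⇑Q))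
    (ht : ∀ x, mv ⇑Q t x = x + frameN Q σ c x) (v : ι → F) (hv : Q v ≠ 0)
    (hperp : ∀ j, QuadraticMap.polar ⇑Q v (c j) = 0) :
    ¬ Subgroup.centralizer ({t} : Set ↥(isometryGroup F ⇑Q)) ≤ Omega F ⇑Q := by
  intro hle
  have htv : mv ⇑Q t v = v := by
    rw [ht, frameN_apply]
    have : ∑ i, QuadraticMap.polar ⇑Q v (c i) • c (σ i) = 0 := by
      apply Finset.sum_eq_zero
      intro i _
      rw [hperp, zero_smul]
    rw [this, add_zero]
  have hkv : Q (mv ⇑Q t v) ≠ 0 := by rw [htv]; exact hv
  have key : ∀ (w : ι → F) (hw : Q w ≠ 0), w = v → reflO Q w hw = reflO Q v hv := by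
    intro w hw e
    subst e
    rfl
  have h1 := conj_reflO Q t v hv hkv
  rw [key _ hkv htv] at h1
  have hmem : reflO Q v hv ∈ Subgroup.centralizer ({t} : Set ↥(isometryGroup F ⇑Q)) := by
    rw [Subgroup.mem_centralizer_iff]
    intro h hh
    rw [Set.mem_singleton_iff] at hh
    rw [hh]
    calc t * reflO Q v hv = t * reflO Q v hv * t⁻¹ * t := by rw [inv_mul_cancel_right]
      _ = reflO Q v hv * t := by rw [h1]
  exact reflO_not_mem_omega Q hQ hR v hv (hle hmem)

/-- a nonsingular vector orthogonal to a small family -/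
theorem exists_nonsing_perp (hQ : (QuadraticMap.polarBilin Q).Nondegenerate) (c : κ → (ι → F))
    (hc : 2 * Fintype.card κ < Fintype.card ι) :
    ∃ v, Q v ≠ 0 ∧ ∀ j, QuadraticMap.polar ⇑Q v (c j) = 0 := by
  by_contra hcon
  push Not at hcon
  have hts : ∀ w ∈ LinearMap.BilinForm.orthogonal (QuadraticMap.polarBilin Q)
      (Submodule.span F (Set.range c)), Q w = 0 := by
    intro w hw
    by_contra hne
    obtain ⟨j, hj⟩ := hcon w hne
    apply hj
    rw [LinearMap.BilinForm.mem_orthogonal_iff] at hw
    have h1 := hw (c j) (Submodule.subset_span ⟨j, rfl⟩)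
    rw [QuadraticMap.polar_comm]
    exact h1
  have h1 := finrank_ts_le Q hQ _ hts
  have h2 := LinearMap.BilinForm.finrank_orthogonal hQ (Submodule.span F (Set.range c))
  have h3 : Module.finrank F (ι → F) = Fintype.card ι := Module.finrank_fintype_fun_eq_card F
  have h4 : Module.finrank F (Submodule.span F (Set.range c)) ≤ Fintype.card κ :=
    finrank_range_le_card c
  omega

/-- the centraliser of an involution of maximal rank with totally singular commutator space lies
in `Ω` -/
theorem cent_le_omega (hQ : (QuadraticMap.polarBilin Q).Nondegenerate)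
    (hex : (∃ t : F, t ≠ 0 ∧ t ≠ 1) ∨ Fintype.card ι ≠ 4) (t : ↥(isometryGroup F ⇑Q))
    (halt : ∀ v, Q (mv ⇑Q t v + v) = 0)
    (hrank : 2 * (((t : GL ι F) : Matrix ι ι F) - 1).rank = Fintype.card ι) :
    Subgroup.centralizer ({t} : Set ↥(isometryGroup F ⇑Q)) ≤ Omega F ⇑Q := by
  intro g hg
  have hR := Helper44.reflGroup_eq_top_of Q hQ hex
  rw [mem_omega_iff_dick Q hQ hex]
  have h1 : g * t * g⁻¹ = t := by
    rw [Subgroup.mem_centralizer_iff] at hg
    rw [← hg t rfl, mul_inv_cancel_right]
  have h2 := range_sub_one_conj Q g t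
  rw [h1] at h2
  have h3 := parity_ts' Q hQ hR
    (LinearMap.range (Matrix.toLin' (((t : GL ι F) : Matrix ι ι F) - 1)))
    (alt_range_singular Q t halt) (by rw [finrank_range_sub_one, hrank]) g
  rw [← h2, inf_idem, ← two_mul] at h3
  rw [← h3]
  push_cast
  have : (2 : ZMod 2) = 0 := rfl
  rw [this, zero_mul]

end General

end Cfsg.Agent.Helper45.OI
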