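import Cfsg.Agent.Helper45.OCent3
import Cfsg.Agent.Helper45.OArith

set_option autoImplicit false
set_option linter.unusedSectionVars false

universe u

/-!
The orders of the centralisers in `Ω⁺_{2m}(q)`, `q` even, of the involutions of `O⁺_{2m}(q)`.
-/

namespace Cfsg.Agent.Helper45.OI

open Cfsg Matrix

section PlusFinal

variable {F : Type u} [Field F] [Fintype F] [CharP F 2] {m : ℕ}

theorem plus_hex (h : Fintype.card F ≠ 2 ∨ m ≠ 2) :
    (∃ t : F, t ≠ 0 ∧ t ≠ 1) ∨ Fintype.card (Fin m ⊕ Fin m) ≠ 4 := by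
  rcases h with h | h
  · exact Or.inl (Helper44.exists_ne_zero_one h)
  · right
    rw [card_plus_index]
    omega

theorem plus_index (h : Fintype.card F ≠ 2 ∨ m ≠ 2) (hm : 1 ≤ m) :
    (Omega F ⇑(Helper43.plusQF m F)).index = 2 := by
  have : Nonempty (Fin m ⊕ Fin m) := ⟨Sum.inl ⟨0, hm⟩⟩
  exact omega_index_two_char2 (Helper43.plusQF m F) (plusQF_nondeg' m) (plus_hex h)

theorem plus_card_O (hm : 1 ≤ m) :
    Nat.card ↥(isometryGroup F ⇑(Helper43.plusQF m F)) = 2 * omOrd (Fintype.card F) m := by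
  have h := Helper5.card_GO_plus (F := F) m hm
  have h' : Nat.card ↥(isometryGroup F ⇑(Helper43.plusQF m F)) =
      2 * Fintype.card F ^ (m * (m - 1)) * (Fintype.card F ^ m - 1) *
        ∏ i ∈ Finset.range (m - 1), (Fintype.card F ^ (2 * (i + 1)) - 1) := h
  rw [h']
  unfold omOrd
  ring

theorem vec_sub_eq_add {ι : Type} (a b : ι → F) : a - b = a + b := by
  funext i
  exact CharTwo.sub_eq_add _ _

theorem self_mem_centralizer {G : Type*} [Group G] (x : G) :
    x ∈ Subgroup.centralizer ({x} : Set G) := by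
  rw [Subgroup.mem_centralizer_iff]
  intro h hh
  rw [Set.mem_singleton_iff] at hh
  rw [hh]

/-- the `Ω`-centraliser of an involution of type `b` or `c`, given that its centraliser is not
inside `Ω` -/
theorem plus_cent_nonalt (h : Fintype.card F ≠ 2 ∨ m ≠ 2)
    (t : ↥(isometryGroup F ⇑(Helper43.plusQF m F))) (ht : t * t = 1)
    (hna : ∃ v, Helper43.plusQF m F (mv ⇑(Helper43.plusQF m F) t v + v) ≠ 0) (r : ℕ)
    (hs : (((t : GL (Fin m ⊕ Fin m) F) : Matrix (Fin m ⊕ Fin m) (Fin m ⊕ Fin m) F) - 1).rank =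
      r + 1)
    (hC : ¬ Subgroup.centralizer ({t} : Set ↥(isometryGroup F ⇑(Helper43.plusQF m F))) ≤
      Omega F ⇑(Helper43.plusQF m F)) :
    Nat.card {g : ↥(Omega F ⇑(Helper43.plusQF m F)) //
        (g : ↥(isometryGroup F ⇑(Helper43.plusQF m F))) * t =
          t * (g : ↥(isometryGroup F ⇑(Helper43.plusQF m F)))} =
      Fintype.card F ^ (2 * m * r - (3 * (r + 1) ^ 2 - 3 * (r + 1)) / 2) *
        DotON.ncount F (r + 1) * spOrd (Fintype.card F) (m - (r + 1)) := by
  have hQ := plusQF_nondeg' (F := F) m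
  have hrm : r + 1 ≤ m := by
    have h2 := two_rank_le (Helper43.plusQF m F) t ht
    rw [card_plus_index, hs] at h2
    omega
  obtain ⟨c, d, hf, hc⟩ := normal_nonalt (Helper43.plusQF m F) hQ t ht hna (r + 1) hs
  have h1 := card_centralizer_mul (Helper43.plusQF m F) hQ polar_plus hf t hc
  have hpos : 0 < Nat.card ↥{c' : Fin (r + 1) → (Fin m ⊕ Fin m → F) |
      ∃ d', InvFrame (Helper43.plusQF m F) id c' d'} := by
    have : Nonempty ↥{c' : Fin (r + 1) → (Fin m ⊕ Fin m → F) |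
        ∃ d', InvFrame (Helper43.plusQF m F) id c' d'} := ⟨⟨c, d, hf⟩⟩
    exact Nat.card_pos
  rw [SpI.card_shape_id, plus_card_O (by omega),
    card_cent_of_not_le _ (plus_index h (by omega)) t hC] at h1
  have h3 := om_arith_one (Fintype.card F) m r hrm
  rw [← card_oframes_id (Q := Helper43.plusQF m F) polar_plus _ plus_ones r] at h3
  rw [← h3] at h1
  apply Nat.eq_of_mul_eq_mul_right hpos
  apply Nat.eq_of_mul_eq_mul_left (show 0 < 2 by norm_num)
  rw [← mul_assoc, h1]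
  ring

/-- type `b_s`, `s` odd -/
theorem plus_cent_b {q : ℕ} (hF : Fintype.card F = q) {s : ℕ} (h : Fintype.card F ≠ 2 ∨ m ≠ 2)
    (x : ↥(isometryGroup F (quadFormPlus m F))) (hx : x ^ 2 = 1)
    (hs : (((x : GL (Fin m ⊕ Fin m) F) : Matrix (Fin m ⊕ Fin m) (Fin m ⊕ Fin m) F) - 1).rank = s)
    (hodd : Odd s) :
    Nat.card {g : ↥(Omega F (quadFormPlus m F)) //
        (g : ↥(isometryGroup F (quadFormPlus m F))) * x =
          x * (g : ↥(isometryGroup F (quadFormPlus m F)))} =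
      q ^ (2 * m * (s - 1) - (3 * s ^ 2 - 3 * s) / 2) *
        (q ^ (((s - 1) / 2) ^ 2) * ∏ i ∈ Finset.range ((s - 1) / 2), (q ^ (2 * (i + 1)) - 1)) *
        (q ^ ((m - s) ^ 2) * ∏ i ∈ Finset.range (m - s), (q ^ (2 * (i + 1)) - 1)) := by
  subst hF
  have hQ := plusQF_nondeg' (F := F) m
  have hxx : x * x = 1 := by rw [← pow_two]; exact hx
  obtain ⟨j, rfl⟩ := hodd
  have hna : ∃ v, Helper43.plusQF m F (mv ⇑(Helper43.plusQF m F) x v + v) ≠ 0 := by
    by_contra hcon
    push Not at hcon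
    obtain ⟨k, hk⟩ := alt_rank_even (Helper43.plusQF m F) hQ x hxx hcon
    rw [hs] at hk
    omega
  have hC : ¬ Subgroup.centralizer ({x} : Set ↥(isometryGroup F ⇑(Helper43.plusQF m F))) ≤
      Omega F ⇑(Helper43.plusQF m F) := by
    intro hle
    have h1 := (mem_omega_iff_even_rank (Helper43.plusQF m F) hQ (plus_hex h) x).mp
      (hle (self_mem_centralizer x))
    rw [hs] at h1
    exact (Nat.not_even_iff_odd.mpr ⟨j, rfl⟩) h1
  have h1 := plus_cent_nonalt h x hxx hna (2 * j) hs hC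
  rw [(DotON.ncount_odd_even (F := F) j).1] at h1
  have e1 : (2 * j + 1 - 1) / 2 = j := by omega
  have e2 : 2 * j + 1 - 1 = 2 * j := by omega
  rw [e1, e2]
  exact h1

/-- type `c_s`, `s` even -/
theorem plus_cent_c {q : ℕ} (hF : Fintype.card F = q) {s : ℕ} (h : Fintype.card F ≠ 2 ∨ m ≠ 2)
    (x : ↥(isometryGroup F (quadFormPlus m F))) (hx : x ^ 2 = 1)
    (hs : (((x : GL (Fin m ⊕ Fin m) F) : Matrix (Fin m ⊕ Fin m) (Fin m ⊕ Fin m) F) - 1).rank = s)
    (heven : Even s)
    (hna : ∃ v : Fin m ⊕ Fin m → F, quadFormPlus m F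
      ((((x : GL (Fin m ⊕ Fin m) F) : Matrix (Fin m ⊕ Fin m) (Fin m ⊕ Fin m) F) - 1).mulVec v) ≠ 0) :
    Nat.card {g : ↥(Omega F (quadFormPlus m F)) //
        (g : ↥(isometryGroup F (quadFormPlus m F))) * x =
          x * (g : ↥(isometryGroup F (quadFormPlus m F)))} =
      q ^ (2 * m * (s - 1) - (3 * s ^ 2 - 5 * s) / 2 - 1) *
        (q ^ (((s - 2) / 2) ^ 2) * ∏ i ∈ Finset.range ((s - 2) / 2), (q ^ (2 * (i + 1)) - 1)) *
        (q ^ ((m - s) ^ 2) * ∏ i ∈ Finset.range (m - s), (q ^ (2 * (i + 1)) - 1)) := by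
  subst hF
  have hQ := plusQF_nondeg' (F := F) m
  have hR := Helper44.reflGroup_eq_top_of (Helper43.plusQF m F) hQ (plus_hex h)
  have hxx : x * x = 1 := by rw [← pow_two]; exact hx
  have hna' : ∃ v, Helper43.plusQF m F (mv ⇑(Helper43.plusQF m F) x v + v) ≠ 0 := by
    obtain ⟨v, hv⟩ := hna
    refine ⟨v, ?_⟩
    rw [Matrix.sub_mulVec, Matrix.one_mulVec, vec_sub_eq_add] at hv
    exact hv
  have hx1 : x ≠ 1 := by
    rintro rfl
    obtain ⟨v, hv⟩ := hna'
    apply hv
    rw [mv_one, vec_add_self]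
    exact map_zero _
  have hpos := rank_pos_of_ne_one (Helper43.plusQF m F) x hx1
  rw [hs] at hpos
  obtain ⟨j', hj'⟩ := heven
  obtain ⟨j, rfl⟩ : ∃ j, s = 2 * j + 2 := ⟨j' - 1, by omega⟩
  have hsm : 2 * j + 2 ≤ m := by
    have h2 := two_rank_le (Helper43.plusQF m F) x hxx
    rw [card_plus_index, hs] at h2
    omega
  have hC : ¬ Subgroup.centralizer ({x} : Set ↥(isometryGroup F ⇑(Helper43.plusQF m F))) ≤
      Omega F ⇑(Helper43.plusQF m F) := by
    obtain ⟨c, d, hf, hc⟩ := normal_nonalt (Helper43.plusQF m F) hQ x hxx hna' (2 * j + 2) hs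
    have hq0 : Helper43.plusQF m F (c 0) ≠ 0 := by
      rw [hf.quad 0, if_pos (show id (0 : Fin (2 * j + 2)) = 0 from rfl)]
      exact one_ne_zero
    exact cent_not_le_omega (Helper43.plusQF m F) hQ hR x hc (c 0) hq0 (fun i => hf.ti 0 i)
  have h1 := plus_cent_nonalt h x hxx hna' (2 * j + 1) hs hC
  rw [(DotON.ncount_odd_even (F := F) j).2] at h1
  have e1 : (2 * j + 2 - 2) / 2 = j := by omega
  have e2 : 2 * j + 2 - 1 = 2 * j + 1 := by omega
  have e3 := expG m (2 * j + 2) (by omega) hsm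
  rw [e2] at e3
  rw [e1, e2, e3, pow_add]
  have h1' : Nat.card {g : ↥(Omega F (quadFormPlus m F)) //
        (g : ↥(isometryGroup F (quadFormPlus m F))) * x =
          x * (g : ↥(isometryGroup F (quadFormPlus m F)))} =
      Fintype.card F ^ (2 * m * (2 * j + 1) - (3 * (2 * j + 2) ^ 2 - 3 * (2 * j + 2)) / 2) *
        (Fintype.card F ^ (2 * j + 1) * (Fintype.card F ^ (j ^ 2) *
          ∏ i ∈ Finset.range j, (Fintype.card F ^ (2 * (i + 1)) - 1))) *
        spOrd (Fintype.card F) (m - (2 * j + 2)) := h1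
  rw [h1']
  unfold spOrd
  ring

/-- type `a_s`, in terms of the bundled quadratic form -/
theorem plus_cent_a' {s : ℕ} (h : Fintype.card F ≠ 2 ∨ m ≠ 2)
    (x : ↥(isometryGroup F ⇑(Helper43.plusQF m F))) (hxx : x * x = 1) (hx1 : x ≠ 1)
    (hs : (((x : GL (Fin m ⊕ Fin m) F) : Matrix (Fin m ⊕ Fin m) (Fin m ⊕ Fin m) F) - 1).rank = s)
    (halt' : ∀ v, Helper43.plusQF m F (mv ⇑(Helper43.plusQF m F) x v + v) = 0) :
    Nat.card {g : ↥(Omega F ⇑(Helper43.plusQF m F)) //
        (g : ↥(isometryGroup F ⇑(Helper43.plusQF m F))) * x =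
          x * (g : ↥(isometryGroup F ⇑(Helper43.plusQF m F)))} =
      Fintype.card F ^ (2 * m * s - (3 * s ^ 2 + s) / 2) *
        (Fintype.card F ^ ((s / 2) ^ 2) *
          ∏ i ∈ Finset.range (s / 2), (Fintype.card F ^ (2 * (i + 1)) - 1)) *
        (if s = m then 1 else Fintype.card F ^ ((m - s) * (m - s - 1)) *
          (Fintype.card F ^ (m - s) - 1) *
          ∏ i ∈ Finset.range (m - s - 1), (Fintype.card F ^ (2 * (i + 1)) - 1)) := by
  have hQ := plusQF_nondeg' (F := F) m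
  have hR := Helper44.reflGroup_eq_top_of (Helper43.plusQF m F) hQ (plus_hex h)
  have hpos := rank_pos_of_ne_one (Helper43.plusQF m F) x hx1
  rw [hs] at hpos
  have hsm : s ≤ m := by
    have h2 := two_rank_le (Helper43.plusQF m F) x hxx
    rw [card_plus_index, hs] at h2
    omega
  have hm : 1 ≤ m := by omega
  have hq : 1 ≤ Fintype.card F := Fintype.card_pos
  obtain ⟨k, c, d, hf, hc⟩ := normal_alt (Helper43.plusQF m F) hQ x hxx halt'
  have hrk := hf.rank_eq x hc
  rw [hs, Fintype.card_sum, Fintype.card_fin] at hrk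
  subst hrk
  have h1 := card_centralizer_mul (Helper43.plusQF m F) hQ polar_plus hf x hc
  have hposN : 0 < Nat.card ↥{c' : Fin k ⊕ Fin k → (Fin m ⊕ Fin m → F) |
      ∃ d', InvFrame (Helper43.plusQF m F) Sum.swap c' d'} := by
    have : Nonempty ↥{c' : Fin k ⊕ Fin k → (Fin m ⊕ Fin m → F) |
        ∃ d', InvFrame (Helper43.plusQF m F) Sum.swap c' d'} := ⟨⟨c, d, hf⟩⟩
    exact Nat.card_pos
  have hT : Nat.card ↥{c' : Fin k ⊕ Fin k → (Fin m ⊕ Fin m → F) |
      ∃ d', InvFrame (Helper43.plusQF m F) Sum.swap c' d'} = tsProd (Fintype.card F) m (k + k) :=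
    card_oframes_swap (Q := Helper43.plusQF m F) polar_plus (plus_zeros hm) k
  rw [hT] at h1 hposN
  rw [SpI.card_shape_swap, Helper5.card_sp, plus_card_O hm] at h1
  have e1 : (k + k) / 2 = k := by omega
  rw [e1]
  by_cases hkm : k + k = m
  · rw [if_pos hkm, mul_one]
    have hC : Subgroup.centralizer ({x} : Set ↥(isometryGroup F ⇑(Helper43.plusQF m F))) ≤
        Omega F ⇑(Helper43.plusQF m F) :=
      cent_le_omega (Helper43.plusQF m F) hQ (plus_hex h) x halt' (by
        rw [hs, card_plus_index, hkm])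
    rw [card_cent_of_le _ x hC] at h1
    have e : ∀ a : ℕ, a = m →
        Fintype.card F ^ (2 * m * a - (3 * a ^ 2 + a) / 2) * tsProd (Fintype.card F) m a =
          2 * omOrd (Fintype.card F) m := by
      intro a ha
      subst ha
      exact om_arith_top (Fintype.card F) hq a hm
    have h3 := e (k + k) hkm
    rw [← h3] at h1
    apply Nat.eq_of_mul_eq_mul_right hposN
    rw [h1]
    ring
  · rw [if_neg hkm]
    have hlt : k + k < m := by omega
    have hC : ¬ Subgroup.centralizer ({x} : Set ↥(isometryGroup F ⇑(Helper43.plusQF m F))) ≤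
        Omega F ⇑(Helper43.plusQF m F) := by
      obtain ⟨v, hv, hperp⟩ := exists_nonsing_perp (Helper43.plusQF m F) hQ c (by
        rw [Fintype.card_sum, Fintype.card_fin, card_plus_index]
        omega)
      exact cent_not_le_omega (Helper43.plusQF m F) hQ hR x hc v hv hperp
    rw [card_cent_of_not_le _ (plus_index h hm) x hC] at h1
    have h3 := om_arith (Fintype.card F) hq (k + k) (m - (k + k) - 1) m (by omega)
    have e2 : m - (k + k) - 1 + 1 = m - (k + k) := by omega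
    rw [e2] at h3
    rw [← h3] at h1
    apply Nat.eq_of_mul_eq_mul_right hposN
    apply Nat.eq_of_mul_eq_mul_left (show 0 < 2 by norm_num)
    rw [← mul_assoc, h1]
    unfold omOrd
    ring

/-- type `a_s` -/
theorem plus_cent_a {q : ℕ} (hF : Fintype.card F = q) {s : ℕ} (h : Fintype.card F ≠ 2 ∨ m ≠ 2)
    (x : ↥(isometryGroup F (quadFormPlus m F))) (hx : x ^ 2 = 1) (hx1 : x ≠ 1)
    (hs : (((x : GL (Fin m ⊕ Fin m) F) : Matrix (Fin m ⊕ Fin m) (Fin m ⊕ Fin m) F) - 1).rank = s)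
    (halt : ∀ v : Fin m ⊕ Fin m → F, quadFormPlus m F
      ((((x : GL (Fin m ⊕ Fin m) F) : Matrix (Fin m ⊕ Fin m) (Fin m ⊕ Fin m) F) - 1).mulVec v) = 0) :
    Nat.card {g : ↥(Omega F (quadFormPlus m F)) //
        (g : ↥(isometryGroup F (quadFormPlus m F))) * x =
          x * (g : ↥(isometryGroup F (quadFormPlus m F)))} =
      q ^ (2 * m * s - (3 * s ^ 2 + s) / 2) *
        (q ^ ((s / 2) ^ 2) * ∏ i ∈ Finset.range (s / 2), (q ^ (2 * (i + 1)) - 1)) *
        (if s = m then 1 else q ^ ((m - s) * (m - s - 1)) * (q ^ (m - s) - 1) *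
          ∏ i ∈ Finset.range (m - s - 1), (q ^ (2 * (i + 1)) - 1)) := by
  subst hF
  have hxx : x * x = 1 := by rw [← pow_two]; exact hx
  have halt' : ∀ v, Helper43.plusQF m F (mv ⇑(Helper43.plusQF m F) x v + v) = 0 := by
    intro v
    have hv := halt v
    rw [Matrix.sub_mulVec, Matrix.one_mulVec, vec_sub_eq_add] at hv
    exact hv
  exact plus_cent_a' h x hxx hx1 hs halt'

end PlusFinal

end Cfsg.Agent.Helper45.OI
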