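import Cfsg.Agent.Helper45.OutI

set_option autoImplicit false
set_option linter.unusedSectionVars false
set_option linter.unusedSimpArgs false
set_option linter.unusedVariables false
set_option linter.style.haveILetI false

/-!
Helper library (helper45), triality, part A: the split octonion algebra on the eight-dimensional
hyperbolic quadratic space (Zorn's vector matrices in the coordinates of `quadFormPlus 4`), with
the identities used to construct the triality automorphism of `PΩ⁺₈`.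
-/

universe u

namespace Cfsg.Agent.Helper45.Oct

open Cfsg Matrix Module

section Alg

variable {F : Type u} [Field F]

/-- the split octonion product -/
def om (x p : Fin 4 ⊕ Fin 4 → F) : Fin 4 ⊕ Fin 4 → F
  | Sum.inl 0 => x (Sum.inl 0) * p (Sum.inl 0) - x (Sum.inl 1) * p (Sum.inr 1) -
      x (Sum.inl 2) * p (Sum.inr 2) - x (Sum.inl 3) * p (Sum.inr 3)
  | Sum.inl 1 => x (Sum.inl 0) * p (Sum.inl 1) + x (Sum.inl 1) * p (Sum.inr 0) +
      x (Sum.inr 3) * p (Sum.inr 2) - x (Sum.inr 2) * p (Sum.inr 3)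
  | Sum.inl 2 => x (Sum.inl 0) * p (Sum.inl 2) + x (Sum.inl 2) * p (Sum.inr 0) -
      x (Sum.inr 3) * p (Sum.inr 1) + x (Sum.inr 1) * p (Sum.inr 3)
  | Sum.inl 3 => x (Sum.inl 0) * p (Sum.inl 3) + x (Sum.inl 3) * p (Sum.inr 0) +
      x (Sum.inr 2) * p (Sum.inr 1) - x (Sum.inr 1) * p (Sum.inr 2)
  | Sum.inr 0 => x (Sum.inr 0) * p (Sum.inr 0) - x (Sum.inr 1) * p (Sum.inl 1) -
      x (Sum.inr 2) * p (Sum.inl 2) - x (Sum.inr 3) * p (Sum.inl 3)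
  | Sum.inr 1 => x (Sum.inr 1) * p (Sum.inl 0) + x (Sum.inr 0) * p (Sum.inr 1) +
      x (Sum.inl 3) * p (Sum.inl 2) - x (Sum.inl 2) * p (Sum.inl 3)
  | Sum.inr 2 => x (Sum.inr 2) * p (Sum.inl 0) + x (Sum.inr 0) * p (Sum.inr 2) -
      x (Sum.inl 3) * p (Sum.inl 1) + x (Sum.inl 1) * p (Sum.inl 3)
  | Sum.inr 3 => x (Sum.inr 3) * p (Sum.inl 0) + x (Sum.inr 0) * p (Sum.inr 3) +
      x (Sum.inl 2) * p (Sum.inl 1) - x (Sum.inl 1) * p (Sum.inl 2)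

/-- the identity element -/
def one8 : Fin 4 ⊕ Fin 4 → F
  | Sum.inl 0 => 1
  | Sum.inl 1 => 0
  | Sum.inl 2 => 0
  | Sum.inl 3 => 0
  | Sum.inr 0 => 1
  | Sum.inr 1 => 0
  | Sum.inr 2 => 0
  | Sum.inr 3 => 0

/-- the conjugation -/
def cj (x : Fin 4 ⊕ Fin 4 → F) : Fin 4 ⊕ Fin 4 → F
  | Sum.inl 0 => x (Sum.inr 0)
  | Sum.inl 1 => -x (Sum.inl 1)
  | Sum.inl 2 => -x (Sum.inl 2)
  | Sum.inl 3 => -x (Sum.inl 3)
  | Sum.inr 0 => x (Sum.inl 0)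
  | Sum.inr 1 => -x (Sum.inr 1)
  | Sum.inr 2 => -x (Sum.inr 2)
  | Sum.inr 3 => -x (Sum.inr 3)

theorem om_l0 (x p : Fin 4 ⊕ Fin 4 → F) : om x p (Sum.inl 0) =
    x (Sum.inl 0) * p (Sum.inl 0) - x (Sum.inl 1) * p (Sum.inr 1) -
      x (Sum.inl 2) * p (Sum.inr 2) - x (Sum.inl 3) * p (Sum.inr 3) := rfl
theorem om_l1 (x p : Fin 4 ⊕ Fin 4 → F) : om x p (Sum.inl 1) =
    x (Sum.inl 0) * p (Sum.inl 1) + x (Sum.inl 1) * p (Sum.inr 0) +
      x (Sum.inr 3) * p (Sum.inr 2) - x (Sum.inr 2) * p (Sum.inr 3) := rfl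
theorem om_l2 (x p : Fin 4 ⊕ Fin 4 → F) : om x p (Sum.inl 2) =
    x (Sum.inl 0) * p (Sum.inl 2) + x (Sum.inl 2) * p (Sum.inr 0) -
      x (Sum.inr 3) * p (Sum.inr 1) + x (Sum.inr 1) * p (Sum.inr 3) := rfl
theorem om_l3 (x p : Fin 4 ⊕ Fin 4 → F) : om x p (Sum.inl 3) =
    x (Sum.inl 0) * p (Sum.inl 3) + x (Sum.inl 3) * p (Sum.inr 0) +
      x (Sum.inr 2) * p (Sum.inr 1) - x (Sum.inr 1) * p (Sum.inr 2) := rfl
theorem om_r0 (x p : Fin 4 ⊕ Fin 4 → F) : om x p (Sum.inr 0) =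
    x (Sum.inr 0) * p (Sum.inr 0) - x (Sum.inr 1) * p (Sum.inl 1) -
      x (Sum.inr 2) * p (Sum.inl 2) - x (Sum.inr 3) * p (Sum.inl 3) := rfl
theorem om_r1 (x p : Fin 4 ⊕ Fin 4 → F) : om x p (Sum.inr 1) =
    x (Sum.inr 1) * p (Sum.inl 0) + x (Sum.inr 0) * p (Sum.inr 1) +
      x (Sum.inl 3) * p (Sum.inl 2) - x (Sum.inl 2) * p (Sum.inl 3) := rfl
theorem om_r2 (x p : Fin 4 ⊕ Fin 4 → F) : om x p (Sum.inr 2) =
    x (Sum.inr 2) * p (Sum.inl 0) + x (Sum.inr 0) * p (Sum.inr 2) -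
      x (Sum.inl 3) * p (Sum.inl 1) + x (Sum.inl 1) * p (Sum.inl 3) := rfl
theorem om_r3 (x p : Fin 4 ⊕ Fin 4 → F) : om x p (Sum.inr 3) =
    x (Sum.inr 3) * p (Sum.inl 0) + x (Sum.inr 0) * p (Sum.inr 3) +
      x (Sum.inl 2) * p (Sum.inl 1) - x (Sum.inl 1) * p (Sum.inl 2) := rfl

theorem one8_l0 : (one8 : Fin 4 ⊕ Fin 4 → F) (Sum.inl 0) = 1 := rfl
theorem one8_l1 : (one8 : Fin 4 ⊕ Fin 4 → F) (Sum.inl 1) = 0 := rfl
theorem one8_l2 : (one8 : Fin 4 ⊕ Fin 4 → F) (Sum.inl 2) = 0 := rfl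
theorem one8_l3 : (one8 : Fin 4 ⊕ Fin 4 → F) (Sum.inl 3) = 0 := rfl
theorem one8_r0 : (one8 : Fin 4 ⊕ Fin 4 → F) (Sum.inr 0) = 1 := rfl
theorem one8_r1 : (one8 : Fin 4 ⊕ Fin 4 → F) (Sum.inr 1) = 0 := rfl
theorem one8_r2 : (one8 : Fin 4 ⊕ Fin 4 → F) (Sum.inr 2) = 0 := rfl
theorem one8_r3 : (one8 : Fin 4 ⊕ Fin 4 → F) (Sum.inr 3) = 0 := rfl

theorem cj_l0 (x : Fin 4 ⊕ Fin 4 → F) : cj x (Sum.inl 0) = x (Sum.inr 0) := rfl
theorem cj_l1 (x : Fin 4 ⊕ Fin 4 → F) : cj x (Sum.inl 1) = -x (Sum.inl 1) := rfl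
theorem cj_l2 (x : Fin 4 ⊕ Fin 4 → F) : cj x (Sum.inl 2) = -x (Sum.inl 2) := rfl
theorem cj_l3 (x : Fin 4 ⊕ Fin 4 → F) : cj x (Sum.inl 3) = -x (Sum.inl 3) := rfl
theorem cj_r0 (x : Fin 4 ⊕ Fin 4 → F) : cj x (Sum.inr 0) = x (Sum.inl 0) := rfl
theorem cj_r1 (x : Fin 4 ⊕ Fin 4 → F) : cj x (Sum.inr 1) = -x (Sum.inr 1) := rfl
theorem cj_r2 (x : Fin 4 ⊕ Fin 4 → F) : cj x (Sum.inr 2) = -x (Sum.inr 2) := rfl
theorem cj_r3 (x : Fin 4 ⊕ Fin 4 → F) : cj x (Sum.inr 3) = -x (Sum.inr 3) := rfl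

/-- extensionality in the eight coordinates -/
theorem ext8 {v w : Fin 4 ⊕ Fin 4 → F} (h0 : v (Sum.inl 0) = w (Sum.inl 0))
    (h1 : v (Sum.inl 1) = w (Sum.inl 1)) (h2 : v (Sum.inl 2) = w (Sum.inl 2))
    (h3 : v (Sum.inl 3) = w (Sum.inl 3)) (h4 : v (Sum.inr 0) = w (Sum.inr 0))
    (h5 : v (Sum.inr 1) = w (Sum.inr 1)) (h6 : v (Sum.inr 2) = w (Sum.inr 2))
    (h7 : v (Sum.inr 3) = w (Sum.inr 3)) : v = w := by
  funext i
  rcases i with i | i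
  · fin_cases i
    · exact h0
    · exact h1
    · exact h2
    · exact h3
  · fin_cases i
    · exact h4
    · exact h5
    · exact h6
    · exact h7

/-- the norm form in coordinates -/
theorem nm_eq (x : Fin 4 ⊕ Fin 4 → F) : quadFormPlus 4 F x =
    x (Sum.inl 0) * x (Sum.inr 0) + x (Sum.inl 1) * x (Sum.inr 1) +
      x (Sum.inl 2) * x (Sum.inr 2) + x (Sum.inl 3) * x (Sum.inr 3) := by
  unfold quadFormPlus
  rw [Fin.sum_univ_four]

/-- the polar form in coordinates -/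
theorem pol_eq (x y : Fin 4 ⊕ Fin 4 → F) :
    QuadraticMap.polar (quadFormPlus 4 F) x y =
    x (Sum.inl 0) * y (Sum.inr 0) + y (Sum.inl 0) * x (Sum.inr 0) +
    (x (Sum.inl 1) * y (Sum.inr 1) + y (Sum.inl 1) * x (Sum.inr 1)) +
    (x (Sum.inl 2) * y (Sum.inr 2) + y (Sum.inl 2) * x (Sum.inr 2)) +
    (x (Sum.inl 3) * y (Sum.inr 3) + y (Sum.inl 3) * x (Sum.inr 3)) := by
  unfold QuadraticMap.polar
  rw [nm_eq, nm_eq, nm_eq]
  simp only [Pi.add_apply]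
  ring

theorem nm_om (x y : Fin 4 ⊕ Fin 4 → F) :
    quadFormPlus 4 F (om x y) = quadFormPlus 4 F x * quadFormPlus 4 F y := by
  rw [nm_eq, nm_eq, nm_eq]
  simp only [om_l0, om_l1, om_l2, om_l3, om_r0, om_r1, om_r2, om_r3]
  ring

theorem nm_one8 : quadFormPlus 4 F (one8 : Fin 4 ⊕ Fin 4 → F) = 1 := by
  rw [nm_eq]
  simp only [one8_l0, one8_l1, one8_l2, one8_l3, one8_r0, one8_r1, one8_r2, one8_r3]
  ring

theorem nm_cj (x : Fin 4 ⊕ Fin 4 → F) : quadFormPlus 4 F (cj x) = quadFormPlus 4 F x := by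
  rw [nm_eq, nm_eq]
  simp only [cj_l0, cj_l1, cj_l2, cj_l3, cj_r0, cj_r1, cj_r2, cj_r3]
  ring

theorem one_om (x : Fin 4 ⊕ Fin 4 → F) : om one8 x = x := by
  apply ext8 <;>
  · simp only [om_l0, om_l1, om_l2, om_l3, om_r0, om_r1, om_r2, om_r3,
      one8_l0, one8_l1, one8_l2, one8_l3, one8_r0, one8_r1, one8_r2, one8_r3]
    ring

theorem om_one (x : Fin 4 ⊕ Fin 4 → F) : om x one8 = x := by
  apply ext8 <;>
  · simp only [om_l0, om_l1, om_l2, om_l3, om_r0, om_r1, om_r2, om_r3,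
      one8_l0, one8_l1, one8_l2, one8_l3, one8_r0, one8_r1, one8_r2, one8_r3]
    ring

theorem om_add_left (x x' y : Fin 4 ⊕ Fin 4 → F) : om (x + x') y = om x y + om x' y := by
  apply ext8 <;>
  · simp only [om_l0, om_l1, om_l2, om_l3, om_r0, om_r1, om_r2, om_r3, Pi.add_apply]
    ring

theorem om_add_right (x y y' : Fin 4 ⊕ Fin 4 → F) : om x (y + y') = om x y + om x y' := by
  apply ext8 <;>
  · simp only [om_l0, om_l1, om_l2, om_l3, om_r0, om_r1, om_r2, om_r3, Pi.add_apply]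
    ring

theorem om_smul_left (t : F) (x y : Fin 4 ⊕ Fin 4 → F) : om (t • x) y = t • om x y := by
  apply ext8 <;>
  · simp only [om_l0, om_l1, om_l2, om_l3, om_r0, om_r1, om_r2, om_r3, Pi.smul_apply, smul_eq_mul]
    ring

theorem om_smul_right (t : F) (x y : Fin 4 ⊕ Fin 4 → F) : om x (t • y) = t • om x y := by
  apply ext8 <;>
  · simp only [om_l0, om_l1, om_l2, om_l3, om_r0, om_r1, om_r2, om_r3, Pi.smul_apply, smul_eq_mul]
    ring

/-- left alternativity -/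
theorem cj_om_om (a x : Fin 4 ⊕ Fin 4 → F) : om (cj a) (om a x) = quadFormPlus 4 F a • x := by
  apply ext8 <;>
  · simp only [om_l0, om_l1, om_l2, om_l3, om_r0, om_r1, om_r2, om_r3, Pi.smul_apply, smul_eq_mul,
      cj_l0, cj_l1, cj_l2, cj_l3, cj_r0, cj_r1, cj_r2, cj_r3, nm_eq]
    ring

/-- right alternativity -/
theorem om_om_cj (a x : Fin 4 ⊕ Fin 4 → F) : om (om x a) (cj a) = quadFormPlus 4 F a • x := by
  apply ext8 <;>
  · simp only [om_l0, om_l1, om_l2, om_l3, om_r0, om_r1, om_r2, om_r3, Pi.smul_apply, smul_eq_mul,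
      cj_l0, cj_l1, cj_l2, cj_l3, cj_r0, cj_r1, cj_r2, cj_r3, nm_eq]
    ring

theorem om_cj_self (a : Fin 4 ⊕ Fin 4 → F) : om a (cj a) = quadFormPlus 4 F a • one8 := by
  apply ext8 <;>
  · simp only [om_l0, om_l1, om_l2, om_l3, om_r0, om_r1, om_r2, om_r3, Pi.smul_apply, smul_eq_mul,
      cj_l0, cj_l1, cj_l2, cj_l3, cj_r0, cj_r1, cj_r2, cj_r3, nm_eq,
      one8_l0, one8_l1, one8_l2, one8_l3, one8_r0, one8_r1, one8_r2, one8_r3]
    ring

/-- the middle Moufang identity -/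
theorem moufang_mid (a x y : Fin 4 ⊕ Fin 4 → F) : om (om a x) (om y a) = om a (om (om x y) a) := by
  apply ext8 <;>
  · simp only [om_l0, om_l1, om_l2, om_l3, om_r0, om_r1, om_r2, om_r3]
    ring

/-- the left Moufang identity -/
theorem moufang_left (a x y : Fin 4 ⊕ Fin 4 → F) :
    om (om a (om x a)) (om (cj a) y) = quadFormPlus 4 F a • om a (om x y) := by
  apply ext8 <;>
  · simp only [om_l0, om_l1, om_l2, om_l3, om_r0, om_r1, om_r2, om_r3, Pi.smul_apply, smul_eq_mul,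
      cj_l0, cj_l1, cj_l2, cj_l3, cj_r0, cj_r1, cj_r2, cj_r3, nm_eq]
    ring

/-- the right Moufang identity -/
theorem moufang_right (a x y : Fin 4 ⊕ Fin 4 → F) :
    om (om x (cj a)) (om a (om y a)) = quadFormPlus 4 F a • om (om x y) a := by
  apply ext8 <;>
  · simp only [om_l0, om_l1, om_l2, om_l3, om_r0, om_r1, om_r2, om_r3, Pi.smul_apply, smul_eq_mul,
      cj_l0, cj_l1, cj_l2, cj_l3, cj_r0, cj_r1, cj_r2, cj_r3, nm_eq]
    ring

/-- the map `x ↦ a (x a)` in terms of the polar form -/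
theorem om_om_self (a x : Fin 4 ⊕ Fin 4 → F) :
    om a (om x a) = quadFormPlus 4 F a • (x - QuadraticMap.polar (quadFormPlus 4 F) x one8 • one8) -
      (QuadraticMap.polar (quadFormPlus 4 F) x a -
        QuadraticMap.polar (quadFormPlus 4 F) x one8 *
          QuadraticMap.polar (quadFormPlus 4 F) one8 a) • a := by
  apply ext8 <;>
  · simp only [om_l0, om_l1, om_l2, om_l3, om_r0, om_r1, om_r2, om_r3, Pi.smul_apply, smul_eq_mul,
      Pi.sub_apply, nm_eq, pol_eq,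
      one8_l0, one8_l1, one8_l2, one8_l3, one8_r0, one8_r1, one8_r2, one8_r3]
    ring

end Alg

end Cfsg.Agent.Helper45.Oct
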