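import Cfsg.Agent.Helper45.OctA
import Cfsg.Agent.Helper44.OmegaTwo

set_option autoImplicit false
set_option linter.unusedSectionVars false
set_option linter.unusedSimpArgs false
set_option linter.unusedVariables false
set_option linter.style.haveILetI false

/-!
Helper library (helper45), triality, part B: the nucleus of the octonion algebra, uniqueness of
triality companions, left and right multiplications as isometries, related triples.
-/

universe u

namespace Cfsg.Agent.Helper45.Oct

open Cfsg Matrix Module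

section Nuc

variable {F : Type u} [Field F]

theorem cj_cj (x : Fin 4 ⊕ Fin 4 → F) : cj (cj x) = x := by
  apply ext8 <;>
  · simp only [cj_l0, cj_l1, cj_l2, cj_l3, cj_r0, cj_r1, cj_r2, cj_r3, neg_neg]

theorem cj_smul (t : F) (x : Fin 4 ⊕ Fin 4 → F) : cj (t • x) = t • cj x := by
  apply ext8 <;>
  · simp only [cj_l0, cj_l1, cj_l2, cj_l3, cj_r0, cj_r1, cj_r2, cj_r3, Pi.smul_apply, smul_eq_mul]
    try ring

theorem cj_add (x y : Fin 4 ⊕ Fin 4 → F) : cj (x + y) = cj x + cj y := by
  apply ext8 <;>
  · simp only [cj_l0, cj_l1, cj_l2, cj_l3, cj_r0, cj_r1, cj_r2, cj_r3, Pi.add_apply]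
    try ring

/-- the conjugation is an anti-automorphism -/
theorem cj_om (x y : Fin 4 ⊕ Fin 4 → F) : cj (om x y) = om (cj y) (cj x) := by
  apply ext8 <;>
  · simp only [om_l0, om_l1, om_l2, om_l3, om_r0, om_r1, om_r2, om_r3,
      cj_l0, cj_l1, cj_l2, cj_l3, cj_r0, cj_r1, cj_r2, cj_r3]
    ring

/-- the middle nucleus consists of the scalars -/
theorem nuc_mid (c : Fin 4 ⊕ Fin 4 → F)
    (h : ∀ u v : Fin 4 ⊕ Fin 4 → F, om (om u c) v = om u (om c v)) : ∃ t : F, c = t • one8 := by
  have e1 := congrFun (h (Pi.single (Sum.inl 0) 1) (Pi.single (Sum.inl 1) 1)) (Sum.inr 2)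
  have e2 := congrFun (h (Pi.single (Sum.inl 0) 1) (Pi.single (Sum.inl 1) 1)) (Sum.inr 3)
  have e3 := congrFun (h (Pi.single (Sum.inl 0) 1) (Pi.single (Sum.inl 2) 1)) (Sum.inr 3)
  have e4 := congrFun (h (Pi.single (Sum.inl 0) 1) (Pi.single (Sum.inr 1) 1)) (Sum.inl 2)
  have e5 := congrFun (h (Pi.single (Sum.inl 0) 1) (Pi.single (Sum.inr 1) 1)) (Sum.inl 3)
  have e6 := congrFun (h (Pi.single (Sum.inl 0) 1) (Pi.single (Sum.inr 2) 1)) (Sum.inl 3)
  have e7 := congrFun (h (Pi.single (Sum.inl 1) 1) (Pi.single (Sum.inl 2) 1)) (Sum.inr 3)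
  simp [om_l0, om_l1, om_l2, om_l3, om_r0, om_r1, om_r2, om_r3, Pi.single_apply] at e1 e2 e3 e4 e5 e6 e7
  refine ⟨c (Sum.inl 0), ?_⟩
  apply ext8 <;>
  first
    | (simp only [Pi.smul_apply, smul_eq_mul, one8_l0, one8_l1, one8_l2, one8_l3, one8_r0, one8_r1,
        one8_r2, one8_r3, mul_one, mul_zero]; done)
    | (simp only [Pi.smul_apply, smul_eq_mul, one8_l0, one8_l1, one8_l2, one8_l3, one8_r0, one8_r1,
        one8_r2, one8_r3, mul_one, mul_zero]
       first
        | assumption
        | (symm; assumption)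
        | linear_combination e1
        | linear_combination e2
        | linear_combination e3
        | linear_combination e4
        | linear_combination e5
        | linear_combination e6
        | linear_combination e7
        | linear_combination (-1 : F) * e1
        | linear_combination (-1 : F) * e2
        | linear_combination (-1 : F) * e3
        | linear_combination (-1 : F) * e4
        | linear_combination (-1 : F) * e5
        | linear_combination (-1 : F) * e6
        | linear_combination (-1 : F) * e7)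

/-- the right nucleus consists of the scalars -/
theorem nuc_right (c : Fin 4 ⊕ Fin 4 → F)
    (h : ∀ u v : Fin 4 ⊕ Fin 4 → F, om (om u v) c = om u (om v c)) : ∃ t : F, c = t • one8 := by
  have e1 := congrFun (h (Pi.single (Sum.inl 0) 1) (Pi.single (Sum.inl 1) 1)) (Sum.inr 2)
  have e2 := congrFun (h (Pi.single (Sum.inl 0) 1) (Pi.single (Sum.inl 1) 1)) (Sum.inr 3)
  have e3 := congrFun (h (Pi.single (Sum.inl 0) 1) (Pi.single (Sum.inl 2) 1)) (Sum.inr 3)
  have e4 := congrFun (h (Pi.single (Sum.inl 0) 1) (Pi.single (Sum.inr 1) 1)) (Sum.inl 2)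
  have e5 := congrFun (h (Pi.single (Sum.inl 0) 1) (Pi.single (Sum.inr 1) 1)) (Sum.inl 3)
  have e6 := congrFun (h (Pi.single (Sum.inl 0) 1) (Pi.single (Sum.inr 2) 1)) (Sum.inl 3)
  have e7 := congrFun (h (Pi.single (Sum.inl 1) 1) (Pi.single (Sum.inl 2) 1)) (Sum.inr 3)
  simp [om_l0, om_l1, om_l2, om_l3, om_r0, om_r1, om_r2, om_r3, Pi.single_apply] at e1 e2 e3 e4 e5 e6 e7
  refine ⟨c (Sum.inl 0), ?_⟩
  apply ext8 <;>
  first
    | (simp only [Pi.smul_apply, smul_eq_mul, one8_l0, one8_l1, one8_l2, one8_l3, one8_r0, one8_r1,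
        one8_r2, one8_r3, mul_one, mul_zero]; done)
    | (simp only [Pi.smul_apply, smul_eq_mul, one8_l0, one8_l1, one8_l2, one8_l3, one8_r0, one8_r1,
        one8_r2, one8_r3, mul_one, mul_zero]
       first
        | assumption
        | (symm; assumption)
        | linear_combination e1
        | linear_combination e2
        | linear_combination e3
        | linear_combination e4
        | linear_combination e5
        | linear_combination e6
        | linear_combination e7
        | linear_combination (-1 : F) * e1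
        | linear_combination (-1 : F) * e2
        | linear_combination (-1 : F) * e3
        | linear_combination (-1 : F) * e4
        | linear_combination (-1 : F) * e5
        | linear_combination (-1 : F) * e6
        | linear_combination (-1 : F) * e7)

/-- **uniqueness of companions**: an autotopism with trivial first component is scalar -/
theorem ul (φ ψ : (Fin 4 ⊕ Fin 4 → F) → (Fin 4 ⊕ Fin 4 → F))
    (h : ∀ u v : Fin 4 ⊕ Fin 4 → F, om u v = om (φ u) (ψ v)) : ∃ t : F, ∀ u, φ u = t • u := by
  obtain ⟨c, hc⟩ : ∃ c, c = φ one8 := ⟨_, rfl⟩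
  obtain ⟨d, hd⟩ : ∃ d, d = ψ one8 := ⟨_, rfl⟩
  have h11 : (one8 : Fin 4 ⊕ Fin 4 → F) = om c d := by
    have := h one8 one8
    rw [one_om] at this
    rw [hc, hd]
    exact this
  have hN : quadFormPlus 4 F c * quadFormPlus 4 F d = 1 := by
    rw [← nm_om, ← h11, nm_one8]
  have hNc : quadFormPlus 4 F c ≠ 0 := left_ne_zero_of_mul_eq_one hN
  have hNd : quadFormPlus 4 F d ≠ 0 := right_ne_zero_of_mul_eq_one hN
  have hd' : cj c = quadFormPlus 4 F c • d := by
    have h1 := cj_om_om c d
    rw [← h11, om_one] at h1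
    exact h1
  have hcjd : quadFormPlus 4 F c • cj d = c := by
    have h1 := congrArg cj hd'
    rw [cj_cj, cj_smul] at h1
    exact h1.symm
  have hφ : ∀ u, φ u = om u c := by
    intro u
    have h1 := h u one8
    rw [om_one, ← hd] at h1
    have h2 := om_om_cj d (φ u)
    rw [← h1] at h2
    have h3 : om u c = quadFormPlus 4 F c • om u (cj d) := by
      rw [← om_smul_right, hcjd]
    rw [h3, h2, smul_smul, hN, one_smul]
  have hψ : ∀ v, quadFormPlus 4 F c • ψ v = om (cj c) v := by
    intro v
    have h1 := h one8 v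
    rw [one_om, ← hc] at h1
    have h2 := cj_om_om c (ψ v)
    rw [← h1] at h2
    exact h2.symm
  have hnuc : ∀ u v : Fin 4 ⊕ Fin 4 → F, om (om u c) v = om u (om c v) := by
    intro u v
    have h1 := h u (om c v)
    rw [hφ] at h1
    have h2 : ψ (om c v) = v := by
      have h3 := hψ (om c v)
      rw [cj_om_om] at h3
      have h4 : quadFormPlus 4 F c • ψ (om c v) = quadFormPlus 4 F c • v := h3
      exact smul_right_injective _ hNc h4
    rw [h2] at h1
    exact h1.symm
  obtain ⟨t, ht⟩ := nuc_mid c hnuc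
  refine ⟨t, fun u => ?_⟩
  rw [hφ, ht, om_smul_right, om_one]

/-- uniqueness of the first component given the second -/
theorem ul2 (χ ψ : (Fin 4 ⊕ Fin 4 → F) → (Fin 4 ⊕ Fin 4 → F))
    (h : ∀ u v : Fin 4 ⊕ Fin 4 → F, χ (om u v) = om u (ψ v)) : ∃ t : F, ∀ u, χ u = t • u := by
  obtain ⟨d, hd⟩ : ∃ d, d = ψ one8 := ⟨_, rfl⟩
  have hχ : ∀ u, χ u = om u d := by
    intro u
    have h1 := h u one8
    rw [om_one, ← hd] at h1
    exact h1
  have hψ : ∀ v, ψ v = om v d := by
    intro v
    have h1 := h one8 v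
    rw [one_om, one_om, hχ] at h1
    exact h1.symm
  have hnuc : ∀ u v : Fin 4 ⊕ Fin 4 → F, om (om u v) d = om u (om v d) := by
    intro u v
    have h1 := h u v
    rw [hχ, hψ] at h1
    exact h1
  obtain ⟨t, ht⟩ := nuc_right d hnuc
  refine ⟨t, fun u => ?_⟩
  rw [hχ, ht, om_smul_right, om_one]

end Nuc

section Iso

variable {ι : Type} [Fintype ι] [DecidableEq ι] {F : Type u} [Field F]
  (Q : QuadraticForm F (ι → F))

/-- a linear map preserving a form with nondegenerate polar form is an isometry -/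
theorem exists_iso_of_lin (hQ : (QuadraticMap.polarBilin Q).Nondegenerate)
    (ℓ : (ι → F) →ₗ[F] (ι → F)) (h : ∀ x, Q (ℓ x) = Q x) :
    ∃ k : ↥(isometryGroup F ⇑Q), ∀ x, mv ⇑Q k x = ℓ x := by
  have hpol : ∀ x y, QuadraticMap.polar ⇑Q (ℓ x) (ℓ y) = QuadraticMap.polar ⇑Q x y := by
    intro x y
    unfold QuadraticMap.polar
    rw [← map_add, h, h, h]
  have hinj : Function.Injective ℓ := by
    rw [injective_iff_map_eq_zero]
    intro x hx
    apply Helper43.polarNondeg_of_nondegenerate Q hQ x
    intro y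
    rw [← hpol, hx]
    simp [QuadraticMap.polar]
  obtain ⟨k, hk⟩ := Helper44.exists_iso_of_linearEquiv Q (LinearEquiv.ofInjectiveEndo ℓ hinj)
    (fun x => by
      rw [LinearEquiv.coe_ofInjectiveEndo]
      exact h x)
  exact ⟨k, fun x => by rw [hk, LinearEquiv.coe_ofInjectiveEndo]⟩

end Iso

end Cfsg.Agent.Helper45.Oct
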