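import Cfsg.Agent.Helper45.OctB
import Cfsg.Agent.Helper44.CD
import Cfsg.Agent.Helper45.OmegaPerfect

set_option autoImplicit false
set_option linter.unusedSectionVars false
set_option linter.unusedSimpArgs false
set_option linter.unusedVariables false
set_option linter.style.haveILetI false
set_option linter.unreachableTactic false
set_option linter.unusedTactic false

/-!
Helper library (helper45), triality, part C: related triples of isometries of the split octonion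
norm form, and the triality automorphism of `PΩ⁺₈`.
-/

universe u

namespace Cfsg.Agent.Helper45.Oct

open Cfsg Matrix Module
open scoped commutatorElement

section EqPair

variable {ι : Type} [Fintype ι] [DecidableEq ι] {F : Type u} [Field F] [Fintype F]
  (Q : QuadraticForm F (ι → F))

/-- the group generated by the products of two reflections in vectors of equal norm -/
def eqPair : Subgroup ↥(isometryGroup F ⇑Q) :=
  Subgroup.closure {g | ∃ (a b : ι → F) (ha : Q a ≠ 0) (hb : Q b ≠ 0), Q a = Q b ∧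
    g = reflO Q a ha * reflO Q b hb}

theorem eqPair_mem (a b : ι → F) (ha : Q a ≠ 0) (hb : Q b ≠ 0) (hab : Q a = Q b) :
    reflO Q a ha * reflO Q b hb ∈ eqPair Q :=
  Subgroup.subset_closure ⟨a, b, ha, hb, hab, rfl⟩

theorem eqPair_conj (k g : ↥(isometryGroup F ⇑Q)) (hg : g ∈ eqPair Q) :
    k * g * k⁻¹ ∈ eqPair Q := by
  refine Subgroup.closure_induction (p := fun g _ => k * g * k⁻¹ ∈ eqPair Q) ?_ ?_ ?_ ?_ hg
  · rintro g ⟨a, b, ha, hb, hab, rfl⟩
    have hka : Q (mv ⇑Q k a) ≠ 0 := by rw [mv_quad ⇑Q k]; exact ha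
    have hkb : Q (mv ⇑Q k b) ≠ 0 := by rw [mv_quad ⇑Q k]; exact hb
    have e : k * (reflO Q a ha * reflO Q b hb) * k⁻¹
        = (k * reflO Q a ha * k⁻¹) * (k * reflO Q b hb * k⁻¹) := by group
    rw [e, conj_reflO Q k a ha hka, conj_reflO Q k b hb hkb]
    exact eqPair_mem Q _ _ hka hkb (by rw [mv_quad ⇑Q k, mv_quad ⇑Q k]; exact hab)
  · rw [mul_one, mul_inv_cancel]; exact one_mem _
  · intro x y _ _ hx hy
    have e : k * (x * y) * k⁻¹ = (k * x * k⁻¹) * (k * y * k⁻¹) := by group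
    rw [e]; exact mul_mem hx hy
  · intro x _ hx
    have e : k * x⁻¹ * k⁻¹ = (k * x * k⁻¹)⁻¹ := by group
    rw [e]; exact inv_mem hx

/-- if the isometry group is generated by reflections, `Ω` is contained in the group generated by
the products of two reflections in vectors of equal norm -/
theorem omega_le_eqPair (hR : reflGroup Q = ⊤) : Omega F ⇑Q ≤ eqPair Q := by
  have key : ∀ g h : ↥(isometryGroup F ⇑Q), ⁅g, h⁆ ∈ eqPair Q := by
    intro g h
    have hh : h ∈ reflGroup Q := by rw [hR]; trivial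
    refine Subgroup.closure_induction (p := fun h _ => ⁅g, h⁆ ∈ eqPair Q) ?_ ?_ ?_ ?_ hh
    · rintro h ⟨a, ha, rfl⟩
      have hga : Q (mv ⇑Q g a) ≠ 0 := by rw [mv_quad ⇑Q g]; exact ha
      have e : ⁅g, reflO Q a ha⁆ = (g * reflO Q a ha * g⁻¹) * reflO Q a ha := by
        rw [commutatorElement_def, Helper44.reflO_inv]
      rw [e, conj_reflO Q g a ha hga]
      exact eqPair_mem Q _ _ hga ha (mv_quad ⇑Q g a)
    · rw [commutatorElement_one_right]; exact one_mem _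
    · intro x y _ _ hx hy
      have e : ⁅g, x * y⁆ = ⁅g, x⁆ * (x * ⁅g, y⁆ * x⁻¹) := by
        simp only [commutatorElement_def]; group
      rw [e]
      exact mul_mem hx (eqPair_conj Q x _ hy)
    · intro x _ hx
      have e : ⁅g, x⁻¹⁆ = x⁻¹ * ⁅g, x⁆⁻¹ * x⁻¹⁻¹ := by
        simp only [commutatorElement_def]; group
      rw [e]
      exact eqPair_conj Q x⁻¹ _ (inv_mem hx)
  rw [Omega, commutator_def, Subgroup.commutator_le]
  intro g _ h _
  exact key g h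

/-- a product of two reflections in vectors of equal norm lies in `Ω` -/
theorem eqpair_mem_omega (hQ : (QuadraticMap.polarBilin Q).Nondegenerate) (a b : ι → F)
    (ha : Q a ≠ 0) (hb : Q b ≠ 0) (hab : Q a = Q b) :
    reflO Q a ha * reflO Q b hb ∈ Omega F ⇑Q := by
  obtain ⟨k, hk⟩ := Helper44.exists_iso_map_vec Q hQ b a hab.symm
    (Helper44.ne_zero_of_quad_ne_zero Q b hb) (Helper44.ne_zero_of_quad_ne_zero Q a ha)
  have hkb : Q (mv ⇑Q k b) ≠ 0 := by rw [mv_quad ⇑Q k]; exact hb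
  have h1 : reflO Q a ha = k * reflO Q b hb * k⁻¹ := by
    rw [conj_reflO Q k b hb hkb]
    exact Helper44.reflO_congr Q _ _ ha hkb hk.symm
  have h2 : reflO Q a ha * reflO Q b hb = ⁅k, reflO Q b hb⁆ := by
    rw [h1, commutatorElement_def, Helper44.reflO_inv]
  rw [h2, Omega, commutator_def]
  exact Subgroup.commutator_mem_commutator (Subgroup.mem_top _) (Subgroup.mem_top _)

end EqPair

section Triples

variable {F : Type u} [Field F] [Fintype F] (Q : QuadraticForm F (Fin 4 ⊕ Fin 4 → F))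

/-- related triples of isometries: `g₁ (x y) = g₂ (x) g₃ (y)` -/
def Tri (g₁ g₂ g₃ : ↥(isometryGroup F ⇑Q)) : Prop :=
  ∀ x y : Fin 4 ⊕ Fin 4 → F, mv ⇑Q g₁ (om x y) = om (mv ⇑Q g₂ x) (mv ⇑Q g₃ y)

variable {Q}

theorem Tri.mul {g₁ g₂ g₃ h₁ h₂ h₃ : ↥(isometryGroup F ⇑Q)} (hg : Tri Q g₁ g₂ g₃)
    (hh : Tri Q h₁ h₂ h₃) : Tri Q (g₁ * h₁) (g₂ * h₂) (g₃ * h₃) := by
  intro x y
  rw [mv_mul, mv_mul, mv_mul, hh x y, hg]

theorem Tri.inv {g₁ g₂ g₃ : ↥(isometryGroup F ⇑Q)} (hg : Tri Q g₁ g₂ g₃) :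
    Tri Q g₁⁻¹ g₂⁻¹ g₃⁻¹ := by
  intro x y
  have h := hg (mv ⇑Q g₂⁻¹ x) (mv ⇑Q g₃⁻¹ y)
  rw [mv_inv_cancel, mv_inv_cancel] at h
  rw [← h, mv_inv_cancel']

theorem Tri.one : Tri Q (1 : ↥(isometryGroup F ⇑Q)) 1 1 := by
  intro x y
  rw [mv_one, mv_one, mv_one]

variable (Q)

/-- the first components of related triples -/
def triK : Subgroup ↥(isometryGroup F ⇑Q) where
  carrier := {g₁ | ∃ g₂ g₃ : ↥(isometryGroup F ⇑Q), Tri Q g₁ g₂ g₃}
  one_mem' := ⟨1, 1, Tri.one⟩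
  mul_mem' := by
    rintro a b ⟨a₂, a₃, ha⟩ ⟨b₂, b₃, hb⟩
    exact ⟨a₂ * b₂, a₃ * b₃, ha.mul hb⟩
  inv_mem' := by
    rintro a ⟨a₂, a₃, ha⟩
    exact ⟨a₂⁻¹, a₃⁻¹, ha.inv⟩

variable (hq : ⇑Q = quadFormPlus 4 F)

include hq in
theorem q_one8 : Q (one8 : Fin 4 ⊕ Fin 4 → F) = 1 := by
  rw [hq]; exact nm_one8

include hq in
theorem q_one8_ne : Q (one8 : Fin 4 ⊕ Fin 4 → F) ≠ 0 := by
  rw [q_one8 Q hq]; exact one_ne_zero

theorem cj_eq (b : Fin 4 ⊕ Fin 4 → F) :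
    cj b = QuadraticMap.polar (quadFormPlus 4 F) b one8 • one8 - b := by
  apply ext8 <;>
    simp only [cj_l0, cj_l1, cj_l2, cj_l3, cj_r0, cj_r1, cj_r2, cj_r3, pol_eq, Pi.sub_apply,
      Pi.smul_apply, smul_eq_mul, one8_l0, one8_l1, one8_l2, one8_l3, one8_r0, one8_r1, one8_r2,
      one8_r3] <;> ring

include hq in
/-- the product of the reflection in `a` and the reflection in the identity is `x ↦ a x a`, up to
the norm of `a` -/
theorem mv_refl_one (a : Fin 4 ⊕ Fin 4 → F) (ha : Q a ≠ 0) (x : Fin 4 ⊕ Fin 4 → F) :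
    mv ⇑Q (reflO Q a ha * reflO Q one8 (q_one8_ne Q hq)) x = (Q a)⁻¹ • om a (om x a) := by
  rw [mv_mul, mv_reflO, mv_reflO, QuadraticMap.polar_sub_right, QuadraticMap.polar_smul_right,
    q_one8 Q hq, inv_one, one_mul, om_om_self, ← hq, smul_sub, smul_smul, inv_mul_cancel₀ ha,
    one_smul, QuadraticMap.polar_comm ⇑Q one8 x, QuadraticMap.polar_comm ⇑Q a x,
    QuadraticMap.polar_comm ⇑Q a one8, smul_smul, smul_eq_mul]

include hq in
/-- the product of the reflection in the identity and the reflection in `b` is `x ↦ b̄ x b̄`, up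
to the norm of `b` -/
theorem mv_one_refl (b : Fin 4 ⊕ Fin 4 → F) (hb : Q b ≠ 0) (x : Fin 4 ⊕ Fin 4 → F) :
    mv ⇑Q (reflO Q one8 (q_one8_ne Q hq) * reflO Q b hb) x =
      (Q b)⁻¹ • om (cj b) (om x (cj b)) := by
  have h1 : QuadraticMap.polar ⇑Q x (cj b) =
      QuadraticMap.polar ⇑Q b one8 * QuadraticMap.polar ⇑Q x one8 - QuadraticMap.polar ⇑Q x b := by
    have := cj_eq b
    rw [← hq] at this
    rw [this, QuadraticMap.polar_sub_right, QuadraticMap.polar_smul_right, smul_eq_mul]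
  have h2 : QuadraticMap.polar ⇑Q one8 (cj b) = QuadraticMap.polar ⇑Q b one8 := by
    have := cj_eq b
    rw [← hq] at this
    rw [this, QuadraticMap.polar_sub_right, QuadraticMap.polar_smul_right, smul_eq_mul,
      QuadraticMap.polar_self, q_one8 Q hq, QuadraticMap.polar_comm ⇑Q one8 b]
    ring
  have h3 : cj b = QuadraticMap.polar ⇑Q b one8 • one8 - b := by
    have := cj_eq b
    rw [← hq] at this
    exact this
  have h4 : Q (cj b) = Q b := by rw [hq]; exact nm_cj b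
  rw [mv_mul, mv_reflO, mv_reflO, QuadraticMap.polar_sub_right, QuadraticMap.polar_smul_right,
    q_one8 Q hq, inv_one, one_mul, om_om_self, ← hq, h4, smul_sub, smul_smul, inv_mul_cancel₀ hb,
    one_smul, h1, h2, QuadraticMap.polar_comm ⇑Q one8 x, QuadraticMap.polar_comm ⇑Q b x,
    QuadraticMap.polar_comm ⇑Q one8 b, h3]
  simp only [smul_eq_mul]
  module

/-- left multiplication as a linear map -/
def lmulL (a : Fin 4 ⊕ Fin 4 → F) : (Fin 4 ⊕ Fin 4 → F) →ₗ[F] (Fin 4 ⊕ Fin 4 → F) where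
  toFun := om a
  map_add' := om_add_right a
  map_smul' := fun t x => by rw [om_smul_right]; rfl

/-- right multiplication as a linear map -/
def rmulL (a : Fin 4 ⊕ Fin 4 → F) : (Fin 4 ⊕ Fin 4 → F) →ₗ[F] (Fin 4 ⊕ Fin 4 → F) where
  toFun := fun x => om x a
  map_add' := fun x y => om_add_left x y a
  map_smul' := fun t x => by rw [om_smul_left]; rfl

theorem lmulL_apply (a x : Fin 4 ⊕ Fin 4 → F) : lmulL a x = om a x := rfl

theorem rmulL_apply (a x : Fin 4 ⊕ Fin 4 → F) : rmulL a x = om x a := rfl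

include hq in
/-- the related triple of a product of two reflections in vectors of equal norm -/
theorem exists_tri_pair (hQ : (QuadraticMap.polarBilin Q).Nondegenerate)
    (a b : Fin 4 ⊕ Fin 4 → F) (ha : Q a ≠ 0) (hb : Q b ≠ 0) (hab : Q a = Q b) :
    ∃ l r : ↥(isometryGroup F ⇑Q),
      (∀ x, mv ⇑Q l x = (Q b)⁻¹ • om a (om (cj b) x)) ∧
      (∀ y, mv ⇑Q r y = (Q b)⁻¹ • om (om y (cj b)) a) ∧
      Tri Q (reflO Q a ha * reflO Q b hb) l r := by
  have hqa : quadFormPlus 4 F a = Q a := by rw [hq]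
  have hqb : quadFormPlus 4 F b = Q b := by rw [hq]
  have hl : ∀ x, Q (((Q b)⁻¹ • (lmulL a ∘ₗ lmulL (cj b))) x) = Q x := by
    intro x
    rw [LinearMap.smul_apply, LinearMap.comp_apply, lmulL_apply, lmulL_apply,
      QuadraticMap.map_smul]
    have h1 : Q (om a (om (cj b) x)) = Q a * (Q b * Q x) := by
      rw [hq, nm_om, nm_om, nm_cj]
    rw [h1, hab, smul_eq_mul]
    field_simp
  have hr : ∀ y, Q (((Q b)⁻¹ • (rmulL a ∘ₗ rmulL (cj b))) y) = Q y := by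
    intro y
    rw [LinearMap.smul_apply, LinearMap.comp_apply, rmulL_apply, rmulL_apply,
      QuadraticMap.map_smul]
    have h1 : Q (om (om y (cj b)) a) = Q y * Q b * Q a := by
      rw [hq, nm_om, nm_om, nm_cj]
    rw [h1, hab, smul_eq_mul]
    field_simp
  obtain ⟨l, hl'⟩ := exists_iso_of_lin Q hQ _ hl
  obtain ⟨r, hr'⟩ := exists_iso_of_lin Q hQ _ hr
  refine ⟨l, r, fun x => by rw [hl' x]; rfl, fun y => by rw [hr' y]; rfl, ?_⟩
  intro x y
  have e : reflO Q a ha * reflO Q b hb =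
      (reflO Q a ha * reflO Q one8 (q_one8_ne Q hq)) *
        (reflO Q one8 (q_one8_ne Q hq) * reflO Q b hb) := by
    have h1 := reflO_mul_self Q one8 (q_one8_ne Q hq)
    calc reflO Q a ha * reflO Q b hb
        = reflO Q a ha * (reflO Q one8 (q_one8_ne Q hq) * reflO Q one8 (q_one8_ne Q hq)) *
            reflO Q b hb := by rw [h1, mul_one]
      _ = _ := by group
  rw [e, mv_mul, mv_one_refl Q hq b hb, mv_refl_one Q hq a ha, hl' x, hr' y]
  show (Q a)⁻¹ • om a (om ((Q b)⁻¹ • om (cj b) (om (om x y) (cj b))) a) =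
    om ((Q b)⁻¹ • om a (om (cj b) x)) ((Q b)⁻¹ • om (om y (cj b)) a)
  rw [om_smul_left, om_smul_right, om_smul_left, om_smul_right, smul_smul, smul_smul, hab,
    ← moufang_mid (cj b) x y, ← moufang_mid a (om (cj b) x) (om y (cj b))]

include hq in
/-- every element of `Ω` is the first component of a related triple -/
theorem exists_tri (hQ : (QuadraticMap.polarBilin Q).Nondegenerate)
    (g₁ : ↥(isometryGroup F ⇑Q)) (hg₁ : g₁ ∈ Omega F ⇑Q) :
    ∃ g₂ g₃ : ↥(isometryGroup F ⇑Q), Tri Q g₁ g₂ g₃ := by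
  have hR : reflGroup Q = ⊤ := Helper44.reflGroup_eq_top_of Q hQ (Or.inr (by
    rw [Fintype.card_sum, Fintype.card_fin]; norm_num))
  have h1 : eqPair Q ≤ triK Q := by
    rw [eqPair, Subgroup.closure_le]
    rintro g ⟨a, b, ha, hb, hab, rfl⟩
    obtain ⟨l, r, -, -, h⟩ := exists_tri_pair Q hq hQ a b ha hb hab
    exact ⟨l, r, h⟩
  exact h1 (omega_le_eqPair Q hR hg₁)

include hq in
/-- every element of `Ω` is the first component of a related triple whose second component lies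
in `Ω` -/
theorem exists_tri_omega (hQ : (QuadraticMap.polarBilin Q).Nondegenerate)
    (g₁ : ↥(Omega F ⇑Q)) :
    ∃ (g₂ : ↥(Omega F ⇑Q)) (g₃ : ↥(isometryGroup F ⇑Q)),
      Tri Q (g₁ : ↥(isometryGroup F ⇑Q)) (g₂ : ↥(isometryGroup F ⇑Q)) g₃ := by
  let D : Subgroup ↥(Omega F ⇑Q) :=
    { carrier := {g | ∃ (g₂ : ↥(Omega F ⇑Q)) (g₃ : ↥(isometryGroup F ⇑Q)),
        Tri Q (g : ↥(isometryGroup F ⇑Q)) (g₂ : ↥(isometryGroup F ⇑Q)) g₃}
      one_mem' := ⟨1, 1, Tri.one⟩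
      mul_mem' := by
        rintro a b ⟨a₂, a₃, ha⟩ ⟨b₂, b₃, hb⟩
        exact ⟨a₂ * b₂, a₃ * b₃, ha.mul hb⟩
      inv_mem' := by
        rintro a ⟨a₂, a₃, ha⟩
        exact ⟨a₂⁻¹, a₃⁻¹, ha.inv⟩ }
  have hperf := omega_perfect Q hQ (by rw [Fintype.card_sum, Fintype.card_fin]; norm_num)
  have hD : commutator ↥(Omega F ⇑Q) ≤ D := by
    rw [commutator_def, Subgroup.commutator_le]
    intro g _ h _
    obtain ⟨g₂, g₃, hg⟩ := exists_tri Q hq hQ g.1 g.2
    obtain ⟨h₂, h₃, hh⟩ := exists_tri Q hq hQ h.1 h.2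
    have hmem : ⁅g₂, h₂⁆ ∈ Omega F ⇑Q := by
      rw [Omega, commutator_def]
      exact Subgroup.commutator_mem_commutator (Subgroup.mem_top _) (Subgroup.mem_top _)
    refine ⟨⟨⁅g₂, h₂⁆, hmem⟩, ⁅g₃, h₃⁆, ?_⟩
    have h4 := ((hg.mul hh).mul hg.inv).mul hh.inv
    exact h4
  have : g₁ ∈ D := hD (by rw [hperf]; trivial)
  exact this

include hq in
/-- uniqueness of the second component of a related triple, up to the centre -/
theorem tri_unique (g₁ : ↥(isometryGroup F ⇑Q)) (g₂ g₂' : ↥(Omega F ⇑Q))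
    (g₃ g₃' : ↥(isometryGroup F ⇑Q))
    (h : Tri Q g₁ (g₂ : ↥(isometryGroup F ⇑Q)) g₃)
    (h' : Tri Q g₁ (g₂' : ↥(isometryGroup F ⇑Q)) g₃') :
    (QuotientGroup.mk g₂ : POmega F ⇑Q) = QuotientGroup.mk g₂' := by
  have h1 := h.inv.mul h'
  rw [inv_mul_cancel] at h1
  obtain ⟨t, ht⟩ := ul (mv ⇑Q ((g₂ : ↥(isometryGroup F ⇑Q))⁻¹ * (g₂' : ↥(isometryGroup F ⇑Q))))
    (mv ⇑Q (g₃⁻¹ * g₃')) (fun u v => by
      have := h1 u v
      rw [mv_one] at this
      exact this)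
  rw [QuotientGroup.eq]
  exact mem_center_of_scalar Q (g₂⁻¹ * g₂') t ht

include hq in
/-- **the triality automorphism of `PΩ⁺₈`** -/
theorem exists_triality (hQ : (QuadraticMap.polarBilin Q).Nondegenerate) :
    ∃ θ : MulAut (POmega F ⇑Q), ∀ (g₁ g₂ : ↥(Omega F ⇑Q)) (g₃ : ↥(isometryGroup F ⇑Q)),
      Tri Q (g₁ : ↥(isometryGroup F ⇑Q)) (g₂ : ↥(isometryGroup F ⇑Q)) g₃ →
        θ (QuotientGroup.mk g₁) = QuotientGroup.mk g₂ := by
  have hn : 5 ≤ Fintype.card (Fin 4 ⊕ Fin 4) := by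
    rw [Fintype.card_sum, Fintype.card_fin]; norm_num
  choose c hc using fun g₁ : ↥(Omega F ⇑Q) => exists_tri_omega Q hq hQ g₁
  choose d hd using hc
  have hspec : ∀ (g₁ g₂ : ↥(Omega F ⇑Q)) (g₃ : ↥(isometryGroup F ⇑Q)),
      Tri Q (g₁ : ↥(isometryGroup F ⇑Q)) (g₂ : ↥(isometryGroup F ⇑Q)) g₃ →
        (QuotientGroup.mk (c g₁) : POmega F ⇑Q) = QuotientGroup.mk g₂ :=
    fun g₁ g₂ g₃ h => tri_unique Q hq _ _ _ _ _ (hd g₁) h
  let θ₀ : ↥(Omega F ⇑Q) →* POmega F ⇑Q :=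
    { toFun := fun g₁ => QuotientGroup.mk (c g₁)
      map_one' := hspec 1 1 1 Tri.one
      map_mul' := fun a b => by
        show (QuotientGroup.mk (c (a * b)) : POmega F ⇑Q) =
          QuotientGroup.mk (c a) * QuotientGroup.mk (c b)
        rw [← QuotientGroup.mk_mul]
        exact hspec (a * b) (c a * c b) (d a * d b) ((hd a).mul (hd b)) }
  have hker : Subgroup.center ↥(Omega F ⇑Q) ≤ θ₀.ker := by
    intro z hz
    rw [MonoidHom.mem_ker]
    obtain ⟨l, hl⟩ := AO.center_scalar Q hQ hn z hz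
    have h1 : Tri Q (z : ↥(isometryGroup F ⇑Q)) (z : ↥(isometryGroup F ⇑Q)) 1 := by
      intro x y
      rw [hl, hl, mv_one, om_smul_left]
    have h2 : θ₀ z = QuotientGroup.mk z := hspec z z 1 h1
    rw [h2]
    exact (QuotientGroup.eq_one_iff z).mpr hz
  let θ₁ : POmega F ⇑Q →* POmega F ⇑Q := QuotientGroup.lift _ θ₀ hker
  have hθ₁ : ∀ g₁ : ↥(Omega F ⇑Q), θ₁ (QuotientGroup.mk g₁) = QuotientGroup.mk (c g₁) :=
    fun g₁ => rfl
  have hinj : Function.Injective θ₁ := by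
    rw [injective_iff_map_eq_one]
    intro x hx
    obtain ⟨g₁, rfl⟩ := QuotientGroup.mk_surjective x
    rw [hθ₁] at hx
    have hz : c g₁ ∈ Subgroup.center ↥(Omega F ⇑Q) := (QuotientGroup.eq_one_iff _).mp hx
    obtain ⟨l, hl⟩ := AO.center_scalar Q hQ hn _ hz
    obtain ⟨t, ht⟩ := ul2 (mv ⇑Q (g₁ : ↥(isometryGroup F ⇑Q)))
      (fun v => l • mv ⇑Q (d g₁) v) (fun u v => by
        rw [hd g₁ u v, hl, om_smul_left, om_smul_right])
    exact (QuotientGroup.eq_one_iff g₁).mpr (mem_center_of_scalar Q g₁ t ht)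
  have hbij : Function.Bijective θ₁ := ⟨hinj, Finite.injective_iff_surjective.mp hinj⟩
  refine ⟨MulEquiv.ofBijective θ₁ hbij, fun g₁ g₂ g₃ h => ?_⟩
  show θ₁ (QuotientGroup.mk g₁) = QuotientGroup.mk g₂
  rw [hθ₁]
  exact hspec g₁ g₂ g₃ h

include hq in
/-- the image under triality of the class of the first component of a related triple -/
theorem theta_mk' (hQ : (QuadraticMap.polarBilin Q).Nondegenerate)
    (θ : MulAut (POmega F ⇑Q))
    (hθ : ∀ (g₁ g₂ : ↥(Omega F ⇑Q)) (g₃ : ↥(isometryGroup F ⇑Q)),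
      Tri Q (g₁ : ↥(isometryGroup F ⇑Q)) (g₂ : ↥(isometryGroup F ⇑Q)) g₃ →
        θ (QuotientGroup.mk g₁) = QuotientGroup.mk g₂)
    (g₁ : ↥(Omega F ⇑Q)) (g₂ g₃ : ↥(isometryGroup F ⇑Q))
    (h : Tri Q (g₁ : ↥(isometryGroup F ⇑Q)) g₂ g₃) :
    ∃ ω : ↥(Omega F ⇑Q), θ (QuotientGroup.mk g₁) = QuotientGroup.mk ω ∧
      ∃ l : F, ∀ x, mv ⇑Q (ω : ↥(isometryGroup F ⇑Q)) x = l • mv ⇑Q g₂ x := by
  obtain ⟨ω, g₃', h'⟩ := exists_tri_omega Q hq hQ g₁
  refine ⟨ω, hθ g₁ ω g₃' h', ?_⟩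
  have h1 := h.inv.mul h'
  rw [inv_mul_cancel] at h1
  obtain ⟨t, ht⟩ := ul (mv ⇑Q (g₂⁻¹ * (ω : ↥(isometryGroup F ⇑Q))))
    (mv ⇑Q (g₃⁻¹ * g₃')) (fun u v => by
      have := h1 u v
      rw [mv_one] at this
      exact this)
  refine ⟨t, fun x => ?_⟩
  have h2 := ht x
  rw [mv_mul] at h2
  have h3 : mv ⇑Q g₂ (mv ⇑Q g₂⁻¹ (mv ⇑Q (ω : ↥(isometryGroup F ⇑Q)) x)) = mv ⇑Q g₂ (t • x) := by
    rw [h2]
  rw [mv_inv_cancel, mv_smul] at h3
  exact h3

end Triples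

end Cfsg.Agent.Helper45.Oct
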