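import Cfsg.Agent.Helper45.OctC

set_option autoImplicit false
set_option linter.unusedSectionVars false
set_option linter.unusedSimpArgs false
set_option linter.unusedVariables false
set_option linter.style.haveILetI false
set_option linter.unreachableTactic false
set_option linter.unusedTactic false

/-!
Helper library (helper45), triality, part D: the group of automorphisms of `PΩ` induced by
semisimilarities, and the proof that triality (and its conjugate under the reflection class) is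
not induced by a semisimilarity.
-/

universe u

namespace Cfsg.Agent.Helper45.Oct

open Cfsg Matrix Module Cfsg.Agent.Helper45.AO Cfsg.Agent.Helper45.OO

section SemiSub

variable {ι : Type} [Fintype ι] [DecidableEq ι] {F : Type u} [Field F] [Fintype F]
  (Q : QuadraticForm F (ι → F))

theorem semiAut_inv (g : GL ι F) (σ : F ≃+* F) (hg : IsSemisimilarityPair ⇑Q g σ) :
    (semiAut ⇑Q g σ hg)⁻¹ = semiAut ⇑Q (glMap σ.symm g⁻¹) σ.symm (semi_inv ⇑Q hg) := by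
  apply inv_eq_of_mul_eq_one_right
  rw [semiAut_mul]
  rw [← semiAut_one ⇑Q (semi_one ⇑Q)]
  apply semiAut_congr
  · rw [glMap_glMap_symm, mul_inv_cancel]
  · ext x
    simp

/-- the automorphisms of `PΩ(Q)` induced by semisimilarities -/
def semiSub : Subgroup (MulAut (POmega F ⇑Q)) where
  carrier := {α | ∃ (g : GL ι F) (σ : F ≃+* F) (hg : IsSemisimilarityPair ⇑Q g σ),
    α = semiAut ⇑Q g σ hg}
  one_mem' := ⟨1, RingEquiv.refl F, semi_one ⇑Q, (semiAut_one ⇑Q _).symm⟩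
  mul_mem' := by
    rintro a b ⟨g, σ, hg, rfl⟩ ⟨g', σ', hg', rfl⟩
    exact ⟨_, _, semi_mul ⇑Q hg hg', semiAut_mul ⇑Q g g' σ σ' hg hg'⟩
  inv_mem' := by
    rintro a ⟨g, σ, hg, rfl⟩
    exact ⟨_, _, semi_inv ⇑Q hg, semiAut_inv Q g σ hg⟩

theorem mem_semiSub (α : MulAut (POmega F ⇑Q)) : α ∈ semiSub Q ↔
    ∃ (g : GL ι F) (σ : F ≃+* F) (hg : IsSemisimilarityPair ⇑Q g σ), α = semiAut ⇑Q g σ hg :=
  Iff.rfl

/-- the displacement of `s` has rank at most two -/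
def Rk2 (s : ↥(isometryGroup F ⇑Q)) : Prop :=
  ∃ u w : ι → F, ∀ x, mv ⇑Q s x - x ∈ Submodule.span F {u, w}

theorem rk2_semi (g : GL ι F) (σ : F ≃+* F) (hg : IsSemisimilarityPair ⇑Q g σ)
    (s : ↥(Omega F ⇑Q)) (h : Rk2 Q (s : ↥(isometryGroup F ⇑Q))) :
    Rk2 Q ((semiΩ ⇑Q g σ hg s : ↥(Omega F ⇑Q)) : ↥(isometryGroup F ⇑Q)) := by
  obtain ⟨u, w, h⟩ := h
  refine ⟨semiMap g σ u, semiMap g σ w, fun y => ?_⟩
  obtain ⟨x, rfl⟩ : ∃ x, semiMap g σ x = y := ⟨semiInv g σ y, semiMap_semiInv g σ y⟩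
  rw [mv_semiΩ]
  obtain ⟨a, b, hab⟩ := mem_pair.mp (h x)
  have h1 : semiMap g σ (mv ⇑Q (s : ↥(isometryGroup F ⇑Q)) x) =
      semiMap g σ x + (σ a • semiMap g σ u + σ b • semiMap g σ w) := by
    rw [← semiMap_smul, ← semiMap_smul, ← semiMap_add, ← semiMap_add, hab]
    congr 1
    abel
  rw [h1, add_sub_cancel_left]
  exact mem_pair.mpr ⟨σ a, σ b, rfl⟩

omit [Fintype F] in
/-- three distinct vectors of the standard basis do not lie in a common plane -/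
theorem not_three (u w : ι → F) (i j k : ι) (hij : i ≠ j) (hik : i ≠ k) (hjk : j ≠ k)
    (hi : (Pi.single i 1 : ι → F) ∈ Submodule.span F {u, w})
    (hj : (Pi.single j 1 : ι → F) ∈ Submodule.span F {u, w})
    (hk : (Pi.single k 1 : ι → F) ∈ Submodule.span F {u, w}) : False := by
  have hli : LinearIndependent F ![(Pi.single i 1 : ι → F), Pi.single j 1, Pi.single k 1] := by
    have hinj : Function.Injective ![i, j, k] := by
      intro a b hab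
      fin_cases a <;> fin_cases b <;> simp_all
    have := (Pi.basisFun F ι).linearIndependent.comp ![i, j, k] hinj
    convert this using 1
    ext a : 1
    fin_cases a <;> simp [Pi.basisFun_apply]
  have h3 := finrank_span_eq_card hli
  have hle : Submodule.span F (Set.range ![(Pi.single i 1 : ι → F), Pi.single j 1, Pi.single k 1])
      ≤ Submodule.span F {u, w} := by
    rw [Submodule.span_le]
    rintro _ ⟨a, rfl⟩
    fin_cases a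
    · exact hi
    · exact hj
    · exact hk
  have h2 : finrank F (Submodule.span F {u, w}) ≤ 2 := by
    have h := finrank_range_le_card (R := F) ![u, w]
    rw [Matrix.range_cons_cons_empty] at h
    simpa [Set.finrank] using h
  have h4 := Submodule.finrank_mono hle
  rw [h3] at h4
  simp at h4
  omega

/-- an isometry with displacement of rank at most two is not a scalar multiple of `1 + M` for a
square-zero map `M` with three independent values -/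
theorem not_scalar_unip (s' : ↥(isometryGroup F ⇑Q)) (hs : Rk2 Q s')
    (M : (ι → F) → (ι → F)) (hM2 : ∀ y, M (M y) = 0)
    (j₁ j₂ j₃ : ι) (h12 : j₁ ≠ j₂) (h13 : j₁ ≠ j₃) (h23 : j₂ ≠ j₃)
    (y₁ y₂ y₃ : ι → F) (ε₁ ε₂ ε₃ : F) (hε₁ : ε₁ ≠ 0) (hε₂ : ε₂ ≠ 0) (hε₃ : ε₃ ≠ 0)
    (hy₁ : M y₁ = ε₁ • Pi.single j₁ 1) (hy₂ : M y₂ = ε₂ • Pi.single j₂ 1)
    (hy₃ : M y₃ = ε₃ • Pi.single j₃ 1)
    (l : F) (hl : ∀ x, mv ⇑Q s' x = l • (x + M x)) : False := by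
  obtain ⟨u, w, h⟩ := hs
  have key : ∀ (y : ι → F) (ε : F) (j : ι), ε ≠ 0 → M y = ε • Pi.single j 1 → l ≠ 1 →
      (Pi.single j 1 : ι → F) ∈ Submodule.span F {u, w} := by
    intro y ε j hε hy hl1
    have h1 := h (M y)
    rw [hl, hM2, add_zero, hy] at h1
    have h2 : l • ε • (Pi.single j 1 : ι → F) - ε • Pi.single j 1 =
        ((l - 1) * ε) • (Pi.single j 1 : ι → F) := by
      rw [sub_mul, one_mul, sub_smul, mul_smul]
    rw [h2] at h1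
    have h3 := Submodule.smul_mem _ ((l - 1) * ε)⁻¹ h1
    rw [smul_smul, inv_mul_cancel₀ (mul_ne_zero (sub_ne_zero.mpr hl1) hε), one_smul] at h3
    exact h3
  have key2 : ∀ (y : ι → F) (ε : F) (j : ι), ε ≠ 0 → M y = ε • Pi.single j 1 → l = 1 →
      (Pi.single j 1 : ι → F) ∈ Submodule.span F {u, w} := by
    intro y ε j hε hy hl1
    have h1 := h y
    rw [hl, hl1, one_smul, add_sub_cancel_left, hy] at h1
    have h3 := Submodule.smul_mem _ ε⁻¹ h1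
    rw [smul_smul, inv_mul_cancel₀ hε, one_smul] at h3
    exact h3
  by_cases hl1 : l = 1
  · exact not_three u w j₁ j₂ j₃ h12 h13 h23 (key2 y₁ ε₁ j₁ hε₁ hy₁ hl1) (key2 y₂ ε₂ j₂ hε₂ hy₂ hl1)
      (key2 y₃ ε₃ j₃ hε₃ hy₃ hl1)
  · exact not_three u w j₁ j₂ j₃ h12 h13 h23 (key y₁ ε₁ j₁ hε₁ hy₁ hl1) (key y₂ ε₂ j₂ hε₂ hy₂ hl1)
      (key y₃ ε₃ j₃ hε₃ hy₃ hl1)

end SemiSub

section Special

variable {F : Type u} [Field F]

/-- a nilpotent octonion -/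
def n0 : Fin 4 ⊕ Fin 4 → F := Pi.single (Sum.inl 1) 1

/-- a unipotent octonion -/
def a0 : Fin 4 ⊕ Fin 4 → F := one8 + n0

theorem nm_a0 : quadFormPlus 4 F (a0 : Fin 4 ⊕ Fin 4 → F) = 1 := by
  rw [nm_eq]
  simp [a0, n0, one8_l0, one8_l1, one8_l2, one8_l3, one8_r0, one8_r1, one8_r2, one8_r3]

theorem om_a0_left (x : Fin 4 ⊕ Fin 4 → F) : om a0 x = x + om n0 x := by
  rw [a0, om_add_left, one_om]

theorem om_a0_right (x : Fin 4 ⊕ Fin 4 → F) : om x a0 = x + om x n0 := by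
  rw [a0, om_add_right, om_one]

theorem cj_n0 : cj (n0 : Fin 4 ⊕ Fin 4 → F) = -n0 := by
  apply ext8 <;> simp [n0, cj_l0, cj_l1, cj_l2, cj_l3, cj_r0, cj_r1, cj_r2, cj_r3]

theorem nm_n0 : quadFormPlus 4 F (n0 : Fin 4 ⊕ Fin 4 → F) = 0 := by
  rw [nm_eq]
  simp [n0]

theorem om_n0_n0_left (x : Fin 4 ⊕ Fin 4 → F) : om n0 (om n0 x) = 0 := by
  have h := cj_om_om (n0 : Fin 4 ⊕ Fin 4 → F) x
  rw [cj_n0, nm_n0, zero_smul] at h
  have h2 : om (-(n0 : Fin 4 ⊕ Fin 4 → F)) (om n0 x) = -om n0 (om n0 x) := by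
    have := om_smul_left (-1 : F) n0 (om n0 x)
    rw [neg_one_smul, neg_one_smul] at this
    exact this
  rw [h2, neg_eq_zero] at h
  exact h

theorem om_n0_n0_right (x : Fin 4 ⊕ Fin 4 → F) : om (om x n0) n0 = 0 := by
  have h := om_om_cj (n0 : Fin 4 ⊕ Fin 4 → F) x
  rw [cj_n0, nm_n0, zero_smul] at h
  have h2 : om (om x n0) (-(n0 : Fin 4 ⊕ Fin 4 → F)) = -om (om x n0) n0 := by
    have := om_smul_right (-1 : F) (om x n0) n0
    rw [neg_one_smul, neg_one_smul] at this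
    exact this
  rw [h2, neg_eq_zero] at h
  exact h

theorem om_n0_r1 : om (n0 : Fin 4 ⊕ Fin 4 → F) (Pi.single (Sum.inr 1) 1) =
    (-1 : F) • Pi.single (Sum.inl 0) 1 := by
  apply ext8 <;>
    simp [n0, om_l0, om_l1, om_l2, om_l3, om_r0, om_r1, om_r2, om_r3, Pi.single_apply]

theorem om_n0_r0 : om (n0 : Fin 4 ⊕ Fin 4 → F) (Pi.single (Sum.inr 0) 1) =
    (1 : F) • Pi.single (Sum.inl 1) 1 := by
  apply ext8 <;>
    simp [n0, om_l0, om_l1, om_l2, om_l3, om_r0, om_r1, om_r2, om_r3, Pi.single_apply]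

theorem om_n0_l3 : om (n0 : Fin 4 ⊕ Fin 4 → F) (Pi.single (Sum.inl 3) 1) =
    (1 : F) • Pi.single (Sum.inr 2) 1 := by
  apply ext8 <;>
    simp [n0, om_l0, om_l1, om_l2, om_l3, om_r0, om_r1, om_r2, om_r3, Pi.single_apply]

theorem om_l0_n0 : om (Pi.single (Sum.inl 0) 1) (n0 : Fin 4 ⊕ Fin 4 → F) =
    (1 : F) • Pi.single (Sum.inl 1) 1 := by
  apply ext8 <;>
    simp [n0, om_l0, om_l1, om_l2, om_l3, om_r0, om_r1, om_r2, om_r3, Pi.single_apply]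

theorem om_r1_n0 : om (Pi.single (Sum.inr 1) 1) (n0 : Fin 4 ⊕ Fin 4 → F) =
    (-1 : F) • Pi.single (Sum.inr 0) 1 := by
  apply ext8 <;>
    simp [n0, om_l0, om_l1, om_l2, om_l3, om_r0, om_r1, om_r2, om_r3, Pi.single_apply]

theorem om_l2_n0 : om (Pi.single (Sum.inl 2) 1) (n0 : Fin 4 ⊕ Fin 4 → F) =
    (1 : F) • Pi.single (Sum.inr 3) 1 := by
  apply ext8 <;>
    simp [n0, om_l0, om_l1, om_l2, om_l3, om_r0, om_r1, om_r2, om_r3, Pi.single_apply]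

theorem cj_one8 : cj (one8 : Fin 4 ⊕ Fin 4 → F) = one8 := by
  apply ext8 <;> simp [cj_l0, cj_l1, cj_l2, cj_l3, cj_r0, cj_r1, cj_r2, cj_r3, one8_l0, one8_l1,
    one8_l2, one8_l3, one8_r0, one8_r1, one8_r2, one8_r3]

end Special

section NotSemi

variable {F : Type u} [Field F] [Fintype F] (Q : QuadraticForm F (Fin 4 ⊕ Fin 4 → F))
  (hq : ⇑Q = quadFormPlus 4 F)

include hq in
theorem q_a0 : Q (a0 : Fin 4 ⊕ Fin 4 → F) = 1 := by
  rw [hq]; exact nm_a0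

include hq in
theorem q_a0_ne : Q (a0 : Fin 4 ⊕ Fin 4 → F) ≠ 0 := by
  rw [q_a0 Q hq]; exact one_ne_zero

/-- the basic unipotent element `x ↦ a₀ x a₀` -/
noncomputable def s0 : ↥(isometryGroup F ⇑Q) :=
  reflO Q a0 (q_a0_ne Q hq) * reflO Q one8 (q_one8_ne Q hq)

include hq in
theorem s0_mem (hQ : (QuadraticMap.polarBilin Q).Nondegenerate) : s0 Q hq ∈ Omega F ⇑Q :=
  eqpair_mem_omega Q hQ a0 one8 (q_a0_ne Q hq) (q_one8_ne Q hq)
    (by rw [q_a0 Q hq, q_one8 Q hq])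

theorem mv_s0 (x : Fin 4 ⊕ Fin 4 → F) : mv ⇑Q (s0 Q hq) x = om a0 (om x a0) := by
  unfold s0
  rw [mv_refl_one Q hq, q_a0 Q hq, inv_one, one_smul]

theorem rk2_s0 : Rk2 Q (s0 Q hq) := by
  refine ⟨one8, a0, fun x => ?_⟩
  unfold s0
  rw [mv_mul, mv_reflO, mv_reflO]
  apply mem_pair.mpr
  refine ⟨-((Q one8)⁻¹ * QuadraticMap.polar ⇑Q one8 x), -((Q a0)⁻¹ * QuadraticMap.polar ⇑Q a0
    (x - ((Q one8)⁻¹ * QuadraticMap.polar ⇑Q one8 x) • one8)), ?_⟩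
  module

/-- the related triple of the basic unipotent element -/
theorem tri_s0 (hQ : (QuadraticMap.polarBilin Q).Nondegenerate) :
    ∃ l r : ↥(isometryGroup F ⇑Q), (∀ x, mv ⇑Q l x = om a0 x) ∧ (∀ y, mv ⇑Q r y = om y a0) ∧
      Tri Q (s0 Q hq) l r := by
  obtain ⟨l, r, hl, hr, h⟩ := exists_tri_pair Q hq hQ a0 one8 (q_a0_ne Q hq) (q_one8_ne Q hq)
    (by rw [q_a0 Q hq, q_one8 Q hq])
  refine ⟨l, r, fun x => ?_, fun y => ?_, h⟩
  · rw [hl, q_one8 Q hq, inv_one, one_smul, cj_one8, one_om]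
  · rw [hr, q_one8 Q hq, inv_one, one_smul, cj_one8, om_one]

include hq in
/-- **triality is not induced by a semisimilarity** -/
theorem theta_not_semi (hQ : (QuadraticMap.polarBilin Q).Nondegenerate)
    (θ : MulAut (POmega F ⇑Q))
    (hθ : ∀ (g₁ g₂ : ↥(Omega F ⇑Q)) (g₃ : ↥(isometryGroup F ⇑Q)),
      Tri Q (g₁ : ↥(isometryGroup F ⇑Q)) (g₂ : ↥(isometryGroup F ⇑Q)) g₃ →
        θ (QuotientGroup.mk g₁) = QuotientGroup.mk g₂) : θ ∉ semiSub Q := by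
  have hn : 5 ≤ Fintype.card (Fin 4 ⊕ Fin 4) := by
    rw [Fintype.card_sum, Fintype.card_fin]; norm_num
  rintro ⟨g', σ', hg', hβ⟩
  obtain ⟨l, r, hl, hr, htri⟩ := tri_s0 Q hq hQ
  obtain ⟨ω, hω, t, ht⟩ := theta_mk' Q hq hQ θ hθ ⟨s0 Q hq, s0_mem Q hq hQ⟩ l r htri
  rw [hβ, semiAut_mk] at hω
  obtain ⟨c, hc⟩ := center_scalar Q hQ hn _ ((QuotientGroup.eq).mp hω.symm)
  have hfin : ∀ x, mv ⇑Q ((semiΩ ⇑Q g' σ' hg' ⟨s0 Q hq, s0_mem Q hq hQ⟩ : ↥(Omega F ⇑Q)) :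
      ↥(isometryGroup F ⇑Q)) x = (c * t) • (x + om n0 x) := by
    intro x
    have h1 := hc x
    have h2 : mv ⇑Q (ω : ↥(isometryGroup F ⇑Q)) (mv ⇑Q ((ω : ↥(isometryGroup F ⇑Q))⁻¹ *
        ((semiΩ ⇑Q g' σ' hg' ⟨s0 Q hq, s0_mem Q hq hQ⟩ : ↥(Omega F ⇑Q)) :
          ↥(isometryGroup F ⇑Q))) x) = mv ⇑Q (ω : ↥(isometryGroup F ⇑Q)) (c • x) := by
      exact congrArg _ h1
    rw [mv_mul, mv_inv_cancel, mv_smul, ht, hl, om_a0_left, smul_smul] at h2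
    exact h2
  exact not_scalar_unip Q _ (rk2_semi Q g' σ' hg' ⟨s0 Q hq, s0_mem Q hq hQ⟩ (rk2_s0 Q hq))
    (fun x => om n0 x) om_n0_n0_left (Sum.inl 0) (Sum.inl 1) (Sum.inr 2) (by decide) (by decide)
    (by decide) _ _ _ (-1) 1 1 (by norm_num) one_ne_zero one_ne_zero om_n0_r1 om_n0_r0 om_n0_l3
    (c * t) hfin

include hq in
/-- **the conjugate of the reflection class under triality is not induced by a semisimilarity** -/
theorem theta_gamma_not_semi (hQ : (QuadraticMap.polarBilin Q).Nondegenerate)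
    (θ : MulAut (POmega F ⇑Q))
    (hθ : ∀ (g₁ g₂ : ↥(Omega F ⇑Q)) (g₃ : ↥(isometryGroup F ⇑Q)),
      Tri Q (g₁ : ↥(isometryGroup F ⇑Q)) (g₂ : ↥(isometryGroup F ⇑Q)) g₃ →
        θ (QuotientGroup.mk g₁) = QuotientGroup.mk g₂)
    (g : GL (Fin 4 ⊕ Fin 4) F) (hg : IsSemisimilarityPair ⇑Q g (RingEquiv.refl F))
    (hgc : ∀ x, semiMap g (RingEquiv.refl F) x = cj x) :
    θ⁻¹ * semiAut ⇑Q g (RingEquiv.refl F) hg * θ ∉ semiSub Q := by
  have hn : 5 ≤ Fintype.card (Fin 4 ⊕ Fin 4) := by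
    rw [Fintype.card_sum, Fintype.card_fin]; norm_num
  rintro ⟨g', σ', hg', hβ⟩
  have key : semiAut ⇑Q g (RingEquiv.refl F) hg
      (θ (QuotientGroup.mk (⟨s0 Q hq, s0_mem Q hq hQ⟩ : ↥(Omega F ⇑Q)))) =
      θ (semiAut ⇑Q g' σ' hg' (QuotientGroup.mk (⟨s0 Q hq, s0_mem Q hq hQ⟩ : ↥(Omega F ⇑Q)))) := by
    rw [← hβ]
    simp only [MulAut.mul_apply, MulAut.apply_inv_self]
  obtain ⟨l, r, hl, hr, htri⟩ := tri_s0 Q hq hQ
  obtain ⟨ω, hω, t, ht⟩ := theta_mk' Q hq hQ θ hθ ⟨s0 Q hq, s0_mem Q hq hQ⟩ l r htri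
  rw [hω, semiAut_mk, semiAut_mk] at key
  obtain ⟨ω', g₃, htri'⟩ := exists_tri_omega Q hq hQ
    (semiΩ ⇑Q g' σ' hg' ⟨s0 Q hq, s0_mem Q hq hQ⟩)
  rw [hθ _ ω' g₃ htri'] at key
  obtain ⟨c, hc⟩ := center_scalar Q hQ hn _ ((QuotientGroup.eq).mp key)
  have hκ : ∀ x, mv ⇑Q ((semiΩ ⇑Q g (RingEquiv.refl F) hg ω : ↥(Omega F ⇑Q)) :
      ↥(isometryGroup F ⇑Q)) x = t • om x (cj a0) := by
    intro x
    have h1 := mv_semiΩ Q g (RingEquiv.refl F) hg ω (cj x)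
    rw [hgc, hgc, cj_cj, ht, hl, cj_smul, cj_om, cj_cj] at h1
    exact h1
  have hω' : ∀ x, mv ⇑Q (ω' : ↥(isometryGroup F ⇑Q)) x = (c * t) • om x (cj a0) := by
    intro x
    have h1 := hc x
    have h2 : mv ⇑Q ((semiΩ ⇑Q g (RingEquiv.refl F) hg ω : ↥(Omega F ⇑Q)) :
        ↥(isometryGroup F ⇑Q)) (mv ⇑Q (((semiΩ ⇑Q g (RingEquiv.refl F) hg ω : ↥(Omega F ⇑Q)) :
        ↥(isometryGroup F ⇑Q))⁻¹ * (ω' : ↥(isometryGroup F ⇑Q))) x) =
        mv ⇑Q ((semiΩ ⇑Q g (RingEquiv.refl F) hg ω : ↥(Omega F ⇑Q)) :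
        ↥(isometryGroup F ⇑Q)) (c • x) := congrArg _ h1
    rw [mv_mul, mv_inv_cancel, mv_smul, hκ, smul_smul] at h2
    exact h2
  have hna : quadFormPlus 4 F (a0 : Fin 4 ⊕ Fin 4 → F) = 1 := nm_a0
  obtain ⟨lam, hlam⟩ := ul2
    (fun w => mv ⇑Q ((semiΩ ⇑Q g' σ' hg' ⟨s0 Q hq, s0_mem Q hq hQ⟩ : ↥(Omega F ⇑Q)) :
      ↥(isometryGroup F ⇑Q)) (om w (cj a0)))
    (fun v => (c * t) • mv ⇑Q g₃ (mv ⇑Q (s0 Q hq)⁻¹ v)) (by
      intro u v
      have hx : om (om u a0) (cj (a0 : Fin 4 ⊕ Fin 4 → F)) = u := by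
        rw [om_om_cj, hna, one_smul]
      have hy : om a0 (om (mv ⇑Q (s0 Q hq)⁻¹ v) a0) = v := by
        rw [← mv_s0 Q hq, mv_inv_cancel]
      have hm := moufang_right (a0 : Fin 4 ⊕ Fin 4 → F) (om u a0) (mv ⇑Q (s0 Q hq)⁻¹ v)
      rw [hx, hy, hna, one_smul] at hm
      show mv ⇑Q ((semiΩ ⇑Q g' σ' hg' ⟨s0 Q hq, s0_mem Q hq hQ⟩ : ↥(Omega F ⇑Q)) :
        ↥(isometryGroup F ⇑Q)) (om (om u v) (cj a0)) =
          om u ((c * t) • mv ⇑Q g₃ (mv ⇑Q (s0 Q hq)⁻¹ v))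
      rw [hm, om_om_cj, hna, one_smul, htri' (om u a0) (mv ⇑Q (s0 Q hq)⁻¹ v), hω', hx,
        om_smul_left, om_smul_right])
  have hfin : ∀ x, mv ⇑Q ((semiΩ ⇑Q g' σ' hg' ⟨s0 Q hq, s0_mem Q hq hQ⟩ : ↥(Omega F ⇑Q)) :
      ↥(isometryGroup F ⇑Q)) x = lam • (x + om x n0) := by
    intro x
    have h1 := hlam (om x a0)
    rw [om_om_cj, hna, one_smul] at h1
    rw [h1, om_a0_right]
  exact not_scalar_unip Q _ (rk2_semi Q g' σ' hg' ⟨s0 Q hq, s0_mem Q hq hQ⟩ (rk2_s0 Q hq))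
    (fun x => om x n0) om_n0_n0_right (Sum.inl 1) (Sum.inr 0) (Sum.inr 3) (by decide) (by decide)
    (by decide) _ _ _ 1 (-1) 1 one_ne_zero (by norm_num) one_ne_zero om_l0_n0 om_r1_n0 om_l2_n0
    lam hfin

end NotSemi

end Cfsg.Agent.Helper45.Oct
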