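import Cfsg.Agent.Helper45.OctD
import Cfsg.Agent.Helper45.IDGeom

set_option autoImplicit false
set_option linter.unusedSectionVars false
set_option linter.unusedSimpArgs false
set_option linter.unusedVariables false
set_option linter.style.haveILetI false
set_option linter.unreachableTactic false
set_option linter.unusedTactic false

/-!
Helper library (helper45), triality, part E: in dimension eight (hyperbolic type), an
automorphism of `PΩ` which maps one pair of concurrent non-orthogonal lines to a pair of concurrent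
lines is induced by a semisimilarity.
-/

universe u

namespace Cfsg.Agent.Helper45.Oct

open Cfsg Matrix Module Cfsg.Agent.Helper45.AO Cfsg.Agent.Helper45.OO

section Geo

variable {ι : Type} [Fintype ι] [DecidableEq ι] {F : Type u} [Field F] [Fintype F]
  (Q : QuadraticForm F (ι → F))

/-- no totally singular subspace spanned by three vectors is maximal -/
def PT : Prop := ∀ e u w : ι → F, Q e = 0 → Q u = 0 → Q w = 0 →
  QuadraticMap.polar ⇑Q e u = 0 → QuadraticMap.polar ⇑Q e w = 0 → QuadraticMap.polar ⇑Q u w = 0 →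
    ∃ z : ι → F, Q z = 0 ∧ QuadraticMap.polar ⇑Q e z = 0 ∧ QuadraticMap.polar ⇑Q u z = 0 ∧
      QuadraticMap.polar ⇑Q w z = 0 ∧ z ∉ Submodule.span F {e, u, w}

theorem pt_of_half (hQ : (QuadraticMap.polarBilin Q).Nondegenerate)
    (E : Submodule F (ι → F)) (hE : ∀ w ∈ E, Q w = 0)
    (hdim : 2 * Module.finrank F E = Fintype.card ι) (h8 : 8 ≤ Fintype.card ι) : PT Q := by
  intro e u w he hu hw heu hew huw
  by_contra hcon
  push Not at hcon
  have hTts : ∀ x ∈ Submodule.span F {e, u, w}, Q x = 0 := by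
    intro x hx
    obtain ⟨a, b, c, rfl⟩ := Submodule.mem_span_triple.mp hx
    rw [Helper13.Q_add', Helper13.Q_add', QuadraticMap.map_smul, QuadraticMap.map_smul,
      QuadraticMap.map_smul, he, hu, hw, QuadraticMap.polar_smul_left,
      QuadraticMap.polar_smul_right, heu, QuadraticMap.polar_add_left,
      QuadraticMap.polar_smul_left, QuadraticMap.polar_smul_left, QuadraticMap.polar_smul_right,
      QuadraticMap.polar_smul_right, hew, huw]
    simp
  have hmax : IsMaxTotallySingular ⇑Q (Submodule.span F {e, u, w}) := by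
    refine ⟨hTts, fun W hW hle => ?_⟩
    apply le_antisymm _ hle
    intro z hz
    have hpol := ts_polar Q W hW
    exact hcon z (hW z hz) (hpol e (hle (Submodule.subset_span (by simp))) z hz)
      (hpol u (hle (Submodule.subset_span (by simp))) z hz)
      (hpol w (hle (Submodule.subset_span (by simp))) z hz)
  obtain ⟨h, hh⟩ := ID.exists_iso_of_max Q hQ E hE hdim _ hmax
  have h1 : finrank F (Submodule.span F {e, u, w}) = finrank F E := by
    rw [← hh, finrank_imgSub]
  have h2 : finrank F (Submodule.span F {e, u, w}) ≤ 3 := by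
    have h := finrank_range_le_card (R := F) ![e, u, w]
    have hle : Submodule.span F {e, u, w} ≤ Submodule.span F (Set.range ![e, u, w]) := by
      rw [Submodule.span_le]
      intro x hx
      simp only [Set.mem_insert_iff, Set.mem_singleton_iff] at hx
      rcases hx with rfl | rfl | rfl
      · exact Submodule.subset_span ⟨0, rfl⟩
      · exact Submodule.subset_span ⟨1, rfl⟩
      · exact Submodule.subset_span ⟨2, rfl⟩
    have h3 := Submodule.finrank_mono hle
    simp only [Set.finrank, Fintype.card_fin] at h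
    omega
  omega

/-- an element of `Ω` moving a given singular point -/
theorem exists_omega_move (hQ : (QuadraticMap.polarBilin Q).Nondegenerate)
    (hn : 5 ≤ Fintype.card ι) (e : ι → F) (he : Q e = 0) (he0 : e ≠ 0) :
    ∃ k ∈ Omega F ⇑Q, ∀ t : F, mv ⇑Q k e ≠ t • e := by
  obtain ⟨u, v, hu, hv, heu, hev, huv, hue⟩ := exists_pair_perp Q hQ hn e he0
  have heu' : ∀ t : F, e ≠ t • u := by
    intro t h
    have ht : t ≠ 0 := by
      rintro rfl
      rw [zero_smul] at h
      exact he0 h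
    apply hue t⁻¹
    rw [h, smul_smul, inv_mul_cancel₀ ht, one_smul]
  obtain ⟨b, hub, heb⟩ := exists_perp_not_perp Q hQ u e heu'
  refine ⟨eichO Q u b hu hub, eichO_mem_omega Q hQ hn u b hu hub, fun t h => ?_⟩
  rw [mv_eichO, eich_apply, QuadraticMap.polar_comm ⇑Q u e, heu, mul_zero, sub_zero, zero_smul,
    sub_zero] at h
  have h2 : QuadraticMap.polar ⇑Q b e • u = (t - 1) • e := by
    rw [sub_smul, one_smul, ← h]
    abel
  have hbe : QuadraticMap.polar ⇑Q b e ≠ 0 := by
    rw [QuadraticMap.polar_comm]; exact heb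
  apply hue ((QuadraticMap.polar ⇑Q b e)⁻¹ * (t - 1))
  rw [mul_smul, ← h2, smul_smul, inv_mul_cancel₀ hbe, one_smul]

/-- if an automorphism maps the star of one singular point onto the star of a singular point, it
permutes the stars of all singular points -/
theorem star_all_of_one (hQ : (QuadraticMap.polarBilin Q).Nondegenerate)
    (hn : 5 ≤ Fintype.card ι) (α : POmega F ⇑Q ≃* POmega F ⇑Q) (e₀ e₁ : ι → F)
    (he₀ : Q e₀ = 0) (he₁ : Q e₁ = 0) (he₀0 : e₀ ≠ 0) (he₁0 : e₁ ≠ 0)
    (h : (Ub Q e₀ he₀).map α.toMonoidHom = Ub Q e₁ he₁) :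
    ∀ (e : ι → F) (he : Q e = 0), e ≠ 0 → ∃ (e' : ι → F) (he' : Q e' = 0), e' ≠ 0 ∧
      (Ub Q e he).map α.toMonoidHom = Ub Q e' he' := by
  intro e he he0
  obtain ⟨k, hk, hku⟩ := exists_omega_move Q hQ hn e₀ he₀ he₀0
  obtain ⟨k', hk', t, ht, hkt⟩ := trans_of_stab Q hQ hn (Omega F ⇑Q) e₀ he₀ (fun g hg _ => hg) k hk
    hku e he he0
  obtain ⟨k₁, hk₁⟩ := piΩ_surjective Q (α (piΩ Q ⟨k', hk'⟩))
  have hu' : Q (mv ⇑Q k' e₀) = 0 := by rw [mv_quad ⇑Q k']; exact he₀
  have hu₁' : Q (mv ⇑Q (k₁ : ↥(isometryGroup F ⇑Q)) e₁) = 0 := by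
    rw [mv_quad ⇑Q (k₁ : ↥(isometryGroup F ⇑Q))]; exact he₁
  have h1 := ub_image Q α ⟨k', hk'⟩ k₁ hk₁.symm e₀ e₁ he₀ he₁ h hu' hu₁'
  have hte : Q (t • e) = 0 := by rw [← hkt]; exact hu'
  have h2 : Ub Q (mv ⇑Q k' e₀) hu' = Ub Q e he := by
    unfold Ub
    rw [eichSub_congr Q _ _ hu' hte hkt, eichSub_smul Q e he t ht hte]
  refine ⟨mv ⇑Q (k₁ : ↥(isometryGroup F ⇑Q)) e₁, hu₁', ?_, ?_⟩
  · intro h0
    apply he₁0
    have h3 := mv_inv_cancel' Q (k₁ : ↥(isometryGroup F ⇑Q)) e₁
    rw [h0] at h3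
    rw [← h3]
    exact Matrix.mulVec_zero _
  · rw [← h2]
    exact h1

/-- an automorphism which permutes the stars of the singular points is induced by a
semisimilarity -/
theorem aut_induced_of_star (hQ : (QuadraticMap.polarBilin Q).Nondegenerate)
    (hn7 : 7 ≤ Fintype.card ι) (α : POmega F ⇑Q ≃* POmega F ⇑Q)
    (hstar : ∀ (e : ι → F) (he : Q e = 0), e ≠ 0 →
      ∃ (e' : ι → F) (he' : Q e' = 0), e' ≠ 0 ∧ (Ub Q e he).map α.toMonoidHom = Ub Q e' he') :
    ∃ (g : GL ι F) (σ : F ≃+* F),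
      IsSemisimilarityPair ⇑Q g σ ∧ IsInducedBySemilinearPOmega ⇑Q g σ α := by
  have hn : 5 ≤ Fintype.card ι := by omega
  have : CharP F (ringChar F) := ringChar.charP F
  have : Fact (ringChar F).Prime := ⟨CharP.char_is_prime F (ringChar F)⟩
  obtain ⟨e, he, he0⟩ := exists_sing_ne_zero Q hn
  obtain ⟨f, hf, hef⟩ := Helper43.exists_hyperbolic_pair Q
    (Helper43.polarNondeg_of_nondegenerate Q hQ) he0 he
  obtain ⟨e₁, f₁, fr⟩ := exists_frame Q hQ hn (ringChar F) α hstar e f he hf hef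
  obtain ⟨φ, hφ⟩ := exists_xmap Q hQ hn fr
  obtain ⟨φ', hφ'⟩ := exists_xmap Q hQ hn fr.symm
  obtain ⟨ψ, hψ⟩ := exists_xmap Q hQ hn fr.swap
  obtain ⟨ψ', hψ'⟩ := exists_xmap Q hQ hn fr.swap.symm
  obtain ⟨σ, hσ⟩ := xmap_semilinear (ringChar F) hn7 fr hφ hφ'
  obtain ⟨τ, hτ⟩ := xmap_semilinear (ringChar F) hn7 fr.swap hψ hψ'
  have hστ := xmap_sigma_eq (ringChar F) hn7 fr hφ hψ σ τ hσ hτ
  have hτ' : ∀ k : ι → F, QuadraticMap.polar ⇑Q f k = 0 → QuadraticMap.polar ⇑Q e k = 0 →
      ∀ t : F, ψ (t • k) = σ t • ψ k := by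
    intro k hk hk' t
    rw [hστ t]
    exact hτ k hk hk' t
  obtain ⟨c, hc0, hcone⟩ := xmap_cone (ringChar F) hn7 fr hφ σ hσ
  have hψeq := xmap_psi (ringChar F) hn7 fr hφ hφ' hψ σ hσ hτ' c hc0 hcone
  obtain ⟨g, h1, h2⟩ := induced_of_maps Q hQ hn α e f e₁ f₁ fr.he fr.hf fr.hef fr.he₁ fr.hf₁ fr.hef₁
    φ σ c hc0
    (fun h h' a b c' d => xmap_add (ringChar F) fr hφ h h' a b c' d)
    hσ
    (fun h a b => ⟨(hφ h a b).1, (hφ h a b).2.1⟩)
    hcone
    (fun h hh hh' hfh => (hφ h hh hfh).2.2 fr.he fr.he₁ hh hh')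
    (fun k hk hk' hek => by
      have h3 := (hψ k hk hek).2.2 fr.hf fr.hf₁ hk (hψ k hk hek).1
      rw [h3]
      congr 1
      exact eichΩ_congr Q hQ hn f₁ _ _ fr.hf₁ _ _ (hψeq k hek hk))
  exact ⟨g, σ, h1, h2⟩

/-- the key step: the star of the common point of a pair of concurrent non-orthogonal lines is
mapped into the star of a common point of the images, if these are concurrent -/
theorem star_le_of_cpair (hQ : (QuadraticMap.polarBilin Q).Nondegenerate)
    (hn8 : 8 ≤ Fintype.card ι) (hPT : PT Q) (p : ℕ) [Fact p.Prime] [CharP F p]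
    (α : POmega F ⇑Q ≃* POmega F ⇑Q) (L M L' M' : Submodule F (ι → F))
    (hL : IsLine Q L) (hM : IsLine Q M) (hL' : IsLine Q L') (hM' : IsLine Q M')
    (hLeq : (XLb Q L).map α.toMonoidHom = XLb Q L')
    (hMeq : (XLb Q M).map α.toMonoidHom = XLb Q M') (hnperp : ¬ Perp Q L M)
    (e : ι → F) (he0 : e ≠ 0) (heL : e ∈ L) (heM : e ∈ M)
    (e' : ι → F) (he'0 : e' ≠ 0) (he'L : e' ∈ L') (he'M : e' ∈ M')
    (he : Q e = 0) (he' : Q e' = 0) :
    (Ub Q e he).map α.toMonoidHom ≤ Ub Q e' he' := by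
  have hn : 5 ≤ Fintype.card ι := by omega
  have hee : QuadraticMap.polar ⇑Q e e = 0 := polar_self_zero Q e he
  obtain ⟨u, hTu, hLu⟩ := line_basis_of_mem Q L hL e heL he0
  obtain ⟨v₀, hTv₀, hMv₀⟩ := line_basis_of_mem Q M hM e heM he0
  have hu : Q u = 0 := hTu.2.1
  have heu : QuadraticMap.polar ⇑Q e u = 0 := hTu.2.2.1
  have hev₀ : QuadraticMap.polar ⇑Q e v₀ = 0 := hTv₀.2.2.1
  have huv₀ : QuadraticMap.polar ⇑Q u v₀ ≠ 0 := by
    intro h
    apply hnperp
    rw [hLu, hMv₀]
    exact perp_of_basis Q e u e v₀ hee hev₀ (by rw [QuadraticMap.polar_comm]; exact heu) h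
  -- normalise the second vector
  obtain ⟨v, hvdef⟩ : ∃ v, v = (QuadraticMap.polar ⇑Q u v₀)⁻¹ • v₀ := ⟨_, rfl⟩
  have hv : Q v = 0 := by
    rw [hvdef, QuadraticMap.map_smul, hTv₀.2.1, smul_zero]
  have huv : QuadraticMap.polar ⇑Q u v = 1 := by
    rw [hvdef, QuadraticMap.polar_smul_right, smul_eq_mul, inv_mul_cancel₀ huv₀]
  have hev : QuadraticMap.polar ⇑Q e v = 0 := by
    rw [hvdef, QuadraticMap.polar_smul_right, hev₀, smul_zero]
  have hMv : M = Submodule.span F {e, v} := by
    rw [hMv₀]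
    apply le_antisymm
    · rw [Submodule.span_le]
      intro x hx
      simp only [Set.mem_insert_iff, Set.mem_singleton_iff] at hx
      rcases hx with rfl | rfl
      · exact Submodule.subset_span (by simp)
      · have h1 : x = QuadraticMap.polar ⇑Q u x • v := by
          rw [hvdef, smul_smul, mul_inv_cancel₀ huv₀, one_smul]
        rw [h1]
        exact Submodule.smul_mem _ _ (Submodule.subset_span (by simp))
    · rw [Submodule.span_le]
      intro x hx
      simp only [Set.mem_insert_iff, Set.mem_singleton_iff] at hx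
      rcases hx with rfl | rfl
      · exact Submodule.subset_span (by simp)
      · rw [hvdef]
        exact Submodule.smul_mem _ _ (Submodule.subset_span (by simp))
  -- a hyperbolic partner of `e` orthogonal to `u` and `v`
  have hR1 : Retr Q ((⊤ : Submodule F (ι → F)) ⊓ perpSub Q u ⊓ perpSub Q v) :=
    (retr_top Q).pair u v hu hv huv Submodule.mem_top Submodule.mem_top
  have heW1 : e ∈ (⊤ : Submodule F (ι → F)) ⊓ perpSub Q u ⊓ perpSub Q v := by
    rw [Submodule.mem_inf, Submodule.mem_inf, mem_perpSub, mem_perpSub]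
    exact ⟨⟨Submodule.mem_top, by rw [QuadraticMap.polar_comm]; exact heu⟩,
      by rw [QuadraticMap.polar_comm]; exact hev⟩
  obtain ⟨f, hfW1, hf, hef, -⟩ := Retr.partner hQ hR1 e 0 he heW1 (Submodule.zero_mem _)
    (fun t => by rw [smul_zero]; exact he0) (by simp [QuadraticMap.polar])
  rw [Submodule.mem_inf, Submodule.mem_inf, mem_perpSub, mem_perpSub] at hfW1
  have huf : QuadraticMap.polar ⇑Q u f = 0 := hfW1.1.2
  have hvf : QuadraticMap.polar ⇑Q v f = 0 := hfW1.2
  -- the four-dimensional complement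
  have hRW : Retr Q (HH Q e f ⊓ perpSub Q u ⊓ perpSub Q v) :=
    (retr_HH Q e f he hf hef).pair u v hu hv huv ((mem_HH Q e f u).mpr ⟨heu, by
      rw [QuadraticMap.polar_comm]; exact huf⟩) ((mem_HH Q e f v).mpr ⟨hev, by
      rw [QuadraticMap.polar_comm]; exact hvf⟩)
  have hfr : 4 ≤ finrank F ↥(HH Q e f ⊓ perpSub Q u ⊓ perpSub Q v) := by
    have h1 := finrank_HH_ge Q e f
    have h2 := finrank_pair_ge Q (HH Q e f) u v
    omega
  have hmemW : ∀ z, z ∈ HH Q e f ⊓ perpSub Q u ⊓ perpSub Q v ↔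
      QuadraticMap.polar ⇑Q e z = 0 ∧ QuadraticMap.polar ⇑Q f z = 0 ∧
        QuadraticMap.polar ⇑Q u z = 0 ∧ QuadraticMap.polar ⇑Q v z = 0 := by
    intro z
    rw [Submodule.mem_inf, Submodule.mem_inf, mem_perpSub, mem_perpSub, mem_HH, and_assoc,
      and_assoc]
  -- good lines
  obtain ⟨G, hG⟩ : ∃ G : Submodule F (ι → F) → Prop, ∀ N, G N ↔
      ∃ N', IsLine Q N' ∧ (XLb Q N).map α.toMonoidHom = XLb Q N' ∧ e' ∈ N' := ⟨_, fun _ => Iff.rfl⟩
  have hGL : G L := (hG L).mpr ⟨L', hL', hLeq, he'L⟩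
  have hGM : G M := (hG M).mpr ⟨M', hM', hMeq, he'M⟩
  have rule : ∀ N₁ N₂ N : Submodule F (ι → F), IsLine Q N₁ → IsLine Q N₂ → IsLine Q N → G N₁ →
      G N₂ → N₁ ≠ N₂ → ¬ R0g Q N₁ N₂ → R0g Q N N₁ → R0g Q N N₂ → G N := by
    intro N₁ N₂ N hN₁ hN₂ hN hG₁ hG₂ hne hnr hr1 hr2
    obtain ⟨N₁', hN₁', h1, he1⟩ := (hG N₁).mp hG₁
    obtain ⟨N₂', hN₂', h2, he2⟩ := (hG N₂).mp hG₂
    obtain ⟨N', hN', h3⟩ := line_image Q hQ hn p α N hN
    refine (hG N).mpr ⟨N', hN', h3, ?_⟩
    have hne' : N₁' ≠ N₂' := by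
      intro h
      apply hne
      apply XLb_inj Q hQ hn p _ _ hN₁ hN₂
      apply (map_inj_iff Q α _ _).mp
      rw [h1, h2, h]
    have hnp' : ¬ Perp Q N₁' N₂' := by
      intro h
      exact hnr ((r0g_image Q hQ hn p α N₁ N₂ N₁' N₂' hN₁ hN₂ hN₁' hN₂' h1 h2).mp
        ⟨hne', ⟨e', he'0, he1, he2⟩, h⟩)
    have hm1 := ((r0g_image Q hQ hn p α N N₁ N' N₁' hN hN₁ hN' hN₁' h3 h1).mpr hr1).2.1
    have hm2 := ((r0g_image Q hQ hn p α N N₂ N' N₂' hN hN₂ hN' hN₂' h3 h2).mpr hr2).2.1
    exact star_lemma Q N₁' N₂' N' hN₁' hN₂' hN' e' he'0 he1 he2 hnp' hm1 hm2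
  have hLM : L ≠ M := by
    rintro rfl
    exact hnperp (fun x hx y hy => hL.perp hx hy)
  have hnr0 : ¬ R0g Q L M := fun h => hnperp h.2.2
  have heS : ∀ x : ι → F, e ∈ Submodule.span F {e, x} := fun x =>
    Submodule.subset_span (by simp)
  have hxS : ∀ x : ι → F, x ∈ Submodule.span F {e, x} := fun x =>
    Submodule.subset_span (by simp)
  -- round one: the lines spanned by `e` and a singular vector of the complement
  have round1 : ∀ w : ι → F, w ∈ HH Q e f ⊓ perpSub Q u ⊓ perpSub Q v → Q w = 0 → w ≠ 0 →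
      IsLine Q (Submodule.span F {e, w}) ∧ G (Submodule.span F {e, w}) := by
    intro w hwW hw hw0
    obtain ⟨hew, hfw, huw, hvw⟩ := (hmemW w).mp hwW
    have hwe : ∀ t : F, w ≠ t • e := by
      intro t h
      have ht : t = 0 := by
        have h1 := hfw
        rw [h, QuadraticMap.polar_smul_right, QuadraticMap.polar_comm, hef, smul_eq_mul,
          mul_one] at h1
        exact h1
      rw [ht, zero_smul] at h
      exact hw0 h
    have hNw : IsLine Q (Submodule.span F {e, w}) := ⟨e, w, tsp_of_perp Q e w he hw hew he0 hwe, rfl⟩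
    refine ⟨hNw, rule L M _ hL hM hNw hGL hGM hLM hnr0 ⟨?_, ⟨e, he0, heS w, heL⟩, ?_⟩
      ⟨?_, ⟨e, he0, heS w, heM⟩, ?_⟩⟩
    · intro h
      have hwL : w ∈ L := by rw [← h]; exact hxS w
      rw [hLu] at hwL
      obtain ⟨a, b, hab⟩ := mem_pair.mp hwL
      have hb : b = 0 := by
        have h1 := hvw
        rw [← hab, QuadraticMap.polar_add_right, QuadraticMap.polar_smul_right,
          QuadraticMap.polar_smul_right, QuadraticMap.polar_comm ⇑Q v e, hev,
          QuadraticMap.polar_comm ⇑Q v u, huv] at h1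
        simpa using h1
      exact hwe a (by rw [← hab, hb, zero_smul, add_zero])
    · rw [hLu]
      exact perp_of_basis Q e w e u hee heu (by rw [QuadraticMap.polar_comm]; exact hew)
        (by rw [QuadraticMap.polar_comm]; exact huw)
    · intro h
      have hwM : w ∈ M := by rw [← h]; exact hxS w
      rw [hMv] at hwM
      obtain ⟨a, b, hab⟩ := mem_pair.mp hwM
      have hb : b = 0 := by
        have h1 := huw
        rw [← hab, QuadraticMap.polar_add_right, QuadraticMap.polar_smul_right,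
          QuadraticMap.polar_smul_right, QuadraticMap.polar_comm ⇑Q u e, heu, huv] at h1
        simpa using h1
      exact hwe a (by rw [← hab, hb, zero_smul, add_zero])
    · rw [hMv]
      exact perp_of_basis Q e w e v hee hev (by rw [QuadraticMap.polar_comm]; exact hew)
        (by rw [QuadraticMap.polar_comm]; exact hvw)
  -- two non-orthogonal singular vectors of the complement orthogonal to a given vector
  have pair : ∀ w : ι → F, w ∈ HH Q e f ⊓ perpSub Q u ⊓ perpSub Q v →
      ∃ x y : ι → F, x ∈ HH Q e f ⊓ perpSub Q u ⊓ perpSub Q v ∧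
        y ∈ HH Q e f ⊓ perpSub Q u ⊓ perpSub Q v ∧ Q x = 0 ∧ Q y = 0 ∧
        QuadraticMap.polar ⇑Q x w = 0 ∧ QuadraticMap.polar ⇑Q y w = 0 ∧
        QuadraticMap.polar ⇑Q x y ≠ 0 := by
    intro w hwW
    obtain ⟨x, hxW, hx, hxw, hxne⟩ : ∃ x : ι → F, x ∈ HH Q e f ⊓ perpSub Q u ⊓ perpSub Q v ∧
        Q x = 0 ∧ QuadraticMap.polar ⇑Q x w = 0 ∧ ∀ t : F, x ≠ t • w := by
      by_cases hcase : w ≠ 0 ∧ Q w = 0
      · obtain ⟨hw0, hw⟩ := hcase
        obtain ⟨hew, hfw, huw, hvw⟩ := (hmemW w).mp hwW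
        obtain ⟨z, hz, hez, huz, hwz, hzT⟩ := hPT e u w he hu hw heu hew huw
        have hze : QuadraticMap.polar ⇑Q z e = 0 := by rw [QuadraticMap.polar_comm]; exact hez
        have hzu : QuadraticMap.polar ⇑Q z u = 0 := by rw [QuadraticMap.polar_comm]; exact huz
        have hzw : QuadraticMap.polar ⇑Q z w = 0 := by rw [QuadraticMap.polar_comm]; exact hwz
        have hfe : QuadraticMap.polar ⇑Q f e = 1 := by rw [QuadraticMap.polar_comm]; exact hef
        have hfu : QuadraticMap.polar ⇑Q f u = 0 := by rw [QuadraticMap.polar_comm]; exact huf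
        have hve : QuadraticMap.polar ⇑Q v e = 0 := by rw [QuadraticMap.polar_comm]; exact hev
        have hvu : QuadraticMap.polar ⇑Q v u = 1 := by rw [QuadraticMap.polar_comm]; exact huv
        have hue : QuadraticMap.polar ⇑Q u e = 0 := by rw [QuadraticMap.polar_comm]; exact heu
        have huu : QuadraticMap.polar ⇑Q u u = 0 := polar_self_zero Q u hu
        have hwe' : QuadraticMap.polar ⇑Q e w = 0 := hew
        refine ⟨z - QuadraticMap.polar ⇑Q f z • e - QuadraticMap.polar ⇑Q v z • u, ?_, ?_, ?_, ?_⟩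
        · rw [hmemW]
          refine ⟨?_, ?_, ?_, ?_⟩
          · rw [QuadraticMap.polar_sub_right, QuadraticMap.polar_sub_right,
              QuadraticMap.polar_smul_right, QuadraticMap.polar_smul_right, hez, hee, heu]
            simp
          · rw [QuadraticMap.polar_sub_right, QuadraticMap.polar_sub_right,
              QuadraticMap.polar_smul_right, QuadraticMap.polar_smul_right, hfe, hfu]
            simp
          · rw [QuadraticMap.polar_sub_right, QuadraticMap.polar_sub_right,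
              QuadraticMap.polar_smul_right, QuadraticMap.polar_smul_right, huz, hue, huu]
            simp
          · rw [QuadraticMap.polar_sub_right, QuadraticMap.polar_sub_right,
              QuadraticMap.polar_smul_right, QuadraticMap.polar_smul_right, hve, hvu]
            simp
        · rw [q_sub, q_sub, QuadraticMap.map_smul, QuadraticMap.map_smul, hz, he, hu,
            QuadraticMap.polar_smul_right, hze, QuadraticMap.polar_sub_left,
            QuadraticMap.polar_smul_left, QuadraticMap.polar_smul_right,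
            QuadraticMap.polar_smul_right, hzu, heu]
          simp
        · rw [QuadraticMap.polar_sub_left, QuadraticMap.polar_sub_left,
            QuadraticMap.polar_smul_left, QuadraticMap.polar_smul_left, hzw, hew, huw]
          simp
        · intro t h
          apply hzT
          rw [Submodule.mem_span_triple]
          refine ⟨QuadraticMap.polar ⇑Q f z, QuadraticMap.polar ⇑Q v z, t, ?_⟩
          rw [← h]
          abel
      · have h3 : 3 ≤ finrank F ↥((HH Q e f ⊓ perpSub Q u ⊓ perpSub Q v) ⊓ perpSub Q w) := by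
          have := finrank_inf_perpSub_ge Q (HH Q e f ⊓ perpSub Q u ⊓ perpSub Q v) w
          omega
        obtain ⟨x, hxW3, hx0, hx⟩ := exists_sing_in Q _ h3
        rw [Submodule.mem_inf, mem_perpSub] at hxW3
        refine ⟨x, hxW3.1, hx, by rw [QuadraticMap.polar_comm]; exact hxW3.2, ?_⟩
        intro t h
        by_cases hw0 : w = 0
        · rw [hw0, smul_zero] at h
          exact hx0 h
        · have hQw : Q w ≠ 0 := fun hh => hcase ⟨hw0, hh⟩
          have ht : t = 0 := by
            rw [h, QuadraticMap.map_smul, smul_eq_mul] at hx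
            rcases mul_eq_zero.mp hx with h1 | h1
            · exact mul_self_eq_zero.mp h1
            · exact absurd h1 hQw
          rw [ht, zero_smul] at h
          exact hx0 h
    obtain ⟨pr, hp1, hp2⟩ := hRW
    obtain ⟨y₀, hwy₀, hxy₀⟩ := exists_perp_not_perp Q hQ w x hxne
    have h1 : QuadraticMap.polar ⇑Q w (pr y₀) = 0 := by rw [hp2 w hwW]; exact hwy₀
    have h2 : QuadraticMap.polar ⇑Q x (pr y₀) ≠ 0 := by rw [hp2 x hxW]; exact hxy₀
    obtain ⟨hy, hxy⟩ := sing_adjust Q x (pr y₀) hx h2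
    refine ⟨x, pr y₀ - (Q (pr y₀) / QuadraticMap.polar ⇑Q x (pr y₀)) • x, hxW,
      Submodule.sub_mem _ (hp1 y₀) (Submodule.smul_mem _ _ hxW), hx, hy, hxw, ?_, by
        rw [hxy]; exact h2⟩
    rw [QuadraticMap.polar_sub_left, QuadraticMap.polar_smul_left,
      QuadraticMap.polar_comm ⇑Q (pr y₀) w, h1, hxw]
    simp
  -- round two: all lines through `e`
  have hall : ∀ N : Submodule F (ι → F), IsLine Q N → e ∈ N → G N := by
    intro N hN heN
    obtain ⟨n, hTn, hNn⟩ := line_basis_of_mem Q N hN e heN he0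
    have hen : QuadraticMap.polar ⇑Q e n = 0 := hTn.2.2.1
    obtain ⟨pr, hp1, hp2⟩ := hRW
    obtain ⟨x, y, hxW, hyW, hx, hy, hxw, hyw, hxy⟩ := pair (pr n) (hp1 n)
    have hxn : QuadraticMap.polar ⇑Q x n = 0 := by rw [← hp2 x hxW n]; exact hxw
    have hyn : QuadraticMap.polar ⇑Q y n = 0 := by rw [← hp2 y hyW n]; exact hyw
    have hx0 : x ≠ 0 := by
      rintro rfl
      apply hxy
      simp [QuadraticMap.polar]
    have hy0 : y ≠ 0 := by
      rintro rfl
      apply hxy
      simp [QuadraticMap.polar]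
    obtain ⟨hNx, hGx⟩ := round1 x hxW hx hx0
    obtain ⟨hNy, hGy⟩ := round1 y hyW hy hy0
    have hex : QuadraticMap.polar ⇑Q e x = 0 := ((hmemW x).mp hxW).1
    have hey : QuadraticMap.polar ⇑Q e y = 0 := ((hmemW y).mp hyW).1
    by_cases h1 : N = Submodule.span F {e, x}
    · rw [h1]; exact hGx
    by_cases h2 : N = Submodule.span F {e, y}
    · rw [h2]; exact hGy
    refine rule _ _ N hNx hNy hN hGx hGy ?_ ?_ ⟨h1, ⟨e, he0, heN, heS x⟩, ?_⟩
      ⟨h2, ⟨e, he0, heN, heS y⟩, ?_⟩
    · intro h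
      apply hxy
      have hy' : y ∈ Submodule.span F {e, x} := by rw [h]; exact hxS y
      exact hNx.perp (hxS x) hy'
    · intro h
      exact hxy (h.2.2 x (hxS x) y (hxS y))
    · rw [hNn]
      exact perp_of_basis Q e n e x hee hex (by rw [QuadraticMap.polar_comm]; exact hen)
        (by rw [QuadraticMap.polar_comm]; exact hxn)
    · rw [hNn]
      exact perp_of_basis Q e n e y hee hey (by rw [QuadraticMap.polar_comm]; exact hen)
        (by rw [QuadraticMap.polar_comm]; exact hyn)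
  have key : eichSub Q e he ≤ ((Ub Q e' he').comap α.toMonoidHom).comap (piΩ Q) := by
    apply eichSub_le_of_XL Q hQ hn e he he0
    intro N hN heN
    obtain ⟨N', hN', hNeq, he'N⟩ := (hG N).mp (hall N hN heN)
    intro g hg
    rw [Subgroup.mem_comap, Subgroup.mem_comap]
    have h3 : α.toMonoidHom (piΩ Q g) ∈ (XLb Q N).map α.toMonoidHom :=
      Subgroup.mem_map_of_mem _ (Subgroup.mem_map_of_mem _ hg)
    rw [hNeq] at h3
    exact XLb_le_Ub Q hQ N' hN' e' he' he'N he'0 h3
  intro x hx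
  obtain ⟨y, hy, rfl⟩ := Subgroup.mem_map.mp hx
  obtain ⟨g, hg, rfl⟩ := Subgroup.mem_map.mp hy
  exact key hg

/-- **an automorphism mapping one pair of concurrent non-orthogonal lines to a pair of concurrent
lines is induced by a semisimilarity** -/
theorem semi_of_cpair (hQ : (QuadraticMap.polarBilin Q).Nondegenerate)
    (hn8 : 8 ≤ Fintype.card ι) (hPT : PT Q)
    (α : POmega F ⇑Q ≃* POmega F ⇑Q) (L M L' M' : Submodule F (ι → F))
    (hL : IsLine Q L) (hM : IsLine Q M) (hL' : IsLine Q L') (hM' : IsLine Q M')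
    (hLeq : (XLb Q L).map α.toMonoidHom = XLb Q L')
    (hMeq : (XLb Q M).map α.toMonoidHom = XLb Q M') (hmeet : Meet L M) (hnperp : ¬ Perp Q L M)
    (hmeet' : Meet L' M') : α ∈ semiSub Q := by
  have hn : 5 ≤ Fintype.card ι := by omega
  have : CharP F (ringChar F) := ringChar.charP F
  have : Fact (ringChar F).Prime := ⟨CharP.char_is_prime F (ringChar F)⟩
  obtain ⟨e, he0, heL, heM⟩ := hmeet
  obtain ⟨e', he'0, he'L, he'M⟩ := hmeet'
  have he : Q e = 0 := hL.sing heL
  have he' : Q e' = 0 := hL'.sing he'L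
  have hLM : L ≠ M := by
    rintro rfl
    exact hnperp (fun x hx y hy => hL.perp hx hy)
  have hLM' : L' ≠ M' := by
    intro h
    apply hLM
    apply XLb_inj Q hQ hn (ringChar F) _ _ hL hM
    apply (map_inj_iff Q α _ _).mp
    rw [hLeq, hMeq, h]
  have hnperp' : ¬ Perp Q L' M' := by
    intro h
    have h2 := (r0g_image Q hQ hn (ringChar F) α L M L' M' hL hM hL' hM' hLeq hMeq).mp
      ⟨hLM', ⟨e', he'0, he'L, he'M⟩, h⟩
    exact hnperp h2.2.2
  have h1 := star_le_of_cpair Q hQ hn8 hPT (ringChar F) α L M L' M' hL hM hL' hM' hLeq hMeq hnperp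
    e he0 heL heM e' he'0 he'L he'M he he'
  have hLeq' : (XLb Q L').map α.symm.toMonoidHom = XLb Q L := by
    rw [← hLeq, map_symm_map]
  have hMeq' : (XLb Q M').map α.symm.toMonoidHom = XLb Q M := by
    rw [← hMeq, map_symm_map]
  have h2 := star_le_of_cpair Q hQ hn8 hPT (ringChar F) α.symm L' M' L M hL' hM' hL hM hLeq' hMeq'
    hnperp' e' he'0 he'L he'M e he0 heL heM he' he
  have h3 : (Ub Q e he).map α.toMonoidHom = Ub Q e' he' := by
    apply le_antisymm h1
    have h4 := Subgroup.map_mono (f := α.toMonoidHom) h2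
    rw [map_map_symm] at h4
    exact h4
  have hstar := star_all_of_one Q hQ hn α e e' he he' he0 he'0 h3
  obtain ⟨g, σ, hg, hind⟩ := aut_induced_of_star Q hQ (by omega) α hstar
  exact ⟨g, σ, hg, (semi_ind_iff ⇑Q g σ hg α).mp hind⟩

end Geo

end Cfsg.Agent.Helper45.Oct
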