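import Cfsg.Agent.Helper45.OctH
import Cfsg.Agent.Helper33.OctPXS
import Cfsg.Agent.Helper88.OctPWD
import Cfsg.Agent.Helper73.OctPPD
import Cfsg.Agent.Helper20.OctPCP

set_option autoImplicit false
set_option linter.unusedSectionVars false
set_option linter.unusedSimpArgs false
set_option linter.unusedVariables false
set_option linter.style.haveILetI false
set_option linter.unreachableTactic false
set_option linter.unusedTactic false

/-!
Helper library (helper45), triality, part F: every automorphism of `PΩ⁺₈(q)` lies in one of the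
three cosets `P`, `θP`, `γθP` of the group `P` of automorphisms induced by semisimilarities.
-/

universe u

namespace Cfsg.Agent.Helper45.Oct

open Cfsg Matrix Module Cfsg.Agent.Helper45.AO Cfsg.Agent.Helper45.OO

section GenF

variable {ι : Type} [Fintype ι] [DecidableEq ι] {F : Type u} [Field F] [Fintype F]
  (Q : QuadraticForm F (ι → F))

theorem map_mul_aut (α β : MulAut (POmega F ⇑Q)) (A : Subgroup (POmega F ⇑Q)) :
    A.map (α * β).toMonoidHom = (A.map β.toMonoidHom).map α.toMonoidHom := by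
  rw [Subgroup.map_map]
  rfl

theorem map_inv_aut (α : MulAut (POmega F ⇑Q)) (A B : Subgroup (POmega F ⇑Q))
    (h : A.map α.toMonoidHom = B) : B.map (α⁻¹).toMonoidHom = A := by
  rw [← h]
  exact map_symm_map Q α A

/-- the image of a root group under the automorphism induced by an isometry -/
theorem xlb_ind (k : ↥(isometryGroup F ⇑Q)) (β : MulAut (POmega F ⇑Q))
    (hβ : Ind ⇑Q (k : GL ι F) β) (L L' : Submodule F (ι → F))
    (hLL' : ∀ x, mv ⇑Q k x ∈ L' ↔ x ∈ L) :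
    (XLb Q L).map β.toMonoidHom = XLb Q L' := by
  have hs : IsSemisimilarityPair ⇑Q (k : GL ι F) (RingEquiv.refl F) := iso_le_sim _ k.2
  rw [(semi_ind_iff ⇑Q _ _ hs β).mp hβ]
  apply Cfsg.Agent.Helper33.OctP.xlb_semi Q _ _ hs L L'
  intro x
  exact hLL' x

end GenF

section TriF

variable {F : Type u} [Field F] [Fintype F] (Q : QuadraticForm F (Fin 4 ⊕ Fin 4 → F))
  (hq : ⇑Q = quadFormPlus 4 F)

include hq in
/-- left multiplication by an invertible octonion, as a similarity -/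
theorem exists_lmul (hQ : (QuadraticMap.polarBilin Q).Nondegenerate)
    (a : Fin 4 ⊕ Fin 4 → F) (ha : Q a ≠ 0) :
    ∃ (g : GL (Fin 4 ⊕ Fin 4) F) (hg : IsSemisimilarityPair ⇑Q g (RingEquiv.refl F)),
      ∀ x, semiMap g (RingEquiv.refl F) x = om a x := by
  have hS : SS Q (om a) (RingEquiv.refl F) (Q a) :=
    ⟨om_add_right a, fun t x => om_smul_right t a x, fun x => by
      show Q (om a x) = Q a * Q x
      rw [hq]
      exact nm_om a x, ha⟩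
  obtain ⟨g, hg, h⟩ := exists_pair_of_SS Q hQ hS
  exact ⟨g, hg, h⟩

include hq in
/-- **triality conjugates left multiplication by an invertible octonion to the automorphism induced
by the product of two reflections** -/
theorem theta_conj_refl (hQ : (QuadraticMap.polarBilin Q).Nondegenerate)
    (θ : MulAut (POmega F ⇑Q))
    (hθ : ∀ (g₁ g₂ : ↥(Omega F ⇑Q)) (g₃ : ↥(isometryGroup F ⇑Q)),
      Tri Q (g₁ : ↥(isometryGroup F ⇑Q)) (g₂ : ↥(isometryGroup F ⇑Q)) g₃ →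
        θ (QuotientGroup.mk g₁) = QuotientGroup.mk g₂)
    (a : Fin 4 ⊕ Fin 4 → F) (ha : Q a ≠ 0) (β : MulAut (POmega F ⇑Q))
    (hβ : Ind ⇑Q ((reflO Q a ha * reflO Q one8 (q_one8_ne Q hq) : ↥(isometryGroup F ⇑Q)) :
      GL (Fin 4 ⊕ Fin 4) F) β)
    (g : GL (Fin 4 ⊕ Fin 4) F) (hg : IsSemisimilarityPair ⇑Q g (RingEquiv.refl F))
    (hga : ∀ x, semiMap g (RingEquiv.refl F) x = om a x) :
    θ * semiAut ⇑Q g (RingEquiv.refl F) hg = β * θ := by
  have hca : Q (cj a) ≠ 0 := by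
    rw [hq, nm_cj, ← hq]; exact ha
  obtain ⟨g', hg', hga'⟩ := exists_lmul Q hq hQ (cj a) hca
  obtain ⟨ρ, hρ⟩ : ∃ ρ : ↥(isometryGroup F ⇑Q),
      ρ = reflO Q a ha * reflO Q one8 (q_one8_ne Q hq) := ⟨_, rfl⟩
  rw [← hρ] at hβ
  have hρx : ∀ x, mv ⇑Q ρ x = (Q a)⁻¹ • om a (om x a) := by
    rw [hρ]; exact mv_refl_one Q hq a ha
  have key : ∀ x y, om a (om x y) = om (mv ⇑Q ρ x) (om (cj a) y) := by
    intro x y
    rw [hρx, om_smul_left, moufang_left, ← hq, smul_smul, inv_mul_cancel₀ ha, one_smul]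
  ext t
  obtain ⟨g₁, rfl⟩ := QuotientGroup.mk_surjective t
  obtain ⟨g₂, g₃, htri⟩ := exists_tri_omega Q hq hQ g₁
  rw [MulAut.mul_apply, MulAut.mul_apply, semiAut_mk, hθ g₁ g₂ g₃ htri]
  have hmem : ρ * (g₂ : ↥(isometryGroup F ⇑Q)) * ρ⁻¹ ∈ Omega F ⇑Q :=
    (inferInstance : (Omega F ⇑Q).Normal).conj_mem _ g₂.2 ρ
  rw [(ind_iff ⇑Q _ β).mp hβ g₂ ⟨ρ * g₂ * ρ⁻¹, hmem⟩ rfl]
  apply hθ _ _ (semiO ⇑Q g' (RingEquiv.refl F) hg' g₃)
  intro x y
  obtain ⟨x', rfl⟩ : ∃ x', mv ⇑Q ρ x' = x := ⟨mv ⇑Q ρ⁻¹ x, mv_inv_cancel Q ρ x⟩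
  obtain ⟨y', rfl⟩ : ∃ y', semiMap g' (RingEquiv.refl F) y' = y :=
    ⟨semiInv g' _ y, semiMap_semiInv g' _ y⟩
  have e1 : mv ⇑Q ((semiO ⇑Q g' (RingEquiv.refl F) hg' g₃ : ↥(isometryGroup F ⇑Q)))
      (semiMap g' (RingEquiv.refl F) y') = semiMap g' (RingEquiv.refl F) (mv ⇑Q g₃ y') := by
    show (((semiO ⇑Q g' (RingEquiv.refl F) hg' g₃ : ↥(isometryGroup F ⇑Q)) :
      GL (Fin 4 ⊕ Fin 4) F) : Matrix _ _ F) *ᵥ semiMap g' (RingEquiv.refl F) y' =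
        semiMap g' (RingEquiv.refl F) ((((g₃ : ↥(isometryGroup F ⇑Q)) :
          GL (Fin 4 ⊕ Fin 4) F) : Matrix _ _ F) *ᵥ y')
    rw [semiMap_mulVec, semiO_coe]
  have e2 : mv ⇑Q (ρ * (g₂ : ↥(isometryGroup F ⇑Q)) * ρ⁻¹) (mv ⇑Q ρ x') =
      mv ⇑Q ρ (mv ⇑Q (g₂ : ↥(isometryGroup F ⇑Q)) x') := by
    rw [mv_mul, mv_mul, mv_inv_cancel']
  show mv ⇑Q ((semiΩ ⇑Q g (RingEquiv.refl F) hg g₁ : ↥(Omega F ⇑Q)) : ↥(isometryGroup F ⇑Q))
      (om (mv ⇑Q ρ x') (semiMap g' (RingEquiv.refl F) y')) =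
    om (mv ⇑Q (ρ * (g₂ : ↥(isometryGroup F ⇑Q)) * ρ⁻¹) (mv ⇑Q ρ x'))
      (mv ⇑Q ((semiO ⇑Q g' (RingEquiv.refl F) hg' g₃ : ↥(isometryGroup F ⇑Q)))
        (semiMap g' (RingEquiv.refl F) y'))
  rw [e1, e2, hga' y', ← key x' y', ← hga (om x' y'), mv_semiΩ, htri x' y', hga, key, hga']

include hq in
/-- conjugating by triality the automorphism induced by a product of an even number of
reflections gives an automorphism induced by a semisimilarity -/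
theorem theta_conj_pair (hQ : (QuadraticMap.polarBilin Q).Nondegenerate)
    (θ : MulAut (POmega F ⇑Q))
    (hθ : ∀ (g₁ g₂ : ↥(Omega F ⇑Q)) (g₃ : ↥(isometryGroup F ⇑Q)),
      Tri Q (g₁ : ↥(isometryGroup F ⇑Q)) (g₂ : ↥(isometryGroup F ⇑Q)) g₃ →
        θ (QuotientGroup.mk g₁) = QuotientGroup.mk g₂)
    (k : ↥(isometryGroup F ⇑Q)) (hk : k ∈ Helper44.pairGroup Q) (β : MulAut (POmega F ⇑Q))
    (hβ : Ind ⇑Q (k : GL (Fin 4 ⊕ Fin 4) F) β) : θ⁻¹ * β * θ ∈ semiSub Q := by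
  let O₁ : Subgroup ↥(isometryGroup F ⇑Q) :=
    { carrier := {k | ∀ β : MulAut (POmega F ⇑Q), Ind ⇑Q (k : GL (Fin 4 ⊕ Fin 4) F) β →
        θ⁻¹ * β * θ ∈ semiSub Q}
      one_mem' := by
        intro β hβ
        have h1 : β = 1 := ind_eq_of_ind Q 1 (one_mem _) β 1 hβ (ind_one ⇑Q)
        rw [h1, mul_one, inv_mul_cancel]
        exact one_mem _
      mul_mem' := by
        intro x y hx hy β hβ
        have hxs : (x : GL (Fin 4 ⊕ Fin 4) F) ∈ Geo.quadSimilarityGroup (F := F) ⇑Q :=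
          iso_le_sim _ x.2
        have hys : (y : GL (Fin 4 ⊕ Fin 4) F) ∈ Geo.quadSimilarityGroup (F := F) ⇑Q :=
          iso_le_sim _ y.2
        have h1 := ind_indAut ⇑Q (x : GL (Fin 4 ⊕ Fin 4) F) hxs
        have h2 := ind_indAut ⇑Q (y : GL (Fin 4 ⊕ Fin 4) F) hys
        have h3 : β = indAut ⇑Q (x : GL (Fin 4 ⊕ Fin 4) F) hxs *
            indAut ⇑Q (y : GL (Fin 4 ⊕ Fin 4) F) hys :=
          ind_eq_of_ind Q _ (mul_mem hxs hys) _ _ hβ (ind_mul ⇑Q hys h1 h2)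
        have h4 := mul_mem (hx _ h1) (hy _ h2)
        rw [h3]
        have e : θ⁻¹ * (indAut ⇑Q (x : GL (Fin 4 ⊕ Fin 4) F) hxs *
            indAut ⇑Q (y : GL (Fin 4 ⊕ Fin 4) F) hys) * θ =
            θ⁻¹ * indAut ⇑Q (x : GL (Fin 4 ⊕ Fin 4) F) hxs * θ *
              (θ⁻¹ * indAut ⇑Q (y : GL (Fin 4 ⊕ Fin 4) F) hys * θ) := by group
        rw [e]
        exact h4
      inv_mem' := by
        intro x hx β hβ
        have hxs : (x : GL (Fin 4 ⊕ Fin 4) F) ∈ Geo.quadSimilarityGroup (F := F) ⇑Q :=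
          iso_le_sim _ x.2
        have h1 := ind_indAut ⇑Q (x : GL (Fin 4 ⊕ Fin 4) F) hxs
        have h3 : β = (indAut ⇑Q (x : GL (Fin 4 ⊕ Fin 4) F) hxs)⁻¹ :=
          ind_eq_of_ind Q _ (inv_mem hxs) _ _ hβ (ind_inv ⇑Q hxs h1)
        have h4 := inv_mem (hx _ h1)
        rw [h3]
        have e : θ⁻¹ * (indAut ⇑Q (x : GL (Fin 4 ⊕ Fin 4) F) hxs)⁻¹ * θ =
            (θ⁻¹ * indAut ⇑Q (x : GL (Fin 4 ⊕ Fin 4) F) hxs * θ)⁻¹ := by group
        rw [e]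
        exact h4 }
  have hgen : ∀ (a : Fin 4 ⊕ Fin 4 → F) (ha : Q a ≠ 0),
      reflO Q a ha * reflO Q one8 (q_one8_ne Q hq) ∈ O₁ := by
    intro a ha β hβ
    obtain ⟨g, hg, hga⟩ := exists_lmul Q hq hQ a ha
    have h1 := theta_conj_refl Q hq hQ θ hθ a ha β hβ g hg hga
    have e : θ⁻¹ * β * θ = semiAut ⇑Q g (RingEquiv.refl F) hg := by
      rw [mul_assoc, ← h1, inv_mul_cancel_left]
    rw [e]
    exact ⟨g, _, hg, rfl⟩
  have hle : Helper44.pairGroup Q ≤ O₁ := by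
    rw [Helper44.pairGroup, Subgroup.closure_le]
    rintro g ⟨a, b, ha, hb, rfl⟩
    have h1 := hgen a ha
    have h2 := O₁.inv_mem (hgen b hb)
    have h3 := O₁.mul_mem h1 h2
    have e : reflO Q a ha * reflO Q one8 (q_one8_ne Q hq) *
        (reflO Q b hb * reflO Q one8 (q_one8_ne Q hq))⁻¹ = reflO Q a ha * reflO Q b hb := by
      rw [_root_.mul_inv_rev, Helper44.reflO_inv, Helper44.reflO_inv, mul_assoc, ← mul_assoc (reflO Q one8 _),
        reflO_mul_self, one_mul]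
    rw [e] at h3
    exact h3
  exact hle hk β hβ

include hq in
/-- **the trichotomy**: every automorphism of `PΩ⁺₈(q)` lies in `P`, `θP` or `γθP` -/
theorem trichotomy (hQ : (QuadraticMap.polarBilin Q).Nondegenerate)
    (θ : MulAut (POmega F ⇑Q))
    (hθ : ∀ (g₁ g₂ : ↥(Omega F ⇑Q)) (g₃ : ↥(isometryGroup F ⇑Q)),
      Tri Q (g₁ : ↥(isometryGroup F ⇑Q)) (g₂ : ↥(isometryGroup F ⇑Q)) g₃ →
        θ (QuotientGroup.mk g₁) = QuotientGroup.mk g₂)
    (γ : MulAut (POmega F ⇑Q))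
    (hγ : Ind ⇑Q ((reflO Q one8 (q_one8_ne Q hq) : ↥(isometryGroup F ⇑Q)) :
      GL (Fin 4 ⊕ Fin 4) F) γ)
    (α : MulAut (POmega F ⇑Q)) :
    α ∈ semiSub Q ∨ θ⁻¹ * α ∈ semiSub Q ∨ θ⁻¹ * γ * α ∈ semiSub Q := by
  have hn : 5 ≤ Fintype.card (Fin 4 ⊕ Fin 4) := by
    rw [Fintype.card_sum, Fintype.card_fin]; norm_num
  have hn8 : 8 ≤ Fintype.card (Fin 4 ⊕ Fin 4) := by
    rw [Fintype.card_sum, Fintype.card_fin]
  have hPT : PT Q := pt_of_half Q hQ (ID.Eplus 4 F)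
    (fun w hw => by rw [hq]; exact ID.Eplus_ts w hw) ID.finrank_Eplus hn8
  have : CharP F (ringChar F) := ringChar.charP F
  have : Fact (ringChar F).Prime := ⟨CharP.char_is_prime F (ringChar F)⟩
  have hR : reflGroup Q = ⊤ := Helper44.reflGroup_eq_top_of Q hQ (Or.inr (by
    rw [Fintype.card_sum, Fintype.card_fin]; norm_num))
  obtain ⟨L, M, hL, hM, hmeet, hnperp⟩ := Cfsg.Agent.Helper20.OctP.exists_cpair Q hQ hn
  have hcomm : CommP Q (XLb Q L) (XLb Q M) :=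
    (commP_iff Q hQ hn (ringChar F) L M hL hM).mpr (Or.inl hmeet)
  -- the image of the pair under triality
  obtain ⟨L₁, hL₁, e1⟩ := line_image Q hQ hn (ringChar F) θ L hL
  obtain ⟨M₁, hM₁, e2⟩ := line_image Q hQ hn (ringChar F) θ M hM
  have hmeet₁ : ¬ Meet L₁ M₁ := fun h =>
    theta_not_semi Q hq hQ θ hθ
      (semi_of_cpair Q hQ hn8 hPT θ L M L₁ M₁ hL hM hL₁ hM₁ e1 e2 hmeet hnperp h)
  have hperp₁ : Perp Q L₁ M₁ := by
    have h1 : CommP Q (XLb Q L₁) (XLb Q M₁) := by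
      rw [← e1, ← e2]
      exact (commP_map_iff Q θ _ _).mpr hcomm
    rcases (commP_iff Q hQ hn (ringChar F) L₁ M₁ hL₁ hM₁).mp h1 with h | h
    · exact absurd h hmeet₁
    · exact h
  -- the image of the pair under `α`
  obtain ⟨L', hL', e1'⟩ := line_image Q hQ hn (ringChar F) α L hL
  obtain ⟨M', hM', e2'⟩ := line_image Q hQ hn (ringChar F) α M hM
  by_cases hm' : Meet L' M'
  · left
    exact semi_of_cpair Q hQ hn8 hPT α L M L' M' hL hM hL' hM' e1' e2' hmeet hnperp hm'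
  right
  have hperp' : Perp Q L' M' := by
    have h1 : CommP Q (XLb Q L') (XLb Q M') := by
      rw [← e1', ← e2']
      exact (commP_map_iff Q α _ _).mpr hcomm
    rcases (commP_iff Q hQ hn (ringChar F) L' M' hL' hM').mp h1 with h | h
    · exact absurd h hm'
    · exact h
  obtain ⟨k, hkL, hkM⟩ := Cfsg.Agent.Helper88.OctP.exists_iso_dpair Q hQ L₁ M₁ L' M' hL₁ hM₁ hL' hM' hmeet₁ hperp₁ hm' hperp'
  have hks : (k : GL (Fin 4 ⊕ Fin 4) F) ∈ Geo.quadSimilarityGroup (F := F) ⇑Q := iso_le_sim _ k.2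
  obtain ⟨βk, hβk⟩ : ∃ βk, βk = indAut ⇑Q (k : GL (Fin 4 ⊕ Fin 4) F) hks := ⟨_, rfl⟩
  have hβkI : Ind ⇑Q (k : GL (Fin 4 ⊕ Fin 4) F) βk := by
    rw [hβk]; exact ind_indAut ⇑Q _ hks
  have e3 : (XLb Q L).map (βk * θ).toMonoidHom = XLb Q L' := by
    rw [map_mul_aut, e1]
    exact xlb_ind Q k βk hβkI L₁ L' hkL
  have e4 : (XLb Q M).map (βk * θ).toMonoidHom = XLb Q M' := by
    rw [map_mul_aut, e2]
    exact xlb_ind Q k βk hβkI M₁ M' hkM
  obtain ⟨δ, hδ⟩ : ∃ δ, δ = (βk * θ)⁻¹ * α := ⟨_, rfl⟩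
  have e5 : (XLb Q L).map δ.toMonoidHom = XLb Q L := by
    rw [hδ, map_mul_aut, e1']
    exact map_inv_aut Q _ _ _ e3
  have e6 : (XLb Q M).map δ.toMonoidHom = XLb Q M := by
    rw [hδ, map_mul_aut, e2']
    exact map_inv_aut Q _ _ _ e4
  have hδP : δ ∈ semiSub Q :=
    semi_of_cpair Q hQ hn8 hPT δ L M L M hL hM hL hM e5 e6 hmeet hnperp hmeet
  have hα : α = βk * θ * δ := by
    rw [hδ]; group
  rcases Cfsg.Agent.Helper73.OctP.pair_dichotomy Q hR one8 (q_one8_ne Q hq) k with hk | hk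
  · left
    have h1 := theta_conj_pair Q hq hQ θ hθ k hk βk hβkI
    have e : θ⁻¹ * α = θ⁻¹ * βk * θ * δ := by
      rw [hα]; group
    rw [e]
    exact mul_mem h1 hδP
  · right
    have h0 : Ind ⇑Q ((reflO Q one8 (q_one8_ne Q hq) * k : ↥(isometryGroup F ⇑Q)) :
        GL (Fin 4 ⊕ Fin 4) F) (γ * βk) := ind_mul ⇑Q hks hγ hβkI
    have h1 := theta_conj_pair Q hq hQ θ hθ _ hk (γ * βk) h0
    have e : θ⁻¹ * γ * α = θ⁻¹ * (γ * βk) * θ * δ := by
      rw [hα]; group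
    rw [e]
    exact mul_mem h1 hδP

end TriF

end Cfsg.Agent.Helper45.Oct
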