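import Cfsg.Agent.Helper45.OctF
import Cfsg.Agent.Helper73.OctPIX

set_option autoImplicit false
set_option linter.unusedSectionVars false
set_option linter.unusedSimpArgs false
set_option linter.unusedVariables false
set_option linter.style.haveILetI false
set_option linter.unreachableTactic false
set_option linter.unusedTactic false

/-!
Helper library (helper45), triality, part G: the automorphisms of `PΩ⁺₈(q)` induced by
semisimilarities form a subgroup of index three.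
-/

universe u

namespace Cfsg.Agent.Helper45.Oct

open Cfsg Matrix Module Cfsg.Agent.Helper45.AO Cfsg.Agent.Helper45.OO

section PlusForm

variable {F : Type u} [Field F] [Fintype F]

/-- the index of the semisimilarity automorphisms in dimension eight -/
theorem semiSub_index_eight : (semiSub (Helper43.plusQF 4 F)).index = 3 := by
  have hQ := Helper45.plusQF_nondeg' (F := F) 4
  have hq : ⇑(Helper43.plusQF 4 F) = quadFormPlus 4 F := Helper43.plusQF_coe 4 F
  obtain ⟨θ, hθ⟩ := exists_triality (Helper43.plusQF 4 F) hq hQ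
  obtain ⟨ρ, hρ⟩ : ∃ ρ : ↥(isometryGroup F ⇑(Helper43.plusQF 4 F)),
      ρ = reflO (Helper43.plusQF 4 F) one8 (q_one8_ne _ hq) := ⟨_, rfl⟩
  have hρs : (ρ : GL (Fin 4 ⊕ Fin 4) F) ∈
      Geo.quadSimilarityGroup (F := F) ⇑(Helper43.plusQF 4 F) := iso_le_sim _ ρ.2
  obtain ⟨γ, hγ⟩ : ∃ γ, γ = indAut ⇑(Helper43.plusQF 4 F) (ρ : GL (Fin 4 ⊕ Fin 4) F) hρs :=
    ⟨_, rfl⟩
  have hγI : Ind ⇑(Helper43.plusQF 4 F) (ρ : GL (Fin 4 ⊕ Fin 4) F) γ := by
    rw [hγ]; exact ind_indAut _ _ hρs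
  have hγP : γ ∈ semiSub (Helper43.plusQF 4 F) := ind_mem_semiSub _ _ hρs γ hγI
  have h1 := theta_not_semi (Helper43.plusQF 4 F) hq hQ θ hθ
  have h3 : θ⁻¹ * γ * θ ∉ semiSub (Helper43.plusQF 4 F) := by
    obtain ⟨sc, hsc⟩ := exists_scGL (ι := Fin 4 ⊕ Fin 4) (-1 : F) (neg_ne_zero.mpr one_ne_zero)
    have hscs : sc ∈ Geo.quadSimilarityGroup (F := F) ⇑(Helper43.plusQF 4 F) := by
      refine ⟨1, fun v => ?_⟩
      rw [hsc, Matrix.smul_mulVec, Matrix.one_mulVec, Units.val_one, one_mul, neg_one_smul]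
      exact QuadraticMap.map_neg _ v
    have hI2 : Ind ⇑(Helper43.plusQF 4 F) (sc * (ρ : GL (Fin 4 ⊕ Fin 4) F)) (1 * γ) :=
      ind_mul _ hρs (ind_scalar _ sc (-1) hsc) hγI
    rw [one_mul] at hI2
    have hs2 : IsSemisimilarityPair ⇑(Helper43.plusQF 4 F) (sc * (ρ : GL (Fin 4 ⊕ Fin 4) F))
        (RingEquiv.refl F) := mul_mem hscs hρs
    have e := (semi_ind_iff _ _ _ hs2 γ).mp hI2
    rw [e]
    apply theta_gamma_not_semi (Helper43.plusQF 4 F) hq hQ θ hθ
    intro x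
    show ((sc * (ρ : GL (Fin 4 ⊕ Fin 4) F) : GL (Fin 4 ⊕ Fin 4) F) : Matrix _ _ F) *ᵥ x = cj x
    rw [Units.val_mul, ← Matrix.mulVec_mulVec, hsc, Matrix.smul_mulVec, Matrix.one_mulVec,
      neg_one_smul, cj_eq]
    have h5 : ((ρ : GL (Fin 4 ⊕ Fin 4) F) : Matrix _ _ F) *ᵥ x =
        mv ⇑(Helper43.plusQF 4 F) ρ x := rfl
    rw [h5, hρ, mv_reflO, q_one8 _ hq, hq]
    simp only [inv_one, one_mul]
    rw [QuadraticMap.polar_comm]
    abel
  exact Cfsg.Agent.Helper73.OctP.index_three (semiSub (Helper43.plusQF 4 F)) θ γ h1 hγP h3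
    (fun α => by
      have := trichotomy (Helper43.plusQF 4 F) hq hQ θ hθ γ (by rw [← hρ]; exact hγI) α
      exact this)

end PlusForm

end Cfsg.Agent.Helper45.Oct
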