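import Cfsg.Agent.Helper45.OutH
import Cfsg.Agent.Helper45.OmegaSimple

set_option autoImplicit false
set_option linter.unusedSectionVars false
set_option linter.unusedSimpArgs false
set_option linter.unusedVariables false
set_option linter.style.haveILetI false

/-!
Helper library (helper45), outer automorphisms of `PΩ(Q)`, part I: the order of the automorphism
group from the order of the outer automorphism group.
-/

universe u

namespace Cfsg.Agent.Helper45.OO

open Cfsg Matrix Module Cfsg.Agent.Helper45.AO

section Card

/-- a perfect simple group has trivial centre -/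
theorem center_eq_bot_of_perfect {T : Type*} [Group T] (hs : IsSimpleGroup T)
    (hperf : commutator T = ⊤) : Subgroup.center T = ⊥ := by
  rcases Subgroup.Normal.eq_bot_or_eq_top (inferInstance : (Subgroup.center T).Normal) with h | h
  · exact h
  · exfalso
    have h1 := (commutator_eq_bot_iff_center_eq_top (G := T)).mpr h
    rw [hperf] at h1
    haveI := hs.toNontrivial
    obtain ⟨x, hx⟩ := exists_ne (1 : T)
    have h2 : x ∈ (⊤ : Subgroup T) := trivial
    rw [h1] at h2
    exact hx (Subgroup.mem_bot.mp h2)

/-- the order of the automorphism group of a group with trivial centre -/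
theorem card_aut_eq {T : Type*} [Group T] (hZ : Subgroup.center T = ⊥) :
    Nat.card (MulAut T) = Nat.card (Out T) * Nat.card T := by
  have hinj : Function.Injective (MulAut.conj : T →* MulAut T) := by
    rw [injective_iff_map_eq_one]
    intro g hg
    have h1 : g ∈ Subgroup.center T := by
      rw [Subgroup.mem_center_iff]
      intro x
      have h2 := DFunLike.congr_fun hg x
      rw [MulAut.conj_apply, MulAut.one_apply] at h2
      calc x * g = g * x * g⁻¹ * g := by rw [h2]
        _ = g * x := by group
    rw [hZ] at h1
    exact Subgroup.mem_bot.mp h1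
  have h3 : Nat.card ↥(Inn T) = Nat.card T :=
    Nat.card_congr (MonoidHom.ofInjective hinj).toEquiv.symm
  rw [Subgroup.card_eq_card_quotient_mul_card_subgroup (Inn T), h3]

/-- a quotient of a perfect group is perfect -/
theorem commutator_quotient_top {G : Type*} [Group G] (N : Subgroup G) [N.Normal]
    (h : commutator G = ⊤) : commutator (G ⧸ N) = ⊤ := by
  rw [commutator_def] at h ⊢
  have h1 := Subgroup.map_commutator (⊤ : Subgroup G) ⊤ (QuotientGroup.mk' N)
  rw [h, Subgroup.map_top_of_surjective _ (QuotientGroup.mk'_surjective N)] at h1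
  exact h1.symm

variable {ι : Type} [Fintype ι] [DecidableEq ι] {F : Type u} [Field F] [Fintype F]
  (Q : QuadraticForm F (ι → F))

/-- `|Aut(PΩ(Q))| = |Out(PΩ(Q))| |PΩ(Q)|` -/
theorem card_aut_pomega (hQ : (QuadraticMap.polarBilin Q).Nondegenerate)
    (hn : 6 ≤ Fintype.card ι) :
    Nat.card (MulAut (POmega F ⇑Q)) = Nat.card (Out (POmega F ⇑Q)) * Nat.card (POmega F ⇑Q) := by
  apply card_aut_eq
  apply center_eq_bot_of_perfect (pomega_simple Q hQ hn)
  exact commutator_quotient_top _ (omega_perfect Q hQ hn)

end Card

end Cfsg.Agent.Helper45.OO
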