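import Cfsg.Agent.Helper45.OctE
import Cfsg.Agent.Helper45.OutI
import Cfsg.Agent.Helper45.PGO

set_option autoImplicit false
set_option linter.unusedSectionVars false
set_option linter.unusedSimpArgs false
set_option linter.unusedVariables false
set_option linter.style.haveILetI false
set_option linter.unreachableTactic false
set_option linter.unusedTactic false

/-!
Helper library (helper45), triality, part H: the group `P` of automorphisms of `PΩ(Q)` induced by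
semisimilarities maps onto the automorphism group of the field with kernel the automorphisms
induced by similarities; the field automorphisms as a homomorphism; the order of `Out(PΩ(Q))` in
terms of the index of `P`.
-/

universe u

namespace Cfsg.Agent.Helper45.Oct

open Cfsg Matrix Module Cfsg.Agent.Helper45.AO Cfsg.Agent.Helper45.OO

section PStruct

variable {ι : Type} [Fintype ι] [DecidableEq ι] {F : Type u} [Field F] [Fintype F]
  (Q : QuadraticForm F (ι → F))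

/-- an automorphism induced by a similarity lies in `semiSub` -/
theorem ind_mem_semiSub (g : GL ι F) (hg : g ∈ Geo.quadSimilarityGroup (F := F) ⇑Q)
    (β : MulAut (POmega F ⇑Q)) (h : Ind ⇑Q g β) : β ∈ semiSub Q :=
  ⟨g, RingEquiv.refl F, (sim_iff_semi ⇑Q g).mp hg,
    (semi_ind_iff ⇑Q g _ ((sim_iff_semi ⇑Q g).mp hg) β).mp h⟩

theorem sim_mem_semiSub (β : MulAut (POmega F ⇑Q)) (h : IsSimilarityInducedAutPOmega ⇑Q β) :
    β ∈ semiSub Q := by
  obtain ⟨g, hg, hind⟩ := h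
  exact ind_mem_semiSub Q g hg β hind

theorem ind_eq_of_ind (g : GL ι F) (hg : g ∈ Geo.quadSimilarityGroup (F := F) ⇑Q)
    (β β' : MulAut (POmega F ⇑Q)) (h : Ind ⇑Q g β) (h' : Ind ⇑Q g β') : β = β' := by
  rw [ind_unique ⇑Q g hg β h, ind_unique ⇑Q g hg β' h']

/-- **the field-automorphism homomorphism on the group of semisimilarity automorphisms** -/
theorem exists_thetaP (hQ : (QuadraticMap.polarBilin Q).Nondegenerate)
    (hn : 5 ≤ Fintype.card ι) :
    ∃ Θ : ↥(semiSub Q) →* RingAut F,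
      (∀ (g : GL ι F) (σ : F ≃+* F) (hg : IsSemisimilarityPair ⇑Q g σ)
        (h : semiAut ⇑Q g σ hg ∈ semiSub Q), Θ ⟨semiAut ⇑Q g σ hg, h⟩ = σ) ∧
      (∀ α : ↥(semiSub Q), ∃ (g : GL ι F) (hg : IsSemisimilarityPair ⇑Q g (Θ α)),
        (α : MulAut (POmega F ⇑Q)) = semiAut ⇑Q g (Θ α) hg) ∧
      (∀ α : ↥(semiSub Q), Θ α = 1 ↔
        IsSimilarityInducedAutPOmega ⇑Q (α : MulAut (POmega F ⇑Q))) := by
  have hex : ∀ α : ↥(semiSub Q), ∃ σ : F ≃+* F,
      ∃ (g : GL ι F) (hg : IsSemisimilarityPair ⇑Q g σ),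
        (α : MulAut (POmega F ⇑Q)) = semiAut ⇑Q g σ hg := by
    intro α
    obtain ⟨g, σ, hg, h⟩ := α.2
    exact ⟨σ, g, hg, h⟩
  choose θ hθ using hex
  have huniq : ∀ (g : GL ι F) (σ : F ≃+* F) (hg : IsSemisimilarityPair ⇑Q g σ)
      (h : semiAut ⇑Q g σ hg ∈ semiSub Q), θ ⟨semiAut ⇑Q g σ hg, h⟩ = σ := by
    intro g σ hg h
    obtain ⟨g', hg', e⟩ := hθ ⟨semiAut ⇑Q g σ hg, h⟩
    exact (semi_unique Q hQ hn g g' σ _ hg hg' e).1
  refine ⟨{ toFun := θ, map_one' := ?_, map_mul' := ?_ }, huniq, hθ, ?_⟩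
  · have h1 : (1 : ↥(semiSub Q)) = ⟨semiAut ⇑Q 1 (RingEquiv.refl F) (semi_one ⇑Q),
        ⟨1, RingEquiv.refl F, semi_one ⇑Q, rfl⟩⟩ := by
      apply Subtype.ext
      exact (semiAut_one ⇑Q (semi_one ⇑Q)).symm
    rw [h1]
    exact huniq _ _ _ _
  · intro α β
    obtain ⟨g, hg, e⟩ := hθ α
    obtain ⟨g', hg', e'⟩ := hθ β
    have h1 : α * β = ⟨semiAut ⇑Q (g * glMap (θ α) g') (θ α * θ β : RingAut F) (semi_mul ⇑Q hg hg'),
        ⟨_, _, semi_mul ⇑Q hg hg', rfl⟩⟩ := by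
      apply Subtype.ext
      show (α : MulAut (POmega F ⇑Q)) * (β : MulAut (POmega F ⇑Q)) = _
      rw [e, e', semiAut_mul]
    rw [h1]
    exact huniq _ _ _ _
  · intro α
    show θ α = 1 ↔ _
    constructor
    · intro h
      obtain ⟨g, hg, e⟩ := hθ α
      revert hg e
      rw [h]
      intro hg e
      exact ⟨g, hg, (semi_ind_iff ⇑Q g (RingEquiv.refl F) hg _).mpr e⟩
    · rintro ⟨g, hg, hind⟩
      have hg' : IsSemisimilarityPair ⇑Q g (RingEquiv.refl F) := (sim_iff_semi ⇑Q g).mp hg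
      have e := (semi_ind_iff ⇑Q g (RingEquiv.refl F) hg' (α : MulAut (POmega F ⇑Q))).mp hind
      have h1 : α = ⟨semiAut ⇑Q g (RingEquiv.refl F) hg', ⟨g, _, hg', rfl⟩⟩ := Subtype.ext e
      rw [h1]
      exact huniq g (RingEquiv.refl F) hg' _

variable (hfield : ∀ σ : RingAut F, IsSemisimilarityPair ⇑Q (1 : GL ι F) σ)

/-- the field automorphisms, as a homomorphism into `Aut(PΩ(Q))` -/
noncomputable def fieldHom : RingAut F →* MulAut (POmega F ⇑Q) where
  toFun σ := semiAut ⇑Q 1 σ (hfield σ)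
  map_one' := semiAut_one _ _
  map_mul' σ τ := by
    rw [semiAut_mul]
    exact semiAut_congr _ _ _ (by rw [map_one, mul_one]) rfl

theorem fieldHom_apply (σ : RingAut F) : fieldHom Q hfield σ = semiAut ⇑Q 1 σ (hfield σ) := rfl

theorem fieldHom_mem (σ : RingAut F) : fieldHom Q hfield σ ∈ semiSub Q :=
  ⟨1, σ, hfield σ, rfl⟩

/-- a field automorphism inducing an automorphism which is induced by a similarity is trivial -/
theorem field_sim_trivial (hQ : (QuadraticMap.polarBilin Q).Nondegenerate)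
    (hn : 5 ≤ Fintype.card ι) (σ : RingAut F)
    (h : IsSimilarityInducedAutPOmega ⇑Q (fieldHom Q hfield σ)) : σ = 1 := by
  obtain ⟨Θ, hΘ1, -, hΘ3⟩ := exists_thetaP Q hQ hn
  have h1 := (hΘ3 ⟨fieldHom Q hfield σ, fieldHom_mem Q hfield σ⟩).mpr h
  rw [← h1]
  exact (hΘ1 1 σ (hfield σ) _).symm

/-- every semisimilarity automorphism is a field automorphism times a similarity automorphism -/
theorem semi_decomp (hQ : (QuadraticMap.polarBilin Q).Nondegenerate)
    (hn : 5 ≤ Fintype.card ι) (x : MulAut (POmega F ⇑Q)) (hx : x ∈ semiSub Q) :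
    ∃ σ : RingAut F, IsSimilarityInducedAutPOmega ⇑Q ((fieldHom Q hfield σ)⁻¹ * x) := by
  obtain ⟨Θ, hΘ1, -, hΘ3⟩ := exists_thetaP Q hQ hn
  refine ⟨Θ ⟨x, hx⟩, ?_⟩
  have hm : (fieldHom Q hfield (Θ ⟨x, hx⟩))⁻¹ * x ∈ semiSub Q :=
    mul_mem (inv_mem (fieldHom_mem Q hfield _)) hx
  have h1 : Θ ⟨(fieldHom Q hfield (Θ ⟨x, hx⟩))⁻¹ * x, hm⟩ = 1 := by
    have e : (⟨(fieldHom Q hfield (Θ ⟨x, hx⟩))⁻¹ * x, hm⟩ : ↥(semiSub Q)) =
        (⟨fieldHom Q hfield (Θ ⟨x, hx⟩), fieldHom_mem Q hfield _⟩ : ↥(semiSub Q))⁻¹ * ⟨x, hx⟩ :=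
      rfl
    rw [e, map_mul, map_inv]
    have e2 : Θ ⟨fieldHom Q hfield (Θ ⟨x, hx⟩), fieldHom_mem Q hfield _⟩ = Θ ⟨x, hx⟩ :=
      hΘ1 1 _ (hfield _) _
    rw [e2, inv_mul_cancel]
  exact (hΘ3 ⟨_, hm⟩).mp h1

/-- the similarity automorphisms are normalised by the semisimilarity automorphisms -/
theorem semi_conj_sim (hQ : (QuadraticMap.polarBilin Q).Nondegenerate)
    (hn : 5 ≤ Fintype.card ι) (x : MulAut (POmega F ⇑Q)) (hx : x ∈ semiSub Q)
    (k : MulAut (POmega F ⇑Q)) (hk : IsSimilarityInducedAutPOmega ⇑Q k) :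
    IsSimilarityInducedAutPOmega ⇑Q (x * k * x⁻¹) := by
  obtain ⟨Θ, -, -, hΘ3⟩ := exists_thetaP Q hQ hn
  have hkP := sim_mem_semiSub Q k hk
  have hm : x * k * x⁻¹ ∈ semiSub Q := mul_mem (mul_mem hx hkP) (inv_mem hx)
  have h1 : Θ ⟨x * k * x⁻¹, hm⟩ = 1 := by
    have e : (⟨x * k * x⁻¹, hm⟩ : ↥(semiSub Q)) = ⟨x, hx⟩ * ⟨k, hkP⟩ * (⟨x, hx⟩ : ↥(semiSub Q))⁻¹ :=
      rfl
    rw [e, map_mul, map_mul, map_inv, (hΘ3 ⟨k, hkP⟩).mpr hk, mul_one, mul_inv_cancel]
  exact (hΘ3 ⟨_, hm⟩).mp h1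

include hfield in
/-- the automorphisms induced by similarities have index `|Aut F|` in `P` -/
theorem relIndex_pgo_semi (hQ : (QuadraticMap.polarBilin Q).Nondegenerate)
    (hn : 5 ≤ Fintype.card ι)
    (K : Subgroup (MulAut (POmega F ⇑Q)))
    (hK : ∀ α, α ∈ K ↔ IsSimilarityInducedAutPOmega ⇑Q α) :
    K.relIndex (semiSub Q) = Nat.card (RingAut F) := by
  obtain ⟨Θ, hΘ1, hΘ2, hΘ3⟩ := exists_thetaP Q hQ hn
  have hker : K.subgroupOf (semiSub Q) = Θ.ker := by
    ext α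
    rw [Subgroup.mem_subgroupOf, MonoidHom.mem_ker, hK, hΘ3]
  have hsurj : Function.Surjective Θ := by
    intro σ
    exact ⟨⟨semiAut ⇑Q 1 σ (hfield σ), ⟨1, σ, hfield σ, rfl⟩⟩, hΘ1 1 σ (hfield σ) _⟩
  rw [Subgroup.relIndex, hker, Subgroup.index_ker, MonoidHom.range_eq_top.mpr hsurj]
  exact Nat.card_congr Subgroup.topEquiv.toEquiv

include hfield in
/-- the order of `Out(PΩ(Q))` -/
theorem card_out_eq (hQ : (QuadraticMap.polarBilin Q).Nondegenerate)
    (hn : 5 ≤ Fintype.card ι)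
    (p f : ℕ) [Fact p.Prime] (hF : Fintype.card F = p ^ f) :
    Nat.card (Out (POmega F ⇑Q)) =
      (Inn (POmega F ⇑Q)).relIndex (pgoAut F ⇑Q) * f * (semiSub Q).index := by
  have := Helper44.charP_of_card (F := F) p f hF
  obtain ⟨-, hcardC⟩ := Helper44.ringAut_cyclic_card (F := F) p f hF
  have h1 : Inn (POmega F ⇑Q) ≤ pgoAut F ⇑Q := by
    intro α hα
    rw [mem_pgoAut_iff]
    exact inn_sim Q α hα
  have h2 : pgoAut F ⇑Q ≤ semiSub Q := by
    intro α hα
    rw [mem_pgoAut_iff] at hα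
    obtain ⟨g, hg, hind⟩ := hα
    exact ind_mem_semiSub Q g hg α hind
  have h3 := relIndex_pgo_semi Q hfield hQ hn (pgoAut F ⇑Q) (fun α => mem_pgoAut_iff ⇑Q α)
  rw [hcardC] at h3
  have h4 : Nat.card (Out (POmega F ⇑Q)) = (Inn (POmega F ⇑Q)).index :=
    (Subgroup.index_eq_card _).symm
  rw [h4, ← Subgroup.relIndex_mul_index (h1.trans h2), ← Subgroup.relIndex_mul_relIndex _ _ _ h1 h2,
    h3]

/-- a surjection with kernel the inner automorphisms computes the relative index -/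
theorem relIndex_of_surj {A D : Type*} [Group A] [Group D] (I K : Subgroup A)
    (φ : ↥K →* D) (hφ : Function.Surjective φ) (hker : φ.ker = I.subgroupOf K) :
    I.relIndex K = Nat.card D := by
  rw [Subgroup.relIndex, ← hker, Subgroup.index_ker, MonoidHom.range_eq_top.mpr hφ]
  exact Nat.card_congr Subgroup.topEquiv.toEquiv

end PStruct

section PlusForm

variable {F : Type u} [Field F] [Fintype F]

/-- the identity matrix is a semisimilarity of the hyperbolic form for every field automorphism -/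
theorem plus_field (m : ℕ) (σ : RingAut F) :
    IsSemisimilarityPair (⇑(Helper43.plusQF m F)) (1 : GL (Fin m ⊕ Fin m) F) σ := by
  refine ⟨1, fun v => ?_⟩
  rw [Units.val_one, Matrix.one_mulVec, Units.val_one, one_mul, Helper43.plusQF_coe]
  unfold quadFormPlus
  rw [map_sum]
  apply Finset.sum_congr rfl
  intro i _
  rw [map_mul]

/-- in dimension at least ten every automorphism is induced by a semisimilarity -/
theorem semiSub_top (m : ℕ) (hm : 5 ≤ m) : semiSub (Helper43.plusQF m F) = ⊤ := by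
  have hQ := Helper45.plusQF_nondeg' (F := F) m
  rw [eq_top_iff]
  intro α _
  obtain ⟨g, σ, h1, h2⟩ := aut_induced (Helper43.plusQF m F) hQ
    (by rw [Fintype.card_sum, Fintype.card_fin]; omega)
    (Or.inl (by rw [Fintype.card_sum, Fintype.card_fin]; omega)) α
  exact ⟨g, σ, h1, (semi_ind_iff _ g σ h1 α).mp h2⟩

end PlusForm

end Cfsg.Agent.Helper45.Oct
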