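import Cfsg.Agent.Helper45.OctG
import Cfsg.Agent.Helper20.OctPGF
import Cfsg.Agent.Helper20.OctPTF

set_option autoImplicit false
set_option linter.unusedSectionVars false
set_option linter.unusedSimpArgs false
set_option linter.unusedVariables false
set_option linter.style.haveILetI false
set_option linter.unreachableTactic false
set_option linter.unusedTactic false

/-!
Helper library (helper45), triality, part I: the data of the triality automorphism of `PΩ⁺₈(q)`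
(triality `θ`, the reflection class `γ`, their relations with the field automorphisms), the
dichotomy of the similarity automorphisms in characteristic two, and facts on the field
automorphisms of `PΩ(Q)`.
-/

universe u

namespace Cfsg.Agent.Helper45.Oct

open Cfsg Matrix Module Cfsg.Agent.Helper45.AO Cfsg.Agent.Helper45.OO

section Char2Gen

variable {ι : Type} [Fintype ι] [DecidableEq ι] {F : Type u} [Field F] [Fintype F] [CharP F 2]
  (Q : QuadraticForm F (ι → F))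

/-- **characteristic two**: the class of a reflection is not inner, and every similarity
automorphism is inner or becomes inner after multiplication by the reflection class -/
theorem pgo_dichotomy_char2 (hQ : (QuadraticMap.polarBilin Q).Nondegenerate)
    (hn : 5 ≤ Fintype.card ι) (a : ι → F) (ha : Q a ≠ 0) (γ : MulAut (POmega F ⇑Q))
    (hγ : Ind ⇑Q ((reflO Q a ha : ↥(isometryGroup F ⇑Q)) : GL ι F) γ) :
    γ ∉ Inn (POmega F ⇑Q) ∧ ∀ β, IsSimilarityInducedAutPOmega ⇑Q β →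
      β ∈ Inn (POmega F ⇑Q) ∨ β * γ ∈ Inn (POmega F ⇑Q) := by
  have hex : (∃ t : F, t ≠ 0 ∧ t ≠ 1) ∨ Fintype.card ι ≠ 4 := Or.inr (by omega)
  have hne : ∃ v, Q v ≠ 0 := ⟨a, ha⟩
  have hsc := scalar_of_ind Q hQ hn
  constructor
  · intro h
    have h1 := omega_of_mem_inn_char2 Q hsc hne (reflO Q a ha) γ hγ h
    rw [mem_omega_iff_dick Q hQ hex, dick_refl Q hQ] at h1
    exact absurd h1 (by decide)
  · rintro β ⟨g, hgsim, hind⟩
    obtain ⟨sc, e, hsc1, hmem⟩ := sim_char2 Q g hgsim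
    obtain ⟨g', hg'⟩ : ∃ g' : ↥(isometryGroup F ⇑Q), g' = ⟨sc * g, hmem⟩ := ⟨_, rfl⟩
    have hgc : ((g' : ↥(isometryGroup F ⇑Q)) : GL ι F) = sc * g := by rw [hg']
    have hind' : Ind ⇑Q ((g' : ↥(isometryGroup F ⇑Q)) : GL ι F) β := by
      rw [hgc]
      have h5 := ind_mul ⇑Q hgsim (ind_scalar ⇑Q sc e hsc1) hind
      rwa [one_mul] at h5
    rcases Helper44.omega_dichotomy Q hQ hex a ha g' with h | h
    · left
      exact mem_inn_of_ind_omega Q g' h β hind'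
    · right
      have hind2 : Ind ⇑Q ((g' * reflO Q a ha : ↥(isometryGroup F ⇑Q)) : GL ι F) (β * γ) :=
        ind_mul ⇑Q (iso_le_sim _ (reflO Q a ha).2) hind' hγ
      exact mem_inn_of_ind_omega Q _ h _ hind2

end Char2Gen

section FieldGen

variable {ι : Type} [Fintype ι] [DecidableEq ι] {F : Type u} [Field F] [Fintype F]
  (Q : QuadraticForm F (ι → F))
  (hfield : ∀ σ : RingAut F, IsSemisimilarityPair ⇑Q (1 : GL ι F) σ)

/-- the powers of the automorphism of a generator of `Aut F` which are inner -/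
theorem field_pow_inn (hQ : (QuadraticMap.polarBilin Q).Nondegenerate)
    (hn : 5 ≤ Fintype.card ι) (φ : RingAut F) (f : ℕ) (hφ : orderOf φ = f) (n : ℕ) :
    fieldHom Q hfield φ ^ n ∈ Inn (POmega F ⇑Q) ↔ f ∣ n := by
  rw [← map_pow]
  constructor
  · intro h
    have h1 := field_sim_trivial Q hfield hQ hn (φ ^ n) (inn_sim Q _ h)
    rw [← hφ]
    exact orderOf_dvd_of_pow_eq_one h1
  · intro h
    rw [← hφ] at h
    rw [orderOf_dvd_iff_pow_eq_one.mp h, map_one]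
    exact one_mem _

/-- a power of the automorphism of a field automorphism which is induced by a similarity is
trivial -/
theorem field_pow_sim (hQ : (QuadraticMap.polarBilin Q).Nondegenerate)
    (hn : 5 ≤ Fintype.card ι) (φ : RingAut F) (n : ℕ)
    (h : IsSimilarityInducedAutPOmega ⇑Q (fieldHom Q hfield φ ^ n)) :
    fieldHom Q hfield φ ^ n = 1 := by
  rw [← map_pow] at h ⊢
  rw [field_sim_trivial Q hfield hQ hn (φ ^ n) h, map_one]

/-- every semisimilarity automorphism is a power of the automorphism of a generator of `Aut F`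
times a similarity automorphism -/
theorem semi_decomp_gen (hQ : (QuadraticMap.polarBilin Q).Nondegenerate)
    (hn : 5 ≤ Fintype.card ι) (φ : RingAut F) (hφ : ∀ x : RingAut F, x ∈ Subgroup.zpowers φ)
    (x : MulAut (POmega F ⇑Q)) (hx : x ∈ semiSub Q) :
    ∃ i : ℕ, IsSimilarityInducedAutPOmega ⇑Q ((fieldHom Q hfield φ ^ i)⁻¹ * x) := by
  obtain ⟨σ, hσ⟩ := semi_decomp Q hfield hQ hn x hx
  haveI : Finite (RingAut F) :=
    Finite.of_injective (fun σ : RingAut F => (σ : F → F)) DFunLike.coe_injective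
  have h1 : σ ∈ Submonoid.powers φ := by
    rw [mem_powers_iff_mem_zpowers]
    exact hφ σ
  obtain ⟨i, rfl⟩ := h1
  refine ⟨i, ?_⟩
  rw [← map_pow]
  exact hσ

end FieldGen

section TriData

variable {F : Type u} [Field F] [Fintype F] (Q : QuadraticForm F (Fin 4 ⊕ Fin 4 → F))
  (hq : ⇑Q = quadFormPlus 4 F)
  (hfield : ∀ σ : RingAut F, IsSemisimilarityPair ⇑Q (1 : GL (Fin 4 ⊕ Fin 4) F) σ)

set_option maxHeartbeats 1600000 in
include hq in
/-- **the triality data of `PΩ⁺₈(q)`** -/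
theorem tri_data (hQ : (QuadraticMap.polarBilin Q).Nondegenerate) :
    ∃ θ γ : MulAut (POmega F ⇑Q),
    θ ∉ semiSub Q ∧ γ ∈ semiSub Q ∧ γ * γ = 1 ∧
    θ⁻¹ * γ * θ ∉ semiSub Q ∧
    (∀ α : MulAut (POmega F ⇑Q), α ∈ semiSub Q ∨ θ⁻¹ * α ∈ semiSub Q ∨ θ⁻¹ * γ * α ∈ semiSub Q) ∧
    (∀ σ : RingAut F, θ * fieldHom Q hfield σ = fieldHom Q hfield σ * θ) ∧
    (∀ σ : RingAut F, γ * fieldHom Q hfield σ = fieldHom Q hfield σ * γ) ∧
    (Ind ⇑Q ((reflO Q one8 (q_one8_ne Q hq) : ↥(isometryGroup F ⇑Q)) :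
        GL (Fin 4 ⊕ Fin 4) F) γ) ∧
    (∀ (g₁ g₂ : ↥(Omega F ⇑Q)) (g₃ : ↥(isometryGroup F ⇑Q)),
      Tri Q (g₁ : ↥(isometryGroup F ⇑Q)) (g₂ : ↥(isometryGroup F ⇑Q)) g₃ →
        θ (QuotientGroup.mk g₁) = QuotientGroup.mk g₂) := by
  obtain ⟨θ, hθ⟩ := exists_triality Q hq hQ
  obtain ⟨ρ, hρ⟩ : ∃ ρ : ↥(isometryGroup F ⇑Q), ρ = reflO Q one8 (q_one8_ne Q hq) := ⟨_, rfl⟩
  have hρs : (ρ : GL (Fin 4 ⊕ Fin 4) F) ∈ Geo.quadSimilarityGroup (F := F) ⇑Q :=
    iso_le_sim _ ρ.2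
  obtain ⟨γ, hγ⟩ : ∃ γ, γ = indAut ⇑Q (ρ : GL (Fin 4 ⊕ Fin 4) F) hρs := ⟨_, rfl⟩
  have hγI : Ind ⇑Q (ρ : GL (Fin 4 ⊕ Fin 4) F) γ := by
    rw [hγ]; exact ind_indAut _ _ hρs
  have hγP : γ ∈ semiSub Q := ind_mem_semiSub _ _ hρs γ hγI
  have h1 := theta_not_semi Q hq hQ θ hθ
  have h3 : θ⁻¹ * γ * θ ∉ semiSub Q := by
    obtain ⟨sc, hsc⟩ := exists_scGL (ι := Fin 4 ⊕ Fin 4) (-1 : F) (neg_ne_zero.mpr one_ne_zero)
    have hscs : sc ∈ Geo.quadSimilarityGroup (F := F) ⇑Q := by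
      refine ⟨1, fun v => ?_⟩
      rw [hsc, Matrix.smul_mulVec, Matrix.one_mulVec, Units.val_one, one_mul, neg_one_smul]
      exact QuadraticMap.map_neg _ v
    have hI2 : Ind ⇑Q (sc * (ρ : GL (Fin 4 ⊕ Fin 4) F)) (1 * γ) :=
      ind_mul _ hρs (ind_scalar _ sc (-1) hsc) hγI
    rw [one_mul] at hI2
    have hs2 : IsSemisimilarityPair ⇑Q (sc * (ρ : GL (Fin 4 ⊕ Fin 4) F))
        (RingEquiv.refl F) := mul_mem hscs hρs
    have e := (semi_ind_iff _ _ _ hs2 γ).mp hI2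
    rw [e]
    apply theta_gamma_not_semi Q hq hQ θ hθ
    intro x
    show ((sc * (ρ : GL (Fin 4 ⊕ Fin 4) F) : GL (Fin 4 ⊕ Fin 4) F) : Matrix _ _ F) *ᵥ x = cj x
    rw [Units.val_mul, ← Matrix.mulVec_mulVec, hsc, Matrix.smul_mulVec, Matrix.one_mulVec,
      neg_one_smul, cj_eq]
    have h5 : ((ρ : GL (Fin 4 ⊕ Fin 4) F) : Matrix _ _ F) *ᵥ x = mv ⇑Q ρ x := rfl
    rw [h5, hρ, mv_reflO, q_one8 _ hq, hq]
    simp only [inv_one, one_mul]
    rw [QuadraticMap.polar_comm]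
    abel
  have hγ2 : γ * γ = 1 := by
    have h4 : Ind ⇑Q ((ρ * ρ : ↥(isometryGroup F ⇑Q)) : GL (Fin 4 ⊕ Fin 4) F) (γ * γ) :=
      ind_mul _ hρs hγI hγI
    have h5 : ρ * ρ = 1 := by rw [hρ]; exact reflO_mul_self _ _ _
    rw [h5] at h4
    exact ind_eq_of_ind _ 1 (one_mem _) _ _ h4 (ind_one _)
  refine ⟨θ, γ, h1, hγP, hγ2, h3, ?_, ?_, ?_, ?_, hθ⟩
  · intro α
    exact trichotomy Q hq hQ θ hθ γ (by rw [← hρ]; exact hγI) α
  · intro σ
    exact Cfsg.Agent.Helper20.OctP.theta_comm_field Q hq hQ θ hθ σ (hfield σ)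
  · intro σ
    exact Cfsg.Agent.Helper20.OctP.gamma_comm_field Q hq γ (by rw [← hρ]; exact hγI) σ (hfield σ)
  · rw [← hρ]; exact hγI

end TriData

end Cfsg.Agent.Helper45.Oct
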