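import Cfsg.Agent.Helper61.TriS3

set_option autoImplicit false
set_option linter.unusedSectionVars false
set_option linter.unusedSimpArgs false
set_option linter.unusedVariables false
set_option linter.style.haveILetI false

namespace Cfsg.Agent.Helper45.OctL

/-- the quotient by `I` is `S₃ × C_f` (own version of piece S3O) -/
theorem s3_out_quot {A : Type*} [Group A] (I : Subgroup A) [I.Normal] (P : Subgroup A) (hIP : I ≤ P)
    (f : ℕ) (hf : 0 < f) (ψ γ θ : A)
    (hord : ∀ n : ℕ, ψ ^ n ∈ I ↔ f ∣ n)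
    (hθψ : θ * ψ = ψ * θ) (hγψ : γ * ψ = ψ * γ)
    (hψP : ψ ∈ P) (hγP : γ ∈ P) (hγ2 : γ * γ = 1)
    (hP : ∀ x ∈ P, ∃ i : ℕ, (ψ ^ i)⁻¹ * x ∈ I ∨ (ψ ^ i)⁻¹ * x * γ ∈ I)
    (htri : ∀ α : A, α ∈ P ∨ θ⁻¹ * α ∈ P ∨ θ⁻¹ * γ * α ∈ P)
    (hγI : ∀ i : ℕ, γ * ψ ^ i ∉ I)
    (hθγ : θ⁻¹ * γ * θ ∉ P)
    (hcard : Nat.card (A ⧸ I) = 6 * f) :
    Nonempty (A ⧸ I ≃* Equiv.Perm (Fin 3) × Multiplicative (ZMod f)) := by
  classical
  haveI : Finite (A ⧸ I) := Nat.finite_of_card_ne_zero (by rw [hcard]; omega)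
  set π : A →* A ⧸ I := QuotientGroup.mk' I with hπ
  have hπ1 : ∀ a : A, π a = 1 ↔ a ∈ I := fun a => QuotientGroup.eq_one_iff a
  have hπeq : ∀ a b : A, π a = π b ↔ a⁻¹ * b ∈ I := fun a b => QuotientGroup.eq
  have hzpow : ∀ n : ℕ, π ψ ^ n = 1 ↔ f ∣ n := by
    intro n
    rw [← map_pow, hπ1]
    exact hord n
  have hz : orderOf (π ψ) = f := by
    apply Nat.dvd_antisymm
    · exact orderOf_dvd_of_pow_eq_one ((hzpow f).mpr dvd_rfl)
    · exact (hzpow _).mp (pow_orderOf_eq_one _)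
  have hc2 : π γ * π γ = 1 := by rw [← map_mul, hγ2, map_one]
  have hcinv : (π γ)⁻¹ = π γ := inv_eq_of_mul_eq_one_right hc2
  -- elements of `P` commute with `ψ` modulo `I`
  have hPc : ∀ x ∈ P, π x * π ψ = π ψ * π x := by
    intro x hx
    obtain ⟨i, hi | hi⟩ := hP x hx
    · have : π x = π ψ ^ i := by
        rw [← map_pow]; exact ((hπeq _ _).mpr hi).symm
      rw [this, ← pow_succ, ← pow_succ']
    · have : π x = π ψ ^ i * π γ := by
        have h1 : π ((ψ ^ i)⁻¹ * x * γ) = 1 := (hπ1 _).mpr hi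
        rw [map_mul, map_mul, map_inv, map_pow] at h1
        have h2 : π x * π γ = π ψ ^ i := by
          have := congrArg (fun y => π ψ ^ i * y) h1
          simpa [mul_assoc] using this
        calc π x = π x * π γ * π γ := by rw [mul_assoc, hc2, mul_one]
          _ = π ψ ^ i * π γ := by rw [h2]
      have hγc : π γ * π ψ = π ψ * π γ := by rw [← map_mul, ← map_mul, hγψ]
      rw [this, mul_assoc, hγc, ← mul_assoc, ← pow_succ, ← mul_assoc, ← pow_succ']
  have hγc : π γ * π ψ = π ψ * π γ := by rw [← map_mul, ← map_mul, hγψ]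
  have hθc : π θ * π ψ = π ψ * π θ := by rw [← map_mul, ← map_mul, hθψ]
  have hθic : (π θ)⁻¹ * π ψ = π ψ * (π θ)⁻¹ := by
    have := (Commute.inv_left (show Commute (π θ) (π ψ) from hθc)).eq
    exact this
  have hzc : ∀ g : A ⧸ I, g * π ψ = π ψ * g := by
    intro g
    obtain ⟨α, rfl⟩ := QuotientGroup.mk'_surjective I g
    rcases htri α with h | h | h
    · exact hPc α h
    · have h1 := hPc _ h
      rw [map_mul, map_inv] at h1
      have : π α = π θ * ((π θ)⁻¹ * π α) := by group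
      rw [this, mul_assoc, h1, ← mul_assoc, hθc, mul_assoc]
    · have h1 := hPc _ h
      rw [map_mul, map_mul, map_inv] at h1
      have : π α = π γ * (π θ * ((π θ)⁻¹ * π γ * π α)) := by
        rw [← mul_assoc, ← mul_assoc, ← mul_assoc, mul_inv_cancel_right, hc2, one_mul]
      rw [this, mul_assoc, mul_assoc, h1, ← mul_assoc (π θ), hθc, mul_assoc (π ψ), ← mul_assoc,
        hγc, mul_assoc]
  have hcz : π γ ∉ Subgroup.zpowers (π ψ) := by
    intro hmem
    rw [← mem_powers_iff_mem_zpowers] at hmem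
    obtain ⟨n, hn⟩ := hmem
    have hn' : π ψ ^ n = π γ := hn
    apply hγI (f * n - n)
    rw [← hπ1, map_mul, map_pow, ← hn', ← pow_add]
    have : n + (f * n - n) = f * n := by
      have : n ≤ f * n := Nat.le_mul_of_pos_left n hf
      omega
    rw [this]
    exact (hzpow _).mpr (dvd_mul_right f n)
  -- images of `P`
  have hmemP : ∀ a : A, ∀ p ∈ P, π a = π p → a ∈ P := by
    intro a p hp h
    have h1 : p⁻¹ * a ∈ I := (hπeq _ _).mp h.symm
    have h2 : p * (p⁻¹ * a) ∈ P := P.mul_mem hp (hIP h1)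
    simpa using h2
  have ht : ∀ i : ℤ, (π θ)⁻¹ * π γ * π θ ≠ π ψ ^ i ∧ (π θ)⁻¹ * π γ * π θ ≠ π γ * π ψ ^ i := by
    intro i
    have hl : (π θ)⁻¹ * π γ * π θ = π (θ⁻¹ * γ * θ) := by
      rw [map_mul, map_mul, map_inv]
    constructor
    · intro h
      apply hθγ
      apply hmemP _ (ψ ^ i) (P.zpow_mem hψP i)
      rw [← hl, h, map_zpow]
    · intro h
      apply hθγ
      apply hmemP _ (γ * ψ ^ i) (P.mul_mem hγP (P.zpow_mem hψP i))
      rw [← hl, h, map_mul, map_zpow]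
  exact Cfsg.Agent.Helper61.TriCall.s3_times_cyclic f (π ψ) (π γ) (π θ) hz hzc hc2 hcz hcard ht

end Cfsg.Agent.Helper45.OctL
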