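import Cfsg.Agent.Helper45.OctI
import Cfsg.Agent.Helper45.OctL

set_option autoImplicit false
set_option linter.unusedSectionVars false
set_option linter.unusedSimpArgs false
set_option linter.unusedVariables false
set_option linter.style.haveILetI false
set_option linter.unreachableTactic false
set_option linter.unusedTactic false

/-!
Helper library (helper45), triality, part J: the outer automorphism group of `PΩ⁺₂ₘ(q)`, `q` even.
-/

universe u

namespace Cfsg.Agent.Helper45.Oct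

open Cfsg Matrix Module Cfsg.Agent.Helper45.AO Cfsg.Agent.Helper45.OO

section Even

variable {F : Type u} [Field F] [Fintype F]

/-- **`Out(PΩ⁺₈(2^f)) ≅ S₃ × C_f`** -/
theorem plus8_out_even (f : ℕ) (hf : 1 ≤ f) (hF : Fintype.card F = 2 ^ f) :
    Nonempty (Out (POmega F ⇑(Helper43.plusQF 4 F)) ≃*
      Equiv.Perm (Fin 3) × Multiplicative (ZMod f)) := by
  have hQ := Helper45.plusQF_nondeg' (F := F) 4
  have hq : ⇑(Helper43.plusQF 4 F) = quadFormPlus 4 F := Helper43.plusQF_coe 4 F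
  have hn : 5 ≤ Fintype.card (Fin 4 ⊕ Fin 4) := by
    rw [Fintype.card_sum, Fintype.card_fin]; norm_num
  haveI := Helper44.charP_of_card (F := F) 2 f hF
  obtain ⟨hcyc, hcardC⟩ := Helper44.ringAut_cyclic_card (F := F) 2 f hF
  obtain ⟨φ, hφ⟩ := hcyc.exists_generator
  have hordφ : orderOf φ = f := by
    rw [orderOf_eq_card_of_forall_mem_zpowers hφ, hcardC]
  obtain ⟨θ, γ, h1, hγP, hγ2, h3, htri, hθψ, hγψ, hγI, hθ⟩ :=
    tri_data (Helper43.plusQF 4 F) hq (plus_field 4) hQ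
  obtain ⟨hγnot, hdich⟩ := pgo_dichotomy_char2 (Helper43.plusQF 4 F) hQ hn one8
    (q_one8_ne _ hq) γ hγI
  have hIP : Inn (POmega F ⇑(Helper43.plusQF 4 F)) ≤ semiSub (Helper43.plusQF 4 F) :=
    fun α hα => sim_mem_semiSub _ α (inn_sim _ α hα)
  apply OctL.s3_out_quot (Inn (POmega F ⇑(Helper43.plusQF 4 F))) (semiSub (Helper43.plusQF 4 F))
    hIP f (by omega) (fieldHom (Helper43.plusQF 4 F) (plus_field 4) φ) γ θ
  · exact fun n => field_pow_inn _ (plus_field 4) hQ hn φ f hordφ n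
  · exact hθψ φ
  · exact hγψ φ
  · exact fieldHom_mem _ _ φ
  · exact hγP
  · exact hγ2
  · intro x hx
    obtain ⟨i, hi⟩ := semi_decomp_gen _ (plus_field 4) hQ hn φ hφ x hx
    exact ⟨i, hdich _ hi⟩
  · exact htri
  · intro i hi
    have h5 : IsSimilarityInducedAutPOmega ⇑(Helper43.plusQF 4 F)
        (fieldHom (Helper43.plusQF 4 F) (plus_field 4) φ ^ i) := by
      have h6 : fieldHom (Helper43.plusQF 4 F) (plus_field 4) φ ^ i =
          γ⁻¹ * (γ * fieldHom (Helper43.plusQF 4 F) (plus_field 4) φ ^ i) := by group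
      rw [h6]
      apply (mem_pgoAut_iff _ _).mp
      exact mul_mem (inv_mem ((mem_pgoAut_iff _ _).mpr ⟨_, iso_le_sim _ (SetLike.coe_mem _), hγI⟩))
        ((mem_pgoAut_iff _ _).mpr (inn_sim _ _ hi))
    have h7 := field_pow_sim _ (plus_field 4) hQ hn φ i h5
    rw [h7, mul_one] at hi
    exact hγnot hi
  · exact h3
  · have h8 := card_out_eq (Helper43.plusQF 4 F) (plus_field 4) hQ hn 2 f hF
    rw [semiSub_index_eight, char2_relIndex (Helper43.plusQF 4 F) hQ hn
      (pgoAut F ⇑(Helper43.plusQF 4 F)) (fun α => mem_pgoAut_iff _ α)] at h8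
    rw [h8]
    ring

/-- **`Out(PΩ⁺₂ₘ(2^f)) ≅ C₂ × C_f` for `m ≥ 5`** -/
theorem plus_out_even_big (m f : ℕ) (hf : 1 ≤ f) (hF : Fintype.card F = 2 ^ f) (hm : 5 ≤ m) :
    Nonempty (Out (POmega F ⇑(Helper43.plusQF m F)) ≃* Multiplicative (ZMod 2 × ZMod f)) := by
  have hQ := Helper45.plusQF_nondeg' (F := F) m
  have hcard : Fintype.card (Fin m ⊕ Fin m) = 2 * m := by
    rw [Fintype.card_sum, Fintype.card_fin]; omega
  obtain ⟨Θ, hΘ1, hΘ2⟩ := exists_theta (Helper43.plusQF m F) hQ (by omega) (Or.inl (by omega))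
  haveI := Helper44.charP_of_card (F := F) 2 f hF
  obtain ⟨hcyc, hcardC⟩ := Helper44.ringAut_cyclic_card (F := F) 2 f hF
  have hsΘ : ∀ σ : RingAut F, Θ (fieldHom (Helper43.plusQF m F) (plus_field m) σ) = σ :=
    fun σ => hΘ1 1 σ (plus_field m σ)
  have hker := theta_ker_iff (Helper43.plusQF m F) Θ hΘ1 hΘ2
  have hI : Inn (POmega F ⇑(Helper43.plusQF m F)) ≤ Θ.ker := by
    intro α hα
    exact (hker α).mpr (inn_sim (Helper43.plusQF m F) α hα)
  have hidx := char2_relIndex (Helper43.plusQF m F) hQ (by omega) Θ.ker hker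
  exact out_split (Inn (POmega F ⇑(Helper43.plusQF m F))) hcyc f hcardC Θ
    (fieldHom (Helper43.plusQF m F) (plus_field m)) hsΘ hI hidx

end Even

end Cfsg.Agent.Helper45.Oct
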