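import Cfsg.Agent.Helper45.TSing2

set_option autoImplicit false
set_option linter.unusedSectionVars false

universe u

/-!
Versions of the characteristic-two facts about `Ω` that assume directly that the isometry group is
generated by reflections (instead of excluding dimension four over the field with two elements).
-/

namespace Cfsg.Agent.Helper45

open Cfsg Matrix

section ReflTop

variable {ι : Type} [Fintype ι] [DecidableEq ι] {F : Type u} [Field F] [Fintype F] [CharP F 2]
  (Q : QuadraticForm F (ι → F))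

/-- every isometry lies in `Ω` or in the coset of a given reflection -/
theorem omega_dichotomy_refl (hQ : (QuadraticMap.polarBilin Q).Nondegenerate)
    (hR : reflGroup Q = ⊤) (a : ι → F) (ha : Q a ≠ 0)
    (g : ↥(isometryGroup F ⇑Q)) : g ∈ Omega F ⇑Q ∨ g * reflO Q a ha ∈ Omega F ⇑Q := by
  have hN : (Omega F ⇑Q).Normal := inferInstance
  have hg : g ∈ reflGroup Q := by rw [hR]; trivial
  have hrr := reflO_mul_self Q a ha
  have hinv := Helper44.reflO_inv Q a ha
  refine Subgroup.closure_induction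
    (p := fun g _ => g ∈ Omega F ⇑Q ∨ g * reflO Q a ha ∈ Omega F ⇑Q) ?_ ?_ ?_ ?_ hg
  · rintro g ⟨b, hb, rfl⟩
    exact Or.inr (Helper44.refl_pair_mem_omega Q hQ b a hb ha)
  · exact Or.inl (one_mem _)
  · intro x y _ _ hx hy
    rcases hx with hx | hx <;> rcases hy with hy | hy
    · exact Or.inl (mul_mem hx hy)
    · right
      rw [mul_assoc]
      exact mul_mem hx hy
    · right
      have e : x * y * reflO Q a ha
          = (x * reflO Q a ha) * (reflO Q a ha * y * (reflO Q a ha)⁻¹) := by
        rw [hinv]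
        calc x * y * reflO Q a ha = x * (reflO Q a ha * reflO Q a ha) * y * reflO Q a ha := by
              rw [hrr, mul_one]
          _ = _ := by group
      rw [e]
      exact mul_mem hx (hN.conj_mem y hy _)
    · left
      have e : x * y = (x * reflO Q a ha) * (reflO Q a ha * (y * reflO Q a ha) * (reflO Q a ha)⁻¹) := by
        rw [hinv]
        calc x * y = x * (reflO Q a ha * reflO Q a ha) * y * (reflO Q a ha * reflO Q a ha) := by
              rw [hrr, mul_one, mul_one]
          _ = _ := by group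
      rw [e]
      exact mul_mem hx (hN.conj_mem _ hy _)
  · intro x _ hx
    rcases hx with hx | hx
    · exact Or.inl (inv_mem hx)
    · right
      have e : x⁻¹ * reflO Q a ha = reflO Q a ha * (x * reflO Q a ha)⁻¹ * (reflO Q a ha)⁻¹ := by
        have h1 : reflO Q a ha * (x * reflO Q a ha)⁻¹ * (reflO Q a ha)⁻¹
            = x⁻¹ * (reflO Q a ha)⁻¹ := by group
        rw [h1, hinv]
      rw [e]
      exact hN.conj_mem _ (inv_mem hx) _

/-- `Ω` is the kernel of the Dickson invariant -/
theorem mem_omega_iff_dick_refl [Nonempty ι] (hQ : (QuadraticMap.polarBilin Q).Nondegenerate)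
    (hR : reflGroup Q = ⊤) (g : ↥(isometryGroup F ⇑Q)) :
    g ∈ Omega F ⇑Q ↔ dick Q g = 0 := by
  constructor
  · exact dick_eq_zero_of_mem_omega Q hQ hR g
  · intro h
    obtain ⟨a, ha⟩ := exists_nonsingular Q hQ
    rcases omega_dichotomy_refl Q hQ hR a ha g with h1 | h1
    · exact h1
    · exfalso
      have h3 := dick_eq_zero_of_mem_omega Q hQ hR _ h1
      rw [dick_mul_of_mem Q hQ g (by rw [hR]; trivial), h, dick_refl Q hQ, zero_add] at h3
      exact absurd h3 (by decide)

theorem mem_omega_iff_even_rank_refl [Nonempty ι] (hQ : (QuadraticMap.polarBilin Q).Nondegenerate)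
    (hR : reflGroup Q = ⊤) (g : ↥(isometryGroup F ⇑Q)) :
    g ∈ Omega F ⇑Q ↔ Even (((g : GL ι F) : Matrix ι ι F) - 1).rank := by
  rw [mem_omega_iff_dick_refl Q hQ hR, dick_eq_zero_iff_even_rank]

/-- an element fixing a non-singular vector has the same conjugates under `O` and under `Ω` -/
theorem conj_omega_of_fix_refl (hQ : (QuadraticMap.polarBilin Q).Nondegenerate)
    (hR : reflGroup Q = ⊤) (t s : ↥(isometryGroup F ⇑Q))
    (hconj : IsConj t s) (v : ι → F) (hv : Q v ≠ 0) (htv : mv ⇑Q t v = v) :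
    ∃ g ∈ Omega F ⇑Q, g * t * g⁻¹ = s := by
  rw [isConj_iff] at hconj
  obtain ⟨k, hk⟩ := hconj
  rcases omega_dichotomy_refl Q hQ hR v hv k with h1 | h1
  · exact ⟨k, h1, hk⟩
  · refine ⟨k * reflO Q v hv, h1, ?_⟩
    have h2 : t * reflO Q v hv * t⁻¹ = reflO Q v hv := by
      rw [conj_reflO Q t v hv (by rw [htv]; exact hv)]
      exact Helper44.reflO_congr Q _ _ _ hv htv
    have h3 : reflO Q v hv * t * (reflO Q v hv)⁻¹ = t :=
      mul_inv_eq_iff_eq_mul.mpr (mul_inv_eq_iff_eq_mul.mp h2).symm
    rw [← hk, _root_.mul_inv_rev]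
    calc k * reflO Q v hv * t * ((reflO Q v hv)⁻¹ * k⁻¹)
        = k * (reflO Q v hv * t * (reflO Q v hv)⁻¹) * k⁻¹ := by group
      _ = k * t * k⁻¹ := by rw [h3]

/-- conjugacy of involutions under `Ω` versus `O`, when `O` is generated by reflections -/
theorem involution_conj_refl [Nonempty ι]
    (hQ : (QuadraticMap.polarBilin Q).Nondegenerate)
    (hR : reflGroup Q = ⊤) (t s : ↥(isometryGroup F ⇑Q))
    (ht : t * t = 1) (hconj : IsConj t s) :
    (¬ (2 * (((t : GL ι F) : Matrix ι ι F) - 1).rank = Fintype.card ι ∧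
        ∀ v : ι → F, Q (v + mv ⇑Q t v) = 0) → ∃ g ∈ Omega F ⇑Q, g * t * g⁻¹ = s) ∧
    ((2 * (((t : GL ι F) : Matrix ι ι F) - 1).rank = Fintype.card ι ∧
        ∀ v : ι → F, Q (v + mv ⇑Q t v) = 0) → Even (((t : GL ι F) : Matrix ι ι F) - 1).rank →
      ((∃ g ∈ Omega F ⇑Q, g * t * g⁻¹ = s) ↔
        Even (Module.finrank F ↥(LinearMap.range (Matrix.toLin' (((t : GL ι F) : Matrix ι ι F) - 1)) ⊓
          LinearMap.range (Matrix.toLin' (((s : GL ι F) : Matrix ι ι F) - 1)))))) := by
  have hrk := finrank_fixSub_add_rank Q t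
  have hge := fix_involution_ge Q t ht
  have hfixmem : ∀ v : ι → F, v + mv ⇑Q t v ∈ fixSub Q t := by
    intro v
    rw [mem_fixSub, mv_add, ← mv_mul, ht, mv_one, add_comm]
  constructor
  · intro hnot
    by_cases hns : ∃ v ∈ fixSub Q t, Q v ≠ 0
    · obtain ⟨v, hv, hQv⟩ := hns
      exact conj_omega_of_fix_refl Q hQ hR t s hconj v hQv ((mem_fixSub Q t v).mp hv)
    · exfalso
      push Not at hns
      apply hnot
      have hle := finrank_ts_le Q hQ (fixSub Q t) hns
      refine ⟨by omega, fun v => hns _ (hfixmem v)⟩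
  · rintro ⟨hA, hB⟩ hr
    obtain ⟨W, hWdef⟩ : ∃ W : Submodule F (ι → F),
        W = LinearMap.range (Matrix.toLin' (((t : GL ι F) : Matrix ι ι F) - 1)) := ⟨_, rfl⟩
    have hW : ∀ w ∈ W, Q w = 0 := by
      intro w hw
      rw [hWdef, mem_range_sub_one] at hw
      obtain ⟨y, rfl⟩ := hw
      have h1 : mv ⇑Q t y - y = y + mv ⇑Q t y := by
        funext i
        rw [Pi.sub_apply, Pi.add_apply, CharTwo.sub_eq_add, add_comm]
      rw [h1]
      exact hB y
    have hWr : Module.finrank F W = (((t : GL ι F) : Matrix ι ι F) - 1).rank := by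
      rw [hWdef, finrank_range_sub_one]
    have hdim : 2 * Module.finrank F W = Fintype.card ι := by
      rw [hWr]
      exact hA
    have key : ∀ k : ↥(isometryGroup F ⇑Q), k * t * k⁻¹ = s →
        (k ∈ Omega F ⇑Q ↔ Even (Module.finrank F ↥(W ⊓
          LinearMap.range (Matrix.toLin' (((s : GL ι F) : Matrix ι ι F) - 1))))) := by
      intro k hk
      have h1 := parity_ts' Q hQ hR W hW hdim k
      have h2 : LinearMap.range (Matrix.toLin' (((s : GL ι F) : Matrix ι ι F) - 1)) = imgSub Q k W := by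
        rw [← hk, range_sub_one_conj, hWdef]
      rw [h2, mem_omega_iff_dick_refl Q hQ hR, ← h1, ZMod.natCast_eq_zero_iff, ← even_iff_two_dvd,
        Nat.even_add]
      rw [hWr]
      constructor
      · intro h3
        exact h3.mpr hr
      · intro h3
        exact ⟨fun _ => hr, fun _ => h3⟩
    rw [← hWdef]
    constructor
    · rintro ⟨g, hg, hgt⟩
      exact (key g hgt).mp hg
    · intro hev
      rw [isConj_iff] at hconj
      obtain ⟨k, hk⟩ := hconj
      exact ⟨k, (key k hk).mpr hev, hk⟩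

end ReflTop

end Cfsg.Agent.Helper45
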