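import Cfsg.Agent.Helper45.OutD

set_option autoImplicit false
set_option linter.unusedSectionVars false
set_option linter.unusedSimpArgs false
set_option linter.unusedVariables false
set_option linter.style.haveILetI false

/-!
Helper library (helper45), outer automorphisms of `PΩ(Q)`, part E: for the minus-type form in
characteristic two, the automorphism induced by the Frobenius-semilinear map has `f`-th power
outside the inner automorphisms (it is induced by a reflection).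
-/

universe u

namespace Cfsg.Agent.Helper45.OO

open Cfsg Matrix Module Cfsg.Agent.Helper45.AO

section MinusTwo

variable {F : Type u} [Field F] [Fintype F] [CharP F 2]

/-- the automorphism of `PΩ⁻` induced by the Frobenius-semilinear map: its `f`-th power is not
inner -/
theorem minus_frob (k : ℕ) (hk : 2 ≤ k) (a b : F)
    (hab : ∀ z₁ z₂ : F, z₁ ^ 2 + a * z₁ * z₂ + b * z₂ ^ 2 = 0 → z₁ = 0 ∧ z₂ = 0) (f : ℕ)
    (hF : Fintype.card F = 2 ^ f) :
    ∃ (g : GL ((Fin k ⊕ Fin k) ⊕ Fin 2) F)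
      (hg : IsSemisimilarityPair ⇑(Helper43.minusQF k F a b) g (frobeniusEquiv F 2)),
      semiAut ⇑(Helper43.minusQF k F a b) g (frobeniusEquiv F 2) hg ^ f ∉
        Inn (POmega F ⇑(Helper43.minusQF k F a b)) := by
  have h2 : (2 : F) = 0 := CharTwo.two_eq_zero
  have hQ := minusQF_nondeg' (F := F) k a b hab
  have hcard : Fintype.card ((Fin k ⊕ Fin k) ⊕ Fin 2) = 2 * k + 2 := by
    rw [Fintype.card_sum, Fintype.card_sum, Fintype.card_fin, Fintype.card_fin]
    omega
  have hn : 5 ≤ Fintype.card ((Fin k ⊕ Fin k) ⊕ Fin 2) := by omega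
  have hex : (∃ t : F, t ≠ 0 ∧ t ≠ 1) ∨ Fintype.card ((Fin k ⊕ Fin k) ⊕ Fin 2) ≠ 4 :=
    Or.inr (by omega)
  obtain ⟨g, hg, hmap⟩ := exists_pair_of_SS (Helper43.minusQF k F a b) hQ (frobMinus_SS k a b)
  refine ⟨g, hg, ?_⟩
  intro hinn
  obtain ⟨g', τ, hτ, hg', hpow, hiter⟩ :=
    semiAut_pow ⇑(Helper43.minusQF k F a b) g (frobeniusEquiv F 2) hg f
  have hτ1 : τ = RingEquiv.refl F := by
    rw [hτ]
    exact frob_pow_card f hF
  subst hτ1
  have hΦ : semiMap g (frobeniusEquiv F 2) = frobMinus k a b := funext hmap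
  have hN : ∀ x, (g' : Matrix ((Fin k ⊕ Fin k) ⊕ Fin 2) ((Fin k ⊕ Fin k) ⊕ Fin 2) F) *ᵥ x =
      (frobMinus k a b)^[f] x := by
    intro x
    rw [← hΦ, ← hiter x]
    rfl
  have hq : ∀ y : F, y ^ (2 ^ f) = y := by
    intro y
    rw [← hF, FiniteField.pow_card]
  have hiso : g' ∈ isometryGroup F ⇑(Helper43.minusQF k F a b) := by
    rw [mem_iso_iff]
    intro v
    rw [hN, frobMinus_iter_quad, hq]
  obtain ⟨N, hNdef⟩ : ∃ N : ↥(isometryGroup F ⇑(Helper43.minusQF k F a b)), N = ⟨g', hiso⟩ :=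
    ⟨_, rfl⟩
  have hNc : (N : GL ((Fin k ⊕ Fin k) ⊕ Fin 2) F) = g' := by rw [hNdef]
  have hind : Ind ⇑(Helper43.minusQF k F a b) (N : GL ((Fin k ⊕ Fin k) ⊕ Fin 2) F)
      (semiAut ⇑(Helper43.minusQF k F a b) g (frobeniusEquiv F 2) hg ^ f) := by
    rw [hNc, hpow]
    exact (semi_ind_iff _ g' (RingEquiv.refl F) hg' _).mpr rfl
  haveI : Nonempty ((Fin k ⊕ Fin k) ⊕ Fin 2) := ⟨Sum.inr 0⟩
  obtain ⟨v, hv⟩ := exists_nonsingular (Helper43.minusQF k F a b) hQ
  have hΩ := omega_of_mem_inn_char2 (Helper43.minusQF k F a b)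
    (scalar_of_ind (Helper43.minusQF k F a b) hQ hn) ⟨v, hv⟩ N _ hind hinn
  rw [mem_omega_iff_dick _ hQ hex] at hΩ
  have hmvN : ∀ x, mv ⇑(Helper43.minusQF k F a b) N x = (frobMinus k a b)^[f] x := by
    intro x
    show ((N : GL ((Fin k ⊕ Fin k) ⊕ Fin 2) F) :
      Matrix ((Fin k ⊕ Fin k) ⊕ Fin 2) ((Fin k ⊕ Fin k) ⊕ Fin 2) F) *ᵥ x = _
    rw [hNc, hN]
  have ha0 : a ≠ 0 := by
    rintro rfl
    obtain ⟨d, hd⟩ := FiniteField.isSquare_of_char_two (ringChar.eq F 2) b
    have h5 := hab d 1 (by linear_combination hd + d ^ 2 * h2)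
    exact one_ne_zero h5.2
  obtain ⟨lam, hlam⟩ : ∃ lam : ((Fin k ⊕ Fin k) ⊕ Fin 2 → F) →ₗ[F] F,
      ∀ x, lam x = (mv ⇑(Helper43.minusQF k F a b) N x) (Sum.inr 0) - x (Sum.inr 0) := by
    refine ⟨(LinearMap.proj (Sum.inr 0)).comp
      (Matrix.mulVecLin ((N : GL ((Fin k ⊕ Fin k) ⊕ Fin 2) F) :
        Matrix ((Fin k ⊕ Fin k) ⊕ Fin 2) ((Fin k ⊕ Fin k) ⊕ Fin 2) F) - LinearMap.id),
      fun x => rfl⟩
  have hfix : fixSub (Helper43.minusQF k F a b) N = LinearMap.ker lam := by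
    ext x
    rw [mem_fixSub, LinearMap.mem_ker, hlam]
    constructor
    · intro h
      rw [h, sub_self]
    · intro h
      funext i
      rcases i with j | t
      · rw [hmvN, frobMinus_iter_inl, hq]
      · fin_cases t
        · exact sub_eq_zero.mp h
        · show (mv ⇑(Helper43.minusQF k F a b) N x) (Sum.inr 1) = x (Sum.inr 1)
          have h5 := frobMinus_iter_inr1 k a b f x
          rw [hq] at h5
          rw [hmvN]
          exact mul_left_cancel₀ ha0 h5
  obtain ⟨x₀, hx₀⟩ := frobMinus_iter_ne k a b hab f hF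
  have hl0 : lam x₀ ≠ 0 := by
    intro h
    have h5 : x₀ ∈ fixSub (Helper43.minusQF k F a b) N := by
      rw [hfix, LinearMap.mem_ker]
      exact h
    rw [mem_fixSub, hmvN] at h5
    exact hx₀ h5
  have hrank : Module.finrank F (LinearMap.ker lam) + 1 =
      Fintype.card ((Fin k ⊕ Fin k) ⊕ Fin 2) := by
    have h := LinearMap.finrank_range_add_finrank_ker lam
    have hr : LinearMap.range lam = ⊤ := by
      rw [LinearMap.range_eq_top]
      intro c
      refine ⟨(c / lam x₀) • x₀, ?_⟩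
      rw [map_smul, smul_eq_mul, div_mul_cancel₀ _ hl0]
    rw [hr, finrank_top, Module.finrank_self, Module.finrank_fintype_fun_eq_card] at h
    omega
  unfold dick at hΩ
  rw [hfix] at hΩ
  have h8 : Module.finrank F (LinearMap.ker lam) + Fintype.card ((Fin k ⊕ Fin k) ⊕ Fin 2) =
      2 * Module.finrank F (LinearMap.ker lam) + 1 := by omega
  rw [h8] at hΩ
  push_cast at hΩ
  have h9 : (2 : ZMod 2) = 0 := rfl
  rw [h9, zero_mul, zero_add] at hΩ
  exact one_ne_zero hΩ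

end MinusTwo

end Cfsg.Agent.Helper45.OO
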