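import Cfsg.Agent.Helper45.OutE

set_option autoImplicit false
set_option linter.unusedSectionVars false
set_option linter.unusedSimpArgs false
set_option linter.unusedVariables false
set_option linter.style.haveILetI false

/-!
Helper library (helper45), outer automorphisms of `PΩ(Q)`, part F: the Frobenius-semilinear map of
the minus-type form in any characteristic, through the quadratic extension `F[ω]`, `ω² = -b + a ω`;
its `f`-th power is a reflection.
-/

universe u

namespace Cfsg.Agent.Helper45.OO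

open Cfsg Matrix Module Cfsg.Agent.Helper45.AO

section FrobP

variable {F : Type u} [Field F] [Fintype F] (p : ℕ) [Fact p.Prime] [CharP F p]

/-- every automorphism of a finite field of characteristic `p` is a power of the Frobenius -/
theorem ringAut_eq_frobP_pow (σ : F ≃+* F) :
    ∃ j : ℕ, σ = (frobeniusEquiv F p : RingAut F) ^ j := by
  letI : Algebra (ZMod p) F := ZMod.algebra F p
  obtain ⟨σ', hσ'⟩ : ∃ σ' : F ≃ₐ[ZMod p] F, ∀ x, σ' x = σ x := by
    refine ⟨AlgEquiv.ofRingEquiv (f := σ) ?_, fun x => rfl⟩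
    intro r
    have h1 : ((σ : F →+* F).comp (algebraMap (ZMod p) F)) = algebraMap (ZMod p) F :=
      Subsingleton.elim _ _
    exact DFunLike.congr_fun h1 r
  obtain ⟨n, hn⟩ := (FiniteField.bijective_frobeniusAlgEquivOfAlgebraic_pow (ZMod p) F).2 σ'
  refine ⟨n.1, ?_⟩
  ext x
  have h3 := DFunLike.congr_fun hn x
  simp only at h3
  rw [AlgEquiv.coe_pow, FiniteField.coe_frobeniusAlgEquivOfAlgebraic_iterate, ZMod.card, hσ'] at h3
  rw [← h3, RingAut.coe_pow, coe_frobeniusEquiv, iterate_frobenius]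

theorem frobP_pow_card (f : ℕ) (hF : Fintype.card F = p ^ f) :
    (frobeniusEquiv F p : RingAut F) ^ f = RingEquiv.refl F := by
  ext x
  rw [RingAut.coe_pow, coe_frobeniusEquiv, iterate_frobenius, ← hF, FiniteField.pow_card]
  rfl

omit [Fintype F] [CharP F p] in
/-- the binary coordinates as an element of the quadratic algebra `F[ω]`, `ω² = -b + a ω` -/
def kap {k : ℕ} (a b : F) (x : (Fin k ⊕ Fin k) ⊕ Fin 2 → F) : QuadraticAlgebra F (-b) a :=
  ⟨x (Sum.inr 0), x (Sum.inr 1)⟩

/-- the Frobenius-semilinear map of the minus-type form -/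
def frobP (k : ℕ) (a b : F) (x : (Fin k ⊕ Fin k) ⊕ Fin 2 → F) : (Fin k ⊕ Fin k) ⊕ Fin 2 → F :=
  Sum.elim (fun j => x (Sum.inl j) ^ p) ![(kap a b x ^ p).re, (kap a b x ^ p).im]

omit [Fintype F] [Fact p.Prime] [CharP F p] in
theorem frobP_inl (k : ℕ) (a b : F) (x : (Fin k ⊕ Fin k) ⊕ Fin 2 → F) (j : Fin k ⊕ Fin k) :
    frobP p k a b x (Sum.inl j) = x (Sum.inl j) ^ p := rfl

omit [Fintype F] [Fact p.Prime] [CharP F p] in
theorem kap_frobP (k : ℕ) (a b : F) (x : (Fin k ⊕ Fin k) ⊕ Fin 2 → F) :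
    kap a b (frobP p k a b x) = kap a b x ^ p := by
  ext <;> rfl

omit [Fintype F] in
theorem kap_add {k : ℕ} (a b : F) (x y : (Fin k ⊕ Fin k) ⊕ Fin 2 → F) :
    kap a b (x + y) = kap a b x + kap a b y := by
  ext <;> rfl

omit [Fintype F] in
theorem kap_smul {k : ℕ} (a b : F) (t : F) (x : (Fin k ⊕ Fin k) ⊕ Fin 2 → F) :
    kap a b (t • x) = t • kap a b x := by
  ext <;> rfl

omit [Fintype F] in
theorem kap_inj {k : ℕ} (a b : F) (x y : (Fin k ⊕ Fin k) ⊕ Fin 2 → F)
    (h1 : ∀ j, x (Sum.inl j) = y (Sum.inl j)) (h2 : kap a b x = kap a b y) : x = y := by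
  funext i
  rcases i with j | t
  · exact h1 j
  · fin_cases t
    · exact congrArg QuadraticAlgebra.re h2
    · exact congrArg QuadraticAlgebra.im h2

omit [Fintype F] in
theorem minus_eq_norm (k : ℕ) (a b : F) (x : (Fin k ⊕ Fin k) ⊕ Fin 2 → F) :
    Helper43.minusQF k F a b x =
      (∑ i : Fin k, x (Sum.inl (Sum.inl i)) * x (Sum.inl (Sum.inr i))) +
        QuadraticAlgebra.norm (kap a b x) := by
  rw [Helper43.minusQF_coe, QuadraticAlgebra.norm_def]
  unfold quadFormMinus
  show _ + (x (Sum.inr 0) ^ 2 + a * x (Sum.inr 0) * x (Sum.inr 1) + b * x (Sum.inr 1) ^ 2) =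
    _ + (x (Sum.inr 0) * x (Sum.inr 0) + a * x (Sum.inr 0) * x (Sum.inr 1) -
      -b * x (Sum.inr 1) * x (Sum.inr 1))
  ring

theorem frobP_SS (k : ℕ) (a b : F) :
    SS (Helper43.minusQF k F a b) (frobP p k a b) (frobeniusEquiv F p) 1 := by
  haveI : CharP (QuadraticAlgebra F (-b) a) p :=
    charP_of_injective_algebraMap (algebraMap F (QuadraticAlgebra F (-b) a)).injective p
  refine ⟨fun x y => ?_, fun t x => ?_, fun x => ?_, one_ne_zero⟩
  · apply kap_inj a b
    · intro j
      rw [Pi.add_apply, frobP_inl, frobP_inl, frobP_inl, Pi.add_apply, add_pow_char]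
    · rw [kap_frobP, kap_add, add_pow_char, kap_add, kap_frobP, kap_frobP]
  · apply kap_inj a b
    · intro j
      rw [Pi.smul_apply, frobP_inl, frobP_inl, Pi.smul_apply, frobeniusEquiv_def,
        smul_eq_mul, smul_eq_mul, mul_pow]
    · rw [kap_frobP, kap_smul, kap_smul, kap_frobP, smul_pow, frobeniusEquiv_def]
  · rw [minus_eq_norm, minus_eq_norm, kap_frobP, map_pow, frobeniusEquiv_def, one_mul,
      add_pow_char, sum_pow_char]
    congr 1
    apply Finset.sum_congr rfl
    intro i _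
    rw [frobP_inl, frobP_inl, mul_pow]

omit [Fintype F] [Fact p.Prime] [CharP F p] in
theorem frobP_iter_inl (k : ℕ) (a b : F) (j : ℕ) (x : (Fin k ⊕ Fin k) ⊕ Fin 2 → F)
    (i : Fin k ⊕ Fin k) : ((frobP p k a b)^[j] x) (Sum.inl i) = x (Sum.inl i) ^ (p ^ j) := by
  induction j with
  | zero => simp
  | succ j ih =>
    rw [Function.iterate_succ_apply', frobP_inl, ih, ← pow_mul, pow_succ]

omit [Fintype F] [Fact p.Prime] [CharP F p] in
theorem kap_frobP_iter (k : ℕ) (a b : F) (j : ℕ) (x : (Fin k ⊕ Fin k) ⊕ Fin 2 → F) :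
    kap a b ((frobP p k a b)^[j] x) = kap a b x ^ (p ^ j) := by
  induction j with
  | zero => simp
  | succ j ih =>
    rw [Function.iterate_succ_apply', kap_frobP, ih, ← pow_mul, pow_succ]

theorem frobP_iter_quad (k : ℕ) (a b : F) (j : ℕ) (x : (Fin k ⊕ Fin k) ⊕ Fin 2 → F) :
    Helper43.minusQF k F a b ((frobP p k a b)^[j] x) = Helper43.minusQF k F a b x ^ (p ^ j) := by
  induction j with
  | zero => simp
  | succ j ih =>
    rw [Function.iterate_succ_apply', (frobP_SS p k a b).quad, one_mul, frobeniusEquiv_def, ih,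
      ← pow_mul, pow_succ]

omit [Fintype F] [Fact p.Prime] [CharP F p] in
theorem fact_of_aniso (a b : F)
    (hab : ∀ z₁ z₂ : F, z₁ ^ 2 + a * z₁ * z₂ + b * z₂ ^ 2 = 0 → z₁ = 0 ∧ z₂ = 0) :
    Fact (∀ r : F, r ^ 2 ≠ -b + a * r) := ⟨fun r hr => by
  have h1 := hab r (-1) (by linear_combination hr)
  have h2 : (-1 : F) = 0 := h1.2
  exact one_ne_zero (neg_eq_zero.mp h2)⟩

omit [Fact p.Prime] [CharP F p] in
/-- in the quadratic extension, the `|F|`-th power map is the conjugation -/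
theorem kk_pow_card (a b : F)
    (hab : ∀ z₁ z₂ : F, z₁ ^ 2 + a * z₁ * z₂ + b * z₂ ^ 2 = 0 → z₁ = 0 ∧ z₂ = 0)
    (z : QuadraticAlgebra F (-b) a) : z ^ Fintype.card F = star z := by
  haveI := fact_of_aniso a b hab
  haveI : Finite (QuadraticAlgebra F (-b) a) :=
    Finite.of_equiv _ (QuadraticAlgebra.equivProd (-b) a).symm
  obtain ⟨φ, hφ⟩ : ∃ φ : QuadraticAlgebra F (-b) a →ₐ[F] QuadraticAlgebra F (-b) a,
      φ = FiniteField.frobeniusAlgHom F (QuadraticAlgebra F (-b) a) := ⟨_, rfl⟩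
  have hφz : ∀ z, φ z = z ^ Fintype.card F := by
    intro z
    rw [hφ]
    rfl
  have h1 := FiniteField.orderOf_frobeniusAlgHom F (QuadraticAlgebra F (-b) a)
  have h3 : Module.finrank F (QuadraticAlgebra F (-b) a) = 2 := by
    rw [Module.finrank_eq_card_basis (QuadraticAlgebra.basis (-b) a)]
    simp
  rw [h3, ← hφ] at h1
  have hne : φ QuadraticAlgebra.omega ≠ QuadraticAlgebra.omega := by
    intro h
    have h4 : φ = 1 := QuadraticAlgebra.algHom_ext (by rw [h]; rfl)
    rw [h4, orderOf_one] at h1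
    exact absurd h1 (by decide)
  have e1 : φ QuadraticAlgebra.omega * φ QuadraticAlgebra.omega =
      algebraMap F _ (-b) + algebraMap F _ a * φ QuadraticAlgebra.omega := by
    rw [← map_mul, QuadraticAlgebra.omega_mul_omega_eq_algebraMap, map_add, map_mul,
      AlgHom.commutes, AlgHom.commutes]
  have e2 : (QuadraticAlgebra.omega : QuadraticAlgebra F (-b) a) + star QuadraticAlgebra.omega =
      algebraMap F _ a := by
    ext <;> simp
  have e3 : (QuadraticAlgebra.omega : QuadraticAlgebra F (-b) a) * star QuadraticAlgebra.omega =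
      algebraMap F _ b := by
    ext <;> simp
  have hq : (φ QuadraticAlgebra.omega - QuadraticAlgebra.omega) *
      (φ QuadraticAlgebra.omega - star QuadraticAlgebra.omega) = 0 := by
    have e4 : (φ QuadraticAlgebra.omega - QuadraticAlgebra.omega) *
        (φ QuadraticAlgebra.omega - star QuadraticAlgebra.omega) =
        φ QuadraticAlgebra.omega * φ QuadraticAlgebra.omega -
          (QuadraticAlgebra.omega + star QuadraticAlgebra.omega) * φ QuadraticAlgebra.omega +
          QuadraticAlgebra.omega * star QuadraticAlgebra.omega := by ring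
    rw [e4, e1, e2, e3, map_neg]
    ring
  rcases mul_eq_zero.mp hq with h | h
  · exact absurd (sub_eq_zero.mp h) hne
  · have hω : φ QuadraticAlgebra.omega = star QuadraticAlgebra.omega := sub_eq_zero.mp h
    rw [← hφz]
    obtain ⟨x, y⟩ := z
    rw [QuadraticAlgebra.mk_eq_add_smul_omega, map_add, map_smul, AlgHom.commutes, hω]
    ext
    · simp
      ring
    · simp

/-- the vector of the reflection -/
def reflVec (k : ℕ) (a : F) : (Fin k ⊕ Fin k) ⊕ Fin 2 → F :=
  Sum.elim (fun _ => 0) ![-a, 2]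

omit [Fintype F] [Fact p.Prime] [CharP F p] in
theorem reflVec_quad (k : ℕ) (a b : F) :
    Helper43.minusQF k F a b (reflVec k a) = 4 * b - a ^ 2 := by
  rw [Helper43.minusQF_coe]
  unfold quadFormMinus
  have h1 : ∑ i : Fin k, reflVec k a (Sum.inl (Sum.inl i)) * reflVec k a (Sum.inl (Sum.inr i)) = 0 := by
    apply Finset.sum_eq_zero
    intro i _
    show (0 : F) * 0 = 0
    ring
  rw [h1]
  show 0 + ((-a) ^ 2 + a * (-a) * 2 + b * 2 ^ 2) = 4 * b - a ^ 2
  ring

omit [Fintype F] [Fact p.Prime] [CharP F p] in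
theorem reflVec_polar (k : ℕ) (a b : F) (x : (Fin k ⊕ Fin k) ⊕ Fin 2 → F) :
    QuadraticMap.polar ⇑(Helper43.minusQF k F a b) (reflVec k a) x =
      (4 * b - a ^ 2) * x (Sum.inr 1) := by
  rw [minusQF_polar]
  have h1 : ∑ i : Fin k, (reflVec k a (Sum.inl (Sum.inl i)) * x (Sum.inl (Sum.inr i)) +
      x (Sum.inl (Sum.inl i)) * reflVec k a (Sum.inl (Sum.inr i))) = 0 := by
    apply Finset.sum_eq_zero
    intro i _
    show (0 : F) * x (Sum.inl (Sum.inr i)) + x (Sum.inl (Sum.inl i)) * 0 = 0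
    ring
  rw [h1]
  show 0 + (2 * (-a) * x (Sum.inr 0) + a * ((-a) * x (Sum.inr 1) + x (Sum.inr 0) * 2) +
    2 * b * 2 * x (Sum.inr 1)) = (4 * b - a ^ 2) * x (Sum.inr 1)
  ring

/-- the `f`-th power of the Frobenius-semilinear map is the reflection in `reflVec` -/
theorem frobP_iter_refl (k : ℕ) (a b : F)
    (hab : ∀ z₁ z₂ : F, z₁ ^ 2 + a * z₁ * z₂ + b * z₂ ^ 2 = 0 → z₁ = 0 ∧ z₂ = 0) (f : ℕ)
    (hF : Fintype.card F = p ^ f)
    (hu : Helper43.minusQF k F a b (reflVec k a) ≠ 0) (x : (Fin k ⊕ Fin k) ⊕ Fin 2 → F) :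
    mv ⇑(Helper43.minusQF k F a b) (reflO (Helper43.minusQF k F a b) (reflVec k a) hu) x =
      (frobP p k a b)^[f] x := by
  rw [mv_reflO, reflVec_polar]
  have hu' : (4 * b - a ^ 2) ≠ 0 := by
    rw [← reflVec_quad k a b]
    exact hu
  rw [reflVec_quad, ← mul_assoc, inv_mul_cancel₀ hu', one_mul]
  symm
  apply kap_inj a b
  · intro j
    rw [frobP_iter_inl, ← hF, FiniteField.pow_card]
    show x (Sum.inl j) = x (Sum.inl j) - x (Sum.inr 1) * 0
    ring
  · rw [kap_frobP_iter, ← hF, kk_pow_card a b hab]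
    ext
    · show x (Sum.inr 0) + a * x (Sum.inr 1) = x (Sum.inr 0) - x (Sum.inr 1) * (-a)
      ring
    · show -x (Sum.inr 1) = x (Sum.inr 1) - x (Sum.inr 1) * 2
      ring

end FrobP

end Cfsg.Agent.Helper45.OO
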