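import Mathlib
import Cfsg.Agent.Helper79.S4705Defs
import Cfsg.Agent.Helper15.B42Main

/-!
# CALL S4705 (helper79), sub-call SHAPE (helper45), piece BLKZ

The block of `ζ` over `θ`: `ζ` is an exceptional character with sign `-1`, and the multiplicity
of `θ` in `ζ|_K` is at least `p - 2`.
-/

set_option autoImplicit false
open Cfsg Cfsg.Agent.Helper77 Cfsg.Agent.Helper15
open scoped ComplexConjugate

universe u

namespace Cfsg.Agent.Helper45.S4705BLKZ

section roots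

variable (p : ℕ) [Fact p.Prime]

theorem blkz_prim : IsPrimitiveRoot (d1zeta p) p :=
  Complex.isPrimitiveRoot_exp p (Fact.out : p.Prime).ne_zero

theorem blkz_ind (a : ZMod p) (z : ℤ) :
    ∑ j : ZMod p, (((if j = a then z else 0 : ℤ)) : ℂ) * d1zeta p ^ j.val
      = (z : ℂ) * d1zeta p ^ a.val := by
  rw [Finset.sum_eq_single a]
  · rw [if_pos rfl]
  · intro b _ hb
    rw [if_neg hb]
    simp
  · intro hn
    exact absurd (Finset.mem_univ a) hn

theorem blkz_indS (S : Finset (ZMod p)) (z : ℤ) :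
    ∑ j : ZMod p, (((if j ∈ S then z else 0 : ℤ)) : ℂ) * d1zeta p ^ j.val
      = (z : ℂ) * ∑ j ∈ S, d1zeta p ^ j.val := by
  have h1 : ∀ j : ZMod p, (((if j ∈ S then z else 0 : ℤ)) : ℂ) * d1zeta p ^ j.val
      = if j ∈ S then (z : ℂ) * d1zeta p ^ j.val else 0 := by
    intro j
    split_ifs <;> simp
  rw [Finset.sum_congr rfl (fun j _ => h1 j), Finset.sum_ite_mem, Finset.univ_inter,
    Finset.mul_sum]

/-- relation A -/
theorem blkz_relA (t : ℕ) (L : Finset (ZMod p)) (h0 : (0 : ZMod p) ∉ L) (l₀ : ZMod p)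
    (hl₀ : l₀ ≠ 0) :
    (t : ℂ) * ∑ j ∈ L, d1zeta p ^ j.val + d1zeta p ^ l₀.val + d1zeta p ^ (-l₀).val ≠ 0 := by
  intro h
  have hnl₀ : -l₀ ≠ 0 := neg_ne_zero.mpr hl₀
  have hc := Helper88.coeff_const88 p (d1zeta p) (blkz_prim p)
    (fun j => (if j ∈ L then (t : ℤ) else 0) + (if j = l₀ then 1 else 0)
      + (if j = -l₀ then 1 else 0)) (by
      simp only [Int.cast_add, add_mul, Finset.sum_add_distrib]
      rw [blkz_indS, blkz_ind, blkz_ind]
      push_cast
      rw [one_mul, one_mul]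
      exact h) l₀
  simp only [if_true, if_neg h0, if_neg hl₀.symm, if_neg hnl₀.symm] at hc
  have h1 : (0 : ℤ) ≤ (if l₀ ∈ L then (t : ℤ) else 0) := by
    split_ifs
    · exact Int.natCast_nonneg t
    · exact le_refl _
  have h2 : (0 : ℤ) ≤ (if l₀ = -l₀ then (1 : ℤ) else 0) := by
    split_ifs <;> norm_num
  omega

/-- relation B -/
theorem blkz_relB (hp3 : 3 < p) (e : ℕ) (he : 0 < e) (m : ℤ) (l₀ : ZMod p) (hl₀ : l₀ ≠ 0) :
    (e : ℂ) * (d1zeta p ^ l₀.val + d1zeta p ^ (-l₀).val) + (m : ℂ) ≠ 0 := by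
  intro h
  have hp : p.Prime := Fact.out
  haveI : NeZero p := ⟨hp.ne_zero⟩
  have hnl₀ : -l₀ ≠ 0 := neg_ne_zero.mpr hl₀
  have h2 : (2 : ZMod p) ≠ 0 := by
    intro e2
    have e3 : ((2 : ℕ) : ZMod p) = 0 := by exact_mod_cast e2
    rw [ZMod.natCast_eq_zero_iff] at e3
    have := Nat.le_of_dvd (by norm_num) e3
    omega
  have h3 : (3 : ZMod p) ≠ 0 := by
    intro e2
    have e3 : ((3 : ℕ) : ZMod p) = 0 := by exact_mod_cast e2
    rw [ZMod.natCast_eq_zero_iff] at e3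
    have := Nat.le_of_dvd (by norm_num) e3
    omega
  obtain ⟨j₁, hj₁⟩ : ∃ j₁ : ZMod p, j₁ = l₀ + l₀ := ⟨_, rfl⟩
  have hj0 : j₁ ≠ 0 := by
    intro e2
    have e3 : (2 : ZMod p) * l₀ = 0 := by rw [← e2, hj₁]; ring
    rcases mul_eq_zero.mp e3 with e4 | e4
    · exact h2 e4
    · exact hl₀ e4
  have hj1 : j₁ ≠ l₀ := by
    intro e2
    apply hl₀
    have e3 : l₀ + l₀ = l₀ := by rw [← hj₁]; exact e2
    linear_combination e3
  have hj2 : j₁ ≠ -l₀ := by
    intro e2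
    have e3 : (3 : ZMod p) * l₀ = 0 := by
      have e4 : l₀ + l₀ = -l₀ := by rw [← hj₁]; exact e2
      linear_combination e4
    rcases mul_eq_zero.mp e3 with e4 | e4
    · exact h3 e4
    · exact hl₀ e4
  have hz : (0 : ZMod p).val = 0 := ZMod.val_zero
  have hrel : ∑ j : ZMod p, ((((if j = l₀ then (e : ℤ) else 0) + (if j = -l₀ then (e : ℤ) else 0)
      + (if j = 0 then m else 0) : ℤ)) : ℂ) * d1zeta p ^ j.val = 0 := by
    simp only [Int.cast_add, add_mul, Finset.sum_add_distrib]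
    rw [blkz_ind, blkz_ind, blkz_ind, hz, pow_zero, mul_one]
    push_cast
    rw [← h]
    ring
  have hc1 := Helper88.coeff_const88 p (d1zeta p) (blkz_prim p) _ hrel l₀
  have hc2 := Helper88.coeff_const88 p (d1zeta p) (blkz_prim p) _ hrel j₁
  simp only [if_true, if_neg hl₀.symm, if_neg hnl₀.symm, if_neg hl₀, if_neg hj0, if_neg hj1,
    if_neg hj2] at hc1 hc2
  have h5 : (0 : ℤ) ≤ (if l₀ = -l₀ then (e : ℤ) else 0) := by
    split_ifs
    · exact Int.natCast_nonneg e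
    · exact le_refl _
  have h6 : (0 : ℤ) < (e : ℤ) := by exact_mod_cast he
  omega

/-- relation C -/
theorem blkz_relC (n : ZMod p → ℕ) (L : Finset (ZMod p)) (h0 : (0 : ZMod p) ∉ L)
    (h : ∑ a : ZMod p, (n a : ℂ) * d1zeta p ^ a.val + ∑ j ∈ L, d1zeta p ^ j.val = 0)
    (j : ZMod p) : (n j : ℤ) = (n 0 : ℤ) - (if j ∈ L then 1 else 0) := by
  have hrel : ∑ j : ZMod p, ((((n j : ℤ) + (if j ∈ L then (1 : ℤ) else 0) : ℤ)) : ℂ)
      * d1zeta p ^ j.val = 0 := by
    simp only [Int.cast_add, add_mul, Finset.sum_add_distrib]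
    rw [blkz_indS]
    push_cast
    rw [one_mul]
    exact h
  have hc := Helper88.coeff_const88 p (d1zeta p) (blkz_prim p) _ hrel j
  simp only [if_neg h0] at hc
  omega

/-- the orbit `E l₁` as a finite set -/
theorem blkz_orbit (E : Subgroup (ZMod p)ˣ) [Fintype E] (l₁ : ZMod p) (hl₁ : l₁ ≠ 0) :
    ∃ L : Finset (ZMod p), (0 : ZMod p) ∉ L ∧ l₁ ∈ L ∧ L.card = Nat.card E ∧
      ∀ g : ZMod p → ℂ, ∑ s : E, g ((((s : (ZMod p)ˣ) : ZMod p)) * l₁) = ∑ j ∈ L, g j := by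
  classical
  have hinj : Function.Injective (fun s : E => (((s : (ZMod p)ˣ) : ZMod p)) * l₁) := by
    intro a b hab
    exact Subtype.ext (Units.ext (mul_right_cancel₀ hl₁ hab))
  refine ⟨Finset.univ.image (fun s : E => (((s : (ZMod p)ˣ) : ZMod p)) * l₁), ?_, ?_, ?_, ?_⟩
  · intro h0
    obtain ⟨s, -, hs⟩ := Finset.mem_image.mp h0
    rcases mul_eq_zero.mp hs with h | h
    · exact (s : (ZMod p)ˣ).ne_zero h
    · exact hl₁ h
  · exact Finset.mem_image.mpr ⟨1, Finset.mem_univ _, by simp⟩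
  · rw [Finset.card_image_of_injective _ hinj, Finset.card_univ, Nat.card_eq_fintype_card]
  · intro g
    rw [Finset.sum_image (fun a _ b _ hab => hinj hab)]

end roots

variable {H : Type u} [Group H] [Finite H]

theorem sh_blkz (p : ℕ) [Fact p.Prime] (hp5 : 5 < p) (x : H) (K : Subgroup H)
    (h : D1Hyp p x K) (F : Subgroup (ZMod p)ˣ) (hF : (F : Set (ZMod p)ˣ) = normUnits p x)
    (hF2 : Nat.card F = 2) (ζ : Cfsg.IrrCharacter H)
    (hdeg : Cfsg.charDegree (ζ : H → ℂ) + 2 = p) (l₀ : ZMod p) (hl₀ : l₀ ≠ 0)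
    (hval : ∀ b : ℕ,
      (ζ : H → ℂ) (x ^ b) + d1zeta p ^ (l₀.val * b) + d1zeta p ^ ((-l₀).val * b)
        = if p ∣ b then (p : ℂ) else 0)
    (hfour : ∀ θ : Cfsg.IrrCharacter K, ∃ n : ZMod p → ℕ, ∀ i : ℕ,
      dco K (θ : K → ℂ) (ζ : H → ℂ) (x ^ i)
        = ∑ a : ZMod p, (n a : ℂ) * d1zeta p ^ (a.val * i)) :
    ∃ (θ : Cfsg.IrrCharacter K) (N : ℕ),
      dco K (θ : K → ℂ) (ζ : H → ℂ) 1 = (N : ℂ) ∧ Cfsg.charDegree (ζ : H → ℂ) ≤ N := by
  classical
  have hp : p.Prime := Fact.out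
  haveI : NeZero p := ⟨hp.ne_zero⟩
  -- the value at `x`
  have hζx : (ζ : H → ℂ) x = -(d1zeta p ^ l₀.val + d1zeta p ^ (-l₀).val) := by
    have h1 := hval 1
    rw [pow_one, mul_one, mul_one,
      if_neg (fun hd => by have := Nat.le_of_dvd one_pos hd; omega)] at h1
    linear_combination h1
  have hζne : (ζ : H → ℂ) x ≠ 0 := by
    intro h0
    rw [hζx, neg_eq_zero] at h0
    apply blkz_relA p 0 ∅ (Finset.notMem_empty _) l₀ hl₀
    rw [Finset.sum_empty, mul_zero, zero_add]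
    exact h0
  obtain ⟨θ, hθ⟩ := Helper49.b42vx_exists_theta p x K h ζ hζne
  obtain ⟨X, Y, c, ε, hXY, hdisj, hXcard, hYne, hc, hε, hXval, hYval, hdegrel⟩ :=
    Helper91.b42_d1_strong p x K h θ
  obtain ⟨E, F', hE, hF', hEF⟩ := Helper29.d1_units p x K h θ
  have hFF : F' = F := SetLike.coe_injective (hF'.trans hF.symm)
  subst hFF
  have hv := Helper55.d1_value_at_x p (Helper75.d1_cc p) (Helper74.d1_inj p) x K h θ ζ hθ
  have hecard : Nat.card (stabUnits p x K (θ : K → ℂ)) = Nat.card E := by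
    rw [← hE]; rfl
  have hepos : 0 < Nat.card E := Nat.card_pos
  have hEle : Nat.card E ≤ 2 := by
    rw [← hF2]
    exact Subgroup.card_le_of_le hEF
  rw [hecard] at hv
  letI : Fintype E := Fintype.ofFinite E
  letI : Fintype F' := Fintype.ofFinite F'
  have hFsum : ∀ g : (ZMod p)ˣ → ℂ,
      ∑ᶠ u ∈ normUnits p x, g u = ∑ u : F', g (u : (ZMod p)ˣ) := by
    intro g
    rw [← hF']
    exact (finsum_set_coe_eq_finsum_mem (F' : Set (ZMod p)ˣ)).symm.trans
      (finsum_eq_sum_of_fintype _)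
  have hEsum : ∀ g : (ZMod p)ˣ → ℂ,
      ∑ᶠ u ∈ stabUnits p x K (θ : K → ℂ), g u = ∑ u : E, g (u : (ZMod p)ˣ) := by
    intro g
    rw [← hE]
    exact (finsum_set_coe_eq_finsum_mem (E : Set (ZMod p)ˣ)).symm.trans
      (finsum_eq_sum_of_fintype _)
  have hθ1 : (θ : K → ℂ) 1 = (Cfsg.charDegree (θ : K → ℂ) : ℂ) :=
    Helper81.irr_one_eq_charDegree θ
  have hEne : (Nat.card E : ℂ) ≠ 0 := by exact_mod_cast hepos.ne'
  rw [hFsum, hθ1] at hv
  rcases (hXY ζ).2 hθ with hX | hY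
  · -- non-exceptional: the value would be rational
    exfalso
    have e1 : ∑ u : F', dco K (θ : K → ℂ) (ζ : H → ℂ) (x ^ ((u : (ZMod p)ˣ) : ZMod p).val)
        = (Nat.card F' : ℂ) * (c ζ : ℂ) := by
      have e0 : ∀ u : F', dco K (θ : K → ℂ) (ζ : H → ℂ) (x ^ ((u : (ZMod p)ˣ) : ZMod p).val)
          = (c ζ : ℂ) := fun u => hXval ζ hX _ (Units.ne_zero _)
      rw [Finset.sum_congr rfl (fun u _ => e0 u)]
      rw [Finset.sum_const, Finset.card_univ, nsmul_eq_mul, Nat.card_eq_fintype_card]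
    rw [e1, hF2, hζx] at hv
    apply blkz_relB p (by omega) (Nat.card E) hepos
      ((Cfsg.charDegree (θ : K → ℂ) : ℤ) * 2 * c ζ) l₀ hl₀
    push_cast
    linear_combination (-1 : ℂ) * hv
  · obtain ⟨l₁, hl₁, hYv⟩ := hYval ζ hY
    obtain ⟨LE, hLE0, hLE1, hLEcard, hLEsum⟩ := blkz_orbit p E l₁ hl₁
    obtain ⟨LF, hLF0, -, -, hLFsum⟩ := blkz_orbit p F' l₁ hl₁
    rcases hε with hε1 | hε1
    · -- sign `+1`: impossible
      exfalso
      have e1 : ∑ u : F', dco K (θ : K → ℂ) (ζ : H → ℂ) (x ^ ((u : (ZMod p)ˣ) : ZMod p).val)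
          = (ε : ℂ) * ((Nat.card E : ℂ)
            * ∑ u : F', d1zeta p ^ (((u : (ZMod p)ˣ) : ZMod p) * l₁).val) := by
        have e2 : ∀ u : F', dco K (θ : K → ℂ) (ζ : H → ℂ) (x ^ ((u : (ZMod p)ˣ) : ZMod p).val)
            = (ε : ℂ) * ∑ s : E,
                d1zeta p ^ ((((u : (ZMod p)ˣ) * (s : (ZMod p)ˣ) : (ZMod p)ˣ) : ZMod p) * l₁).val := by
          intro u
          rw [hYv ((u : (ZMod p)ˣ) : ZMod p) (Units.ne_zero _), hEsum]
          congr 1
        rw [Finset.sum_congr rfl (fun u _ => e2 u), ← Finset.mul_sum, Finset.sum_comm]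
        congr 1
        have e3 : ∀ s : E, ∑ u : F',
            d1zeta p ^ ((((u : (ZMod p)ˣ) * (s : (ZMod p)ˣ) : (ZMod p)ˣ) : ZMod p) * l₁).val
            = ∑ u : F', d1zeta p ^ (((u : (ZMod p)ˣ) : ZMod p) * l₁).val := by
          intro s
          exact Fintype.sum_equiv (Equiv.mulRight (⟨(s : (ZMod p)ˣ), hEF s.2⟩ : F')) _ _
            (fun u => rfl)
        rw [Finset.sum_congr rfl (fun s _ => e3 s)]
        rw [Finset.sum_const, Finset.card_univ, nsmul_eq_mul, Nat.card_eq_fintype_card]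
      rw [e1, hε1, hLFsum (fun j => d1zeta p ^ j.val), hζx] at hv
      apply blkz_relA p (Cfsg.charDegree (θ : K → ℂ)) LF hLF0 l₀ hl₀
      have hv' : (Nat.card E : ℂ) * ((Cfsg.charDegree (θ : K → ℂ) : ℂ) * ∑ j ∈ LF, d1zeta p ^ j.val
          + d1zeta p ^ l₀.val + d1zeta p ^ (-l₀).val) = 0 := by
        push_cast at hv
        linear_combination (-1 : ℂ) * hv
      rcases mul_eq_zero.mp hv' with h1 | h1
      · exact absurd h1 hEne
      · exact h1
    · -- sign `-1`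
      obtain ⟨n, hn⟩ := hfour θ
      have h1 := hn 1
      have hone : ((1 : ZMod p)).val = 1 := by
        haveI : Fact (1 < p) := ⟨hp.one_lt⟩
        exact ZMod.val_one p
      have h2 := hYv 1 one_ne_zero
      rw [hone, hEsum] at h2
      rw [h2, hε1] at h1
      have h3 : ∑ s : E, d1zeta p ^ (1 * (((s : (ZMod p)ˣ) : ZMod p)) * l₁).val
          = ∑ j ∈ LE, d1zeta p ^ j.val := by
        rw [← hLEsum (fun j => d1zeta p ^ j.val)]
        refine Finset.sum_congr rfl (fun s _ => ?_)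
        rw [one_mul]
      rw [h3] at h1
      have hrel : ∑ a : ZMod p, (n a : ℂ) * d1zeta p ^ a.val + ∑ j ∈ LE, d1zeta p ^ j.val = 0 := by
        have h4 : ∑ a : ZMod p, (n a : ℂ) * d1zeta p ^ (a.val * 1)
            = ∑ a : ZMod p, (n a : ℂ) * d1zeta p ^ a.val := by
          refine Finset.sum_congr rfl (fun a _ => ?_)
          rw [mul_one]
        rw [← h4, ← h1]
        push_cast
        ring
      have hnj := blkz_relC p n LE hLE0 hrel
      have hn0 : 1 ≤ n 0 := by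
        have h5 := hnj l₁
        rw [if_pos hLE1] at h5
        omega
      refine ⟨θ, ∑ a : ZMod p, n a, ?_, ?_⟩
      · have h6 := hn 0
        rw [pow_zero] at h6
        rw [h6]
        push_cast
        refine Finset.sum_congr rfl (fun a _ => ?_)
        rw [mul_zero, pow_zero, mul_one]
      · have h7 : ((∑ a : ZMod p, n a : ℕ) : ℤ) = (p : ℤ) * (n 0 : ℤ) - (Nat.card E : ℤ) := by
          rw [Nat.cast_sum, Finset.sum_congr rfl (fun j _ => hnj j), Finset.sum_sub_distrib,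
            Finset.sum_const, Finset.card_univ, ZMod.card, nsmul_eq_mul, Finset.sum_ite_mem,
            Finset.univ_inter, Finset.sum_const, nsmul_eq_mul, mul_one, hLEcard]
        have h8 : (p : ℤ) * 1 ≤ (p : ℤ) * (n 0 : ℤ) :=
          mul_le_mul_of_nonneg_left (by exact_mod_cast hn0) (Int.natCast_nonneg p)
        have h9 : (Nat.card E : ℤ) ≤ 2 := by exact_mod_cast hEle
        have h10 : ((Cfsg.charDegree (ζ : H → ℂ) : ℕ) : ℤ) + 2 = (p : ℤ) := by exact_mod_cast hdeg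
        have h11 : ((Cfsg.charDegree (ζ : H → ℂ) : ℕ) : ℤ) ≤ ((∑ a : ZMod p, n a : ℕ) : ℤ) := by
          rw [h7]
          linarith
        exact_mod_cast h11

end Cfsg.Agent.Helper45.S4705BLKZ
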