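import Mathlib
import Cfsg.Agent.Helper79.S4705Defs
import Cfsg.Agent.Helper15.B42Main
import Cfsg.Agent.Helper74.S4504CEN

/-!
# CALL S4705 (helper79), sub-call SHAPE (helper45), pieces D1 and UNITS
-/

set_option autoImplicit false
open Cfsg Cfsg.Agent.Helper77 Cfsg.Agent.Helper15
open scoped ComplexConjugate

universe u

namespace Cfsg.Agent.Helper45.S4705SHD1

variable {H : Type u} [Group H] [Finite H]

theorem sh_d1 (p : ℕ) [Fact p.Prime] (x : H) (hx : orderOf x = p)
    (hsq : ¬ p ^ 2 ∣ Nat.card H) : ∃ K : Subgroup H, D1Hyp p x K := by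
  classical
  haveI : Fintype H := Fintype.ofFinite H
  have hp : p.Prime := Fact.out
  have hpg : IsPGroup p (Subgroup.zpowers x) := by
    apply IsPGroup.of_card (n := 1)
    rw [Nat.card_zpowers, hx, pow_one]
  obtain ⟨P, hP⟩ := hpg.exists_le_sylow
  have hxP : x ∈ (P : Subgroup H) := hP (Subgroup.mem_zpowers x)
  have hdiv : p ∣ Nat.card H := by
    rw [← hx]
    exact orderOf_dvd_natCard x
  have hn0 : Nat.card H ≠ 0 := Nat.card_pos.ne'
  have hPc : Nat.card P = p := by
    have h1 : 1 ≤ (Nat.card H).factorization p := by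
      rw [← hp.pow_dvd_iff_le_factorization hn0, pow_one]; exact hdiv
    have h2 : ¬ 2 ≤ (Nat.card H).factorization p := by
      rw [← hp.pow_dvd_iff_le_factorization hn0]; exact hsq
    rw [Sylow.card_eq_multiplicity]
    have h3 : (Nat.card H).factorization p = 1 := by omega
    rw [h3, pow_one]
  have hx1 : x ≠ 1 := by
    intro e
    rw [e, orderOf_one] at hx
    have := hp.one_lt
    omega
  obtain ⟨K, hK, -, -, hC⟩ := Helper79.s4441_K P hPc
  exact ⟨K, ⟨hx, hK, hC x hxP hx1, hsq⟩⟩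

theorem sh_units (p : ℕ) [Fact p.Prime] (hp2 : 2 < p) (x : H) (hx : orderOf x = p)
    (F : Subgroup (ZMod p)ˣ) (hF : (F : Set (ZMod p)ˣ) = normUnits p x)
    (hF2 : Nat.card F = 2) :
    (∃ t : H, t * x * t⁻¹ = x⁻¹) ∧
    (∀ n : H, n * x * n⁻¹ ∈ Subgroup.zpowers x → n * x * n⁻¹ = x ∨ n * x * n⁻¹ = x⁻¹) := by
  classical
  have hp : p.Prime := Fact.out
  haveI : NeZero p := ⟨hp.ne_zero⟩
  haveI : Fact (1 < p) := ⟨hp.one_lt⟩
  have hxp : x ^ p = 1 := by rw [← hx]; exact pow_orderOf_eq_one x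
  have hx1 : x ≠ 1 := by
    intro e
    rw [e, orderOf_one] at hx
    omega
  have hsq1 : ∀ u : (ZMod p)ˣ, u ∈ F → u = 1 ∨ u = -1 := by
    intro u hu
    have hu2 : (⟨u, hu⟩ : F) ^ 2 = 1 := by
      rw [← hF2]
      exact pow_card_eq_one'
    have hu3 : u ^ 2 = 1 := by
      have h1 := congrArg (fun v : F => (v : (ZMod p)ˣ)) hu2
      simpa using h1
    have hu4 : (u : ZMod p) * (u : ZMod p) = 1 := by
      have h1 := congrArg (fun v : (ZMod p)ˣ => (v : ZMod p)) hu3
      simpa [pow_two] using h1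
    rcases mul_self_eq_one_iff.mp hu4 with h1 | h1
    · left
      exact Units.ext (by rw [h1]; rfl)
    · right
      exact Units.ext (by rw [h1]; rfl)
  have hneg : (-1 : (ZMod p)ˣ) ∈ F := by
    have hcard : 1 < Nat.card F := by omega
    haveI : Nontrivial F := Finite.one_lt_card_iff_nontrivial.mp hcard
    obtain ⟨u, hu⟩ := exists_ne (1 : F)
    rcases hsq1 (u : (ZMod p)ˣ) u.2 with h1 | h1
    · exact absurd (Subtype.ext h1) hu
    · rw [← h1]
      exact u.2
  have hnegv : ((-1 : (ZMod p)ˣ) : ZMod p).val = p - 1 := by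
    rw [Units.val_neg, Units.val_one, ZMod.neg_val, if_neg one_ne_zero, ZMod.val_one]
  have hxinv : x ^ (p - 1) = x⁻¹ := by
    apply eq_inv_of_mul_eq_one_left
    rw [← pow_succ, Nat.sub_add_cancel hp.one_le, hxp]
  constructor
  · have hm : (-1 : (ZMod p)ˣ) ∈ normUnits p x := by
      rw [← hF]
      exact hneg
    obtain ⟨n, hn⟩ := hm
    exact ⟨n, by rw [hn, hnegv, hxinv]⟩
  · intro n hn
    obtain ⟨k, hk⟩ := Subgroup.mem_zpowers_iff.mp hn
    obtain ⟨a, ha⟩ : ∃ a : ZMod p, a = (k : ZMod p) := ⟨_, rfl⟩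
    have hxa : n * x * n⁻¹ = x ^ a.val := by
      rw [← hk, ← zpow_natCast, ha, ZMod.val_intCast, ← hx, zpow_mod_orderOf]
    have ha0 : a ≠ 0 := by
      intro h0
      rw [h0, ZMod.val_zero, pow_zero] at hxa
      apply hx1
      have h1 : x = n⁻¹ * (n * x * n⁻¹) * n := by group
      rw [h1, hxa]
      group
    have hu : Units.mk0 a ha0 ∈ F := by
      have h1 : Units.mk0 a ha0 ∈ normUnits p x := ⟨n, hxa⟩
      rw [← hF] at h1
      exact h1
    rcases hsq1 _ hu with h1 | h1
    · left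
      have h2 : a = 1 := by
        have := congrArg (fun v : (ZMod p)ˣ => (v : ZMod p)) h1
        simpa using this
      rw [hxa, h2, ZMod.val_one, pow_one]
    · right
      have h2 : a = -1 := by
        have := congrArg (fun v : (ZMod p)ˣ => (v : ZMod p)) h1
        simpa using this
      rw [hxa, h2, ZMod.neg_val, if_neg one_ne_zero, ZMod.val_one, hxinv]

end Cfsg.Agent.Helper45.S4705SHD1
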