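import Mathlib
import Cfsg.Agent.Helper79.S4705Defs
import Cfsg.Agent.Helper15.B42Main
import Cfsg.Agent.Helper74.S4504CEN
import Cfsg.Agent.Helper80.LinChar

/-!
# CALL S4705 (helper79), sub-call SHAPE (helper45), piece MULT (variant with `D1Hyp`, for an
irreducible character)

If `θ` has multiplicity at least `deg ζ` in `ζ|_K`, then `ζ|_K = (deg ζ) θ` with `θ` linear,
so `‖ζ k‖ = deg ζ` on `K`.
-/

set_option autoImplicit false
open Cfsg Cfsg.Agent.Helper77 Cfsg.Agent.Helper15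
open scoped ComplexConjugate

universe u

namespace Cfsg.Agent.Helper45.S4705SHMULT

variable {H : Type u} [Group H] [Finite H]

theorem sh_mult_d1 (p : ℕ) [Fact p.Prime] (x : H) (K : Subgroup H) (hD : D1Hyp p x K)
    (ζ : Cfsg.IrrCharacter H) (θ : Cfsg.IrrCharacter K) (N : ℕ)
    (hN : dco K (θ : K → ℂ) (ζ : H → ℂ) 1 = (N : ℂ))
    (hle : Cfsg.charDegree (ζ : H → ℂ) ≤ N) :
    ∀ k ∈ K, ‖(ζ : H → ℂ) k‖ = (Cfsg.charDegree (ζ : H → ℂ) : ℝ) := by
  classical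
  letI : Fintype (Cfsg.IrrCharacter K) := Fintype.ofFinite _
  choose a ha using fun θ' : Cfsg.IrrCharacter K => Helper29.d1_dco_mult p x K hD θ'
  obtain ⟨n, hn⟩ : ∃ n : Cfsg.IrrCharacter K → ℕ, ∀ θ', n θ' = ∑ l : ZMod p, a θ' ζ l :=
    ⟨_, fun _ => rfl⟩
  have hdco : ∀ θ' : Cfsg.IrrCharacter K, dco K (θ' : K → ℂ) (ζ : H → ℂ) 1 = (n θ' : ℂ) := by
    intro θ'
    have h1 := ha θ' ζ 0
    rw [pow_zero] at h1
    rw [h1, hn θ']
    push_cast
    refine Finset.sum_congr rfl (fun l _ => ?_)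
    rw [zero_mul, pow_zero, mul_one]
  have hexp : ∀ k : K, (ζ : H → ℂ) (k : H)
      = ∑ θ' : Cfsg.IrrCharacter K, (n θ' : ℂ) * (θ' : K → ℂ) k := by
    intro k
    have h1 := Helper29.d1_dco_expand p x K hD ζ 0 k
    rw [pow_zero, one_mul, finsum_eq_sum_of_fintype] at h1
    rw [h1]
    refine Finset.sum_congr rfl (fun θ' _ => ?_)
    rw [hdco θ']
  have hnθ : n θ = N := by
    have h1 := hdco θ
    rw [hN] at h1
    exact_mod_cast h1.symm
  -- degrees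
  have hdegsum : Cfsg.charDegree (ζ : H → ℂ)
      = ∑ θ' : Cfsg.IrrCharacter K, n θ' * Cfsg.charDegree (θ' : K → ℂ) := by
    have h1 := hexp 1
    rw [Subgroup.coe_one, Helper81.irr_one_eq_charDegree ζ] at h1
    have h2 : ∑ θ' : Cfsg.IrrCharacter K, (n θ' : ℂ) * (θ' : K → ℂ) 1
        = ((∑ θ' : Cfsg.IrrCharacter K, n θ' * Cfsg.charDegree (θ' : K → ℂ) : ℕ) : ℂ) := by
      push_cast
      refine Finset.sum_congr rfl (fun θ' _ => ?_)
      rw [Helper81.irr_one_eq_charDegree θ']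
    rw [h2] at h1
    exact_mod_cast h1
  have hsplit : ∑ θ' : Cfsg.IrrCharacter K, n θ' * Cfsg.charDegree (θ' : K → ℂ)
      = n θ * Cfsg.charDegree (θ : K → ℂ)
        + ∑ θ' ∈ Finset.univ.erase θ, n θ' * Cfsg.charDegree (θ' : K → ℂ) :=
    (Finset.add_sum_erase Finset.univ (fun θ' => n θ' * Cfsg.charDegree (θ' : K → ℂ))
      (Finset.mem_univ θ)).symm
  have hθpos : 0 < Cfsg.charDegree (θ : K → ℂ) := Helper81.charDegree_pos θ
  have hζpos : 0 < Cfsg.charDegree (ζ : H → ℂ) := Helper81.charDegree_pos ζ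
  have hNpos : 0 < N := lt_of_lt_of_le hζpos hle
  have hmul : N ≤ N * Cfsg.charDegree (θ : K → ℂ) := Nat.le_mul_of_pos_right N hθpos
  rw [hsplit, hnθ] at hdegsum
  have hrest : ∑ θ' ∈ Finset.univ.erase θ, n θ' * Cfsg.charDegree (θ' : K → ℂ) = 0 := by omega
  have hNeq : N * Cfsg.charDegree (θ : K → ℂ) = N := by omega
  have hθ1 : Cfsg.charDegree (θ : K → ℂ) = 1 := by
    have h1 : N * Cfsg.charDegree (θ : K → ℂ) = N * 1 := by rw [hNeq, mul_one]
    exact Nat.eq_of_mul_eq_mul_left hNpos h1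
  have hdegN : Cfsg.charDegree (ζ : H → ℂ) = N := by omega
  have hzero : ∀ θ' : Cfsg.IrrCharacter K, θ' ≠ θ → n θ' = 0 := by
    intro θ' hne
    have h1 := (Finset.sum_eq_zero_iff.mp hrest) θ' (Finset.mem_erase.mpr ⟨hne, Finset.mem_univ _⟩)
    rcases Nat.mul_eq_zero.mp h1 with h2 | h2
    · exact h2
    · exact absurd h2 (Helper81.charDegree_pos θ').ne'
  obtain ⟨f, hf⟩ := Helper80.exists_hom_of_linear θ hθ1
  intro k hk
  have h1 := hexp ⟨k, hk⟩
  rw [Finset.sum_eq_single θ (fun θ' _ hne => by rw [hzero θ' hne]; simp)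
    (fun hn' => absurd (Finset.mem_univ θ) hn'), hnθ] at h1
  have h2 : (θ : K → ℂ) ⟨k, hk⟩ = ((f ⟨k, hk⟩ : ℂˣ) : ℂ) := by
    rw [← hf]
    rfl
  show ‖(ζ : H → ℂ) ((⟨k, hk⟩ : K) : H)‖ = _
  rw [h1, h2, norm_mul, Helper79.norm_hom_apply, mul_one, Complex.norm_natCast, hdegN]

end Cfsg.Agent.Helper45.S4705SHMULT
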