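import Mathlib
import Cfsg.Agent.Helper79.S4705Defs
import Cfsg.Agent.Helper15.B42Main
import Cfsg.Agent.Helper74.S4504CEN
import Cfsg.Agent.Helper45.S4705VALX
import Cfsg.Agent.Helper45.S4705BLKZ
import Cfsg.Agent.Helper45.S4705SHD1
import Cfsg.Agent.Helper45.S4705SHMULT
import Cfsg.Agent.Helper15.S4705SHARITH

/-!
# CALL S4705 (helper79), piece SHAPE: the local shape
(`C(x) = ⟨x⟩ Z(H)`, `N(⟨x⟩)` acts on `⟨x⟩` as `± 1`, `ζ` on `⟨x⟩` is the regular character minus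
`ω` and `ω⁻¹`)
-/

set_option autoImplicit false
open Cfsg Cfsg.Agent.Helper77 Cfsg.Agent.Helper15 Cfsg.Agent.Helper79
open scoped ComplexConjugate

universe u

namespace Cfsg.Agent.Helper45

open Cfsg.Agent.Helper45.S4705VALX Cfsg.Agent.Helper45.S4705BLKZ
open Cfsg.Agent.Helper45.S4705SHD1
open Cfsg.Agent.Helper15.S4705SHARITH

/-- SHAPE -/
theorem s4705_shape {H : Type u} [Group H] [Finite H] (p : ℕ) [Fact p.Prime] (x : H)
    (ζ : H → ℂ) (h : S4705Wk p x ζ) : S4705Shape p x ζ := by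
  classical
  have hp : p.Prime := Fact.out
  have hp5 := h.hp
  obtain ⟨K, hD⟩ := sh_d1 p x h.hx h.hsq
  obtain ⟨-, F, -, hF, -⟩ :=
    Helper29.d1_units p x K hD ⟨fun _ => 1, Helper79.isIrrCharacter_one⟩
  have hχ : Cfsg.IsCharacter H ζ := Helper79.irr_isCharacter ⟨ζ, h.hζ⟩
  have hx1 : x ≠ 1 := by
    intro e
    have h1 := h.hx
    rw [e, orderOf_one] at h1
    omega
  have hker : ζ x ≠ ζ 1 := fun e => hx1 (h.hfaith x e)
  have hdeg := h.hdeg
  obtain ⟨θ, l₀, ε, hl₀, hε, hv⟩ :=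
    sh_valx p x K hD ⟨ζ, h.hζ⟩ hker (by show Cfsg.charDegree ζ + 1 < p; omega)
  have hw : IsPrimitiveRoot (d1zeta p) p := Complex.isPrimitiveRoot_exp p hp.ne_zero
  rcases sh_arith p hp5 x h.hx F hF ζ hχ (Cfsg.charDegree (θ : K → ℂ))
    (Helper81.charDegree_pos θ) l₀ hl₀ ε hε hv hker hdeg with hA | ⟨hF2, hB⟩
  · exfalso
    have hnorm : ‖ζ x‖ = (Cfsg.charDegree ζ : ℝ) := by
      rw [hA, norm_mul, Complex.norm_natCast, norm_pow, hw.norm'_eq_one hp.ne_zero, one_pow,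
        mul_one]
    have hxc : x ∈ Subgroup.center H := by
      by_contra hn
      have h1 := (Helper74.s4504_central ζ h.hζ h.hfaith x).2 hn
      rw [hnorm] at h1
      exact lt_irrefl _ h1
    apply h.hnn
    constructor
    intro y hy g
    have h1 : g * y * g⁻¹ = y := by
      obtain ⟨k, rfl⟩ := Subgroup.mem_zpowers_iff.mp hy
      have h2 : g * x = x * g := Subgroup.mem_center_iff.mp hxc g
      have h3 : Commute g (x ^ k) := (show Commute g x from h2).zpow_right k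
      rw [h3.eq, mul_inv_cancel_right]
    rw [h1]
    exact hy
  · obtain ⟨hinv, hnorm⟩ := sh_units p (by omega) x h.hx F hF hF2
    obtain ⟨θ', N, hN, hle⟩ := sh_blkz p hp5 x K hD F hF hF2 ⟨ζ, h.hζ⟩ hdeg l₀ hl₀ hB
      (fun θ => by
        obtain ⟨a, ha⟩ := Helper29.d1_dco_mult p x K hD θ
        refine ⟨a ⟨ζ, h.hζ⟩, fun i => ?_⟩
        rw [ha ⟨ζ, h.hζ⟩ i]
        refine Finset.sum_congr rfl (fun l _ => ?_)
        rw [mul_comm i l.val])
    have hK := Cfsg.Agent.Helper45.S4705SHMULT.sh_mult_d1 p x K hD ⟨ζ, h.hζ⟩ θ' N hN hle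
    have hl₀v : l₀.val ≠ 0 := fun e => hl₀ ((ZMod.val_eq_zero l₀).mp e)
    haveI : NeZero p := ⟨hp.ne_zero⟩
    have hlt : l₀.val < p := ZMod.val_lt l₀
    have hneg : (-l₀).val = p - l₀.val := by
      rw [ZMod.neg_val, if_neg hl₀]
    have hinvw : (d1zeta p ^ l₀.val)⁻¹ = d1zeta p ^ (-l₀).val := by
      apply inv_eq_of_mul_eq_one_right
      rw [← pow_add, hneg, Nat.add_sub_cancel' hlt.le, hw.pow_eq_one]
    refine ⟨?_, hinv, hnorm, ⟨d1zeta p ^ l₀.val, ?_, ?_⟩⟩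
    · intro g hg
      obtain ⟨i, k, hk, rfl⟩ := (hD.hC g).1 hg
      refine ⟨i, k, ?_, rfl⟩
      by_contra hn
      have h1 := (Helper74.s4504_central ζ h.hζ h.hfaith k).2 hn
      rw [hK k hk] at h1
      exact lt_irrefl _ h1
    · apply hw.pow_of_coprime
      exact (Nat.Coprime.symm ((Nat.Prime.coprime_iff_not_dvd hp).mpr
        (fun hd => hl₀v (Nat.eq_zero_of_dvd_of_lt hd hlt))))
    · intro b
      rw [hinvw, ← pow_mul, ← pow_mul]
      exact hB b

end Cfsg.Agent.Helper45
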