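import Mathlib
import Cfsg.Agent.Helper95.SpBNDefs

/-!
# S2545 pieces DECOMP, REDUCE, WEYL (helper45)
-/

set_option autoImplicit false

namespace Cfsg.Agent.Helper45.SpBN

open Matrix Cfsg.Agent.Helper13 Cfsg.Agent.Helper95.SpBN

variable {F : Type*} [Field F] {m : ℕ}

theorem mul_single_one_apply (M : Matrix (Fin m ⊕ Fin m) (Fin m ⊕ Fin m) F)
    (a c x y : Fin m ⊕ Fin m) :
    (M * Matrix.single a c (1 : F)) x y = if y = c then M x a else 0 := by
  by_cases hy : y = c
  · subst hy; rw [if_pos rfl, Matrix.mul_single_apply_same, mul_one]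
  · rw [if_neg hy]; exact Matrix.mul_single_apply_of_ne (1 : F) a c x y hy M

theorem mul_xlMat_apply (M : Matrix (Fin m ⊕ Fin m) (Fin m ⊕ Fin m) F)
    (a : Fin m ⊕ Fin m) (t : F) (x y : Fin m ⊕ Fin m) :
    (M * xlMat a t) x y = M x y + t * (if y = tauP m a then M x a else 0) := by
  unfold xlMat
  rw [Matrix.mul_add, Matrix.mul_one, Matrix.add_apply, Matrix.mul_smul, Matrix.smul_apply,
    mul_single_one_apply, smul_eq_mul]

theorem mul_xsMat_apply (M : Matrix (Fin m ⊕ Fin m) (Fin m ⊕ Fin m) F)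
    (a b : Fin m ⊕ Fin m) (t : F) (x y : Fin m ⊕ Fin m) :
    (M * xsMat a b t) x y = M x y + t * ((if y = b then M x a else 0) -
      sgnJ F m a * sgnJ F m b * (if y = tauP m a then M x (tauP m b) else 0)) := by
  unfold xsMat
  rw [Matrix.mul_add, Matrix.mul_one, Matrix.add_apply, Matrix.mul_smul, Matrix.smul_apply,
    Matrix.mul_sub, Matrix.sub_apply, Matrix.mul_smul, Matrix.smul_apply,
    mul_single_one_apply, mul_single_one_apply, smul_eq_mul, smul_eq_mul]

theorem p_DECOMP (M : Matrix (Fin m ⊕ Fin m) (Fin m ⊕ Fin m) F) (j : Fin m)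
    (hd : M (ra j) (ra j) ≠ 0) : ∃ t : F, (M * xaMat j t) (ra j) (rb j) = 0 := by
  refine ⟨-(M (ra j) (rb j) / M (ra j) (ra j)), ?_⟩
  unfold xaMat xgMat
  split_ifs with h
  · rw [mul_xlMat_apply, if_pos h]
    field_simp
    ring
  · rw [mul_xsMat_apply, if_pos rfl, if_neg h]
    field_simp
    ring

theorem single_one_mulVec_apply (a c : Fin m ⊕ Fin m) (v : Fin m ⊕ Fin m → F)
    (x : Fin m ⊕ Fin m) :
    (Matrix.single a c (1 : F) *ᵥ v) x = if x = a then v c else 0 := by
  rw [Matrix.single_mulVec, one_mul]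
  by_cases hx : x = a
  · subst hx; rw [if_pos rfl, Function.update_self]
  · rw [if_neg hx, Function.update_of_ne hx]; rfl

theorem xlMat_mulVec_apply (a : Fin m ⊕ Fin m) (t : F) (v : Fin m ⊕ Fin m → F)
    (x : Fin m ⊕ Fin m) :
    (xlMat a t *ᵥ v) x = v x + t * (if x = a then v (tauP m a) else 0) := by
  unfold xlMat
  rw [Matrix.add_mulVec, Matrix.one_mulVec, Pi.add_apply, Matrix.smul_mulVec, Pi.smul_apply,
    single_one_mulVec_apply, smul_eq_mul]

theorem xsMat_mulVec_apply (a b : Fin m ⊕ Fin m) (t : F) (v : Fin m ⊕ Fin m → F)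
    (x : Fin m ⊕ Fin m) :
    (xsMat a b t *ᵥ v) x = v x + t * ((if x = a then v b else 0) -
      sgnJ F m a * sgnJ F m b * (if x = tauP m b then v (tauP m a) else 0)) := by
  unfold xsMat
  rw [Matrix.add_mulVec, Matrix.one_mulVec, Pi.add_apply, Matrix.smul_mulVec, Pi.smul_apply,
    Matrix.sub_mulVec, Pi.sub_apply, Matrix.smul_mulVec, Pi.smul_apply,
    single_one_mulVec_apply, single_one_mulVec_apply, smul_eq_mul, smul_eq_mul]

/-- one elimination step -/
theorem xgMat_mulVec_elim (a c : Fin m ⊕ Fin m) (t : F) (v : Fin m ⊕ Fin m → F)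
    (h : c = tauP m a ∨ v (tauP m a) = 0) (x : Fin m ⊕ Fin m) :
    (xgMat a c t *ᵥ v) x = v x + t * (if x = a then v c else 0) := by
  unfold xgMat
  by_cases hc : c = tauP m a
  · rw [if_pos hc, xlMat_mulVec_apply, hc]
  · rw [if_neg hc]
    rcases h with h | h
    · exact absurd h hc
    · rw [xsMat_mulVec_apply, h]
      simp

theorem p_REDUCE (hx : ∀ (a b : Fin m ⊕ Fin m), a ≠ b → ∀ t : F,
      xgMat a b t ∈ symplecticGroup (Fin m) F)
    (v : Fin m ⊕ Fin m → F) (hv : v ≠ 0) :
    ∃ g : symplecticGroup (Fin m) F,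
      g ∈ Subgroup.closure {g : symplecticGroup (Fin m) F |
        ∃ a b : Fin m ⊕ Fin m, a ≠ b ∧ ∃ t : F, g.1 = xgMat a b t} ∧
      ∃ (a : Fin m ⊕ Fin m) (l : F), g.1 *ᵥ v = l • (Pi.single a (1 : F) : Fin m ⊕ Fin m → F) := by
  classical
  suffices H : ∀ (n : ℕ) (v : Fin m ⊕ Fin m → F), v ≠ 0 →
      (Finset.univ.filter (fun x => v x ≠ 0)).card = n →
      ∃ g : symplecticGroup (Fin m) F,
        g ∈ Subgroup.closure {g : symplecticGroup (Fin m) F |
          ∃ a b : Fin m ⊕ Fin m, a ≠ b ∧ ∃ t : F, g.1 = xgMat a b t} ∧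
        ∃ (a : Fin m ⊕ Fin m) (l : F),
          g.1 *ᵥ v = l • (Pi.single a (1 : F) : Fin m ⊕ Fin m → F) from H _ v hv rfl
  intro n
  induction n using Nat.strong_induction_on with
  | _ n ih =>
    intro v hv hn
    set S := Finset.univ.filter (fun x => v x ≠ 0) with hS
    have hmemS : ∀ x, x ∈ S ↔ v x ≠ 0 := fun x => by simp [hS]
    have hne : S.Nonempty := by
      by_contra hemp
      rw [Finset.not_nonempty_iff_eq_empty] at hemp
      apply hv
      funext x
      by_contra hx0
      have : x ∈ S := (hmemS x).mpr hx0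
      rw [hemp] at this
      exact absurd this (Finset.notMem_empty x)
    by_cases hone : S.card = 1
    · obtain ⟨a, ha⟩ := Finset.card_eq_one.mp hone
      refine ⟨1, Subgroup.one_mem _, a, v a, ?_⟩
      show (1 : Matrix (Fin m ⊕ Fin m) (Fin m ⊕ Fin m) F) *ᵥ v = _
      rw [Matrix.one_mulVec]
      funext x
      rw [Pi.smul_apply, Pi.single_apply, smul_eq_mul]
      by_cases hxa : x = a
      · subst hxa; simp
      · rw [if_neg hxa, mul_zero]
        by_contra hx0
        have : x ∈ S := (hmemS x).mpr hx0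
        rw [ha, Finset.mem_singleton] at this
        exact hxa this
    · have htwo : 1 < S.card := by
        have := Finset.card_pos.mpr hne
        omega
      -- choose the pair (a, c)
      have hpair : ∃ a c : Fin m ⊕ Fin m, a ∈ S ∧ c ∈ S ∧ a ≠ c ∧
          (c = tauP m a ∨ v (tauP m a) = 0) := by
        by_cases hex : ∃ a ∈ S, v (tauP m a) = 0
        · obtain ⟨a, haS, ha0⟩ := hex
          obtain ⟨c, hcS, hca⟩ := Finset.exists_mem_ne htwo a
          exact ⟨a, c, haS, hcS, fun h => hca h.symm, Or.inr ha0⟩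
        · push Not at hex
          obtain ⟨a, haS⟩ := hne
          exact ⟨a, tauP m a, haS, (hmemS _).mpr (hex a haS), fun h => tauP_ne a h.symm,
            Or.inl rfl⟩
      obtain ⟨a, c, haS, hcS, hac, hor⟩ := hpair
      have hva : v a ≠ 0 := (hmemS a).mp haS
      have hvc : v c ≠ 0 := (hmemS c).mp hcS
      set t : F := -(v a / v c) with ht
      set g1 : symplecticGroup (Fin m) F := ⟨xgMat a c t, hx a c hac t⟩ with hg1
      set v' : Fin m ⊕ Fin m → F := xgMat a c t *ᵥ v with hv'
      have hv'x : ∀ x, v' x = v x + t * (if x = a then v c else 0) := fun x =>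
        xgMat_mulVec_elim a c t v hor x
      have hv'a : v' a = 0 := by
        rw [hv'x, if_pos rfl, ht]; field_simp; ring
      have hv'ne : ∀ x, x ≠ a → v' x = v x := by
        intro x hxa
        rw [hv'x, if_neg hxa, mul_zero, add_zero]
      have hv'0 : v' ≠ 0 := by
        intro h0
        have := congrFun h0 c
        rw [hv'ne c (fun h => hac h.symm)] at this
        exact hvc this
      have hcard : (Finset.univ.filter (fun x => v' x ≠ 0)).card < n := by
        have hsub : Finset.univ.filter (fun x => v' x ≠ 0) ⊆ S.erase a := by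
          intro x hx
          rw [Finset.mem_filter] at hx
          have hxa : x ≠ a := by
            rintro rfl
            exact hx.2 hv'a
          rw [Finset.mem_erase]
          refine ⟨hxa, (hmemS x).mpr ?_⟩
          rw [← hv'ne x hxa]; exact hx.2
        have h1 := Finset.card_le_card hsub
        rw [Finset.card_erase_of_mem haS] at h1
        have := Finset.card_pos.mpr hne
        omega
      obtain ⟨g', hg', a', l, hgl⟩ := ih _ hcard v' hv'0 rfl
      refine ⟨g' * g1, Subgroup.mul_mem _ hg' (Subgroup.subset_closure ⟨a, c, hac, t, rfl⟩),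
        a', l, ?_⟩
      have : (g' * g1).1 = g'.1 * g1.1 := rfl
      rw [this, ← Matrix.mulVec_mulVec]
      exact hgl

/-- Weyl-group side of `closure_sup`: a monomial symplectic matrix whose pattern lies in the
group generated by the `sigP j` is a product of the `sigMat`-elements and a diagonal one. -/
theorem p_WEYL (sg : Fin m → symplecticGroup (Fin m) F) (hsg : ∀ j, (sg j).1 = sigMat F j)
    (T : Subgroup (symplecticGroup (Fin m) F)) (hT : ∀ g : symplecticGroup (Fin m) F, Pat g.1 1 → g ∈ T)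
    (π : Equiv.Perm (Fin m ⊕ Fin m)) (hπ : π ∈ Subgroup.closure (Set.range (sigP (m := m)))) :
    ∀ n : symplecticGroup (Fin m) F, Pat n.1 π → n ∈ Subgroup.closure (Set.range sg) ⊔ T := by
  have hpat : ∀ j, Pat (sg j).1 (sigP j) := by
    intro j
    rw [hsg j]
    exact pat_monoMat _ _
  induction hπ using Subgroup.closure_induction_left with
  | one =>
    intro n hn
    exact Subgroup.mem_sup_right (hT n hn)
  | mul_left x hx y hy ih =>
    intro n hn
    obtain ⟨j, rfl⟩ := hx
    have h1 : Pat ((sg j)⁻¹ * n).1 ((sigP j)⁻¹ * (sigP j * y)) :=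
      pat_mul _ _ _ _ (pat_inv (sg j) (sigP j) (hpat j)) hn
    rw [inv_mul_cancel_left] at h1
    have h2 := ih _ h1
    have h3 : n = sg j * ((sg j)⁻¹ * n) := by group
    rw [h3]
    exact Subgroup.mul_mem _ (Subgroup.mem_sup_left (Subgroup.subset_closure ⟨j, rfl⟩)) h2
  | inv_mul_cancel x hx y hy ih =>
    intro n hn
    obtain ⟨j, rfl⟩ := hx
    have h1 : Pat (sg j * n).1 (sigP j * ((sigP j)⁻¹ * y)) :=
      pat_mul _ _ _ _ (hpat j) hn
    rw [mul_inv_cancel_left] at h1
    have h2 := ih _ h1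
    have h3 : n = (sg j)⁻¹ * (sg j * n) := by group
    rw [h3]
    exact Subgroup.mul_mem _
      (Subgroup.inv_mem _ (Subgroup.mem_sup_left (Subgroup.subset_closure ⟨j, rfl⟩))) h2

end Cfsg.Agent.Helper45.SpBN
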