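import Mathlib
import Cfsg.Agent.Helper33.StGMUL
import Cfsg.Agent.Helper27.StGPOW
import Cfsg.Agent.Helper91.StGFIX
import Cfsg.Agent.Helper91.StGCNT
import Cfsg.Agent.Helper40.BNStD
import Cfsg.Agent.Helper79.Quotient
import Cfsg.Agent.S0165

/-!
# The Steinberg character of a finite group with a split (B, N)-pair, in the quotient by a
central subgroup

Hypotheses: the rank one cells `B s B / B` have `p`-power size, there is `n₀ ∈ N` with
`B ∩ n₀ B n₀⁻¹ ≤ N`, and `p ∤ |B ∩ N|`.  Then `St` has degree `|G|_p` and vanishes on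
`p`-singular elements; it deflates to `G ⧸ Z` for central `Z ≤ B`.
-/

set_option autoImplicit false

namespace Cfsg.Agent.Helper45.StGen

open Cfsg Cfsg.Agent.Helper6 Cfsg.Agent.Helper40.BNSt
open Cfsg.Agent.Helper33.StGMUL Cfsg.Agent.Helper27.StGPOW Cfsg.Agent.Helper91.StGFIX
  Cfsg.Agent.Helper91.StGCNT

section

variable {G : Type*} [Group G] (P : Cfsg.BNPair G)

theorem mem_stab_iff (n₀ : G) (hn₀ : n₀ ∈ P.N)
    (hstab : ∀ c ∈ P.B, n₀⁻¹ * c * n₀ ∈ P.B → c ∈ P.N) (c : ↥P.B) :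
    c ∈ MulAction.stabilizer ↥P.B ((n₀ : G) : G ⧸ P.B) ↔ (c : G) ∈ P.N := by
  rw [mem_stabilizer_iff]
  constructor
  · exact hstab c c.2
  · intro h
    have := P.conj_mem n₀⁻¹ (inv_mem hn₀) c ⟨c.2, h⟩
    rwa [inv_inv] at this

theorem n0_isLong [Finite G] (n₀ : G) (hn₀ : n₀ ∈ P.N)
    (hstab : ∀ c ∈ P.B, n₀⁻¹ * c * n₀ ∈ P.B → c ∈ P.N) :
    IsLong (SW P) (PsW P) (proj P n₀) := by
  apply isLong_of_stabilizer_le P hn₀
  intro n hn c hc
  rw [mem_stab_iff P n₀ hn₀ hstab] at hc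
  rw [mem_stabilizer_iff]
  have := P.conj_mem n⁻¹ (inv_mem hn) c ⟨c.2, hc⟩
  rwa [inv_inv] at this

theorem fpc_eq_card_of_conj {H : Type*} [Group H] (K : Subgroup H) (b : H)
    (hb : ∀ c : H, c⁻¹ * b * c ∈ K) :
    Cfsg.fixedPointCharacter K b = (Nat.card (H ⧸ K) : ℂ) := by
  unfold Cfsg.fixedPointCharacter
  congr 1
  have : MulAction.fixedBy (H ⧸ K) b = Set.univ := by
    ext q
    simp only [MulAction.mem_fixedBy, Set.mem_univ, iff_true]
    induction q using QuotientGroup.induction_on with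
    | H c =>
      show ((b * c : H) : H ⧸ K) = c
      rw [QuotientGroup.eq]
      have : (b * c)⁻¹ * c = (c⁻¹ * b * c)⁻¹ := by group
      rw [this]; exact inv_mem (hb c)
  rw [this, Nat.card_coe_set_eq, Set.ncard_univ]

/-- **Steinberg character of a split (B, N)-pair modulo a central subgroup.** -/
theorem bn_steinberg [Finite G] (p : ℕ) [Fact p.Prime] (r : ℕ) (σ : ℕ → G)
    (hS : P.S = σ '' ((Finset.range r : Finset ℕ) : Set ℕ))
    (hrank1 : ∀ s ∈ P.S, ∃ k : ℕ, Nat.card (MulAction.orbit ↥P.B ((s : G) : G ⧸ P.B)) = p ^ k)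
    (n₀ : G) (hn₀ : n₀ ∈ P.N) (hstab : ∀ c ∈ P.B, n₀⁻¹ * c * n₀ ∈ P.B → c ∈ P.N)
    (hT : ¬ p ∣ Nat.card ↥(P.B ⊓ P.N))
    (Z : Subgroup G) [Z.Normal] (hZ : Z ≤ Subgroup.center G) (hZB : Z ≤ P.B) :
    ∃ χ : G ⧸ Z → ℂ, Cfsg.IsIrrCharacter (G ⧸ Z) χ ∧
      ∀ S : Sylow p (G ⧸ Z), χ 1 = Nat.card S ∧ ∀ x : G ⧸ Z, x ∈ S → x ≠ 1 → χ x = 0 := by
  classical
  have hp : p.Prime := Fact.out
  let _ : Fintype G := Fintype.ofFinite G
  have hirr := stChar_isIrr P r σ hS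
  have hpow := p_GPOW P p (fun s hs n hn hPg => p_GMUL P hs hn hPg) hrank1
  have hcnt := p_GCNT P p hpow (p_GFIX P)
  obtain ⟨k₀, hk₀⟩ := hpow n₀ hn₀
  have hidx : Nat.card (↥P.B ⧸ MulAction.stabilizer ↥P.B ((n₀ : G) : G ⧸ P.B)) = p ^ k₀ := by
    rw [← hk₀, ← Subgroup.index_eq_card, MulAction.index_stabilizer, Nat.card_coe_set_eq]
  have hlong := n0_isLong P n₀ hn₀ hstab
  have hval : ∀ b : ↥P.B,
      (∀ c : ↥P.B, c⁻¹ * b * c ∈ MulAction.stabilizer ↥P.B ((n₀ : G) : G ⧸ P.B)) →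
      stChar P r σ (b : G) = ((p ^ k₀ : ℕ) : ℂ) := by
    intro b hb
    rw [stChar_apply_B P r σ hS hn₀ hlong b, fpc_eq_card_of_conj _ b hb, hidx]
  have h1 : stChar P r σ 1 = ((p ^ k₀ : ℕ) : ℂ) := by
    have := hval 1 (fun c => by rw [mul_one, inv_mul_cancel]; exact one_mem _)
    simpa using this
  have hconj : ∀ z ∈ Z, ∀ c : G, c⁻¹ * z * c = z := by
    intro z hz c
    have := Subgroup.mem_center_iff.mp (hZ hz) c
    rw [mul_assoc, ← this, inv_mul_cancel_left]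
  have hZN : ∀ z ∈ Z, z ∈ P.N := fun z hz => hstab z (hZB hz) (by
    rw [hconj z hz n₀]; exact hZB hz)
  have hcent : ∀ z ∈ Z, stChar P r σ z = stChar P r σ 1 := by
    intro z hz
    rw [h1]
    refine hval ⟨z, hZB hz⟩ ?_
    intro c
    have hcomm : c⁻¹ * (⟨z, hZB hz⟩ : ↥P.B) * c = ⟨z, hZB hz⟩ :=
      Subtype.ext (hconj z hz (c : G))
    rw [hcomm, mem_stab_iff P n₀ hn₀ hstab]
    exact hZN z hz
  obtain ⟨ψ, hψ, hψθ⟩ := Cfsg.Agent.Helper79.exists_irr_deflation Z hirr hcent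
  refine ⟨ψ, hψ, fun S => ?_⟩
  have hcardStab : Nat.card ↥(MulAction.stabilizer ↥P.B ((n₀ : G) : G ⧸ P.B)) =
      Nat.card ↥(P.B ⊓ P.N) := by
    apply Nat.card_eq_of_bijective
      (fun c => (⟨(c.1 : G), ⟨c.1.2, (mem_stab_iff P n₀ hn₀ hstab c.1).mp c.2⟩⟩ : ↥(P.B ⊓ P.N)))
    constructor
    · intro c c' h
      have := congrArg Subtype.val h
      exact Subtype.ext (Subtype.ext this)
    · intro t
      exact ⟨⟨⟨t.1, t.2.1⟩, (mem_stab_iff P n₀ hn₀ hstab _).mpr t.2.2⟩, rfl⟩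
  have hB : Nat.card ↥P.B = p ^ k₀ * Nat.card ↥(P.B ⊓ P.N) := by
    have := Subgroup.card_eq_card_quotient_mul_card_subgroup
      (MulAction.stabilizer ↥P.B ((n₀ : G) : G ⧸ P.B))
    rw [hidx, hcardStab] at this
    exact this
  have hG : Nat.card G = Nat.card (G ⧸ P.B) * (p ^ k₀ * Nat.card ↥(P.B ⊓ P.N)) := by
    rw [← hB]
    exact Subgroup.card_eq_card_quotient_mul_card_subgroup P.B
  have hGZ : Nat.card G = Nat.card (G ⧸ Z) * Nat.card Z :=
    Subgroup.card_eq_card_quotient_mul_card_subgroup Z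
  have hZdvd : Nat.card Z ∣ Nat.card ↥(P.B ⊓ P.N) :=
    Subgroup.card_dvd_of_le (fun z hz => ⟨hZB hz, hZN z hz⟩)
  obtain ⟨d, hd⟩ := hZdvd
  have hZpos : 0 < Nat.card Z := Nat.card_pos
  have hq : Nat.card (G ⧸ Z) = p ^ k₀ * (Nat.card (G ⧸ P.B) * d) := by
    apply Nat.eq_of_mul_eq_mul_right hZpos
    rw [← hGZ, hG, hd]
    ring
  have hnd : ¬ p ∣ Nat.card (G ⧸ P.B) * d := by
    intro h
    rcases (Nat.Prime.dvd_mul hp).mp h with h | h
    · exact hcnt h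
    · exact hT (hd ▸ Dvd.dvd.mul_left h _)
  have hm0 : Nat.card (G ⧸ P.B) * d ≠ 0 := by
    intro h
    rw [h] at hnd
    exact hnd (dvd_zero p)
  have hψ1 : ψ 1 = ((p ^ k₀ : ℕ) : ℂ) := by
    have h := hψθ 1
    rw [h1] at h
    exact h
  have hfac : (Nat.card (G ⧸ Z)).factorization p = k₀ := by
    rw [hq, Nat.factorization_mul (pow_ne_zero _ hp.ne_zero) hm0,
      Nat.Prime.factorization_pow hp, Finsupp.add_apply, Finsupp.single_eq_same,
      Nat.factorization_eq_zero_of_not_dvd hnd, add_zero]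
  have hcardS : Nat.card S = p ^ k₀ := by
    rw [Sylow.card_eq_multiplicity, hfac]
  refine ⟨by rw [hψ1, hcardS], fun x hx hx1 => ?_⟩
  obtain ⟨d', ρ, hρ, hχ⟩ := hψ
  have hd' : d' = p ^ k₀ := by
    have h := Representation.char_one ρ
    rw [hχ, hψ1, Module.finrank_fin_fun] at h
    exact_mod_cast h.symm
  have hpx : p ∣ orderOf x := by
    obtain ⟨k, hk⟩ := S.isPGroup' ⟨x, hx⟩
    have hk' : x ^ (p ^ k) = 1 := by
      have := congrArg Subtype.val hk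
      simpa using this
    obtain ⟨j, -, hjo⟩ := (Nat.dvd_prime_pow hp).1 (orderOf_dvd_of_pow_eq_one hk')
    have hj0 : j ≠ 0 := by
      rintro rfl
      rw [pow_zero, orderOf_eq_one_iff] at hjo
      exact hx1 hjo
    rw [hjo]
    exact dvd_pow_self p hj0
  have h0 := Cfsg.Agent.S0165.result ρ p k₀ hp
    (by rw [hq]; exact dvd_mul_right _ _)
    (by
      rw [hq, pow_succ]
      intro h
      exact hnd (Nat.dvd_of_mul_dvd_mul_left (Nat.pow_pos hp.pos) h))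
    (by rw [Module.finrank_fin_fun, hd'])
    x hpx
  rw [← hχ]
  exact h0

end

end Cfsg.Agent.Helper45.StGen
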