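import Mathlib
import Cfsg.Agent.Helper45.StGen
import Cfsg.Agent.Helper45.StDefs
import Cfsg.Agent.Helper27.StWEYLG
import Cfsg.Agent.Helper91.StGRK1
import Cfsg.Agent.Helper88.StPAT
import Cfsg.Agent.Helper58.StBIFF
import Cfsg.Agent.Helper88.StPAT1UP
import Cfsg.Agent.Helper88.StHD1
import Cfsg.Agent.Helper88.StXADD
import Cfsg.Agent.Helper58.StXUP
import Cfsg.Agent.Helper58.StCONJ
import Cfsg.Agent.Helper58.StSIGPAT
import Cfsg.Agent.Helper81.StRANK1S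
import Cfsg.Agent.Helper81.StRANK1B
import Cfsg.Agent.Helper81.StDECOMPS
import Cfsg.Agent.Helper81.StDECOMPB
import Cfsg.Agent.Helper81.StCNE
import Cfsg.Agent.Helper67.StSTABD
import Cfsg.Agent.Helper44.StSUP5
import Cfsg.Agent.Helper80.StBE0
import Cfsg.Agent.Helper88.StCENTER
import Cfsg.Agent.Helper88.StTORA
import Cfsg.Agent.Helper67.StTORB
import Cfsg.Agent.Helper44.StTORD
import Cfsg.Agent.Helper8.SpWGen
import Cfsg.Agent.Helper11.SpBNSGINJ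
import Cfsg.Agent.Helper11.SpBNSGSQ
import Cfsg.Agent.Helper37.SpBN1

/-!
# The BN-pair of `Ω(Q)` for a form with a hyperbolic frame and non-zero anisotropic complement,
and the Steinberg character of `PΩ(Q)`
-/

set_option autoImplicit false

universe u

namespace Cfsg.Agent.Helper45.StOrth

open Cfsg Cfsg.Agent.Helper13 Cfsg.Agent.Helper95.SpBN Cfsg.Agent.Helper45 Cfsg.Agent.Helper45.St
open Cfsg.Agent.Helper27.StWEYLG Cfsg.Agent.Helper91.StGRK1 Cfsg.Agent.Helper88.StPAT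
  Cfsg.Agent.Helper58.StBIFF Cfsg.Agent.Helper88.StPAT1UP Cfsg.Agent.Helper88.StHD1
  Cfsg.Agent.Helper88.StXADD Cfsg.Agent.Helper58.StXUP Cfsg.Agent.Helper58.StCONJ
  Cfsg.Agent.Helper58.StSIGPAT Cfsg.Agent.Helper81.StRANK1S Cfsg.Agent.Helper81.StRANK1B
  Cfsg.Agent.Helper81.StDECOMPS Cfsg.Agent.Helper81.StDECOMPB Cfsg.Agent.Helper81.StCNE
  Cfsg.Agent.Helper67.StSTABD Cfsg.Agent.Helper44.StSUP5 Cfsg.Agent.Helper80.StBE0
  Cfsg.Agent.Helper88.StCENTER Cfsg.Agent.Helper88.StTORA Cfsg.Agent.Helper67.StTORB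
  Cfsg.Agent.Helper44.StTORD

section asm

variable {ι : Type} [Fintype ι] [DecidableEq ι] {F : Type u} [Field F] [Fintype F]
  {Q : QuadraticForm F (ι → F)} {m : ℕ} {L R : Fin m → ι} {v₀ : ι → F}

/-- the standing hypotheses -/
structure Frame (Q : QuadraticForm F (ι → F)) {m : ℕ} (L R : Fin m → ι) (v₀ : ι → F) : Prop where
  hQ : (QuadraticMap.polarBilin Q).Nondegenerate
  H : HypPairs Q m L R
  hn : 5 ≤ Fintype.card ι
  hm : 1 ≤ m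
  haniso : Aniso Q L R
  hv₀ : InV0 L R v₀
  hq₀ : Q v₀ ≠ 0

variable (D : Frame Q L R v₀)

include D

theorem bcrit : BCrit Q L R := p_BIFF D.H

theorem ra_ne_rb' (j : Fin m) : ra j ≠ rb j := by
  unfold ra rb
  split_ifs with h
  · intro h2
    have := Sum.inl.inj h2
    have := congrArg Fin.val this
    simp at this
  · simp

theorem rk_ra_lt_rb' (j : Fin m) : rk (ra j) < rk (rb j) := by
  unfold ra rb
  have := j.2
  split_ifs with h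
  · rw [rk_inl, rk_inl]; simp
  · rw [rk_inl, rk_inr]; omega

theorem tau_ne (j : Fin m) : tauP m (rb j) ≠ tauP m (ra j) :=
  fun h => ra_ne_rb' D j ((tauP m).injective h).symm

theorem tau_ne' (j : Fin m) : tauP m (ra j) ≠ tauP m (rb j) :=
  fun h => ra_ne_rb' D j ((tauP m).injective h)

theorem xS_mem (a b : Fin m ⊕ Fin m) (hab : b ≠ tauP m a) (t : F) :
    xS Q L R a b t ∈ Omega F ⇑Q := by
  rw [xS_eq D.H a b hab t]
  exact eichO_mem_omega Q D.hQ D.hn _ _ _ _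

theorem xB_mem (a : Fin m ⊕ Fin m) (v : ι → F) (hv : InV0 L R v) :
    xB Q L R a v ∈ Omega F ⇑Q := by
  rw [xB_eq D.H a v hv]
  exact eichO_mem_omega Q D.hQ D.hn _ _ _ _

theorem xa_mem (j : Fin m) (t : F) : xa Q L R j t ∈ Omega F ⇑Q := xS_mem D _ _ (tau_ne D j) t

theorem ya_mem (j : Fin m) (t : F) : ya Q L R j t ∈ Omega F ⇑Q := xS_mem D _ _ (tau_ne' D j) t

theorem smul_V0 (c : F) (v : ι → F) (hv : InV0 L R v) : InV0 L R (c • v) :=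
  (V0 L R F).smul_mem c hv

theorem sigE_mem (j : Fin m) : sigE Q L R v₀ j ∈ Omega F ⇑Q := by
  unfold sigE
  split_ifs with h
  · exact mul_mem (mul_mem (xa_mem D j 1) (ya_mem D j (-1))) (xa_mem D j 1)
  · unfold sB
    exact mul_mem (mul_mem (xB_mem D _ _ D.hv₀) (xB_mem D _ _ (smul_V0 D _ _ D.hv₀)))
      (xB_mem D _ _ D.hv₀)

theorem xa_add (j : Fin m) (t u : F) : xa Q L R j (t + u) = xa Q L R j t * xa Q L R j u :=
  p_XSADD D.H _ _ (tau_ne D j) t u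

theorem ya_add (j : Fin m) (t u : F) : ya Q L R j (t + u) = ya Q L R j t * ya Q L R j u :=
  p_XSADD D.H _ _ (tau_ne' D j) t u

theorem xa_zero (j : Fin m) : xa Q L R j 0 = 1 := by
  have h := xa_add D j 0 0
  rw [add_zero] at h
  exact (mul_eq_left.mp h.symm)

theorem ya_zero (j : Fin m) : ya Q L R j 0 = 1 := by
  have h := ya_add D j 0 0
  rw [add_zero] at h
  exact (mul_eq_left.mp h.symm)

theorem xB_zero (a : Fin m ⊕ Fin m) : xB Q L R a (0 : ι → F) = 1 := by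
  have h := p_XBADD D.H a 0 0 (V0 L R F).zero_mem (V0 L R F).zero_mem
  rw [add_zero] at h
  exact (mul_eq_left.mp h.symm)

theorem xa_up (j : Fin m) (t : F) : xa Q L R j t ∈ borelO Q L := by
  apply p_XSUP D.H (bcrit D) _ _ (tau_ne D j)
  rw [tauP_tauP]
  exact rk_ra_lt_rb' D j

theorem pat_tau (g : ↥(isometryGroup F ⇑Q)) (π : Equiv.Perm (Fin m ⊕ Fin m))
    (hg : PatO Q L R g π) : ∀ a, π (tauP m a) = tauP m (π a) := p_PATTAU D.H g π hg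

theorem pat_one_of_B_N (t : ↥(isometryGroup F ⇑Q)) (hB : t ∈ borelO Q L)
    (hN : t ∈ monoO Q L R) : PatO Q L R t 1 := by
  obtain ⟨π, hπ⟩ := (p_NIFF D.H t).mp hN
  have := p_HD1 D.H t π (pat_tau D t π hπ) hB hπ
  rwa [this] at hπ

theorem mem_B_of_pat_one (g : ↥(isometryGroup F ⇑Q)) (hg : PatO Q L R g 1) :
    g ∈ borelO Q L := p_PAT1UP D.H (bcrit D) g hg

theorem mem_N_of_pat (g : ↥(isometryGroup F ⇑Q)) (π : Equiv.Perm (Fin m ⊕ Fin m))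
    (hg : PatO Q L R g π) : g ∈ monoO Q L R := (p_NIFF D.H g).mpr ⟨π, hg⟩

theorem conj_diag (n : ↥(isometryGroup F ⇑Q)) (hn : n ∈ monoO Q L R)
    (c : ↥(isometryGroup F ⇑Q)) (hc : PatO Q L R c 1) : n * c * n⁻¹ ∈ borelO Q L := by
  obtain ⟨π, hπ⟩ := (p_NIFF D.H n).mp hn
  have h2 : PatO Q L R (n * c * n⁻¹) (π * 1 * π⁻¹) :=
    p_PATMUL D.H _ _ _ _ (p_PATMUL D.H _ _ _ _ hπ hc) (p_PATINV D.H n π hπ)
  rw [mul_one, mul_inv_cancel] at h2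
  exact mem_B_of_pat_one D _ h2

theorem pat_sig (j : Fin m) : PatO Q L R (sigE Q L R v₀ j) (sigP j) :=
  p_SIGPAT D.H v₀ D.hv₀ D.hq₀ j

theorem sig_sq_mem (j : Fin m) : sigE Q L R v₀ j * sigE Q L R v₀ j ∈ borelO Q L := by
  have h2 := p_PATMUL D.H _ _ _ _ (pat_sig D j) (pat_sig D j)
  rw [Cfsg.Agent.Helper11.SpBN.p_SGSQ] at h2
  exact mem_B_of_pat_one D _ h2

/-! ### the groups inside `Ω` -/

/-- the Borel subgroup of `Ω` -/
def BΩ (Q : QuadraticForm F (ι → F)) {m : ℕ} (L : Fin m → ι) : Subgroup ↥(Omega F ⇑Q) :=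
  (borelO Q L).subgroupOf (Omega F ⇑Q)

/-- the monomial subgroup of `Ω` -/
def NΩ (Q : QuadraticForm F (ι → F)) {m : ℕ} (L R : Fin m → ι) : Subgroup ↥(Omega F ⇑Q) :=
  (monoO Q L R).subgroupOf (Omega F ⇑Q)

omit D in
theorem mem_BΩ (g : ↥(Omega F ⇑Q)) : g ∈ BΩ Q L ↔ (g : ↥(isometryGroup F ⇑Q)) ∈ borelO Q L :=
  Subgroup.mem_subgroupOf

omit D in
theorem mem_NΩ (g : ↥(Omega F ⇑Q)) :
    g ∈ NΩ Q L R ↔ (g : ↥(isometryGroup F ⇑Q)) ∈ monoO Q L R :=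
  Subgroup.mem_subgroupOf

/-- simple reflections in `Ω` -/
noncomputable def sgΩ (j : Fin m) : ↥(Omega F ⇑Q) := ⟨sigE Q L R v₀ j, sigE_mem D j⟩

/-- enumeration of the simple reflections -/
noncomputable def sgσ : ℕ → ↥(Omega F ⇑Q) :=
  fun n => if h : n < m then sgΩ D ⟨n, h⟩ else 1

/-- the set of simple reflections -/
def SΩ : Set ↥(Omega F ⇑Q) := sgσ D '' ((Finset.range m : Finset ℕ) : Set ℕ)

theorem mem_SΩ_iff (s : ↥(Omega F ⇑Q)) : s ∈ SΩ D ↔ ∃ j : Fin m, s = sgΩ D j := by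
  constructor
  · rintro ⟨n, hn, rfl⟩
    have hn' : n < m := Finset.mem_range.mp (Finset.mem_coe.mp hn)
    exact ⟨⟨n, hn'⟩, by unfold sgσ; rw [dif_pos hn']⟩
  · rintro ⟨j, rfl⟩
    refine ⟨j.1, Finset.mem_coe.mpr (Finset.mem_range.mpr j.2), ?_⟩
    unfold sgσ
    rw [dif_pos j.2]

theorem range_sgΩ : Set.range (sgΩ D) = SΩ D := by
  ext s
  rw [mem_SΩ_iff]
  constructor
  · rintro ⟨j, rfl⟩; exact ⟨j, rfl⟩
  · rintro ⟨j, rfl⟩; exact ⟨j, rfl⟩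

theorem sgΩ_mem_N (j : Fin m) : sgΩ D j ∈ NΩ Q L R :=
  (mem_NΩ _).mpr (mem_N_of_pat D _ _ (pat_sig D j))

omit D in
theorem tauP_inv' : (tauP m)⁻¹ = tauP m := by
  ext a
  rw [Equiv.Perm.inv_def, Equiv.symm_apply_eq, tauP_tauP]

/-- a monomial element of `Ω` with pattern `τ` -/
theorem exists_n0 : ∃ n₀ : ↥(Omega F ⇑Q), PatO Q L R (n₀ : ↥(isometryGroup F ⇑Q)) (tauP m) ∧
    n₀ ∈ Subgroup.closure (SΩ D) := by
  have hw : tauP m ∈ Subgroup.closure (Set.range (sigP (m := m))) :=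
    Cfsg.Agent.Helper8.SpBN.p_WGEN (tauP m) (fun b => rfl)
  obtain ⟨w, hw1, hw2⟩ := p_WEYLG (G := ↥(Omega F ⇑Q))
    (fun g π => PatO Q L R (g : ↥(isometryGroup F ⇑Q)) π)
    (fun g h π ρ hg hh => p_PATMUL D.H _ _ _ _ hg hh)
    (fun g π hg => p_PATINV D.H _ _ hg) p_PATONE (sgΩ D) sigP (fun j => pat_sig D j)
    (tauP m) hw
  rw [range_sgΩ] at hw1
  exact ⟨w, hw2, hw1⟩

theorem sup_eq_top' : BΩ Q L ⊔ NΩ Q L R = ⊤ := by
  obtain ⟨n₀, hn₀, -⟩ := exists_n0 D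
  let i₀ : Fin m := ⟨0, D.hm⟩
  have hle : Omega F ⇑Q ≤ (borelO Q L ⊓ Omega F ⇑Q) ⊔ (monoO Q L R ⊓ Omega F ⇑Q) := by
    obtain ⟨c, hc⟩ := hn₀ (Sum.inl i₀)
    rw [tauP_inl] at hc
    have h01 : QuadraticMap.polar ⇑Q (ev L R F (Sum.inl i₀)) (ev L R F (Sum.inr i₀)) = 1 := by
      rw [polar_ev_ev D.H, if_pos (tauP_inl i₀).symm]
    have hc0 : c ≠ 0 := by
      rintro rfl
      rw [zero_smul] at hc
      have h := mv_polar Q (n₀ : ↥(isometryGroup F ⇑Q)) (ev L R F (Sum.inl i₀))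
        (ev L R F (Sum.inr i₀))
      rw [hc, h01] at h
      simp at h
    apply p_SUP5 D.hQ D.hn _ (ev L R F (Sum.inl i₀)) (ev L R F (Sum.inr i₀)) (ev_quad D.H _)
      (ev_quad D.H _) h01
    · intro b hb
      exact Subgroup.mem_sup_left ⟨p_BE0 D.H (bcrit D) i₀ rfl b hb,
        eichO_mem_omega Q D.hQ D.hn _ _ _ _⟩
    · intro b hb
      obtain ⟨b₀, hub₀, e⟩ := eichO_conj_eq Q (n₀ : ↥(isometryGroup F ⇑Q))
        (ev L R F (Sum.inl i₀)) (ev L R F (Sum.inr i₀)) b c hc0 hc (ev_quad D.H _)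
        (ev_quad D.H _) hb
      rw [e]
      have hnK : (n₀ : ↥(isometryGroup F ⇑Q)) ∈
          (borelO Q L ⊓ Omega F ⇑Q) ⊔ (monoO Q L R ⊓ Omega F ⇑Q) :=
        Subgroup.mem_sup_right ⟨mem_N_of_pat D _ _ hn₀, n₀.2⟩
      exact mul_mem (mul_mem hnK (Subgroup.mem_sup_left ⟨p_BE0 D.H (bcrit D) i₀ rfl b₀ hub₀,
        eichO_mem_omega Q D.hQ D.hn _ _ _ _⟩)) (inv_mem hnK)
  rw [eq_top_iff]
  intro g _
  have h1 : (g : ↥(isometryGroup F ⇑Q)) ∈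
      (borelO Q L ⊓ Omega F ⇑Q) ⊔ (monoO Q L R ⊓ Omega F ⇑Q) := hle g.2
  have h2 : g ∈ ((borelO Q L ⊓ Omega F ⇑Q) ⊔ (monoO Q L R ⊓ Omega F ⇑Q)).subgroupOf
      (Omega F ⇑Q) := Subgroup.mem_subgroupOf.mpr h1
  rw [Subgroup.subgroupOf_sup inf_le_right inf_le_right, Subgroup.inf_subgroupOf_right,
    Subgroup.inf_subgroupOf_right] at h2
  exact h2

theorem conj_mem' (n : ↥(Omega F ⇑Q)) (hn : n ∈ NΩ Q L R) (t : ↥(Omega F ⇑Q))
    (ht : t ∈ BΩ Q L ⊓ NΩ Q L R) : n * t * n⁻¹ ∈ BΩ Q L := by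
  rw [mem_BΩ]
  exact conj_diag D _ ((mem_NΩ n).mp hn) _
    (pat_one_of_B_N D _ ((mem_BΩ t).mp ht.1) ((mem_NΩ t).mp ht.2))

theorem conj_diag_inv (n : ↥(Omega F ⇑Q)) (hn : n ∈ NΩ Q L R) (c : ↥(Omega F ⇑Q))
    (hc : PatO Q L R (c : ↥(isometryGroup F ⇑Q)) 1) : n⁻¹ * c * n ∈ BΩ Q L := by
  rw [mem_BΩ]
  have := conj_diag D (n⁻¹ : ↥(Omega F ⇑Q)) ((mem_NΩ _).mp (inv_mem hn)) _ hc
  rw [Subgroup.coe_inv, inv_inv] at this
  exact this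

/-! ### the double coset axiom -/

/-- root elements in `Ω` -/
noncomputable def xaΩ (j : Fin m) (t : F) : ↥(Omega F ⇑Q) := ⟨xa Q L R j t, xa_mem D j t⟩

/-- negative root elements in `Ω` -/
noncomputable def yaΩ (j : Fin m) (t : F) : ↥(Omega F ⇑Q) := ⟨ya Q L R j t, ya_mem D j t⟩

/-- short root elements in `Ω` -/
noncomputable def xBΩ (a : Fin m ⊕ Fin m) (v : ↥(V0 L R F)) : ↥(Omega F ⇑Q) :=
  ⟨xB Q L R a v.1, xB_mem D _ _ v.2⟩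

theorem abs_S (j : Fin m) (hj : (j : ℕ) + 1 < m) : ∀ n ∈ NΩ Q L R, ∀ b ∈ BΩ Q L,
    sgΩ D j * b * n ∈ DoubleCoset.doubleCoset (sgΩ D j * n) (BΩ Q L : Set _) (BΩ Q L) ∪
      DoubleCoset.doubleCoset n (BΩ Q L : Set _) (BΩ Q L) := by
  apply Cfsg.Agent.Helper37.SpBN.p_ABS (BΩ Q L) (NΩ Q L R) (sgΩ D j)
    (fun t : F => xaΩ D j t) (fun t : F => yaΩ D j t)
  · intro b hb
    obtain ⟨t₀, ht₀⟩ := p_DECOMPS D.H (bcrit D) v₀ j hj _ ((mem_BΩ b).mp hb)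
    refine ⟨-t₀, b * xaΩ D j t₀,
      mul_mem hb ((mem_BΩ (xaΩ D j t₀)).mpr (xa_up D j t₀)), ?_, ?_⟩
    · apply Subtype.ext
      show (b : ↥(isometryGroup F ⇑Q)) = b * xa Q L R j t₀ * xa Q L R j (-t₀)
      rw [mul_assoc, ← xa_add D, add_neg_cancel, xa_zero D, mul_one]
    · rw [mem_BΩ]
      exact ht₀
  · intro n hn
    obtain ⟨π, hπ⟩ := (p_NIFF D.H _).mp ((mem_NΩ n).mp hn)
    have hπi := p_PATINV D.H _ π hπ
    have hτ := pat_tau D _ _ hπi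
    rcases lt_or_gt_of_ne (fun h => (π⁻¹.injective.ne (ra_ne_rb' D j)) (rk_injective h))
      with h | h
    · left
      intro t
      obtain ⟨t', ht'⟩ := p_CONJS D.H _ π⁻¹ hπi hτ (ra j) (tauP m (rb j)) (tau_ne D j) t
      rw [mem_BΩ]
      show ((n : ↥(isometryGroup F ⇑Q)))⁻¹ * xa Q L R j t * n ∈ borelO Q L
      rw [inv_inv] at ht'
      unfold xa
      rw [ht']
      apply p_XSUP D.H (bcrit D)
      · rw [hτ]
        exact fun h' => ra_ne_rb' D j (π⁻¹.injective ((tauP m).injective h')).symm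
      · rw [hτ, tauP_tauP]
        exact h
    · right
      intro t
      obtain ⟨t', ht'⟩ := p_CONJS D.H _ π⁻¹ hπi hτ (rb j) (tauP m (ra j)) (tau_ne' D j) t
      rw [mem_BΩ]
      show ((n : ↥(isometryGroup F ⇑Q)))⁻¹ * ya Q L R j t * n ∈ borelO Q L
      rw [inv_inv] at ht'
      unfold ya
      rw [ht']
      apply p_XSUP D.H (bcrit D)
      · rw [hτ]
        exact fun h' => ra_ne_rb' D j (π⁻¹.injective ((tauP m).injective h'))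
      · rw [hτ, tauP_tauP]
        exact h
  · intro t
    by_cases ht : t = 0
    · left
      apply Subtype.ext
      show xa Q L R j t = 1
      rw [ht]
      exact xa_zero D j
    · right
      obtain ⟨t', ht'⟩ := p_RANK1S D.H (bcrit D) v₀ j hj t ht
      have hb₁ : sgΩ D j * xaΩ D j t * yaΩ D j t' ∈ BΩ Q L :=
        (mem_BΩ (sgΩ D j * xaΩ D j t * yaΩ D j t')).mpr ht'
      refine ⟨sgΩ D j * xaΩ D j t * yaΩ D j t', hb₁, -t', ?_⟩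
      apply Subtype.ext
      show sigE Q L R v₀ j * xa Q L R j t =
        sigE Q L R v₀ j * xa Q L R j t * ya Q L R j t' * ya Q L R j (-t')
      rw [mul_assoc _ (ya Q L R j t'), ← ya_add D, add_neg_cancel, ya_zero D, mul_one]

theorem abs_B (j : Fin m) (hj : ¬ (j : ℕ) + 1 < m) : ∀ n ∈ NΩ Q L R, ∀ b ∈ BΩ Q L,
    sgΩ D j * b * n ∈ DoubleCoset.doubleCoset (sgΩ D j * n) (BΩ Q L : Set _) (BΩ Q L) ∪
      DoubleCoset.doubleCoset n (BΩ Q L : Set _) (BΩ Q L) := by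
  apply Cfsg.Agent.Helper37.SpBN.p_ABS (BΩ Q L) (NΩ Q L R) (sgΩ D j)
    (fun v : ↥(V0 L R F) => xBΩ D (Sum.inl j) v) (fun v : ↥(V0 L R F) => xBΩ D (Sum.inr j) v)
  · intro b hb
    obtain ⟨v₁, hv₁, ht₀⟩ := p_DECOMPB D.H (bcrit D) v₀ D.hv₀ D.hq₀ j hj _ ((mem_BΩ b).mp hb)
    refine ⟨⟨-v₁, (V0 L R F).neg_mem hv₁⟩, b * xBΩ D (Sum.inl j) ⟨v₁, hv₁⟩,
      mul_mem hb ((mem_BΩ (xBΩ D (Sum.inl j) ⟨v₁, hv₁⟩)).mpr
        (p_XBUP D.H (bcrit D) j v₁ hv₁)), ?_, ?_⟩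
    · apply Subtype.ext
      show (b : ↥(isometryGroup F ⇑Q)) =
        b * xB Q L R (Sum.inl j) v₁ * xB Q L R (Sum.inl j) (-v₁)
      rw [mul_assoc, ← p_XBADD D.H _ _ _ hv₁ ((V0 L R F).neg_mem hv₁), add_neg_cancel,
        xB_zero D, mul_one]
    · rw [mem_BΩ]
      exact ht₀
  · intro n hn
    obtain ⟨π, hπ⟩ := (p_NIFF D.H _).mp ((mem_NΩ n).mp hn)
    have hπi := p_PATINV D.H _ π hπ
    have hπii : PatO Q L R ((n : ↥(isometryGroup F ⇑Q))⁻¹)⁻¹ π⁻¹⁻¹ := by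
      rw [inv_inv, inv_inv]; exact hπ
    have hτ := pat_tau D _ _ hπi
    rcases hc : π⁻¹ (Sum.inl j) with i' | i'
    · left
      intro v
      obtain ⟨v', hv', e⟩ := p_CONJB D.H _ π⁻¹ hπi hπii (Sum.inl j) v.1 v.2
      rw [mem_BΩ]
      show ((n : ↥(isometryGroup F ⇑Q)))⁻¹ * xB Q L R (Sum.inl j) v.1 * n ∈ borelO Q L
      rw [inv_inv] at e
      rw [e, hc]
      exact p_XBUP D.H (bcrit D) i' v' hv'
    · right
      intro v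
      obtain ⟨v', hv', e⟩ := p_CONJB D.H _ π⁻¹ hπi hπii (Sum.inr j) v.1 v.2
      rw [mem_BΩ]
      show ((n : ↥(isometryGroup F ⇑Q)))⁻¹ * xB Q L R (Sum.inr j) v.1 * n ∈ borelO Q L
      rw [inv_inv] at e
      have h2 : π⁻¹ (Sum.inr j) = Sum.inl i' := by
        rw [← tauP_inl j, hτ, hc, tauP_inr]
      rw [e, h2]
      exact p_XBUP D.H (bcrit D) i' v' hv'
  · intro v
    by_cases hv : v.1 = 0
    · left
      apply Subtype.ext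
      show xB Q L R (Sum.inl j) v.1 = 1
      rw [hv]
      exact xB_zero D _
    · right
      have hqv : Q v.1 ≠ 0 := fun h => hv (D.haniso v.1 v.2 h)
      obtain ⟨v', hv', ht'⟩ := p_RANK1B D.H (bcrit D) v₀ D.hv₀ D.hq₀ j hj v.1 v.2 hqv
      have hb₁ : sgΩ D j * xBΩ D (Sum.inl j) v * xBΩ D (Sum.inr j) ⟨v', hv'⟩ ∈ BΩ Q L :=
        (mem_BΩ (sgΩ D j * xBΩ D (Sum.inl j) v * xBΩ D (Sum.inr j) ⟨v', hv'⟩)).mpr ht'
      refine ⟨sgΩ D j * xBΩ D (Sum.inl j) v * xBΩ D (Sum.inr j) ⟨v', hv'⟩, hb₁,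
        ⟨-v', (V0 L R F).neg_mem hv'⟩, ?_⟩
      apply Subtype.ext
      show sigE Q L R v₀ j * xB Q L R (Sum.inl j) v.1 =
        sigE Q L R v₀ j * xB Q L R (Sum.inl j) v.1 * xB Q L R (Sum.inr j) v' *
          xB Q L R (Sum.inr j) (-v')
      rw [mul_assoc _ (xB Q L R (Sum.inr j) v'),
        ← p_XBADD D.H _ _ _ hv' ((V0 L R F).neg_mem hv'), add_neg_cancel, xB_zero D, mul_one]

theorem conj_ne' (j : Fin m) :
    (fun b => sgΩ D j * b * sgΩ D j) '' (BΩ Q L : Set ↥(Omega F ⇑Q)) ≠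
      (BΩ Q L : Set ↥(Omega F ⇑Q)) := by
  intro h
  by_cases hj : (j : ℕ) + 1 < m
  · have h1 : sgΩ D j * xaΩ D j 1 * sgΩ D j ∈ (BΩ Q L : Set ↥(Omega F ⇑Q)) := by
      rw [← h]
      exact ⟨xaΩ D j 1, (mem_BΩ (xaΩ D j 1)).mpr (xa_up D j 1), rfl⟩
    exact p_CNES D.H v₀ j hj ((mem_BΩ (sgΩ D j * xaΩ D j 1 * sgΩ D j)).mp h1)
  · have h1 : sgΩ D j * xBΩ D (Sum.inl j) ⟨v₀, D.hv₀⟩ * sgΩ D j ∈
        (BΩ Q L : Set ↥(Omega F ⇑Q)) := by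
      rw [← h]
      exact ⟨xBΩ D (Sum.inl j) ⟨v₀, D.hv₀⟩, (mem_BΩ (xBΩ D (Sum.inl j) ⟨v₀, D.hv₀⟩)).mpr
        (p_XBUP D.H (bcrit D) j v₀ D.hv₀), rfl⟩
    exact p_CNEB D.H v₀ D.hv₀ D.hq₀ j hj
      ((mem_BΩ (sgΩ D j * xBΩ D (Sum.inl j) ⟨v₀, D.hv₀⟩ * sgΩ D j)).mp h1)

theorem closure_sup' : Subgroup.closure (SΩ D) ⊔ (BΩ Q L ⊓ NΩ Q L R) = NΩ Q L R := by
  apply le_antisymm
  · apply sup_le
    · rw [Subgroup.closure_le]
      intro s hs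
      obtain ⟨j, rfl⟩ := (mem_SΩ_iff D s).mp hs
      exact sgΩ_mem_N D j
    · exact inf_le_right
  · intro n hn
    obtain ⟨π, hπ⟩ := (p_NIFF D.H _).mp ((mem_NΩ n).mp hn)
    have hw := Cfsg.Agent.Helper8.SpBN.p_WGEN π (pat_tau D _ _ hπ)
    obtain ⟨w, hw1, hw2⟩ := p_WEYLG (G := ↥(Omega F ⇑Q))
      (fun g π => PatO Q L R (g : ↥(isometryGroup F ⇑Q)) π)
      (fun g h π ρ hg hh => p_PATMUL D.H _ _ _ _ hg hh)
      (fun g π hg => p_PATINV D.H _ _ hg) p_PATONE (sgΩ D) sigP (fun j => pat_sig D j) π hw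
    rw [range_sgΩ] at hw1
    have h3 : PatO Q L R ((w⁻¹ * n : ↥(Omega F ⇑Q)) : ↥(isometryGroup F ⇑Q)) (π⁻¹ * π) :=
      p_PATMUL D.H _ _ _ _ (p_PATINV D.H _ _ hw2) hπ
    rw [inv_mul_cancel] at h3
    have h4 : w⁻¹ * n ∈ BΩ Q L ⊓ NΩ Q L R :=
      ⟨(mem_BΩ _).mpr (mem_B_of_pat_one D _ h3), (mem_NΩ _).mpr (mem_N_of_pat D _ _ h3)⟩
    have e : n = w * (w⁻¹ * n) := by group
    rw [e]
    exact mul_mem (Subgroup.mem_sup_left hw1) (Subgroup.mem_sup_right h4)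

/-- **The BN-pair of `Ω(Q)`.** -/
noncomputable def omBN : Cfsg.BNPair ↥(Omega F ⇑Q) where
  B := BΩ Q L
  N := NΩ Q L R
  S := SΩ D
  sup_eq_top := sup_eq_top' D
  conj_mem := conj_mem' D
  subset := by
    intro s hs
    obtain ⟨j, rfl⟩ := (mem_SΩ_iff D s).mp hs
    exact sgΩ_mem_N D j
  sq_mem := by
    intro s hs
    obtain ⟨j, rfl⟩ := (mem_SΩ_iff D s).mp hs
    exact (mem_BΩ _).mpr (sig_sq_mem D j)
  inj := by
    intro s hs s' hs' h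
    obtain ⟨i, rfl⟩ := (mem_SΩ_iff D s).mp hs
    obtain ⟨j, rfl⟩ := (mem_SΩ_iff D s').mp hs'
    have hp : PatO Q L R ((sigE Q L R v₀ i)⁻¹ * sigE Q L R v₀ j) ((sigP i)⁻¹ * sigP j) :=
      p_PATMUL D.H _ _ _ _ (p_PATINV D.H _ _ (pat_sig D i)) (pat_sig D j)
    have h1 := p_HD1 D.H _ _ (pat_tau D _ _ hp) ((mem_BΩ _).mp h) hp
    have h2 : sigP i = sigP j := inv_mul_eq_one.mp h1
    rw [Cfsg.Agent.Helper11.SpBN.p_SGINJ i j h2]
  closure_sup := closure_sup' D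
  mul_mem_union := by
    intro s hs n hn b hb
    obtain ⟨j, rfl⟩ := (mem_SΩ_iff D s).mp hs
    by_cases hj : (j : ℕ) + 1 < m
    · exact abs_S D j hj n hn b hb
    · exact abs_B D j hj n hn b hb
  conj_ne := by
    intro s hs
    obtain ⟨j, rfl⟩ := (mem_SΩ_iff D s).mp hs
    exact conj_ne' D j

/-! ### the Steinberg character -/

omit D [Fintype ι] [DecidableEq ι] [Fintype F] in
theorem p_smul_F (p : ℕ) [CharP F p] (t : F) : p • t = 0 := by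
  rw [nsmul_eq_mul, CharP.cast_eq_zero, zero_mul]

theorem rank1_orbit (p : ℕ) [Fact p.Prime] [CharP F p] (j : Fin m) :
    ∃ k : ℕ, Nat.card (MulAction.orbit ↥(omBN D).B
      ((sgΩ D j : ↥(Omega F ⇑Q)) : ↥(Omega F ⇑Q) ⧸ (omBN D).B)) = p ^ k := by
  have hsq : sgΩ D j * sgΩ D j ∈ BΩ Q L := (mem_BΩ (sgΩ D j * sgΩ D j)).mpr (sig_sq_mem D j)
  have conv : ∀ c : ↥(Omega F ⇑Q), sgΩ D j * c * (sgΩ D j)⁻¹ ∈ BΩ Q L →
      (sgΩ D j)⁻¹ * c⁻¹ * sgΩ D j ∈ BΩ Q L := by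
    intro c h
    have e : (sgΩ D j)⁻¹ * c⁻¹ * sgΩ D j =
        (sgΩ D j * sgΩ D j)⁻¹ * (sgΩ D j * c * (sgΩ D j)⁻¹)⁻¹ * (sgΩ D j * sgΩ D j) := by
      group
    rw [e]
    exact mul_mem (mul_mem (inv_mem hsq) (inv_mem h)) hsq
  by_cases hj : (j : ℕ) + 1 < m
  · apply p_GRK1 (BΩ Q L) (sgΩ D j) (K := F) p (p_smul_F p) (fun t => xaΩ D j t)
    · intro t u
      exact Subtype.ext (xa_add D j t u)
    · intro t
      exact (mem_BΩ (xaΩ D j t)).mpr (xa_up D j t)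
    · intro b hb
      obtain ⟨t₁, ht₁⟩ := p_DECOMPS D.H (bcrit D) v₀ j hj _ ((mem_BΩ b⁻¹).mp (inv_mem hb))
      have hc : b⁻¹ * xaΩ D j t₁ ∈ BΩ Q L :=
        mul_mem (inv_mem hb) ((mem_BΩ (xaΩ D j t₁)).mpr (xa_up D j t₁))
      have h2 : sgΩ D j * (b⁻¹ * xaΩ D j t₁) * (sgΩ D j)⁻¹ ∈ BΩ Q L :=
        (mem_BΩ (sgΩ D j * (b⁻¹ * xaΩ D j t₁) * (sgΩ D j)⁻¹)).mpr ht₁
      exact ⟨t₁, (b⁻¹ * xaΩ D j t₁)⁻¹, inv_mem hc, by group, conv _ h2⟩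
  · apply p_GRK1 (BΩ Q L) (sgΩ D j) (K := ↥(V0 L R F)) p
      (fun v => Subtype.ext (funext fun c => by
        show (p • (v : ι → F)) c = 0
        rw [Pi.smul_apply]
        exact p_smul_F p _))
      (fun v => xBΩ D (Sum.inl j) v)
    · intro v w
      exact Subtype.ext (p_XBADD D.H _ _ _ v.2 w.2)
    · intro v
      exact (mem_BΩ (xBΩ D (Sum.inl j) v)).mpr (p_XBUP D.H (bcrit D) j v.1 v.2)
    · intro b hb
      obtain ⟨v₁, hv₁, ht₁⟩ := p_DECOMPB D.H (bcrit D) v₀ D.hv₀ D.hq₀ j hj _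
        ((mem_BΩ b⁻¹).mp (inv_mem hb))
      have hc : b⁻¹ * xBΩ D (Sum.inl j) ⟨v₁, hv₁⟩ ∈ BΩ Q L :=
        mul_mem (inv_mem hb) ((mem_BΩ (xBΩ D (Sum.inl j) ⟨v₁, hv₁⟩)).mpr
          (p_XBUP D.H (bcrit D) j v₁ hv₁))
      have h2 : sgΩ D j * (b⁻¹ * xBΩ D (Sum.inl j) ⟨v₁, hv₁⟩) * (sgΩ D j)⁻¹ ∈ BΩ Q L :=
        (mem_BΩ (sgΩ D j * (b⁻¹ * xBΩ D (Sum.inl j) ⟨v₁, hv₁⟩) * (sgΩ D j)⁻¹)).mpr ht₁
      exact ⟨⟨v₁, hv₁⟩, (b⁻¹ * xBΩ D (Sum.inl j) ⟨v₁, hv₁⟩)⁻¹, inv_mem hc, by group, conv _ h2⟩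

theorem torus_card (p : ℕ) [Fact p.Prime] [CharP F p]
    (htor : p = 2 → Fintype.card ι = 2 * m + 2) :
    ¬ p ∣ Nat.card ↥((omBN D).B ⊓ (omBN D).N) := by
  intro hdvd
  have hp : p.Prime := Fact.out
  obtain ⟨g, hg⟩ := exists_prime_orderOf_dvd_card' p hdvd
  have hg1 : g ≠ 1 := by
    rintro rfl
    rw [orderOf_one] at hg
    exact hp.one_lt.ne hg
  apply hg1
  have hgp : g ^ p = 1 := by
    rw [← hg]
    exact pow_orderOf_eq_one g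
  have hpat : PatO Q L R ((g : ↥(Omega F ⇑Q)) : ↥(isometryGroup F ⇑Q)) 1 :=
    pat_one_of_B_N D _ ((mem_BΩ (g : ↥(Omega F ⇑Q))).mp g.2.1)
      ((mem_NΩ (g : ↥(Omega F ⇑Q))).mp g.2.2)
  have hg₀p : ((g : ↥(Omega F ⇑Q)) : ↥(isometryGroup F ⇑Q)) ^ p = 1 := by
    have := congrArg (fun x : ↥((omBN D).B ⊓ (omBN D).N) =>
      ((x : ↥(Omega F ⇑Q)) : ↥(isometryGroup F ⇑Q))) hgp
    simpa using this
  have hfix := p_TORA D.H p _ hpat hg₀p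
  have hone : ((g : ↥(Omega F ⇑Q)) : ↥(isometryGroup F ⇑Q)) = 1 := by
    by_cases hp2 : p = 2
    · subst hp2
      have hcard := htor rfl
      have hR : reflGroup Q = ⊤ :=
        Helper44.reflGroup_eq_top_of Q D.hQ (Or.inr (by have := D.hn; omega))
      exact p_TORD D.hQ hR D.H hcard _ (g : ↥(Omega F ⇑Q)).2 hfix (by
        rw [← pow_two]; exact hg₀p)
    · exact p_TORB D.H D.haniso p hp2 _ hfix hg₀p
  exact Subtype.ext (Subtype.ext hone)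

theorem center_le : Subgroup.center ↥(Omega F ⇑Q) ≤ (omBN D).B := by
  intro z hz
  show z ∈ BΩ Q L
  rw [mem_BΩ]
  apply p_CENTER D.hQ D.H (bcrit D) v₀ D.hv₀ D.hq₀
  intro i
  have := Subgroup.mem_center_iff.mp hz (xBΩ D (Sum.inl i) ⟨v₀, D.hv₀⟩)
  exact (congrArg Subtype.val this).symm

/-- **Steinberg character of `PΩ(Q)`** for a form with a hyperbolic frame of rank `m ≥ 1` and a
non-zero anisotropic complement, in dimension at least five. -/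
theorem steinberg_B (p : ℕ) [Fact p.Prime] [CharP F p]
    (htor : p = 2 → Fintype.card ι = 2 * m + 2) :
    ∃ χ : Cfsg.POmega F ⇑Q → ℂ, Cfsg.IsIrrCharacter (Cfsg.POmega F ⇑Q) χ ∧
      ∀ P : Sylow p (Cfsg.POmega F ⇑Q), χ 1 = Nat.card P ∧
        ∀ x : Cfsg.POmega F ⇑Q, x ∈ P → x ≠ 1 → χ x = 0 := by
  obtain ⟨n₀, hn₀, -⟩ := exists_n0 D
  have hn₀N : n₀ ∈ (omBN D).N := (mem_NΩ n₀).mpr (mem_N_of_pat D _ _ hn₀)
  have hn₀i : PatO Q L R ((n₀ : ↥(isometryGroup F ⇑Q)))⁻¹ (tauP m) := by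
    have := p_PATINV D.H _ _ hn₀
    rwa [tauP_inv'] at this
  exact Cfsg.Agent.Helper45.StGen.bn_steinberg (omBN D) p m (sgσ D) rfl
    (by
      intro s hs
      obtain ⟨j, rfl⟩ := (mem_SΩ_iff D s).mp hs
      exact rank1_orbit D p j)
    n₀ hn₀N
    (by
      intro c hc h
      show c ∈ NΩ Q L R
      rw [mem_NΩ]
      exact mem_N_of_pat D _ 1
        (p_STABD D.H _ _ ((mem_BΩ c).mp hc) hn₀ hn₀i ((mem_BΩ (n₀⁻¹ * c * n₀)).mp h)))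
    (torus_card D p htor) (Subgroup.center _) le_rfl (center_le D)

end asm

end Cfsg.Agent.Helper45.StOrth
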