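import Mathlib
import Cfsg.Agent.Helper45.StGen
import Cfsg.Agent.Helper27.StWEYLG
import Cfsg.Agent.Helper91.StGRK1
import Cfsg.Agent.Helper88.StPAT
import Cfsg.Agent.Helper58.StBIFF
import Cfsg.Agent.Helper88.StPAT1UP
import Cfsg.Agent.Helper88.StHD1
import Cfsg.Agent.Helper88.StXADD
import Cfsg.Agent.Helper58.StXUP
import Cfsg.Agent.Helper58.StCONJ
import Cfsg.Agent.Helper81.StRANK1S
import Cfsg.Agent.Helper81.StDECOMPS
import Cfsg.Agent.Helper81.StCNE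
import Cfsg.Agent.Helper44.StSUP5
import Cfsg.Agent.Helper80.StBE0
import Cfsg.Agent.Helper88.StTORA
import Cfsg.Agent.Helper29.StWD
import Cfsg.Agent.Helper29.StTORC
import Cfsg.Agent.Helper20.StRANK1D
import Cfsg.Agent.Helper10.StCENTD
import Cfsg.Agent.Helper10.StCNED
import Cfsg.Agent.Helper81.StSIGPATD
import Cfsg.Agent.Helper81.StDECOMPD
import Cfsg.Agent.Helper29.StSTABDD
import Cfsg.Agent.Helper37.SpBN1

/-!
# The type `D` BN-pair of `Ω(Q)` for a hyperbolic form of rank `m ≥ 3`, and the Steinberg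
character of `PΩ⁺`
-/

set_option autoImplicit false

universe u

namespace Cfsg.Agent.Helper45.StOrthD

open Cfsg Cfsg.Agent.Helper13 Cfsg.Agent.Helper95.SpBN Cfsg.Agent.Helper45 Cfsg.Agent.Helper45.St
open Cfsg.Agent.Helper45.StD
open Cfsg.Agent.Helper27.StWEYLG Cfsg.Agent.Helper91.StGRK1 Cfsg.Agent.Helper88.StPAT
  Cfsg.Agent.Helper58.StBIFF Cfsg.Agent.Helper88.StPAT1UP Cfsg.Agent.Helper88.StHD1
  Cfsg.Agent.Helper88.StXADD Cfsg.Agent.Helper58.StXUP Cfsg.Agent.Helper58.StCONJ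
  Cfsg.Agent.Helper81.StRANK1S Cfsg.Agent.Helper81.StDECOMPS Cfsg.Agent.Helper81.StCNE
  Cfsg.Agent.Helper44.StSUP5 Cfsg.Agent.Helper80.StBE0 Cfsg.Agent.Helper88.StTORA
  Cfsg.Agent.Helper29.StWD Cfsg.Agent.Helper29.StTORC Cfsg.Agent.Helper20.StRANK1D
  Cfsg.Agent.Helper10.StCENTD Cfsg.Agent.Helper10.StCNED Cfsg.Agent.Helper81.StSIGPATD
open Cfsg.Agent.Helper81.StDECOMPD Cfsg.Agent.Helper29.StSTABDD

section asm

variable {ι : Type} [Fintype ι] [DecidableEq ι] {F : Type u} [Field F] [Fintype F]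
  {Q : QuadraticForm F (ι → F)} {m : ℕ} {L R : Fin m → ι}

/-- the standing hypotheses (hyperbolic form of rank `m ≥ 3`) -/
structure FrameD (Q : QuadraticForm F (ι → F)) {m : ℕ} (L R : Fin m → ι) : Prop where
  hQ : (QuadraticMap.polarBilin Q).Nondegenerate
  H : HypPairs Q m L R
  hn : 5 ≤ Fintype.card ι
  hm : 3 ≤ m
  hV0 : ∀ x : ι → F, InV0 L R x → x = 0

variable (D : FrameD Q L R)

include D

theorem bcrit : BCrit Q L R := p_BIFF D.H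

theorem hm2 : 2 ≤ m := by have := D.hm; omega

theorem xS_mem (a b : Fin m ⊕ Fin m) (hab : b ≠ tauP m a) (t : F) :
    xS Q L R a b t ∈ Omega F ⇑Q := by
  rw [xS_eq D.H a b hab t]
  exact eichO_mem_omega Q D.hQ D.hn _ _ _ _

omit D [Fintype ι] [DecidableEq ι] [Fintype F] in
theorem tau_aD_ne (j : Fin m) : tauP m (aD j) ≠ tauP m (tauP m (bD j)) :=
  fun h => aD_ne j ((tauP m).injective h)

theorem xD_mem (j : Fin m) (t : F) : xD Q L R j t ∈ Omega F ⇑Q := xS_mem D _ _ (bD_ne j) t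

theorem yD_mem (j : Fin m) (t : F) : yD Q L R j t ∈ Omega F ⇑Q :=
  xS_mem D _ _ (tau_aD_ne j) t

theorem sigD_mem (j : Fin m) : sigD Q L R j ∈ Omega F ⇑Q :=
  mul_mem (mul_mem (xD_mem D j 1) (yD_mem D j (-1))) (xD_mem D j 1)

theorem xD_add (j : Fin m) (t u : F) : xD Q L R j (t + u) = xD Q L R j t * xD Q L R j u :=
  p_XSADD D.H _ _ (bD_ne j) t u

theorem yD_add (j : Fin m) (t u : F) : yD Q L R j (t + u) = yD Q L R j t * yD Q L R j u :=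
  p_XSADD D.H _ _ (tau_aD_ne j) t u

theorem xD_zero (j : Fin m) : xD Q L R j 0 = 1 := by
  have h := xD_add D j 0 0
  rw [add_zero] at h
  exact (mul_eq_left.mp h.symm)

theorem yD_zero (j : Fin m) : yD Q L R j 0 = 1 := by
  have h := yD_add D j 0 0
  rw [add_zero] at h
  exact (mul_eq_left.mp h.symm)

theorem xD_up (j : Fin m) (t : F) : xD Q L R j t ∈ borelO Q L :=
  p_XSUP D.H (bcrit D) _ _ (bD_ne j) (rk_aD_lt j) t

theorem pat_tau (g : ↥(isometryGroup F ⇑Q)) (π : Equiv.Perm (Fin m ⊕ Fin m))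
    (hg : PatO Q L R g π) : ∀ a, π (tauP m a) = tauP m (π a) := p_PATTAU D.H g π hg

theorem pat_one_of_B_N (t : ↥(isometryGroup F ⇑Q)) (hB : t ∈ borelO Q L)
    (hN : t ∈ monoO Q L R) : PatO Q L R t 1 := by
  obtain ⟨π, hπ⟩ := (p_NIFF D.H t).mp hN
  have := p_HD1 D.H t π (pat_tau D t π hπ) hB hπ
  rwa [this] at hπ

theorem mem_B_of_pat_one (g : ↥(isometryGroup F ⇑Q)) (hg : PatO Q L R g 1) :
    g ∈ borelO Q L := p_PAT1UP D.H (bcrit D) g hg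

theorem mem_N_of_pat (g : ↥(isometryGroup F ⇑Q)) (π : Equiv.Perm (Fin m ⊕ Fin m))
    (hg : PatO Q L R g π) : g ∈ monoO Q L R := (p_NIFF D.H g).mpr ⟨π, hg⟩

theorem conj_diag (n : ↥(isometryGroup F ⇑Q)) (hn : n ∈ monoO Q L R)
    (c : ↥(isometryGroup F ⇑Q)) (hc : PatO Q L R c 1) : n * c * n⁻¹ ∈ borelO Q L := by
  obtain ⟨π, hπ⟩ := (p_NIFF D.H n).mp hn
  have h2 : PatO Q L R (n * c * n⁻¹) (π * 1 * π⁻¹) :=
    p_PATMUL D.H _ _ _ _ (p_PATMUL D.H _ _ _ _ hπ hc) (p_PATINV D.H n π hπ)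
  rw [mul_one, mul_inv_cancel] at h2
  exact mem_B_of_pat_one D _ h2

theorem pat_sig (j : Fin m) : PatO Q L R (sigD Q L R j) (sigPD j) :=
  p_SIGPATD D.H (hm2 D) j

theorem sig_sq_mem (j : Fin m) : sigD Q L R j * sigD Q L R j ∈ borelO Q L := by
  have h2 := p_PATMUL D.H _ _ _ _ (pat_sig D j) (pat_sig D j)
  rw [p_SGSQD (hm2 D)] at h2
  exact mem_B_of_pat_one D _ h2

theorem decompD (j : Fin m) (g : ↥(isometryGroup F ⇑Q)) (hg : g ∈ borelO Q L) :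
    ∃ t : F, sigD Q L R j * (g * xD Q L R j t) * (sigD Q L R j)⁻¹ ∈ borelO Q L := by
  by_cases hj : (j : ℕ) + 1 < m
  · obtain ⟨t, ht⟩ := p_DECOMPS D.H (bcrit D) (0 : ι → F) j hj g hg
    refine ⟨t, ?_⟩
    rw [sigD_of_lt j hj (0 : ι → F), xD_of_lt j hj]
    exact ht
  · exact p_DECOMPD D.H (bcrit D) D.hV0 (hm2 D) j hj g hg

theorem rank1D (j : Fin m) (t : F) (ht : t ≠ 0) :
    ∃ t' : F, sigD Q L R j * xD Q L R j t * yD Q L R j t' ∈ borelO Q L := by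
  by_cases hj : (j : ℕ) + 1 < m
  · obtain ⟨t', ht'⟩ := p_RANK1S D.H (bcrit D) (0 : ι → F) j hj t ht
    refine ⟨t', ?_⟩
    rw [sigD_of_lt j hj (0 : ι → F), xD_of_lt j hj, yD_of_lt j hj]
    exact ht'
  · exact p_RANK1D D.H (bcrit D) (hm2 D) j hj t ht

theorem cneD (j : Fin m) : sigD Q L R j * xD Q L R j 1 * sigD Q L R j ∉ borelO Q L := by
  by_cases hj : (j : ℕ) + 1 < m
  · rw [sigD_of_lt j hj (0 : ι → F), xD_of_lt j hj]
    exact p_CNES D.H (0 : ι → F) j hj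
  · exact p_CNED D.H (hm2 D) j hj

/-! ### the groups inside `Ω` -/

/-- the Borel subgroup of `Ω` -/
def BΩ (Q : QuadraticForm F (ι → F)) {m : ℕ} (L : Fin m → ι) : Subgroup ↥(Omega F ⇑Q) :=
  (borelO Q L).subgroupOf (Omega F ⇑Q)

/-- the monomial subgroup of `Ω` -/
def MΩ (Q : QuadraticForm F (ι → F)) {m : ℕ} (L R : Fin m → ι) : Subgroup ↥(Omega F ⇑Q) :=
  (monoO Q L R).subgroupOf (Omega F ⇑Q)

omit D in
theorem mem_BΩ (g : ↥(Omega F ⇑Q)) : g ∈ BΩ Q L ↔ (g : ↥(isometryGroup F ⇑Q)) ∈ borelO Q L :=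
  Subgroup.mem_subgroupOf

omit D in
theorem mem_MΩ (g : ↥(Omega F ⇑Q)) :
    g ∈ MΩ Q L R ↔ (g : ↥(isometryGroup F ⇑Q)) ∈ monoO Q L R :=
  Subgroup.mem_subgroupOf

/-- simple reflections in `Ω` -/
noncomputable def sgΩ (j : Fin m) : ↥(Omega F ⇑Q) := ⟨sigD Q L R j, sigD_mem D j⟩

/-- enumeration of the simple reflections -/
noncomputable def sgσ : ℕ → ↥(Omega F ⇑Q) :=
  fun n => if h : n < m then sgΩ D ⟨n, h⟩ else 1

/-- the set of simple reflections -/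
def SΩ : Set ↥(Omega F ⇑Q) := sgσ D '' ((Finset.range m : Finset ℕ) : Set ℕ)

theorem mem_SΩ_iff (s : ↥(Omega F ⇑Q)) : s ∈ SΩ D ↔ ∃ j : Fin m, s = sgΩ D j := by
  constructor
  · rintro ⟨n, hn, rfl⟩
    have hn' : n < m := Finset.mem_range.mp (Finset.mem_coe.mp hn)
    exact ⟨⟨n, hn'⟩, by unfold sgσ; rw [dif_pos hn']⟩
  · rintro ⟨j, rfl⟩
    refine ⟨j.1, Finset.mem_coe.mpr (Finset.mem_range.mpr j.2), ?_⟩
    unfold sgσ
    rw [dif_pos j.2]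

theorem range_sgΩ : Set.range (sgΩ D) = SΩ D := by
  ext s
  rw [mem_SΩ_iff]
  constructor
  · rintro ⟨j, rfl⟩; exact ⟨j, rfl⟩
  · rintro ⟨j, rfl⟩; exact ⟨j, rfl⟩

theorem sgΩ_mem_M (j : Fin m) : sgΩ D j ∈ MΩ Q L R :=
  (mem_MΩ _).mpr (mem_N_of_pat D _ _ (pat_sig D j))

/-- the group `N`: generated by the simple reflections and the torus -/
def NΩ : Subgroup ↥(Omega F ⇑Q) := Subgroup.closure (SΩ D) ⊔ (BΩ Q L ⊓ MΩ Q L R)

theorem closure_le_M : Subgroup.closure (SΩ D) ≤ MΩ Q L R := by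
  rw [Subgroup.closure_le]
  intro s hs
  obtain ⟨j, rfl⟩ := (mem_SΩ_iff D s).mp hs
  exact sgΩ_mem_M D j

theorem NΩ_le_M : NΩ D ≤ MΩ Q L R := sup_le (closure_le_M D) inf_le_right

theorem B_inf_N : BΩ Q L ⊓ NΩ D = BΩ Q L ⊓ MΩ Q L R :=
  le_antisymm (fun _ hx => ⟨hx.1, NΩ_le_M D hx.2⟩) (fun _ hx => ⟨hx.1, Subgroup.mem_sup_right hx⟩)

/-- a monomial element of `Ω` reversing the frame (up to the last index), in `⟨S⟩` -/
theorem exists_n0 : ∃ (n₀ : ↥(Omega F ⇑Q)) (π₀ : Equiv.Perm (Fin m ⊕ Fin m)),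
    PatO Q L R (n₀ : ↥(isometryGroup F ⇑Q)) π₀ ∧
    (∀ i : Fin m, (i : ℕ) + 1 < m → π₀ (Sum.inl i) = Sum.inr i) ∧
    n₀ ∈ Subgroup.closure (SΩ D) := by
  obtain ⟨π₀, hw, hπ₀⟩ := p_LONGD (m := m) (hm2 D)
  obtain ⟨w, hw1, hw2⟩ := p_WEYLG (G := ↥(Omega F ⇑Q))
    (fun g π => PatO Q L R (g : ↥(isometryGroup F ⇑Q)) π)
    (fun g h π ρ hg hh => p_PATMUL D.H _ _ _ _ hg hh)
    (fun g π hg => p_PATINV D.H _ _ hg) p_PATONE (sgΩ D) sigPD (fun j => pat_sig D j)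
    π₀ hw
  rw [range_sgΩ] at hw1
  exact ⟨w, π₀, hw2, hπ₀, hw1⟩

theorem sup_eq_top' : BΩ Q L ⊔ NΩ D = ⊤ := by
  obtain ⟨n₀, π₀, hn₀, hπ₀, hn₀c⟩ := exists_n0 D
  have hm := D.hm
  let i₀ : Fin m := ⟨0, by omega⟩
  have hle : Omega F ⇑Q ≤ (BΩ Q L ⊔ NΩ D).map (Omega F ⇑Q).subtype := by
    obtain ⟨c, hc⟩ := hn₀ (Sum.inl i₀)
    rw [hπ₀ i₀ (by show 0 + 1 < m; omega)] at hc
    have h01 : QuadraticMap.polar ⇑Q (ev L R F (Sum.inl i₀)) (ev L R F (Sum.inr i₀)) = 1 := by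
      rw [polar_ev_ev D.H, if_pos (tauP_inl i₀).symm]
    have hc0 : c ≠ 0 := by
      rintro rfl
      rw [zero_smul] at hc
      have h := mv_polar Q (n₀ : ↥(isometryGroup F ⇑Q)) (ev L R F (Sum.inl i₀))
        (ev L R F (Sum.inr i₀))
      rw [hc, h01] at h
      simp at h
    have hB0 : ∀ (b : ι → F) (hb : QuadraticMap.polar ⇑Q (ev L R F (Sum.inl i₀)) b = 0),
        eichO Q (ev L R F (Sum.inl i₀)) b (ev_quad D.H _) hb ∈
          (BΩ Q L ⊔ NΩ D).map (Omega F ⇑Q).subtype := by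
      intro b hb
      refine Subgroup.mem_map.mpr ⟨⟨eichO Q (ev L R F (Sum.inl i₀)) b (ev_quad D.H _) hb,
        eichO_mem_omega Q D.hQ D.hn _ _ (ev_quad D.H _) hb⟩, Subgroup.mem_sup_left ?_, rfl⟩
      rw [mem_BΩ]
      exact p_BE0 D.H (bcrit D) i₀ rfl b hb
    apply p_SUP5 D.hQ D.hn _ (ev L R F (Sum.inl i₀)) (ev L R F (Sum.inr i₀)) (ev_quad D.H _)
      (ev_quad D.H _) h01
    · exact hB0
    · intro b hb
      obtain ⟨b₀, hub₀, e⟩ := eichO_conj_eq Q (n₀ : ↥(isometryGroup F ⇑Q))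
        (ev L R F (Sum.inl i₀)) (ev L R F (Sum.inr i₀)) b c hc0 hc (ev_quad D.H _)
        (ev_quad D.H _) hb
      rw [e]
      have hnK : (n₀ : ↥(isometryGroup F ⇑Q)) ∈ (BΩ Q L ⊔ NΩ D).map (Omega F ⇑Q).subtype :=
        Subgroup.mem_map.mpr ⟨n₀, Subgroup.mem_sup_right (Subgroup.mem_sup_left hn₀c), rfl⟩
      exact mul_mem (mul_mem hnK (hB0 b₀ hub₀)) (inv_mem hnK)
  rw [eq_top_iff]
  intro g _
  obtain ⟨g', hg', e⟩ := Subgroup.mem_map.mp (hle g.2)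
  have : g' = g := Subtype.ext e
  rw [← this]
  exact hg'

theorem conj_mem' (n : ↥(Omega F ⇑Q)) (hn : n ∈ NΩ D) (t : ↥(Omega F ⇑Q))
    (ht : t ∈ BΩ Q L ⊓ NΩ D) : n * t * n⁻¹ ∈ BΩ Q L := by
  rw [mem_BΩ]
  exact conj_diag D _ ((mem_MΩ n).mp (NΩ_le_M D hn)) _
    (pat_one_of_B_N D _ ((mem_BΩ t).mp ht.1) ((mem_MΩ t).mp (NΩ_le_M D ht.2)))

/-! ### the double coset axiom -/

/-- root elements in `Ω` -/
noncomputable def xDΩ (j : Fin m) (t : F) : ↥(Omega F ⇑Q) := ⟨xD Q L R j t, xD_mem D j t⟩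

/-- negative root elements in `Ω` -/
noncomputable def yDΩ (j : Fin m) (t : F) : ↥(Omega F ⇑Q) := ⟨yD Q L R j t, yD_mem D j t⟩

theorem abs_D (j : Fin m) : ∀ n ∈ MΩ Q L R, ∀ b ∈ BΩ Q L,
    sgΩ D j * b * n ∈ DoubleCoset.doubleCoset (sgΩ D j * n) (BΩ Q L : Set _) (BΩ Q L) ∪
      DoubleCoset.doubleCoset n (BΩ Q L : Set _) (BΩ Q L) := by
  apply Cfsg.Agent.Helper37.SpBN.p_ABS (BΩ Q L) (MΩ Q L R) (sgΩ D j)
    (fun t : F => xDΩ D j t) (fun t : F => yDΩ D j t)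
  · intro b hb
    obtain ⟨t₀, ht₀⟩ := decompD D j _ ((mem_BΩ b).mp hb)
    refine ⟨-t₀, b * xDΩ D j t₀,
      mul_mem hb ((mem_BΩ (xDΩ D j t₀)).mpr (xD_up D j t₀)), ?_, ?_⟩
    · apply Subtype.ext
      show (b : ↥(isometryGroup F ⇑Q)) = b * xD Q L R j t₀ * xD Q L R j (-t₀)
      rw [mul_assoc, ← xD_add D, add_neg_cancel, xD_zero D, mul_one]
    · rw [mem_BΩ]
      exact ht₀
  · intro n hn
    obtain ⟨π, hπ⟩ := (p_NIFF D.H _).mp ((mem_MΩ n).mp hn)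
    have hπi := p_PATINV D.H _ π hπ
    have hτ := pat_tau D _ _ hπi
    rcases lt_or_gt_of_ne (fun h => (π⁻¹.injective.ne (aD_ne j)) (rk_injective h))
      with h | h
    · left
      intro t
      obtain ⟨t', ht'⟩ := p_CONJS D.H _ π⁻¹ hπi hτ (aD j) (bD j) (bD_ne j) t
      rw [mem_BΩ]
      show ((n : ↥(isometryGroup F ⇑Q)))⁻¹ * xD Q L R j t * n ∈ borelO Q L
      rw [inv_inv] at ht'
      unfold xD
      rw [ht']
      apply p_XSUP D.H (bcrit D)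
      · rw [← hτ]
        exact fun h' => bD_ne j (π⁻¹.injective h')
      · rw [← hτ]
        exact h
    · right
      intro t
      obtain ⟨t', ht'⟩ := p_CONJS D.H _ π⁻¹ hπi hτ (tauP m (bD j)) (tauP m (aD j))
        (tau_aD_ne j) t
      rw [mem_BΩ]
      show ((n : ↥(isometryGroup F ⇑Q)))⁻¹ * yD Q L R j t * n ∈ borelO Q L
      rw [inv_inv] at ht'
      unfold yD
      rw [ht']
      apply p_XSUP D.H (bcrit D)
      · rw [hτ, hτ, tauP_tauP]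
        exact fun h' => bD_ne j (π⁻¹.injective ((hτ (aD j)).trans h')).symm
      · rw [hτ (aD j), tauP_tauP]
        exact h
  · intro t
    by_cases ht : t = 0
    · left
      apply Subtype.ext
      show xD Q L R j t = 1
      rw [ht]
      exact xD_zero D j
    · right
      obtain ⟨t', ht'⟩ := rank1D D j t ht
      have hb₁ : sgΩ D j * xDΩ D j t * yDΩ D j t' ∈ BΩ Q L :=
        (mem_BΩ (sgΩ D j * xDΩ D j t * yDΩ D j t')).mpr ht'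
      refine ⟨sgΩ D j * xDΩ D j t * yDΩ D j t', hb₁, -t', ?_⟩
      apply Subtype.ext
      show sigD Q L R j * xD Q L R j t =
        sigD Q L R j * xD Q L R j t * yD Q L R j t' * yD Q L R j (-t')
      rw [mul_assoc _ (yD Q L R j t'), ← yD_add D, add_neg_cancel, yD_zero D, mul_one]

theorem conj_ne' (j : Fin m) :
    (fun b => sgΩ D j * b * sgΩ D j) '' (BΩ Q L : Set ↥(Omega F ⇑Q)) ≠
      (BΩ Q L : Set ↥(Omega F ⇑Q)) := by
  intro h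
  have h1 : sgΩ D j * xDΩ D j 1 * sgΩ D j ∈ (BΩ Q L : Set ↥(Omega F ⇑Q)) := by
    rw [← h]
    exact ⟨xDΩ D j 1, (mem_BΩ (xDΩ D j 1)).mpr (xD_up D j 1), rfl⟩
  exact cneD D j ((mem_BΩ (sgΩ D j * xDΩ D j 1 * sgΩ D j)).mp h1)

/-- **The type `D` BN-pair of `Ω(Q)`.** -/
noncomputable def omBND : Cfsg.BNPair ↥(Omega F ⇑Q) where
  B := BΩ Q L
  N := NΩ D
  S := SΩ D
  sup_eq_top := sup_eq_top' D
  conj_mem := conj_mem' D
  subset := by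
    intro s hs
    exact Subgroup.mem_sup_left (Subgroup.subset_closure hs)
  sq_mem := by
    intro s hs
    obtain ⟨j, rfl⟩ := (mem_SΩ_iff D s).mp hs
    exact (mem_BΩ _).mpr (sig_sq_mem D j)
  inj := by
    intro s hs s' hs' h
    obtain ⟨i, rfl⟩ := (mem_SΩ_iff D s).mp hs
    obtain ⟨j, rfl⟩ := (mem_SΩ_iff D s').mp hs'
    have hp : PatO Q L R ((sigD Q L R i)⁻¹ * sigD Q L R j) ((sigPD i)⁻¹ * sigPD j) :=
      p_PATMUL D.H _ _ _ _ (p_PATINV D.H _ _ (pat_sig D i)) (pat_sig D j)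
    have h1 := p_HD1 D.H _ _ (pat_tau D _ _ hp) ((mem_BΩ _).mp h) hp
    have h2 : sigPD i = sigPD j := inv_mul_eq_one.mp h1
    rw [p_SGINJD (hm2 D) i j h2]
  closure_sup := by
    rw [B_inf_N D]
    rfl
  mul_mem_union := by
    intro s hs n hn b hb
    obtain ⟨j, rfl⟩ := (mem_SΩ_iff D s).mp hs
    exact abs_D D j n (NΩ_le_M D hn) b hb
  conj_ne := by
    intro s hs
    obtain ⟨j, rfl⟩ := (mem_SΩ_iff D s).mp hs
    exact conj_ne' D j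

/-! ### the Steinberg character -/

omit D [Fintype ι] [DecidableEq ι] [Fintype F] in
theorem p_smul_F (p : ℕ) [CharP F p] (t : F) : p • t = 0 := by
  rw [nsmul_eq_mul, CharP.cast_eq_zero, zero_mul]

theorem rank1_orbit (p : ℕ) [Fact p.Prime] [CharP F p] (j : Fin m) :
    ∃ k : ℕ, Nat.card (MulAction.orbit ↥(omBND D).B
      ((sgΩ D j : ↥(Omega F ⇑Q)) : ↥(Omega F ⇑Q) ⧸ (omBND D).B)) = p ^ k := by
  have hsq : sgΩ D j * sgΩ D j ∈ BΩ Q L := (mem_BΩ (sgΩ D j * sgΩ D j)).mpr (sig_sq_mem D j)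
  have conv : ∀ c : ↥(Omega F ⇑Q), sgΩ D j * c * (sgΩ D j)⁻¹ ∈ BΩ Q L →
      (sgΩ D j)⁻¹ * c⁻¹ * sgΩ D j ∈ BΩ Q L := by
    intro c h
    have e : (sgΩ D j)⁻¹ * c⁻¹ * sgΩ D j =
        (sgΩ D j * sgΩ D j)⁻¹ * (sgΩ D j * c * (sgΩ D j)⁻¹)⁻¹ * (sgΩ D j * sgΩ D j) := by
      group
    rw [e]
    exact mul_mem (mul_mem (inv_mem hsq) (inv_mem h)) hsq
  apply p_GRK1 (BΩ Q L) (sgΩ D j) (K := F) p (p_smul_F p)
    (fun t => xDΩ D j t)
  · intro t u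
    exact Subtype.ext (xD_add D j t u)
  · intro t
    exact (mem_BΩ (xDΩ D j t)).mpr (xD_up D j t)
  · intro b hb
    obtain ⟨t₁, ht₁⟩ := decompD D j _ ((mem_BΩ b⁻¹).mp (inv_mem hb))
    have hc : b⁻¹ * xDΩ D j t₁ ∈ BΩ Q L :=
      mul_mem (inv_mem hb) ((mem_BΩ (xDΩ D j t₁)).mpr (xD_up D j t₁))
    have h2 : sgΩ D j * (b⁻¹ * xDΩ D j t₁) * (sgΩ D j)⁻¹ ∈ BΩ Q L :=
      (mem_BΩ (sgΩ D j * (b⁻¹ * xDΩ D j t₁) * (sgΩ D j)⁻¹)).mpr ht₁
    exact ⟨t₁, (b⁻¹ * xDΩ D j t₁)⁻¹, inv_mem hc, by group, conv _ h2⟩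

theorem torus_card (p : ℕ) [Fact p.Prime] [CharP F p] :
    ¬ p ∣ Nat.card ↥((omBND D).B ⊓ (omBND D).N) := by
  intro hdvd
  have hp : p.Prime := Fact.out
  obtain ⟨g, hg⟩ := exists_prime_orderOf_dvd_card' p hdvd
  have hg1 : g ≠ 1 := by
    rintro rfl
    rw [orderOf_one] at hg
    exact hp.one_lt.ne hg
  apply hg1
  have hgp : g ^ p = 1 := by
    rw [← hg]
    exact pow_orderOf_eq_one g
  have hpat : PatO Q L R ((g : ↥(Omega F ⇑Q)) : ↥(isometryGroup F ⇑Q)) 1 :=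
    pat_one_of_B_N D _ ((mem_BΩ (g : ↥(Omega F ⇑Q))).mp g.2.1)
      ((mem_MΩ (g : ↥(Omega F ⇑Q))).mp (NΩ_le_M D g.2.2))
  have hg₀p : ((g : ↥(Omega F ⇑Q)) : ↥(isometryGroup F ⇑Q)) ^ p = 1 := by
    have := congrArg (fun x : ↥((omBND D).B ⊓ (omBND D).N) =>
      ((x : ↥(Omega F ⇑Q)) : ↥(isometryGroup F ⇑Q))) hgp
    simpa using this
  have hfix := p_TORA D.H p _ hpat hg₀p
  have hone : ((g : ↥(Omega F ⇑Q)) : ↥(isometryGroup F ⇑Q)) = 1 := p_TORC D.H D.hV0 _ hfix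
  exact Subtype.ext (Subtype.ext hone)

theorem center_le : Subgroup.center ↥(Omega F ⇑Q) ≤ (omBND D).B := by
  intro z hz
  show z ∈ BΩ Q L
  rw [mem_BΩ]
  exact p_CENTD D.hQ D.H D.hm z hz

/-- **Steinberg character of `PΩ(Q)`** for a hyperbolic form of rank `m ≥ 3`. -/
theorem steinberg_D (p : ℕ) [Fact p.Prime] [CharP F p] :
    ∃ χ : Cfsg.POmega F ⇑Q → ℂ, Cfsg.IsIrrCharacter (Cfsg.POmega F ⇑Q) χ ∧
      ∀ P : Sylow p (Cfsg.POmega F ⇑Q), χ 1 = Nat.card P ∧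
        ∀ x : Cfsg.POmega F ⇑Q, x ∈ P → x ≠ 1 → χ x = 0 := by
  obtain ⟨n₀, π₀, hn₀, hπ₀, hn₀c⟩ := exists_n0 D
  have hn₀N : n₀ ∈ (omBND D).N := Subgroup.mem_sup_left hn₀c
  have hn₀i := p_PATINV D.H _ _ hn₀
  exact Cfsg.Agent.Helper45.StGen.bn_steinberg (omBND D) p m (sgσ D) rfl
    (by
      intro s hs
      obtain ⟨j, rfl⟩ := (mem_SΩ_iff D s).mp hs
      exact rank1_orbit D p j)
    n₀ hn₀N
    (by
      intro c hc h
      have hpat := p_STABDD D.H D.hV0 _ _ π₀ hπ₀ ((mem_BΩ c).mp hc) hn₀ hn₀i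
        ((mem_BΩ (n₀⁻¹ * c * n₀)).mp h)
      exact Subgroup.mem_sup_right ⟨hc, (mem_MΩ c).mpr (mem_N_of_pat D _ 1 hpat)⟩)
    (torus_card D p) (Subgroup.center _) le_rfl (center_le D)

end asm

end Cfsg.Agent.Helper45.StOrthD
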