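import Mathlib
import Cfsg.Agent.Helper40.BNStD

/-!
# CALL S2314 (helper40), piece TX (`sub_sum`)

In a finite group with a BN-pair and a "unipotent" subgroup `U` of `B`, the Steinberg character summed
over the `p`-elements is `|U|`.  (Also a copy of T1C, `tx_sum_fpc_transitive`.)
-/

set_option autoImplicit false

namespace Cfsg.Agent.Helper45.UCTX

open Cfsg.Agent.Helper6 Cfsg.Agent.Helper40.BNSt

theorem tx_orderOf_conj {X : Type*} [Group X] (d x : X) : orderOf (d * x * d⁻¹) = orderOf x := by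
  rw [← MulAut.conj_apply]
  exact orderOf_injective (MulAut.conj d).toMonoidHom (MulAut.conj d).injective x

open Classical in
/-- Burnside for a transitive action of `U` on `B / St` (the statement of piece T1C). -/
theorem tx_sum_fpc_transitive {B : Type*} [Group B] [Fintype B] (U St : Subgroup B)
    (h : ∀ b : B, ∃ u ∈ U, ∃ s ∈ St, b = u * s) :
    (∑ b : B, if b ∈ U then Cfsg.fixedPointCharacter St b else 0) = (Nat.card U : ℂ) := by
  have h1 : (∑ b : B, if b ∈ U then Cfsg.fixedPointCharacter St b else 0)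
      = ∑ u : ↥U, Cfsg.fixedPointCharacter St (u : B) := by
    rw [← Finset.sum_filter]
    exact Finset.sum_subtype (Finset.univ.filter (· ∈ U)) (by simp) _
  rw [h1]
  have hB := MulAction.sum_card_fixedBy_eq_card_orbits_mul_card_group ↥U (B ⧸ St)
  have htr : ∀ q : B ⧸ St, ∃ u : ↥U, u • (QuotientGroup.mk 1 : B ⧸ St) = q := by
    intro q
    obtain ⟨b, rfl⟩ := QuotientGroup.mk_surjective q
    obtain ⟨u, hu, s, hs, rfl⟩ := h b
    refine ⟨⟨u, hu⟩, ?_⟩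
    show ((u * 1 : B) : B ⧸ St) = ((u * s : B) : B ⧸ St)
    rw [QuotientGroup.eq]
    have e : (u * 1)⁻¹ * (u * s) = s := by group
    rw [e]
    exact hs
  have horb : Fintype.card (Quotient (MulAction.orbitRel ↥U (B ⧸ St))) = 1 := by
    rw [Fintype.card_eq_one_iff]
    refine ⟨Quotient.mk'' (QuotientGroup.mk 1 : B ⧸ St), fun y => ?_⟩
    induction y using Quotient.inductionOn' with
    | h q =>
      obtain ⟨u, hu⟩ := htr q
      apply Quotient.sound'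
      show q ∈ MulAction.orbit ↥U (QuotientGroup.mk 1 : B ⧸ St)
      exact ⟨u, hu⟩
  rw [horb, one_mul] at hB
  have h2 : (∑ u : ↥U, Cfsg.fixedPointCharacter St (u : B))
      = ((∑ u : ↥U, Fintype.card (MulAction.fixedBy (B ⧸ St) u) : ℕ) : ℂ) := by
    push_cast
    apply Finset.sum_congr rfl
    intro u _
    unfold Cfsg.fixedPointCharacter
    rw [← Nat.card_eq_fintype_card]
    rfl
  rw [h2, hB, Nat.card_eq_fintype_card]

open Classical in
/-- TX: in a finite group with a BN-pair and a "unipotent" subgroup `U` of `B` meeting the listed conditions,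
the Steinberg character summed over the p-elements is `|U|`. -/
theorem sub_sum {X : Type*} [Group X] [Fintype X] (Q : Cfsg.BNPair X) (r : ℕ) (σ : ℕ → X)
    (hS : Q.S = σ '' ((Finset.range r : Finset ℕ) : Set ℕ)) (p : ℕ) [Fact p.Prime]
    (U : Subgroup X) (hUB : U ≤ Q.B)
    (hUn : ∀ b ∈ Q.B, ∀ u ∈ U, b * u * b⁻¹ ∈ U)
    (hfac : ∀ b ∈ Q.B, ∃ u ∈ U, ∃ h ∈ Q.B ⊓ Q.N, b = u * h)
    (hUp : ∀ u ∈ U, ∃ k : ℕ, orderOf u = p ^ k)
    (hpB : ∀ b ∈ Q.B, (∃ k : ℕ, orderOf b = p ^ k) → b ∈ U)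
    (hSyl : ∀ x : X, (∃ k : ℕ, orderOf x = p ^ k) → ∃ c : X, c * x * c⁻¹ ∈ U)
    (hc : ∃ c : X, ∀ u ∈ U, c⁻¹ * u * c ∈ U → ∀ d : X, d * u * d⁻¹ ∈ U) :
    (∑ x : X, if (∃ k : ℕ, orderOf x = p ^ k) then stChar Q r σ x else 0) = (Nat.card U : ℂ) := by
  obtain ⟨c, hc⟩ := hc
  obtain ⟨n, hn, hcn⟩ := bruhat_exists Q c
  obtain ⟨b, hb, b', hb', rfl⟩ := (mem_DC Q).1 hcn
  -- (*) an element of `U` carried into `B` by `n` has all its conjugates in `U`
  have key : ∀ u ∈ U, n⁻¹ * u * n ∈ Q.B → ∀ d : X, d * u * d⁻¹ ∈ U := by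
    intro u hu hnu d
    have h1 : n⁻¹ * u * n ∈ U := by
      apply hpB _ hnu
      obtain ⟨k, hk⟩ := hUp u hu
      refine ⟨k, ?_⟩
      rw [← hk]
      have e : n⁻¹ * u * n = n⁻¹ * u * n⁻¹⁻¹ := by rw [inv_inv]
      rw [e]
      exact tx_orderOf_conj _ _
    have h2 : b * u * b⁻¹ ∈ U := hUn b hb u hu
    have h3 : (b * n * b')⁻¹ * (b * u * b⁻¹) * (b * n * b') ∈ U := by
      have e : (b * n * b')⁻¹ * (b * u * b⁻¹) * (b * n * b') = b'⁻¹ * (n⁻¹ * u * n) * b'⁻¹⁻¹ := by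
        group
      rw [e]
      exact hUn b'⁻¹ (Q.B.inv_mem hb') _ h1
    have h4 := hc (b * u * b⁻¹) h2 h3 (d * b⁻¹)
    have e : d * b⁻¹ * (b * u * b⁻¹) * (d * b⁻¹)⁻¹ = d * u * d⁻¹ := by group
    rw [e] at h4
    exact h4
  have hH : ∀ m ∈ Q.N, ∀ t ∈ Q.B ⊓ Q.N, m⁻¹ * t * m ∈ Q.B := by
    intro m hm t ht
    have := Q.conj_mem m⁻¹ (Q.N.inv_mem hm) t ht
    rwa [inv_inv] at this
  have hstab : ∀ β : ↥Q.B, β ∈ MulAction.stabilizer ↥Q.B ((n : X) : X ⧸ Q.B) →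
      ∃ u ∈ U, ∃ h ∈ Q.B ⊓ Q.N, (β : X) = u * h ∧ ∀ d : X, d * u * d⁻¹ ∈ U := by
    intro β hβ
    rw [mem_stabilizer_iff] at hβ
    obtain ⟨u, hu, h, hh, e⟩ := hfac β β.2
    refine ⟨u, hu, h, hh, e, key u hu ?_⟩
    have e2 : n⁻¹ * u * n = (n⁻¹ * (β : X) * n) * (n⁻¹ * h * n)⁻¹ := by
      rw [e]
      group
    rw [e2]
    exact Q.B.mul_mem hβ (Q.B.inv_mem (hH n hn h hh))
  have hlong : IsLong (SW Q) (PsW Q) (proj Q n) := by
    apply isLong_of_stabilizer_le Q hn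
    intro m hm β hβ
    obtain ⟨u, hu, h, hh, e, hd⟩ := hstab β hβ
    rw [mem_stabilizer_iff, e]
    have e2 : m⁻¹ * (u * h) * m = (m⁻¹ * u * m⁻¹⁻¹) * (m⁻¹ * h * m) := by group
    rw [e2]
    exact Q.B.mul_mem (hUB (hd m⁻¹)) (hH m hm h hh)
  have hval : ∀ β : ↥Q.B, stChar Q r σ (β : X) =
      Cfsg.fixedPointCharacter (MulAction.stabilizer ↥Q.B ((n : X) : X ⧸ Q.B)) β :=
    fun β => stChar_apply_B Q r σ hS hn hlong β
  -- vanishing outside `U`
  have hvan : ∀ x : X, (∃ k : ℕ, orderOf x = p ^ k) → x ∉ U → stChar Q r σ x = 0 := by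
    intro x hx hxU
    obtain ⟨c', hc'⟩ := hSyl x hx
    have hcf := stChar_isClassFunction Q r σ x c'
    rw [← hcf, hval ⟨c' * x * c'⁻¹, hUB hc'⟩]
    by_contra hne
    have hnon : Nonempty (MulAction.fixedBy (↥Q.B ⧸ MulAction.stabilizer ↥Q.B ((n : X) : X ⧸ Q.B))
        (⟨c' * x * c'⁻¹, hUB hc'⟩ : ↥Q.B)) := by
      by_contra hemp
      rw [not_nonempty_iff] at hemp
      apply hne
      unfold Cfsg.fixedPointCharacter
      rw [Nat.card_of_isEmpty]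
      simp
    obtain ⟨⟨q, hq⟩⟩ := hnon
    obtain ⟨β, rfl⟩ := QuotientGroup.mk_surjective q
    rw [MulAction.mem_fixedBy] at hq
    have hq' : β⁻¹ * (⟨c' * x * c'⁻¹, hUB hc'⟩ : ↥Q.B) * β ∈
        MulAction.stabilizer ↥Q.B ((n : X) : X ⧸ Q.B) := by
      have e : (⟨c' * x * c'⁻¹, hUB hc'⟩ : ↥Q.B) •
          ((β : ↥Q.B) : ↥Q.B ⧸ MulAction.stabilizer ↥Q.B ((n : X) : X ⧸ Q.B))
          = (((⟨c' * x * c'⁻¹, hUB hc'⟩ : ↥Q.B) * β : ↥Q.B) :
            ↥Q.B ⧸ MulAction.stabilizer ↥Q.B ((n : X) : X ⧸ Q.B)) := rfl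
      rw [e, eq_comm, QuotientGroup.eq] at hq
      have e2 : β⁻¹ * (⟨c' * x * c'⁻¹, hUB hc'⟩ : ↥Q.B) * β
          = β⁻¹ * ((⟨c' * x * c'⁻¹, hUB hc'⟩ : ↥Q.B) * β) := by group
      rw [e2]
      exact hq
    rw [mem_stabilizer_iff] at hq'
    have hu'' : ((β : X))⁻¹ * (c' * x * c'⁻¹) * (β : X) ∈ U := by
      have := hUn ((β : X))⁻¹ (Q.B.inv_mem β.2) _ hc'
      rwa [inv_inv] at this
    have h5 := key _ hu'' (by
      have e3 : ((β⁻¹ * (⟨c' * x * c'⁻¹, hUB hc'⟩ : ↥Q.B) * β : ↥Q.B) : X)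
          = ((β : X))⁻¹ * (c' * x * c'⁻¹) * (β : X) := rfl
      rw [← e3]
      exact hq') (c'⁻¹ * (β : X))
    have e4 : c'⁻¹ * (β : X) * (((β : X))⁻¹ * (c' * x * c'⁻¹) * (β : X)) * (c'⁻¹ * (β : X))⁻¹ = x := by
      group
    rw [e4] at h5
    exact hxU h5
  -- the sum over the `p`-elements is the sum over `U`
  have hs1 : (∑ x : X, if (∃ k : ℕ, orderOf x = p ^ k) then stChar Q r σ x else 0)
      = ∑ x : X, if x ∈ U then stChar Q r σ x else 0 := by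
    apply Finset.sum_congr rfl
    intro x _
    by_cases hxU : x ∈ U
    · rw [if_pos (hUp x hxU), if_pos hxU]
    · rw [if_neg hxU]
      by_cases hx : ∃ k : ℕ, orderOf x = p ^ k
      · rw [if_pos hx]
        exact hvan x hx hxU
      · rw [if_neg hx]
  -- restrict the sum to `B`
  have hs2 : (∑ x : X, if x ∈ U then stChar Q r σ x else 0)
      = ∑ β : ↥Q.B, if β ∈ U.subgroupOf Q.B then
          Cfsg.fixedPointCharacter (MulAction.stabilizer ↥Q.B ((n : X) : X ⧸ Q.B)) β else 0 := by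
    have h6 : (∑ x : X, if x ∈ U then stChar Q r σ x else 0)
        = ∑ x ∈ Finset.univ.filter (· ∈ Q.B), if x ∈ U then stChar Q r σ x else 0 := by
      symm
      apply Finset.sum_filter_of_ne
      intro x _ hx
      by_contra hxB
      apply hx
      rw [if_neg (fun hxU => hxB (hUB hxU))]
    rw [h6, Finset.sum_subtype (Finset.univ.filter (· ∈ Q.B)) (p := (· ∈ Q.B)) (by simp)]
    apply Finset.sum_congr rfl
    intro β _
    by_cases hβ : (β : X) ∈ U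
    · rw [if_pos hβ, if_pos (Subgroup.mem_subgroupOf.mpr hβ)]
      exact hval β
    · rw [if_neg hβ, if_neg (fun h => hβ (Subgroup.mem_subgroupOf.mp h))]
  rw [hs1, hs2, tx_sum_fpc_transitive (U.subgroupOf Q.B)
    (MulAction.stabilizer ↥Q.B ((n : X) : X ⧸ Q.B))]
  · congr 1
    exact Nat.card_congr (Subgroup.subgroupOfEquivOfLe hUB).toEquiv
  · intro β
    obtain ⟨u, hu, h, hh, e⟩ := hfac β β.2
    refine ⟨⟨u, hUB hu⟩, Subgroup.mem_subgroupOf.mpr hu, ⟨h, hh.1⟩, ?_, Subtype.ext e⟩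
    rw [mem_stabilizer_iff]
    exact hH n hn h hh

end Cfsg.Agent.Helper45.UCTX
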