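import Mathlib
import Cfsg.Agent.Helper40.BNStD
import Cfsg.Agent.Helper61.UCSUBBN
import Cfsg.Agent.Helper37.UCT1A
import Cfsg.Agent.Helper35.UCMOB
import Cfsg.Agent.Helper45.UCTX
import Cfsg.Agent.Helper67.UCREIDX

/-!
# CALL S2314 (helper40): the abstract count (assembly of SUBBN, REIDX, TX, T1A, MOB)

In a finite group with a BN-pair and a "unipotent" subgroup `U` such that, for every standard parabolic
`P_J`, some `P_J`-conjugate of `U` meets `U` in a subgroup all of whose `P_J`-conjugates lie in `U`, the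
number of `p`-elements is `|U| * St(1)`.
-/

set_option autoImplicit false

namespace Cfsg.Agent.Helper45.UCABS

open Cfsg.Agent.Helper6 Cfsg.Agent.Helper40.BNSt

theorem abs_fpc_one {G : Type*} [Group G] (H : Subgroup G) :
    Cfsg.fixedPointCharacter H 1 = (H.index : ℂ) := by
  unfold Cfsg.fixedPointCharacter
  rw [MulAction.fixedBy_one_eq_univ, Subgroup.index]
  congr 1
  exact Nat.card_congr (Equiv.Set.univ _)

theorem abs_index_cast {G : Type*} [Group G] [Finite G] (H : Subgroup G) :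
    (H.index : ℂ) = (Nat.card G : ℂ) / (Nat.card H : ℂ) := by
  have h := Subgroup.card_mul_index H
  have h0 : (Nat.card H : ℂ) ≠ 0 := by
    exact_mod_cast Nat.card_pos.ne'
  rw [eq_div_iff h0, ← h]
  push_cast
  ring

theorem abs_relindex_cast {G : Type*} [Group G] [Finite G] (H T : Subgroup G) (hle : H ≤ T) :
    ((H.subgroupOf T).index : ℂ) = (Nat.card T : ℂ) / (Nat.card H : ℂ) := by
  rw [abs_index_cast (H.subgroupOf T)]
  congr 2
  exact_mod_cast Nat.card_congr (Subgroup.subgroupOfEquivOfLe hle).toEquiv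

theorem abs_pelts_card {G : Type*} [Group G] (p : ℕ) (H T : Subgroup G) (hle : H ≤ T) :
    Nat.card {h : ↥T // h ∈ H.subgroupOf T ∧ ∃ k : ℕ, orderOf h = p ^ k}
      = Nat.card {g : G // g ∈ H ∧ ∃ k : ℕ, orderOf g = p ^ k} := by
  refine Nat.card_congr
    { toFun := fun h => ⟨(h.1 : G), Subgroup.mem_subgroupOf.mp h.2.1, by
        obtain ⟨k, hk⟩ := h.2.2
        exact ⟨k, by rw [Subgroup.orderOf_coe]; exact hk⟩⟩
      invFun := fun g => ⟨⟨g.1, hle g.2.1⟩, Subgroup.mem_subgroupOf.mpr g.2.1, by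
        obtain ⟨k, hk⟩ := g.2.2
        exact ⟨k, by rw [← Subgroup.orderOf_coe]; exact hk⟩⟩
      left_inv := fun h => rfl
      right_inv := fun g => rfl }

theorem abs_parabolic_mono {G : Type*} [Group G] (P : Cfsg.BNPair G) (σ : ℕ → G) {K J : Finset ℕ}
    (h : K ⊆ J) : P.parabolic (σ '' (K : Set ℕ)) ≤ P.parabolic (σ '' (J : Set ℕ)) := by
  unfold Cfsg.BNPair.parabolic
  exact sup_le_sup_left (Subgroup.closure_mono (Set.image_mono (by exact_mod_cast h))) _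

open Classical in
/-- the identity for one parabolic -/
theorem abs_identity {G : Type*} [Group G] [Fintype G] (P : Cfsg.BNPair G) (r : ℕ) (σ : ℕ → G)
    (hS : P.S = σ '' ((Finset.range r : Finset ℕ) : Set ℕ)) (p : ℕ) [Fact p.Prime]
    (U : Subgroup G) (hUB : U ≤ P.B)
    (hUn : ∀ b ∈ P.B, ∀ u ∈ U, b * u * b⁻¹ ∈ U)
    (hfac : ∀ b ∈ P.B, ∃ u ∈ U, ∃ h ∈ P.B ⊓ P.N, b = u * h)
    (hUp : ∀ u ∈ U, ∃ k : ℕ, orderOf u = p ^ k)
    (hpB : ∀ b ∈ P.B, (∃ k : ℕ, orderOf b = p ^ k) → b ∈ U)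
    (J : Finset ℕ) (hJ : J ⊆ Finset.range r)
    (hSyl : ∀ x ∈ P.parabolic (σ '' (J : Set ℕ)), (∃ k : ℕ, orderOf x = p ^ k) →
      ∃ c ∈ P.parabolic (σ '' (J : Set ℕ)), c * x * c⁻¹ ∈ U)
    (hc : ∃ c ∈ P.parabolic (σ '' (J : Set ℕ)), ∀ u ∈ U, c⁻¹ * u * c ∈ U →
      ∀ d ∈ P.parabolic (σ '' (J : Set ℕ)), d * u * d⁻¹ ∈ U) :
    ∑ K ∈ J.powerset, (-1 : ℂ) ^ K.card *
        ((Nat.card {g : G // g ∈ P.parabolic (σ '' (K : Set ℕ)) ∧ ∃ k : ℕ, orderOf g = p ^ k} : ℂ) /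
          (Nat.card ↥(P.parabolic (σ '' (K : Set ℕ))) : ℂ))
      = (Nat.card U : ℂ) / (Nat.card ↥(P.parabolic (σ '' (J : Set ℕ))) : ℂ) := by
  have hJS : σ '' (J : Set ℕ) ⊆ P.S := by
    rw [hS]
    exact Set.image_mono (by exact_mod_cast hJ)
  obtain ⟨Q, hQB, hQN, hQS⟩ := Cfsg.Agent.Helper61.UCSUBBN.subBN_exists P (σ '' (J : Set ℕ)) hJS
  obtain ⟨r', σ', hS', hst⟩ := Cfsg.Agent.Helper67.UCREIDX.reidx P σ J Q hQB hQS
  have hBle : P.B ≤ P.parabolic (σ '' (J : Set ℕ)) := le_sup_left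
  have hUle : U ≤ P.parabolic (σ '' (J : Set ℕ)) := hUB.trans hBle
  have hmain := Cfsg.Agent.Helper45.UCTX.sub_sum Q r' σ' hS' p
    (U.subgroupOf (P.parabolic (σ '' (J : Set ℕ))))
    (by
      intro x hx
      rw [hQB, Subgroup.mem_subgroupOf]
      exact hUB (Subgroup.mem_subgroupOf.mp hx))
    (by
      intro b hb u hu
      rw [hQB, Subgroup.mem_subgroupOf] at hb
      rw [Subgroup.mem_subgroupOf] at hu ⊢
      exact hUn _ hb _ hu)
    (by
      intro b hb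
      rw [hQB, Subgroup.mem_subgroupOf] at hb
      obtain ⟨u, hu, h, hh, e⟩ := hfac _ hb
      refine ⟨⟨u, hUle hu⟩, Subgroup.mem_subgroupOf.mpr hu, ⟨h, hBle hh.1⟩, ?_, Subtype.ext e⟩
      rw [hQB, hQN]
      exact ⟨Subgroup.mem_subgroupOf.mpr hh.1, Subgroup.mem_subgroupOf.mpr (le_sup_right (a := Subgroup.closure (σ '' (J : Set ℕ))) hh)⟩)
    (by
      intro u hu
      obtain ⟨k, hk⟩ := hUp _ (Subgroup.mem_subgroupOf.mp hu)
      exact ⟨k, by rw [← Subgroup.orderOf_coe]; exact hk⟩)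
    (by
      intro b hb hpb
      rw [hQB, Subgroup.mem_subgroupOf] at hb
      rw [Subgroup.mem_subgroupOf]
      obtain ⟨k, hk⟩ := hpb
      exact hpB _ hb ⟨k, by rw [Subgroup.orderOf_coe]; exact hk⟩)
    (by
      intro x hx
      obtain ⟨k, hk⟩ := hx
      obtain ⟨c, hcP, hcU⟩ := hSyl x x.2 ⟨k, by rw [Subgroup.orderOf_coe]; exact hk⟩
      exact ⟨⟨c, hcP⟩, Subgroup.mem_subgroupOf.mpr hcU⟩)
    (by
      obtain ⟨c, hcP, hcc⟩ := hc
      refine ⟨⟨c, hcP⟩, ?_⟩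
      intro u hu hcu d
      rw [Subgroup.mem_subgroupOf] at hu hcu ⊢
      exact hcc _ hu hcu _ d.2)
  -- expand the Steinberg character
  have hexp : (∑ x : ↥(P.parabolic (σ '' (J : Set ℕ))),
        if (∃ k : ℕ, orderOf x = p ^ k) then stChar Q r' σ' x else 0)
      = ∑ K ∈ J.powerset, (-1 : ℂ) ^ K.card *
          (((Nat.card ↥(P.parabolic (σ '' (J : Set ℕ))) : ℂ) /
              (Nat.card ↥(P.parabolic (σ '' (K : Set ℕ))) : ℂ)) *
            (Nat.card {g : G // g ∈ P.parabolic (σ '' (K : Set ℕ)) ∧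
              ∃ k : ℕ, orderOf g = p ^ k} : ℂ)) := by
    have h1 : ∀ x : ↥(P.parabolic (σ '' (J : Set ℕ))),
        (if (∃ k : ℕ, orderOf x = p ^ k) then stChar Q r' σ' x else 0)
        = ∑ K ∈ J.powerset, (-1 : ℂ) ^ K.card *
            (if (∃ k : ℕ, orderOf x = p ^ k) then Cfsg.fixedPointCharacter
              ((P.parabolic (σ '' (K : Set ℕ))).subgroupOf (P.parabolic (σ '' (J : Set ℕ)))) x
              else 0) := by
      intro x
      by_cases hx : ∃ k : ℕ, orderOf x = p ^ k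
      · simp only [if_pos hx]
        exact hst x
      · simp only [if_neg hx, mul_zero, Finset.sum_const_zero]
    rw [Finset.sum_congr rfl (fun x _ => h1 x), Finset.sum_comm]
    apply Finset.sum_congr rfl
    intro K hK
    rw [Finset.mem_powerset] at hK
    rw [← Finset.mul_sum, Cfsg.Agent.Helper37.UCT1A.sum_fpc_pelts,
      abs_relindex_cast _ _ (abs_parabolic_mono P σ hK),
      abs_pelts_card p _ _ (abs_parabolic_mono P σ hK)]
  rw [hexp] at hmain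
  have hcardU : (Nat.card ↥(U.subgroupOf (P.parabolic (σ '' (J : Set ℕ)))) : ℂ) = (Nat.card U : ℂ) := by
    exact_mod_cast Nat.card_congr (Subgroup.subgroupOfEquivOfLe hUle).toEquiv
  rw [hcardU] at hmain
  have h0 : (Nat.card ↥(P.parabolic (σ '' (J : Set ℕ))) : ℂ) ≠ 0 := by
    exact_mod_cast Nat.card_pos.ne'
  rw [eq_div_iff h0, ← hmain, Finset.sum_mul]
  apply Finset.sum_congr rfl
  intro K _
  have h0K : (Nat.card ↥(P.parabolic (σ '' (K : Set ℕ))) : ℂ) ≠ 0 := by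
    exact_mod_cast Nat.card_pos.ne'
  field_simp

open Classical in
/-- **The abstract count of `p`-elements.** -/
theorem count_abs {G : Type*} [Group G] [Fintype G] (P : Cfsg.BNPair G) (r : ℕ) (σ : ℕ → G)
    (hS : P.S = σ '' ((Finset.range r : Finset ℕ) : Set ℕ)) (p : ℕ) [Fact p.Prime]
    (U : Subgroup G) (hUB : U ≤ P.B)
    (hUn : ∀ b ∈ P.B, ∀ u ∈ U, b * u * b⁻¹ ∈ U)
    (hfac : ∀ b ∈ P.B, ∃ u ∈ U, ∃ h ∈ P.B ⊓ P.N, b = u * h)
    (hUp : ∀ u ∈ U, ∃ k : ℕ, orderOf u = p ^ k)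
    (hpB : ∀ b ∈ P.B, (∃ k : ℕ, orderOf b = p ^ k) → b ∈ U)
    (hSyl : ∀ J ⊆ Finset.range r, ∀ x ∈ P.parabolic (σ '' (J : Set ℕ)),
      (∃ k : ℕ, orderOf x = p ^ k) → ∃ c ∈ P.parabolic (σ '' (J : Set ℕ)), c * x * c⁻¹ ∈ U)
    (hc : ∀ J ⊆ Finset.range r, ∃ c ∈ P.parabolic (σ '' (J : Set ℕ)), ∀ u ∈ U, c⁻¹ * u * c ∈ U →
      ∀ d ∈ P.parabolic (σ '' (J : Set ℕ)), d * u * d⁻¹ ∈ U)
    (htop : stChar P r σ 1 = (Nat.card U : ℂ)) :
    Nat.card {g : G // ∃ k : ℕ, orderOf g = p ^ k} = Nat.card U ^ 2 := by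
  have hM := Cfsg.Agent.Helper35.UCMOB.mobius_top r
    (fun K => (-1 : ℂ) ^ K.card *
      ((Nat.card {g : G // g ∈ P.parabolic (σ '' (K : Set ℕ)) ∧ ∃ k : ℕ, orderOf g = p ^ k} : ℂ) /
        (Nat.card ↥(P.parabolic (σ '' (K : Set ℕ))) : ℂ)))
    (fun J => (Nat.card U : ℂ) / (Nat.card ↥(P.parabolic (σ '' (J : Set ℕ))) : ℂ))
    (fun J hJ => abs_identity P r σ hS p U hUB hUn hfac hUp hpB J (Finset.mem_powerset.mp hJ)
      (hSyl J (Finset.mem_powerset.mp hJ)) (hc J (Finset.mem_powerset.mp hJ)))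
  beta_reduce at hM
  have htopP : P.parabolic (σ '' ((Finset.range r : Finset ℕ) : Set ℕ)) = ⊤ := by
    rw [← hS]
    exact parabolic_S P
  have hN : Nat.card {g : G // g ∈ P.parabolic (σ '' ((Finset.range r : Finset ℕ) : Set ℕ)) ∧
      ∃ k : ℕ, orderOf g = p ^ k} = Nat.card {g : G // ∃ k : ℕ, orderOf g = p ^ k} := by
    refine Nat.card_congr
      { toFun := fun g => ⟨g.1, g.2.2⟩
        invFun := fun g => ⟨g.1, by rw [htopP]; exact Subgroup.mem_top _, g.2⟩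
        left_inv := fun g => rfl
        right_inv := fun g => rfl }
  have hG : (Nat.card ↥(P.parabolic (σ '' ((Finset.range r : Finset ℕ) : Set ℕ))) : ℂ)
      = (Nat.card G : ℂ) := by
    rw [htopP]
    exact_mod_cast Nat.card_congr (Subgroup.topEquiv (G := G)).toEquiv
  rw [hN, hG, Finset.card_range] at hM
  have hG0 : (Nat.card G : ℂ) ≠ 0 := by
    exact_mod_cast Nat.card_pos.ne'
  -- the right-hand side is `(-1)^r * |U| * St(1) / |G|`
  have hR : ∑ K ∈ (Finset.range r).powerset, (-1 : ℂ) ^ (r - K.card) *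
        ((Nat.card U : ℂ) / (Nat.card ↥(P.parabolic (σ '' (K : Set ℕ))) : ℂ))
      = (-1 : ℂ) ^ r * (Nat.card U : ℂ) * stChar P r σ 1 / (Nat.card G : ℂ) := by
    unfold stChar
    rw [Finset.mul_sum, Finset.sum_div]
    apply Finset.sum_congr rfl
    intro K hK
    rw [Finset.mem_powerset] at hK
    have hKr : K.card ≤ r := by
      have := Finset.card_le_card hK
      rwa [Finset.card_range] at this
    have h0K : (Nat.card ↥(P.parabolic (σ '' (K : Set ℕ))) : ℂ) ≠ 0 := by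
      exact_mod_cast Nat.card_pos.ne'
    rw [abs_fpc_one, abs_index_cast]
    have hsign : (-1 : ℂ) ^ (r - K.card) = (-1 : ℂ) ^ r * (-1 : ℂ) ^ K.card := by
      have h1 : (-1 : ℂ) ^ r = (-1 : ℂ) ^ (r - K.card) * (-1 : ℂ) ^ K.card := by
        rw [← pow_add, Nat.sub_add_cancel hKr]
      rw [h1, mul_assoc, ← pow_add, ← two_mul, pow_mul]
      simp
    rw [hsign]
    field_simp
  rw [hR, htop] at hM
  have hfin : (Nat.card {g : G // ∃ k : ℕ, orderOf g = p ^ k} : ℂ) = ((Nat.card U ^ 2 : ℕ) : ℂ) := by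
    have hr2 : (-1 : ℂ) ^ r * (-1 : ℂ) ^ r = 1 := by
      rw [← pow_add, ← two_mul, pow_mul]
      simp
    have h3 : (Nat.card {g : G // ∃ k : ℕ, orderOf g = p ^ k} : ℂ)
        = (-1 : ℂ) ^ r * ((-1 : ℂ) ^ r * ((Nat.card {g : G // ∃ k : ℕ, orderOf g = p ^ k} : ℂ) /
            (Nat.card G : ℂ))) * (Nat.card G : ℂ) := by
      rw [← mul_assoc, hr2, one_mul, div_mul_cancel₀ _ hG0]
    rw [h3, hM]
    push_cast
    field_simp
    rw [sq, hr2]
  exact_mod_cast hfin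

end Cfsg.Agent.Helper45.UCABS
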