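/-
CALL S2314 (helper40): transport of the abstract count `Helper45.UCABS.count_abs` to the
Chevalley groups of the list (double of the final assembly).
-/
import Mathlib
import Cfsg.Agent.Helper40.BNStE
import Cfsg.Agent.Helper45.UCABS
import Cfsg.Agent.Helper59.UCCV6
import Cfsg.Agent.Helper67.UCCV5
import Cfsg.Agent.S1048
import Cfsg.Agent.S1027
import Cfsg.Agent.S2326
import Cfsg.Agent.S1042

set_option autoImplicit false

namespace Cfsg.Agent.Helper45.UCCHEV

open Cfsg Cfsg.Lie Cfsg.Agent.Helper6 Cfsg.Agent.Helper36 Cfsg.Agent.Helper40.BNSt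

/-- The number of `p`-elements of a Chevalley group of the list is `q ^ (2 N)`. -/
theorem s2314_chev {F : Type*} [Field F] [Fintype F] (p : ℕ) [Fact p.Prime] [CharP F p]
    (D : Cfsg.Lie.ChevalleyDatum)
    (hD : D ∈ [Cfsg.Lie.chevG2, Cfsg.Lie.chevB2, Cfsg.Lie.chevD4, Cfsg.Lie.chevF4,
      Cfsg.Lie.chevE6, Cfsg.Lie.chevE7, Cfsg.Lie.chevE8]) :
    Nat.card {g : ↥(D.group F) // ∃ k : ℕ, orderOf g = p ^ k} =
      Fintype.card F ^ (2 * (D.nroots / 2)) := by
  classical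
  have R := Cfsg.Agent.Helper36.bRel_of_mem (F := F) hD
  obtain ⟨P, hB, hN, hS⟩ := Cfsg.Agent.S1042.result (F := F) D hD
  have hSσ := S_eq_image R P hS
  obtain ⟨Syl, hSylU⟩ := Cfsg.Agent.S2326.result (F := F) p D hD
  have : Fintype ↥(D.group F) := Fintype.ofFinite _
  obtain ⟨U, hUdef⟩ : ∃ U : Subgroup ↥(D.group F),
      U = (D.posUnipotent F).subgroupOf (D.group F) := ⟨_, rfl⟩
  have hUmem : ∀ x : ↥(D.group F), x ∈ U ↔ (x : GL D.Idx F) ∈ D.posUnipotent F := by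
    intro x
    rw [hUdef, Subgroup.mem_subgroupOf]
  have hBG : D.borelSubgroup F ≤ D.group F := Cfsg.Agent.Helper18.borelSubgroup_le_group D hD
  have hUB' : D.posUnipotent F ≤ D.borelSubgroup F := BRel.U_le_B D F
  have hUG : D.posUnipotent F ≤ D.group F := hUB'.trans hBG
  have hHG : D.diagonalSubgroup F ≤ D.group F := (BRel.H_le_B D F).trans hBG
  have hHN : D.diagonalSubgroup F ≤ D.monomialSubgroup F := by
    unfold ChevalleyDatum.monomialSubgroup
    exact le_sup_left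
  have hPG : ∀ J : Set ℕ, D.parabolicSubgroup F J ≤ D.group F := by
    intro J
    refine sup_le hBG ?_
    rw [Subgroup.closure_le]
    rintro g ⟨j, -, -, hg⟩
    exact Cfsg.Agent.Helper18.wordMat_mem_group D hD _ g hg
  have hUJ : ∀ J : Set ℕ, D.unipotentRadical F J ≤ D.posUnipotent F := by
    intro J
    unfold ChevalleyDatum.unipotentRadical ChevalleyDatum.posUnipotent
    apply Subgroup.closure_mono
    rintro g ⟨r, t, hr, -, hg⟩
    exact ⟨r, t, hr, hg⟩
  have hcardU : Nat.card U = Fintype.card F ^ (D.nroots / 2) := by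
    rw [← Cfsg.Agent.S1027.result (F := F) D hD, hUdef]
    exact Nat.card_congr (Subgroup.subgroupOfEquivOfLe hUG).toEquiv
  have hUpg : IsPGroup p U := by
    rw [hUdef, ← hSylU]
    exact Syl.isPGroup'
  have hBnorm : D.borelSubgroup F ≤
      Subgroup.normalizer (D.posUnipotent F : Set (GL D.Idx F)) :=
    sup_le Subgroup.le_normalizer R.hU
  have hBU : ∀ b : ↥(D.group F), b ∈ P.B → ∀ u : ↥(D.group F), u ∈ U ↔ b * u * b⁻¹ ∈ U := by
    intro b hb u
    rw [mem_B_coe P hB] at hb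
    rw [hUmem, hUmem]
    exact Subgroup.mem_normalizer_iff.mp (hBnorm hb) (u : GL D.Idx F)
  have key := Cfsg.Agent.Helper45.UCABS.count_abs P D.rank (sigmaN R) hSσ p U
    ?hUB ?hUn ?hfac ?hUp ?hpB ?hSyl ?hc ?htop
  · rw [key, hcardU, ← pow_mul, mul_comm]
  case hUB =>
    intro x hx
    rw [mem_B_coe P hB]
    exact hUB' ((hUmem x).1 hx)
  case hUn =>
    intro b hb u hu
    exact (hBU b hb u).1 hu
  case hfac =>
    intro b hb
    rw [mem_B_coe P hB] at hb
    obtain ⟨u, hu, h, hh, e⟩ := exists_uh R hb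
    refine ⟨⟨u, hUG hu⟩, (hUmem _).2 hu, ⟨h, hHG hh⟩, ?_, Subtype.ext e⟩
    exact Subgroup.mem_inf.2 ⟨(mem_B_coe P hB _).2 (BRel.H_le_B D F hh),
      (mem_N_coe P hN _).2 (hHN hh)⟩
  case hUp =>
    intro u hu
    obtain ⟨k, hk⟩ := (IsPGroup.iff_orderOf.1 hUpg) ⟨u, hu⟩
    exact ⟨k, (Subgroup.orderOf_coe (⟨u, hu⟩ : U)).trans hk⟩
  case hpB =>
    rintro b hb ⟨k, hk⟩
    have hbn : Subgroup.zpowers b ≤ Subgroup.normalizer (U : Set ↥(D.group F)) := by
      rw [Subgroup.zpowers_le, Subgroup.mem_normalizer_iff]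
      exact hBU b hb
    have hbp : IsPGroup p (Subgroup.zpowers b) := by
      apply IsPGroup.of_card (n := k)
      rw [Nat.card_zpowers, hk]
    have hsup : IsPGroup p (Subgroup.zpowers b ⊔ U : Subgroup ↥(D.group F)) :=
      IsPGroup.to_sup_of_normal_right' hbp hUpg hbn
    have hmax := Syl.is_maximal' hsup (by rw [hSylU, ← hUdef]; exact le_sup_right)
    have hbU : b ∈ (Subgroup.zpowers b ⊔ U : Subgroup ↥(D.group F)) :=
      Subgroup.mem_sup_left (Subgroup.mem_zpowers b)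
    rw [hmax, hSylU, ← hUdef] at hbU
    exact hbU
  case hSyl =>
    rintro J hJ x hx ⟨k, hk⟩
    rw [← parabolicIn_eq R P hB hJ] at hx ⊢
    have hx' : (x : GL D.Idx F) ∈ D.parabolicSubgroup F (↑J : Set ℕ) :=
      Subgroup.mem_subgroupOf.1 hx
    obtain ⟨c, hc, hcx⟩ := Cfsg.Agent.Helper59.UCCV6.sylow_in_parabolic (F := F) p hD
      (↑J : Set ℕ) (Subgroup.zpowers (x : GL D.Idx F))
      (by rw [Subgroup.zpowers_le]; exact hx')
      (IsPGroup.of_card (n := k) (by rw [Nat.card_zpowers, Subgroup.orderOf_coe, hk]))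
    have hc' : c⁻¹ ∈ D.parabolicSubgroup F (↑J : Set ℕ) := inv_mem hc
    refine ⟨⟨c⁻¹, hPG _ hc'⟩, Subgroup.mem_subgroupOf.2 hc', (hUmem _).2 ?_⟩
    have h1 := hcx (x : GL D.Idx F) (Subgroup.mem_zpowers _)
    show c⁻¹ * (x : GL D.Idx F) * (c⁻¹)⁻¹ ∈ D.posUnipotent F
    rw [inv_inv]
    exact h1
  case hc =>
    intro J hJ
    rw [← parabolicIn_eq R P hB hJ]
    obtain ⟨c, hc, hcu⟩ := Cfsg.Agent.Helper67.UCCV5.exists_conj_inter (F := F) p hD
      (↑J : Set ℕ)
    refine ⟨⟨c, hPG _ hc⟩, Subgroup.mem_subgroupOf.2 hc, ?_⟩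
    intro u hu hcu' d hd
    have hu1 : (u : GL D.Idx F) ∈ D.unipotentRadical F (↑J : Set ℕ) :=
      hcu (u : GL D.Idx F) ((hUmem u).1 hu) ((hUmem _).1 hcu')
    have h48 := (Cfsg.Agent.S1048.result (F := F) D hD (↑J : Set ℕ)).1
    have hd' : (d : GL D.Idx F) ∈ D.parabolicSubgroup F (↑J : Set ℕ) :=
      Subgroup.mem_subgroupOf.1 hd
    have h2 := (Subgroup.mem_normalizer_iff.mp (h48 hd') (u : GL D.Idx F)).mp hu1
    exact (hUmem _).2 (hUJ _ h2)
  case htop =>
    rw [← steinberg_eq_stChar R P hB, chev_steinberg_degree hD, hcardU]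
    push_cast
    rfl

end Cfsg.Agent.Helper45.UCCHEV
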